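import Mathlib
import Cfsg.Prelude.Def_GeometricClasses

/-!
# Aschbacher's theorem: basic vocabulary

`G`-invariant subspaces, conjugation on the matrix algebra, centralisers of subgroups of `GL ι F`.
-/

set_option autoImplicit false

namespace Cfsg.Agent.Lib.Classical.Asch.Basic

open scoped MatrixGroups Matrix
open Cfsg.Geo

variable {ι : Type} [Fintype ι] [DecidableEq ι] {F : Type*} [Field F]

/-- A subspace invariant under every element of `G`. -/
def Inv (G : Subgroup (GL ι F)) (W : Submodule F (ι → F)) : Prop :=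
  ∀ g ∈ G, ∀ v ∈ W, (g : Matrix ι ι F) *ᵥ v ∈ W

theorem inv_mulVec_mulVec (g : GL ι F) (x : ι → F) :
    ((g⁻¹ : GL ι F) : Matrix ι ι F) *ᵥ ((g : Matrix ι ι F) *ᵥ x) = x := by
  rw [Matrix.mulVec_mulVec, ← Units.val_mul, inv_mul_cancel, Units.val_one, Matrix.one_mulVec]

theorem mulVec_inv_mulVec (g : GL ι F) (x : ι → F) :
    (g : Matrix ι ι F) *ᵥ (((g⁻¹ : GL ι F) : Matrix ι ι F) *ᵥ x) = x := by
  rw [Matrix.mulVec_mulVec, ← Units.val_mul, mul_inv_cancel, Units.val_one, Matrix.one_mulVec]

theorem mulVec_injective (g : GL ι F) : Function.Injective (fun x : ι → F => (g : Matrix ι ι F) *ᵥ x) := by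
  intro x y h
  have := congrArg (fun v => ((g⁻¹ : GL ι F) : Matrix ι ι F) *ᵥ v) h
  simpa only [inv_mulVec_mulVec] using this

/-- Irreducibility in terms of invariant subspaces. -/
theorem actsIrreducibly_iff {G : Subgroup (GL ι F)} :
    ActsIrreducibly (matrixSet G) ↔ ∀ W : Submodule F (ι → F), Inv G W → W = ⊥ ∨ W = ⊤ := by
  constructor
  · intro h W hW
    apply h W
    rintro _ ⟨g, hg, rfl⟩
    rintro _ ⟨v, hv, rfl⟩
    exact hW g hg v hv
  · intro h W hW
    apply h W
    intro g hg v hv
    exact hW _ ⟨g, hg, rfl⟩ ⟨v, hv, rfl⟩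

/-- An invariant subspace lies in the stabiliser. -/
theorem le_subspaceStabilizer {G : Subgroup (GL ι F)} {W : Submodule F (ι → F)} (h : Inv G W) :
    G ≤ subspaceStabilizer W := by
  intro g hg v
  constructor
  · exact h g hg v
  · intro hv
    have hv' : (g : Matrix ι ι F) *ᵥ v ∈ W := hv
    have := h g⁻¹ (inv_mem hg) _ hv'
    rwa [inv_mulVec_mulVec] at this

/-- Conjugation on the matrix algebra by `g`. -/
def conj (g : GL ι F) (x : Matrix ι ι F) : Matrix ι ι F :=
  (g : Matrix ι ι F) * x * ((g⁻¹ : GL ι F) : Matrix ι ι F)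

theorem conj_mul (g : GL ι F) (x y : Matrix ι ι F) : conj g (x * y) = conj g x * conj g y := by
  unfold conj
  have h : ((g⁻¹ : GL ι F) : Matrix ι ι F) * (g : Matrix ι ι F) = 1 := by
    rw [← Units.val_mul, inv_mul_cancel, Units.val_one]
  calc (g : Matrix ι ι F) * (x * y) * ((g⁻¹ : GL ι F) : Matrix ι ι F)
      = (g : Matrix ι ι F) * x * 1 * y * ((g⁻¹ : GL ι F) : Matrix ι ι F) := by
        simp [mul_assoc]
    _ = _ := by
        rw [← h]
        simp only [mul_assoc]

theorem conj_one (g : GL ι F) : conj g (1 : Matrix ι ι F) = 1 := by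
  unfold conj
  rw [mul_one, ← Units.val_mul, mul_inv_cancel, Units.val_one]

theorem conj_add (g : GL ι F) (x y : Matrix ι ι F) : conj g (x + y) = conj g x + conj g y := by
  unfold conj
  rw [mul_add, add_mul]

theorem conj_smul (g : GL ι F) (c : F) (x : Matrix ι ι F) : conj g (c • x) = c • conj g x := by
  unfold conj
  rw [Matrix.mul_smul, Matrix.smul_mul]

theorem conj_conj (g h : GL ι F) (x : Matrix ι ι F) : conj g (conj h x) = conj (g * h) x := by
  unfold conj
  simp only [Units.val_mul, mul_inv_rev, mul_assoc]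

theorem conj_inv_conj (g : GL ι F) (x : Matrix ι ι F) : conj g⁻¹ (conj g x) = x := by
  rw [conj_conj, inv_mul_cancel]
  simp [conj]

theorem conj_conj_inv (g : GL ι F) (x : Matrix ι ι F) : conj g (conj g⁻¹ x) = x := by
  rw [conj_conj, mul_inv_cancel]
  simp [conj]

theorem conj_mulVec (g : GL ι F) (x : Matrix ι ι F) (v : ι → F) :
    conj g x *ᵥ ((g : Matrix ι ι F) *ᵥ v) = (g : Matrix ι ι F) *ᵥ (x *ᵥ v) := by
  unfold conj
  rw [Matrix.mulVec_mulVec, Matrix.mulVec_mulVec, mul_assoc, mul_assoc, ← Units.val_mul,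
    inv_mul_cancel, Units.val_one, mul_one]

/-- Conjugation as an algebra automorphism of the matrix algebra. -/
def conjAlg (g : GL ι F) : Matrix ι ι F ≃ₐ[F] Matrix ι ι F :=
  AlgEquiv.ofAlgHom
    { toFun := conj g
      map_one' := conj_one g
      map_mul' := conj_mul g
      map_zero' := by simp [conj]
      map_add' := conj_add g
      commutes' := fun c => by
        rw [Algebra.algebraMap_eq_smul_one]
        exact (conj_smul _ c 1).trans (by rw [conj_one]) }
    { toFun := conj g⁻¹
      map_one' := conj_one g⁻¹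
      map_mul' := conj_mul g⁻¹
      map_zero' := by simp [conj]
      map_add' := conj_add g⁻¹
      commutes' := fun c => by
        rw [Algebra.algebraMap_eq_smul_one]
        exact (conj_smul _ c 1).trans (by rw [conj_one]) }
    (AlgHom.ext fun x => conj_conj_inv g x) (AlgHom.ext fun x => conj_inv_conj g x)

@[simp] theorem conjAlg_apply (g : GL ι F) (x : Matrix ι ι F) : conjAlg g x = conj g x := rfl

/-- The group element conjugate, in matrices. -/
theorem conj_coe (g x : GL ι F) : conj g (x : Matrix ι ι F) = ((g * x * g⁻¹ : GL ι F) : Matrix ι ι F) := by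
  simp [conj]

/-- A subset of the matrix algebra stable under conjugation by `G`. -/
def Stable (G : Subgroup (GL ι F)) (S : Set (Matrix ι ι F)) : Prop :=
  ∀ g ∈ G, ∀ x ∈ S, conj g x ∈ S

/-- The centraliser in the matrix algebra of a subgroup of `GL ι F`. -/
def cent (N : Subgroup (GL ι F)) : Subalgebra F (Matrix ι ι F) :=
  Subalgebra.centralizer F (matrixSet N)

theorem mem_cent {N : Subgroup (GL ι F)} {x : Matrix ι ι F} :
    x ∈ cent N ↔ ∀ g ∈ N, (g : Matrix ι ι F) * x = x * (g : Matrix ι ι F) := by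
  unfold cent
  rw [Subalgebra.mem_centralizer_iff]
  constructor
  · intro h g hg
    exact h _ ⟨g, hg, rfl⟩
  · rintro h _ ⟨g, hg, rfl⟩
    exact h g hg

/-- `G` normalises `N`. -/
def Normalizes (G N : Subgroup (GL ι F)) : Prop :=
  ∀ g ∈ G, ∀ x ∈ N, g * x * g⁻¹ ∈ N

/-- The centraliser of a normalised subgroup is stable. -/
theorem stable_cent {G N : Subgroup (GL ι F)} (h : Normalizes G N) :
    Stable G (cent N : Set (Matrix ι ι F)) := by
  intro g hg x hx
  change conj g x ∈ cent N
  have hx' : x ∈ cent N := hx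
  rw [mem_cent] at hx' ⊢
  intro y hy
  have h1 : g⁻¹ * y * g⁻¹⁻¹ ∈ N := h g⁻¹ (inv_mem hg) y hy
  rw [inv_inv] at h1
  have h2 := hx' _ h1
  have h3 : (y : Matrix ι ι F) = conj g ((g⁻¹ * y * g : GL ι F) : Matrix ι ι F) := by
    rw [conj_coe]
    simp [mul_assoc]
  rw [h3, ← conj_mul, ← conj_mul, h2]

/-- The scalar matrices form the centraliser. -/
def CentScalar (N : Subgroup (GL ι F)) : Prop :=
  ∀ x ∈ cent N, ∃ c : F, x = c • (1 : Matrix ι ι F)

/-- Absolute irreducibility in our language. -/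
theorem actsAbsolutelyIrreducibly_iff {N : Subgroup (GL ι F)} :
    ActsAbsolutelyIrreducibly (matrixSet N) ↔ ActsIrreducibly (matrixSet N) ∧ CentScalar N := by
  unfold ActsAbsolutelyIrreducibly CentScalar
  constructor
  · rintro ⟨h1, h2⟩
    refine ⟨h1, fun x hx => h2 x fun s hs => ?_⟩
    obtain ⟨g, hg, rfl⟩ := hs
    exact (mem_cent.mp hx g hg).symm
  · rintro ⟨h1, h2⟩
    refine ⟨h1, fun M hM => h2 M (mem_cent.mpr fun g hg => ?_)⟩
    exact (hM _ ⟨g, hg, rfl⟩).symm

/-- The subalgebra generated by a subset is stable when the subset is. -/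
theorem mem_scalars_iff' (g : GL ι F) : g ∈ scalars ι F ↔ ∃ c : F, (g : Matrix ι ι F) = c • (1 : Matrix ι ι F) := by
  rw [mem_scalars_iff]
  constructor
  · rintro ⟨c, hc⟩
    exact ⟨c, hc⟩
  · rintro ⟨c, hc⟩
    by_cases h0 : c = 0
    · subst h0
      rw [zero_smul] at hc
      by_cases hι : Nonempty ι
      · exfalso
        have h1 := congrArg (fun m => m * ((g⁻¹ : GL ι F) : Matrix ι ι F)) hc
        simp only [zero_mul] at h1
        rw [← Units.val_mul, mul_inv_cancel, Units.val_one] at h1
        haveI := hι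
        exact one_ne_zero h1
      · haveI : IsEmpty ι := not_nonempty_iff.mp hι
        refine ⟨1, ?_⟩
        ext i
        exact isEmptyElim i
    · exact ⟨Units.mk0 c h0, hc⟩

/-- Elements of `G` and scalars: an element of `GL` commuting with everything. -/
theorem scalar_mem_cent (N : Subgroup (GL ι F)) (c : F) : c • (1 : Matrix ι ι F) ∈ cent N :=
  mem_cent.mpr fun g _ => by simp

theorem coe_mem_cent_iff {N : Subgroup (GL ι F)} {x : GL ι F} :
    (x : Matrix ι ι F) ∈ cent N ↔ ∀ g ∈ N, g * x = x * g := by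
  rw [mem_cent]
  constructor
  · intro h g hg
    apply Units.ext
    simpa using h g hg
  · intro h g hg
    simpa using congrArg Units.val (h g hg)

end Cfsg.Agent.Lib.Classical.Asch.Basic
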