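import Mathlib
import Cfsg.Agent.Lib.Classical.Asch.Basic

/-!
# Forms given by matrices; transport along a linear equivalence
-/

set_option autoImplicit false
set_option linter.style.haveILetI false
set_option linter.unusedSectionVars false

namespace Cfsg.Agent.Lib.Classical.Asch.Gram

open scoped MatrixGroups Matrix Kronecker
open Cfsg.Geo Cfsg.Agent.Lib.Classical.Asch.Basic

variable {ι κ : Type} [Fintype ι] [DecidableEq ι] [Fintype κ] [DecidableEq κ] {F : Type*} [Field F]

/-- The bilinear form with matrix `A`. -/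
def bil (A : Matrix ι ι F) (u v : ι → F) : F := u ⬝ᵥ (A *ᵥ v)

theorem bil_isBilinear (A : Matrix ι ι F) : IsBilinearForm (bil A) where
  add_left x y v := by simp [bil, add_dotProduct]
  smul_left c x v := by simp [bil, smul_dotProduct]
  add_right v x y := by simp [bil, Matrix.mulVec_add, dotProduct_add]
  smul_right c v x := by simp [bil, Matrix.mulVec_smul, dotProduct_smul]

theorem bil_mulVec (A g : Matrix ι ι F) (u v : ι → F) :
    bil A (g *ᵥ u) (g *ᵥ v) = bil (gᵀ * A * g) u v := by
  unfold bil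
  rw [← Matrix.mulVec_mulVec, ← Matrix.mulVec_mulVec, Matrix.dotProduct_mulVec u,
    Matrix.vecMul_transpose]

theorem bil_nondegenerate (A : GL ι F) : IsNondegenerateForm (bil (A : Matrix ι ι F)) := by
  intro v hv
  constructor
  · have h1 : (A : Matrix ι ι F) *ᵥ v ≠ 0 := by
      intro h
      apply hv
      have := inv_mulVec_mulVec A v
      rw [h, Matrix.mulVec_zero] at this
      exact this.symm
    obtain ⟨i, hi⟩ := Function.ne_iff.mp h1
    refine ⟨Pi.single i 1, ?_⟩
    simpa [bil] using hi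
  · obtain ⟨i, hi⟩ := Function.ne_iff.mp hv
    refine ⟨((A⁻¹ : GL ι F) : Matrix ι ι F) *ᵥ Pi.single i 1, ?_⟩
    unfold bil
    rw [mulVec_inv_mulVec]
    simpa using hi

/-- Skew-symmetric with zero diagonal: alternating. -/
theorem bil_self_eq_zero {A : Matrix ι ι F} (hA : Aᵀ = -A) (hd : ∀ i, A i i = 0) (v : ι → F) : bil A v v = 0 := by
  classical
  unfold bil
  simp only [dotProduct, Matrix.mulVec, Finset.mul_sum]
  rw [← Finset.sum_product' (f := fun i j => v i * (A i j * v j))]
  refine Finset.sum_involution (fun x _ => (x.2, x.1)) ?_ ?_ ?_ ?_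
  · rintro ⟨i, j⟩ _
    have h1 : A j i = - A i j := by
      have := congrFun (congrFun hA i) j
      simpa using this
    simp only [h1]
    ring
  · rintro ⟨i, j⟩ _ hne heq
    simp only [Prod.mk.injEq] at heq
    obtain ⟨rfl, -⟩ := heq
    apply hne
    simp [hd]
  · rintro ⟨i, j⟩ _
    simp
  · rintro ⟨i, j⟩ _
    rfl

theorem bil_swap {A : Matrix ι ι F} (u v : ι → F) : bil A u v = bil Aᵀ v u := by
  unfold bil
  rw [Matrix.dotProduct_mulVec, Matrix.mulVec_transpose, dotProduct_comm]

/-- The symplectic form of an alternating invertible matrix. -/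
theorem bil_symplectic (A : GL ι F) (hA : (A : Matrix ι ι F)ᵀ = -(A : Matrix ι ι F)) (hd : ∀ i, (A : Matrix ι ι F) i i = 0) :
    IsSymplecticForm (bil (A : Matrix ι ι F)) where
  bilinear := bil_isBilinear _
  skew v w := by
    rw [bil_swap, hA]
    simp [bil, Matrix.neg_mulVec]
  alternating v := bil_self_eq_zero hA hd v
  nondegenerate := bil_nondegenerate A

/-- The quadratic form of a symmetric invertible matrix. -/
def quad (A : Matrix ι ι F) (v : ι → F) : F := bil A v v

theorem polar_quad {A : Matrix ι ι F} (hA : Aᵀ = A) (u v : ι → F) :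
    QuadraticMap.polar (quad A) u v = 2 * bil A u v := by
  unfold QuadraticMap.polar quad
  have h := (bil_isBilinear A)
  rw [h.add_left, h.add_right, h.add_right]
  have : bil A v u = bil A u v := by
    rw [bil_swap, hA]
  rw [this]
  ring

theorem quad_nondegenerate (A : GL ι F) (hA : (A : Matrix ι ι F)ᵀ = (A : Matrix ι ι F)) (h2 : (2 : F) ≠ 0) :
    IsNondegenerateQuadraticForm (quad (A : Matrix ι ι F)) where
  smul c v := by
    unfold quad
    have h := bil_isBilinear (A : Matrix ι ι F)
    rw [h.smul_left, h.smul_right]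
    ring
  polar_bilinear := by
    have h := bil_isBilinear (A : Matrix ι ι F)
    constructor
    · intro x y v
      simp only [polar_quad hA, h.add_left]
      ring
    · intro c x v
      simp only [polar_quad hA, h.smul_left]
      ring
    · intro v x y
      simp only [polar_quad hA, h.add_right]
      ring
    · intro c v x
      simp only [polar_quad hA, h.smul_right]
      ring
  nondegenerate := by
    intro v hv
    obtain ⟨⟨x, hx⟩, ⟨y, hy⟩⟩ := bil_nondegenerate A v hv
    refine ⟨⟨x, ?_⟩, ⟨y, ?_⟩⟩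
    · rw [polar_quad hA]
      exact mul_ne_zero h2 hx
    · rw [polar_quad hA]
      exact mul_ne_zero h2 hy

/-- Transport of a form along a linear isomorphism. -/
def pull (L : (ι → F) ≃ₗ[F] (κ → F)) (f : (κ → F) → (κ → F) → F) (u v : ι → F) : F := f (L u) (L v)

theorem pull_symplectic (L : (ι → F) ≃ₗ[F] (κ → F)) {f : (κ → F) → (κ → F) → F} (hf : IsSymplecticForm f) :
    IsSymplecticForm (pull L f) where
  bilinear :=
    { add_left := fun x y v => by simp [pull, hf.bilinear.add_left]
      smul_left := fun c x v => by simp [pull, hf.bilinear.smul_left]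
      add_right := fun v x y => by simp [pull, hf.bilinear.add_right]
      smul_right := fun c v x => by simp [pull, hf.bilinear.smul_right] }
  skew v w := hf.skew _ _
  alternating v := hf.alternating _
  nondegenerate := by
    intro v hv
    have h1 : L v ≠ 0 := fun h => hv (L.map_eq_zero_iff.mp h)
    obtain ⟨⟨x, hx⟩, ⟨y, hy⟩⟩ := hf.nondegenerate _ h1
    refine ⟨⟨L.symm x, ?_⟩, ⟨L.symm y, ?_⟩⟩
    · simpa [pull] using hx
    · simpa [pull] using hy

/-- Transport of a quadratic form along a linear isomorphism. -/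
def pullQ (L : (ι → F) ≃ₗ[F] (κ → F)) (Q : (κ → F) → F) (u : ι → F) : F := Q (L u)

theorem polar_pullQ (L : (ι → F) ≃ₗ[F] (κ → F)) (Q : (κ → F) → F) (u v : ι → F) :
    QuadraticMap.polar (pullQ L Q) u v = QuadraticMap.polar Q (L u) (L v) := by
  simp [QuadraticMap.polar, pullQ]

theorem pullQ_nondegenerate (L : (ι → F) ≃ₗ[F] (κ → F)) {Q : (κ → F) → F} (hQ : IsNondegenerateQuadraticForm Q) :
    IsNondegenerateQuadraticForm (pullQ L Q) where
  smul c v := by simp [pullQ, hQ.smul]
  polar_bilinear :=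
    { add_left := fun x y v => by simp [polar_pullQ, hQ.polar_bilinear.add_left]
      smul_left := fun c x v => by simp [polar_pullQ, hQ.polar_bilinear.smul_left]
      add_right := fun v x y => by simp [polar_pullQ, hQ.polar_bilinear.add_right]
      smul_right := fun c v x => by simp [polar_pullQ, hQ.polar_bilinear.smul_right] }
  nondegenerate := by
    intro v hv
    have h1 : L v ≠ 0 := fun h => hv (L.map_eq_zero_iff.mp h)
    obtain ⟨⟨x, hx⟩, ⟨y, hy⟩⟩ := hQ.nondegenerate _ h1
    refine ⟨⟨L.symm x, ?_⟩, ⟨L.symm y, ?_⟩⟩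
    · simpa [polar_pullQ] using hx
    · simpa [polar_pullQ] using hy

/-- The coordinate change from `ι` to `κ` attached to `e` and `P`. -/
noncomputable def coordL (e : ι ≃ κ) (P : GL ι F) : (ι → F) ≃ₗ[F] (κ → F) :=
  LinearEquiv.ofLinearMap
    ((LinearMap.funLeft F F e.symm).comp (Matrix.mulVecLin ((P⁻¹ : GL ι F) : Matrix ι ι F)))
    ((Matrix.mulVecLin (P : Matrix ι ι F)).comp (LinearMap.funLeft F F e))
    (LinearMap.ext fun v => by
      funext x
      simp [LinearMap.funLeft])
    (LinearMap.ext fun v => by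
      have h : (fun i => ((((P⁻¹ : GL ι F) : Matrix ι ι F) *ᵥ v) ∘ e.symm) (e i)) =
          ((P⁻¹ : GL ι F) : Matrix ι ι F) *ᵥ v := by
        funext i
        simp
      change (P : Matrix ι ι F) *ᵥ (fun i => ((((P⁻¹ : GL ι F) : Matrix ι ι F) *ᵥ v) ∘ e.symm) (e i)) = v
      rw [h, mulVec_inv_mulVec])

@[simp] theorem coordL_apply (e : ι ≃ κ) (P : GL ι F) (u : ι → F) :
    coordL e P u = (((P⁻¹ : GL ι F) : Matrix ι ι F) *ᵥ u) ∘ e.symm := rfl

theorem coordL_mulVec (e : ι ≃ κ) (P : GL ι F) (h : GL κ F) (u : ι → F) :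
    coordL e P (((MulAut.conj P) (glReindex e.symm h) : GL ι F) *ᵥ u) = (h : Matrix κ κ F) *ᵥ coordL e P u := by
  have h1 : (((MulAut.conj P) (glReindex e.symm h) : GL ι F) : Matrix ι ι F) =
      (P : Matrix ι ι F) * (h : Matrix κ κ F).submatrix e e * ((P⁻¹ : GL ι F) : Matrix ι ι F) := by
    rfl
  rw [coordL_apply, coordL_apply, h1, Matrix.mulVec_mulVec, ← mul_assoc, ← mul_assoc, ← Units.val_mul,
    inv_mul_cancel, Units.val_one, one_mul, ← Matrix.mulVec_mulVec]
  generalize ((P⁻¹ : GL ι F) : Matrix ι ι F) *ᵥ u = w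
  funext x
  simp only [Function.comp_apply, Matrix.mulVec, dotProduct]
  rw [← Equiv.sum_comp e.symm]
  simp

/-- Similarity groups transport. -/
theorem map_le_similarity (e : ι ≃ κ) (P : GL ι F) {S : Subgroup (GL κ F)} {f : (κ → F) → (κ → F) → F}
    (hS : S ≤ similarityGroup f) :
    (S.map (glReindex e.symm).toMonoidHom).map (MulAut.conj P).toMonoidHom ≤ similarityGroup (pull (coordL e P) f) := by
  rintro _ ⟨_, ⟨h, hh, rfl⟩, rfl⟩
  obtain ⟨c, hc⟩ := hS hh
  refine ⟨c, fun u v => ?_⟩
  unfold pull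
  have h1 := coordL_mulVec e P h u
  have h2 := coordL_mulVec e P h v
  change f (coordL e P (((MulAut.conj P) (glReindex e.symm h) : GL ι F) *ᵥ u))
    (coordL e P (((MulAut.conj P) (glReindex e.symm h) : GL ι F) *ᵥ v)) = _
  rw [h1, h2, hc]

theorem map_le_quadSimilarity (e : ι ≃ κ) (P : GL ι F) {S : Subgroup (GL κ F)} {Q : (κ → F) → F}
    (hS : S ≤ quadSimilarityGroup Q) :
    (S.map (glReindex e.symm).toMonoidHom).map (MulAut.conj P).toMonoidHom ≤ quadSimilarityGroup (pullQ (coordL e P) Q) := by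
  rintro _ ⟨_, ⟨h, hh, rfl⟩, rfl⟩
  obtain ⟨c, hc⟩ := hS hh
  refine ⟨c, fun u => ?_⟩
  unfold pullQ
  have h1 := coordL_mulVec e P h u
  change Q (coordL e P (((MulAut.conj P) (glReindex e.symm h) : GL ι F) *ᵥ u)) = _
  rw [h1, hc]

end Cfsg.Agent.Lib.Classical.Asch.Gram
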