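import Mathlib
import Cfsg.Agent.Lib.Classical.Asch.Gram
import Cfsg.Agent.Lib.Classical.Symp.DecompMax

/-!
# Invariant forms of absolutely irreducible groups: uniqueness and existence by averaging
-/

set_option autoImplicit false
set_option linter.style.haveILetI false
set_option linter.unusedSectionVars false

namespace Cfsg.Agent.Lib.Classical.Asch.Forms

open scoped MatrixGroups Matrix Kronecker
open Cfsg.Geo Cfsg.Agent.Lib.Classical.Asch.Basic Cfsg.Agent.Lib.Classical.Asch.Gram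

variable {ι : Type} [Fintype ι] [DecidableEq ι] {F : Type*} [Field F]

/-- Forms, linear in the first variable and `σ`-semilinear in the second. -/
structure IsSesq (σ : F →+* F) (f : (ι → F) → (ι → F) → F) : Prop where
  add_left : ∀ x y v, f (x + y) v = f x v + f y v
  smul_left : ∀ (c : F) (x v : ι → F), f (c • x) v = c * f x v
  add_right : ∀ v x y, f v (x + y) = f v x + f v y
  smul_right : ∀ (c : F) (v x : ι → F), f v (c • x) = σ c * f v x

/-- The `σ`-sesquilinear form of a matrix. -/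
def sesqM (σ : F →+* F) (A : Matrix ι ι F) (u v : ι → F) : F := u ⬝ᵥ (A *ᵥ (σ ∘ v))

theorem sesqM_isSesq (σ : F →+* F) (A : Matrix ι ι F) : IsSesq σ (sesqM σ A) where
  add_left x y v := by simp [sesqM, add_dotProduct]
  smul_left c x v := by simp [sesqM, smul_dotProduct]
  add_right v x y := by
    have : σ ∘ (x + y) = σ ∘ x + σ ∘ y := by
      funext i
      simp
    simp [sesqM, this, Matrix.mulVec_add, dotProduct_add]
  smul_right c v x := by
    have : σ ∘ (c • x) = σ c • (σ ∘ x) := by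
      funext i
      simp
    simp [sesqM, this, Matrix.mulVec_smul, dotProduct_smul]

/-- The Gram matrix. -/
def gram (f : (ι → F) → (ι → F) → F) : Matrix ι ι F := Matrix.of fun i j => f (Pi.single i 1) (Pi.single j 1)

theorem sum_single_eq (v : ι → F) : v = ∑ i, v i • (Pi.single i 1 : ι → F) := by
  funext j
  simp [Finset.sum_apply, Pi.single_apply]

theorem IsSesq.sum_left {σ : F →+* F} {f : (ι → F) → (ι → F) → F} (h : IsSesq σ f) {κ : Type*} (s : Finset κ)
    (w : κ → ι → F) (v : ι → F) : f (∑ k ∈ s, w k) v = ∑ k ∈ s, f (w k) v := by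
  classical
  induction s using Finset.induction_on with
  | empty =>
    simp only [Finset.sum_empty]
    have := h.smul_left 0 0 v
    simpa using this
  | insert a s ha ih =>
    rw [Finset.sum_insert ha, Finset.sum_insert ha, h.add_left, ih]

theorem IsSesq.sum_right {σ : F →+* F} {f : (ι → F) → (ι → F) → F} (h : IsSesq σ f) {κ : Type*} (s : Finset κ)
    (w : κ → ι → F) (v : ι → F) : f v (∑ k ∈ s, w k) = ∑ k ∈ s, f v (w k) := by
  classical
  induction s using Finset.induction_on with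
  | empty =>
    simp only [Finset.sum_empty]
    have := h.smul_right 0 v 0
    simpa using this
  | insert a s ha ih =>
    rw [Finset.sum_insert ha, Finset.sum_insert ha, h.add_right, ih]

/-- A sesquilinear form is given by its Gram matrix. -/
theorem IsSesq.eq_sesqM {σ : F →+* F} {f : (ι → F) → (ι → F) → F} (h : IsSesq σ f) (u v : ι → F) :
    f u v = sesqM σ (gram f) u v := by
  conv_lhs => rw [sum_single_eq u, sum_single_eq v]
  rw [h.sum_left]
  simp only [h.smul_left, h.sum_right, h.smul_right]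
  unfold sesqM
  simp only [dotProduct, Matrix.mulVec, gram, Matrix.of_apply, Function.comp_apply, Finset.mul_sum]
  refine Finset.sum_congr rfl fun i _ => Finset.sum_congr rfl fun j _ => ?_
  ring

theorem sesqM_mulVec (σ : F →+* F) (A g : Matrix ι ι F) (u v : ι → F) :
    sesqM σ A (g *ᵥ u) (g *ᵥ v) = sesqM σ (gᵀ * A * g.map σ) u v := by
  unfold sesqM
  have h1 : σ ∘ (g *ᵥ v) = g.map σ *ᵥ (σ ∘ v) := by
    funext i
    simp [Matrix.mulVec, dotProduct, map_sum]
  rw [h1, ← Matrix.mulVec_mulVec, ← Matrix.mulVec_mulVec, Matrix.dotProduct_mulVec u, Matrix.vecMul_transpose]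

/-- Equal forms (for a surjective `σ`) have equal matrices. -/
theorem eq_of_sesqM_eq {σ : F →+* F} (hσ : Function.Surjective σ) {A B : Matrix ι ι F}
    (h : ∀ u v, sesqM σ A u v = sesqM σ B u v) : A = B := by
  ext i j
  obtain ⟨a, ha⟩ := hσ 1
  have h1 := h (Pi.single i 1) (Pi.single j a)
  have h2 : σ ∘ (Pi.single j a : ι → F) = Pi.single j 1 := by
    funext l
    by_cases hl : l = j
    · subst hl
      simp [ha]
    · simp [Pi.single_eq_of_ne hl]
  unfold sesqM at h1
  rw [h2] at h1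
  simpa using h1

theorem isUnit_gram {σ : F →+* F} (hσ : Function.Surjective σ) {f : (ι → F) → (ι → F) → F} (h : IsSesq σ f)
    (hnd : IsNondegenerateForm f) : IsUnit (gram f) := by
  rw [← Matrix.mulVec_injective_iff_isUnit]
  -- every vector is `σ ∘ v`
  intro x y hxy
  have hxy' : gram f *ᵥ (x - y) = 0 := by
    rw [Matrix.mulVec_sub]
    exact sub_eq_zero.mpr hxy
  by_contra hne
  have hsur : ∃ v : ι → F, σ ∘ v = x - y := by
    have : ∀ i, ∃ a, σ a = (x - y) i := fun i => hσ _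
    choose a ha using this
    exact ⟨a, funext ha⟩
  obtain ⟨v, hv⟩ := hsur
  have hv0 : v ≠ 0 := by
    rintro rfl
    apply hne
    have h2 : x - y = 0 := by
      rw [← hv]
      funext i
      simp
    exact sub_eq_zero.mp h2
  obtain ⟨⟨u, hu⟩, -⟩ := hnd v hv0
  apply hu
  rw [h.eq_sesqM]
  unfold sesqM
  rw [hv, hxy', dotProduct_zero]

theorem mem_cent_transpose {X : Subgroup (GL ι F)} {T : Matrix ι ι F}
    (h : ∀ x ∈ X, (x : Matrix ι ι F)ᵀ * T = T * (x : Matrix ι ι F)ᵀ) : Tᵀ ∈ cent X := by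
  rw [mem_cent]
  intro x hx
  have := congrArg Matrix.transpose (h x hx)
  simpa [Matrix.transpose_mul] using this.symm

/-- **Uniqueness of invariant forms.** -/
theorem form_unique {σ : F →+* F} (hσ : Function.Surjective σ) {X : Subgroup (GL ι F)} (hX : CentScalar X)
    {f f' : (ι → F) → (ι → F) → F} (hf : IsSesq σ f) (hf' : IsSesq σ f')
    (hnd : IsNondegenerateForm f) (hinv : FixesForm (matrixSet X) f) (hinv' : FixesForm (matrixSet X) f') :
    ∃ c : F, ∀ u v, f' u v = c * f u v := by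
  obtain ⟨A, hA⟩ := isUnit_gram hσ hf hnd
  set A' := gram f' with hA'
  have hAinv : ∀ x ∈ X, (x : Matrix ι ι F)ᵀ * (A : Matrix ι ι F) * (x : Matrix ι ι F).map σ = A := by
    intro x hx
    apply eq_of_sesqM_eq hσ
    intro u v
    rw [← sesqM_mulVec, hA, ← hf.eq_sesqM, ← hf.eq_sesqM]
    exact hinv _ ⟨x, hx, rfl⟩ u v
  have hAinv' : ∀ x ∈ X, (x : Matrix ι ι F)ᵀ * A' * (x : Matrix ι ι F).map σ = A' := by
    intro x hx
    apply eq_of_sesqM_eq hσ
    intro u v
    rw [← sesqM_mulVec, hA', ← hf'.eq_sesqM, ← hf'.eq_sesqM]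
    exact hinv' _ ⟨x, hx, rfl⟩ u v
  let T : Matrix ι ι F := A' * ((A⁻¹ : GL ι F) : Matrix ι ι F)
  have hAA : (A : Matrix ι ι F) * ((A⁻¹ : GL ι F) : Matrix ι ι F) = 1 := by
    rw [← Units.val_mul, mul_inv_cancel, Units.val_one]
  have hAA' : ((A⁻¹ : GL ι F) : Matrix ι ι F) * (A : Matrix ι ι F) = 1 := by
    rw [← Units.val_mul, inv_mul_cancel, Units.val_one]
  have hT : ∀ x ∈ X, (x : Matrix ι ι F)ᵀ * T = T * (x : Matrix ι ι F)ᵀ := by
    intro x hx
    -- `A⁻¹ xᵀ⁻¹ = σ(x) A⁻¹`: multiply out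
    have h1 : (x : Matrix ι ι F).map σ * ((A⁻¹ : GL ι F) : Matrix ι ι F) * (x : Matrix ι ι F)ᵀ =
        ((A⁻¹ : GL ι F) : Matrix ι ι F) := by
      have h2 := hAinv x hx
      -- `B := σ(x) A⁻¹ xᵀ` satisfies `xᵀ A B = xᵀ`, hence ...
      have hxt : ((x⁻¹ : GL ι F) : Matrix ι ι F)ᵀ * (x : Matrix ι ι F)ᵀ = 1 := by
        rw [← Matrix.transpose_mul, ← Units.val_mul, mul_inv_cancel, Units.val_one, Matrix.transpose_one]
      have hxt' : (x : Matrix ι ι F)ᵀ * ((x⁻¹ : GL ι F) : Matrix ι ι F)ᵀ = 1 := by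
        rw [← Matrix.transpose_mul, ← Units.val_mul, inv_mul_cancel, Units.val_one, Matrix.transpose_one]
      have h3 : (A : Matrix ι ι F) * (x : Matrix ι ι F).map σ = ((x⁻¹ : GL ι F) : Matrix ι ι F)ᵀ * (A : Matrix ι ι F) := by
        calc (A : Matrix ι ι F) * (x : Matrix ι ι F).map σ
            = (((x⁻¹ : GL ι F) : Matrix ι ι F)ᵀ * (x : Matrix ι ι F)ᵀ) * (A : Matrix ι ι F) * (x : Matrix ι ι F).map σ := by
              rw [hxt, one_mul]
          _ = ((x⁻¹ : GL ι F) : Matrix ι ι F)ᵀ * ((x : Matrix ι ι F)ᵀ * (A : Matrix ι ι F) * (x : Matrix ι ι F).map σ) := by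
              simp only [mul_assoc]
          _ = _ := by rw [h2]
      calc (x : Matrix ι ι F).map σ * ((A⁻¹ : GL ι F) : Matrix ι ι F) * (x : Matrix ι ι F)ᵀ
          = ((A⁻¹ : GL ι F) : Matrix ι ι F) * ((A : Matrix ι ι F) * (x : Matrix ι ι F).map σ) *
              ((A⁻¹ : GL ι F) : Matrix ι ι F) * (x : Matrix ι ι F)ᵀ := by
            rw [← mul_assoc ((A⁻¹ : GL ι F) : Matrix ι ι F), hAA', one_mul]
        _ = ((A⁻¹ : GL ι F) : Matrix ι ι F) * ((x⁻¹ : GL ι F) : Matrix ι ι F)ᵀ *
              ((A : Matrix ι ι F) * ((A⁻¹ : GL ι F) : Matrix ι ι F)) * (x : Matrix ι ι F)ᵀ := by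
            rw [h3]; simp only [mul_assoc]
        _ = _ := by
            rw [hAA, mul_one, mul_assoc, hxt, mul_one]
    calc (x : Matrix ι ι F)ᵀ * T = (x : Matrix ι ι F)ᵀ * A' * ((A⁻¹ : GL ι F) : Matrix ι ι F) := by
          simp only [T, mul_assoc]
      _ = (x : Matrix ι ι F)ᵀ * A' * (((x : Matrix ι ι F).map σ * ((A⁻¹ : GL ι F) : Matrix ι ι F)) * (x : Matrix ι ι F)ᵀ) := by
          rw [h1]
      _ = ((x : Matrix ι ι F)ᵀ * A' * (x : Matrix ι ι F).map σ) * ((A⁻¹ : GL ι F) : Matrix ι ι F) * (x : Matrix ι ι F)ᵀ := by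
          simp only [mul_assoc]
      _ = _ := by rw [hAinv' x hx]
  obtain ⟨c, hc⟩ := hX _ (mem_cent_transpose hT)
  have hT' : T = c • 1 := by
    have := congrArg Matrix.transpose hc
    simpa using this
  refine ⟨c, fun u v => ?_⟩
  have h4 : A' = c • (A : Matrix ι ι F) := by
    calc A' = T * (A : Matrix ι ι F) := by
          simp only [T, mul_assoc]
          rw [hAA', mul_one]
      _ = _ := by rw [hT', Matrix.smul_mul, one_mul]
  rw [hf'.eq_sesqM, hf.eq_sesqM, ← hA', h4, hA]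
  unfold sesqM
  rw [Matrix.smul_mulVec, dotProduct_smul, smul_eq_mul]

/-- Composition of a form with a group element. -/
theorem IsSesq.comp_mulVec {σ : F →+* F} {f : (ι → F) → (ι → F) → F} (h : IsSesq σ f) (g : Matrix ι ι F) :
    IsSesq σ (fun u v => f (g *ᵥ u) (g *ᵥ v)) where
  add_left x y v := by simp only [Matrix.mulVec_add, h.add_left]
  smul_left c x v := by simp only [Matrix.mulVec_smul, h.smul_left]
  add_right v x y := by simp only [Matrix.mulVec_add, h.add_right]
  smul_right c v x := by simp only [Matrix.mulVec_smul, h.smul_right]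

theorem fixes_comp {f : (ι → F) → (ι → F) → F} {X : Subgroup (GL ι F)} (hinv : FixesForm (matrixSet X) f)
    {g : GL ι F} (hg : ∀ x ∈ X, g * x * g⁻¹ ∈ X) :
    FixesForm (matrixSet X) (fun u v => f ((g : Matrix ι ι F) *ᵥ u) ((g : Matrix ι ι F) *ᵥ v)) := by
  rintro _ ⟨x, hx, rfl⟩ u v
  have h1 := hinv _ ⟨g * x * g⁻¹, hg x hx, rfl⟩ ((g : Matrix ι ι F) *ᵥ u) ((g : Matrix ι ι F) *ᵥ v)
  have h2 : ∀ w : ι → F, ((g * x * g⁻¹ : GL ι F) : Matrix ι ι F) *ᵥ ((g : Matrix ι ι F) *ᵥ w) =
      (g : Matrix ι ι F) *ᵥ ((x : Matrix ι ι F) *ᵥ w) := by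
    intro w
    rw [Matrix.mulVec_mulVec, Matrix.mulVec_mulVec, ← Units.val_mul, ← Units.val_mul]
    congr 2
    group
  simp only [h2] at h1
  exact h1

/-- Similarity from uniqueness. -/
theorem exists_similarity [Nonempty ι] {σ : F →+* F} (hσ : Function.Surjective σ) {X : Subgroup (GL ι F)}
    (hX : CentScalar X)
    {f : (ι → F) → (ι → F) → F} (hf : IsSesq σ f)
    (hnd : IsNondegenerateForm f) (hinv : FixesForm (matrixSet X) f)
    {g : GL ι F} (hg : ∀ x ∈ X, g * x * g⁻¹ ∈ X) :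
    ∃ c : Fˣ, ∀ u v, f ((g : Matrix ι ι F) *ᵥ u) ((g : Matrix ι ι F) *ᵥ v) = (c : F) * f u v := by
  obtain ⟨c, hc⟩ := form_unique hσ hX hf (hf.comp_mulVec _) hnd hinv (fixes_comp hinv hg)
  have hc0 : c ≠ 0 := by
    rintro rfl
    obtain ⟨i⟩ := ‹Nonempty ι›
    have hv : (Pi.single i 1 : ι → F) ≠ 0 := by
      intro h
      have := congrFun h i
      simp at this
    obtain ⟨⟨x, hx⟩, -⟩ := hnd _ hv
    apply hx
    have h1 := hc (((g⁻¹ : GL ι F) : Matrix ι ι F) *ᵥ x) (((g⁻¹ : GL ι F) : Matrix ι ι F) *ᵥ (Pi.single i 1))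
    simp only [mulVec_inv_mulVec, zero_mul] at h1
    exact h1
  exact ⟨Units.mk0 c hc0, hc⟩

theorem isSesq_of_bilinear {f : (ι → F) → (ι → F) → F} (h : IsBilinearForm f) : IsSesq (RingHom.id F) f where
  add_left := h.add_left
  smul_left := h.smul_left
  add_right := h.add_right
  smul_right c v x := by simpa using h.smul_right c v x

/-- Invariant forms give similarities for the normaliser: symplectic case. -/
theorem mem_similarityGroup_symplectic [Nonempty ι] {X : Subgroup (GL ι F)} (hX : CentScalar X)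
    {f : (ι → F) → (ι → F) → F} (hf : IsSymplecticForm f) (hinv : FixesForm (matrixSet X) f)
    {g : GL ι F} (hg : ∀ x ∈ X, g * x * g⁻¹ ∈ X) : g ∈ similarityGroup f :=
  exists_similarity Function.surjective_id hX (isSesq_of_bilinear hf.bilinear) hf.nondegenerate hinv hg

theorem isSesq_of_unitary {σ : F ≃+* F} {f : (ι → F) → (ι → F) → F} (hf : IsUnitaryForm σ f) :
    IsSesq (σ : F →+* F) f where
  add_left := hf.add_left
  smul_left := hf.smul_left
  add_right v x y := by
    rw [hf.herm v (x + y), hf.add_left, map_add, ← hf.herm v x, ← hf.herm v y]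
  smul_right c v x := by
    rw [hf.herm v (c • x), hf.smul_left, map_mul, ← hf.herm v x]
    rfl

theorem mem_similarityGroup_unitary [Nonempty ι] {X : Subgroup (GL ι F)} (hX : CentScalar X)
    {σ : F ≃+* F} {f : (ι → F) → (ι → F) → F} (hf : IsUnitaryForm σ f) (hinv : FixesForm (matrixSet X) f)
    {g : GL ι F} (hg : ∀ x ∈ X, g * x * g⁻¹ ∈ X) : g ∈ similarityGroup f :=
  exists_similarity (σ := (σ : F →+* F)) σ.surjective hX (isSesq_of_unitary hf) hf.nondegenerate hinv hg

theorem fixes_polar {Q : (ι → F) → F} {S : Set (Matrix ι ι F)} (h : FixesQuadForm S Q) :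
    FixesForm S (QuadraticMap.polar Q) := by
  intro s hs u v
  unfold QuadraticMap.polar
  rw [← Matrix.mulVec_add, h s hs, h s hs, h s hs]

theorem polar_self {Q : (ι → F) → F} (hQ : IsNondegenerateQuadraticForm Q) (v : ι → F) :
    QuadraticMap.polar Q v v = 2 * Q v := by
  unfold QuadraticMap.polar
  have h1 : v + v = (2 : F) • v := by rw [two_smul]
  rw [h1, hQ.smul]
  ring

theorem two_ne_zero_of_odd [Fintype F] (h : Odd (Fintype.card F)) : (2 : F) ≠ 0 := by
  intro h2
  haveI : CharP F 2 := CharTwo.of_one_ne_zero_of_two_eq_zero one_ne_zero h2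
  have h3 : ringChar F = 2 := ringChar.eq F 2
  have h4 := FiniteField.even_card_iff_char_two.mp h3
  rw [Nat.odd_iff] at h
  omega

theorem two_eq_zero_of_not_odd [Fintype F] (h : ¬ Odd (Fintype.card F)) : (2 : F) = 0 := by
  have h3 : ringChar F = 2 := FiniteField.even_card_iff_char_two.mpr (by
    rw [Nat.odd_iff] at h
    omega)
  have := ringChar.Nat.cast_ringChar (R := F)
  rw [h3] at this
  exact_mod_cast this

theorem mem_similarityGroup_polar [Nonempty ι] {X : Subgroup (GL ι F)} (hX : CentScalar X)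
    {Q : (ι → F) → F} (hQ : IsNondegenerateQuadraticForm Q)
    (hinv : FixesQuadForm (matrixSet X) Q)
    {g : GL ι F} (hg : ∀ x ∈ X, g * x * g⁻¹ ∈ X) : g ∈ similarityGroup (QuadraticMap.polar Q) :=
  exists_similarity Function.surjective_id hX (isSesq_of_bilinear hQ.polar_bilinear) hQ.nondegenerate
    (fixes_polar hinv) hg

theorem mem_quadSimilarityGroup [Nonempty ι] [Fintype F] {X : Subgroup (GL ι F)} (hX : CentScalar X)
    {Q : (ι → F) → F} (hQ : IsNondegenerateQuadraticForm Q) (hodd : Odd (Fintype.card F))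
    (hinv : FixesQuadForm (matrixSet X) Q)
    {g : GL ι F} (hg : ∀ x ∈ X, g * x * g⁻¹ ∈ X) : g ∈ quadSimilarityGroup Q := by
  obtain ⟨c, hc⟩ := mem_similarityGroup_polar hX hQ hinv hg
  refine ⟨c, fun v => ?_⟩
  have h1 := hc v v
  rw [polar_self hQ, polar_self hQ] at h1
  have h2 := two_ne_zero_of_odd hodd
  apply mul_left_cancel₀ h2
  rw [h1]
  ring

/-- A non-degenerate quadratic form in even characteristic has symplectic polar form. -/
theorem polar_symplectic [Fintype F] {Q : (ι → F) → F} (hQ : IsNondegenerateQuadraticForm Q)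
    (heven : ¬ Odd (Fintype.card F)) : IsSymplecticForm (QuadraticMap.polar Q) where
  bilinear := hQ.polar_bilinear
  skew v w := by
    rw [QuadraticMap.polar_comm]
    have h2 := two_eq_zero_of_not_odd heven
    refine eq_neg_of_add_eq_zero_left ?_
    rw [← two_mul, h2, zero_mul]
  alternating v := by
    rw [polar_self hQ, two_eq_zero_of_not_odd heven, zero_mul]
  nondegenerate := hQ.nondegenerate

/-- Symplectic forms live in even dimension. -/
theorem even_card_of_symplectic {f : (ι → F) → (ι → F) → F} (hf : IsSymplecticForm f) :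
    Even (Fintype.card ι) := by
  let B : LinearMap.BilinForm F (ι → F) :=
    LinearMap.mk₂ F f hf.bilinear.add_left (fun c x v => by simpa using hf.bilinear.smul_left c x v)
      hf.bilinear.add_right (fun c v x => by simpa using hf.bilinear.smul_right c v x)
  have hB : ∀ u v, B u v = f u v := fun u v => rfl
  have hA : B.IsAlt := fun v => hf.alternating v
  have hN : B.Nondegenerate := by
    constructor
    · intro x hx
      by_contra h0
      obtain ⟨-, ⟨y, hy⟩⟩ := hf.nondegenerate x h0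
      exact hy (hx y)
    · intro x hx
      by_contra h0
      obtain ⟨⟨y, hy⟩, -⟩ := hf.nondegenerate x h0
      exact hy (hx y)
  obtain ⟨k, hk⟩ := Cfsg.Agent.Lib.Classical.Symp.DecompMax.even_finrank _ B hA hN rfl
  rw [Module.finrank_fintype_fun_eq_card] at hk
  exact ⟨k, by omega⟩

section Average

variable [Fintype F] [Nonempty ι]

/-- Nonzero invariant matrices are invertible, for an irreducible group. -/
theorem isUnit_of_invariant {σ : F →+* F} (hσ : Function.Bijective σ) {X : Subgroup (GL ι F)}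
    (hX : ∀ W : Submodule F (ι → F), Inv X W → W = ⊥ ∨ W = ⊤) {A : Matrix ι ι F} (hA0 : A ≠ 0)
    (hA : ∀ x ∈ X, (x : Matrix ι ι F)ᵀ * A * (x : Matrix ι ι F).map σ = A) : IsUnit A := by
  -- the radical
  have hsurj : ∀ y : ι → F, ∃ v : ι → F, σ ∘ v = y := by
    intro y
    have : ∀ i, ∃ a, σ a = y i := fun i => hσ.2 _
    choose a ha using this
    exact ⟨a, funext ha⟩
  let R : Submodule F (ι → F) :=
    { carrier := {v | A *ᵥ (σ ∘ v) = 0}
      add_mem' := fun {a b} ha hb => by
        have h1 : σ ∘ (a + b) = σ ∘ a + σ ∘ b := by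
          funext i
          simp
        simp only [Set.mem_ofPred_eq] at ha hb ⊢
        rw [h1, Matrix.mulVec_add, ha, hb, add_zero]
      zero_mem' := by
        have h1 : σ ∘ (0 : ι → F) = 0 := by
          funext i
          simp
        simp only [Set.mem_ofPred_eq]
        rw [h1, Matrix.mulVec_zero]
      smul_mem' := fun c v hv => by
        have h1 : σ ∘ (c • v) = σ c • (σ ∘ v) := by
          funext i
          simp
        simp only [Set.mem_ofPred_eq] at hv ⊢
        rw [h1, Matrix.mulVec_smul, hv, smul_zero] }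
  have hmap : ∀ (x : GL ι F) (v : ι → F), σ ∘ ((x : Matrix ι ι F) *ᵥ v) = (x : Matrix ι ι F).map σ *ᵥ (σ ∘ v) := by
    intro x v
    funext i
    simp [Matrix.mulVec, dotProduct, map_sum]
  have hRinv : Inv X R := by
    intro x hx v hv
    have hv' : A *ᵥ (σ ∘ v) = 0 := hv
    change A *ᵥ (σ ∘ ((x : Matrix ι ι F) *ᵥ v)) = 0
    rw [hmap]
    have h1 : (x : Matrix ι ι F)ᵀ *ᵥ (A *ᵥ ((x : Matrix ι ι F).map σ *ᵥ (σ ∘ v))) = A *ᵥ (σ ∘ v) := by
      rw [Matrix.mulVec_mulVec, Matrix.mulVec_mulVec, hA x hx]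
    rw [hv'] at h1
    have hinj : Function.Injective (fun w : ι → F => (x : Matrix ι ι F)ᵀ *ᵥ w) := by
      intro a b hab
      have h2 : ((x⁻¹ : GL ι F) : Matrix ι ι F)ᵀ * (x : Matrix ι ι F)ᵀ = 1 := by
        rw [← Matrix.transpose_mul, ← Units.val_mul, mul_inv_cancel, Units.val_one, Matrix.transpose_one]
      have h3 := congrArg (fun w => ((x⁻¹ : GL ι F) : Matrix ι ι F)ᵀ *ᵥ w) hab
      simpa only [Matrix.mulVec_mulVec, h2, Matrix.one_mulVec] using h3
    apply hinj
    simpa using h1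
  rw [← Matrix.mulVec_injective_iff_isUnit]
  rcases hX R hRinv with h | h
  · intro y z hyz
    obtain ⟨v, rfl⟩ := hsurj y
    obtain ⟨w, rfl⟩ := hsurj z
    have h1 : v - w ∈ R := by
      have h2 : σ ∘ (v - w) = σ ∘ v - σ ∘ w := by
        funext i
        simp
      change A *ᵥ (σ ∘ (v - w)) = 0
      rw [h2, Matrix.mulVec_sub]
      exact sub_eq_zero.mpr hyz
    rw [h, Submodule.mem_bot] at h1
    rw [sub_eq_zero.mp h1]
  · exfalso
    apply hA0
    ext i j
    obtain ⟨v, hv⟩ := hsurj (Pi.single j 1)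
    have h1 : v ∈ R := by rw [h]; trivial
    have h2 : A *ᵥ (σ ∘ v) = 0 := h1
    rw [hv] at h2
    have := congrFun h2 i
    simpa using this

/-- The elements of a subgroup, as a finset. -/
noncomputable def elems (X : Subgroup (GL ι F)) : Finset (GL ι F) :=
  (Set.toFinite (X : Set (GL ι F))).toFinset

theorem mem_elems {X : Subgroup (GL ι F)} {x : GL ι F} : x ∈ elems X ↔ x ∈ X := by
  simp [elems]

/-- The average over a finite group. -/
noncomputable def avg (σ : F →+* F) (X : Subgroup (GL ι F)) (M : Matrix ι ι F) : Matrix ι ι F :=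
  ∑ x ∈ elems X, (x : Matrix ι ι F)ᵀ * M * (x : Matrix ι ι F).map σ

theorem avg_invariant (σ : F →+* F) (X : Subgroup (GL ι F)) (M : Matrix ι ι F) {y : GL ι F} (hy : y ∈ X) :
    (y : Matrix ι ι F)ᵀ * avg σ X M * (y : Matrix ι ι F).map σ = avg σ X M := by
  unfold avg
  rw [Finset.mul_sum, Finset.sum_mul]
  refine Finset.sum_nbij' (fun x => x * y) (fun x => x * y⁻¹) ?_ ?_ ?_ ?_ ?_
  · intro x hx
    exact mem_elems.mpr (mul_mem (mem_elems.mp hx) hy)
  · intro x hx
    exact mem_elems.mpr (mul_mem (mem_elems.mp hx) (inv_mem hy))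
  · intro x _
    group
  · intro x _
    group
  · intro x _
    rw [Units.val_mul, Matrix.transpose_mul, Matrix.map_mul]
    simp only [mul_assoc]

theorem single_entry (σ : F →+* F) (x : Matrix ι ι F) (i j : ι) :
    (xᵀ * Matrix.single i j (1 : F) * x.map σ : Matrix ι ι F) i j = x i i * σ (x j j) := by
  rw [Matrix.mul_apply, Finset.sum_eq_single j]
  · rw [Matrix.mul_single_apply_same]
    simp
  · intro l _ hl
    rw [Matrix.mul_single_apply_of_ne 1 i j i l hl, zero_mul]
  · simp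

/-- The trace sum. -/
theorem sum_avg_single (σ : F →+* F) (X : Subgroup (GL ι F)) :
    ∑ i, ∑ j, avg σ X (Matrix.single i j 1) i j =
      ∑ x ∈ elems X, Matrix.trace (x : Matrix ι ι F) * σ (Matrix.trace (x : Matrix ι ι F)) := by
  have h1 : ∀ i j, avg σ X (Matrix.single i j 1) i j =
      ∑ x ∈ elems X, (x : Matrix ι ι F) i i * σ ((x : Matrix ι ι F) j j) := by
    intro i j
    unfold avg
    rw [Matrix.sum_apply]
    exact Finset.sum_congr rfl fun x _ => single_entry σ _ i j
  simp only [h1]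
  rw [Finset.sum_congr rfl fun i _ => Finset.sum_comm, Finset.sum_comm]
  refine Finset.sum_congr rfl fun x _ => ?_
  rw [Matrix.trace, map_sum, Finset.sum_mul_sum]
  rfl

/-- **Averaging**: under the trace hypotheses an invertible invariant matrix exists. -/
theorem exists_invariant {σ : F →+* F} (hσ : Function.Bijective σ) {X : Subgroup (GL ι F)}
    (hX : ∀ W : Submodule F (ι → F), Inv X W → W = ⊥ ∨ W = ⊤)
    (htr : ∀ x ∈ X, x ∉ scalars ι F → Matrix.trace (x : Matrix ι ι F) = 0)
    (hζ : ∀ x ∈ X, ∀ c : F, (x : Matrix ι ι F) = c • 1 → c * σ c = 1)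
    (hn : (Fintype.card ι : F) ≠ 0) (hcard : (Nat.card ↥(X ⊓ scalars ι F) : F) ≠ 0) :
    ∃ A : GL ι F, ∀ x ∈ X, (x : Matrix ι ι F)ᵀ * (A : Matrix ι ι F) * (x : Matrix ι ι F).map σ = A := by
  classical
  have hsum : ∑ x ∈ elems X, Matrix.trace (x : Matrix ι ι F) * σ (Matrix.trace (x : Matrix ι ι F)) =
      (Nat.card ↥(X ⊓ scalars ι F) : F) * ((Fintype.card ι : F) * (Fintype.card ι : F)) := by
    have h1 : ∀ x ∈ elems X, Matrix.trace (x : Matrix ι ι F) * σ (Matrix.trace (x : Matrix ι ι F)) =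
        if x ∈ scalars ι F then (Fintype.card ι : F) * (Fintype.card ι : F) else 0 := by
      intro x hx
      have hx' := mem_elems.mp hx
      split_ifs with h
      · obtain ⟨c, hc⟩ := (mem_scalars_iff' x).mp h
        have h2 := hζ x hx' c hc
        rw [hc, Matrix.trace_smul, Matrix.trace_one, smul_eq_mul, map_mul, map_natCast]
        calc c * (Fintype.card ι : F) * (σ c * (Fintype.card ι : F)) =
            (c * σ c) * ((Fintype.card ι : F) * (Fintype.card ι : F)) := by ring
          _ = _ := by rw [h2, one_mul]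
      · rw [htr x hx' h, zero_mul]
    rw [Finset.sum_congr rfl h1, Finset.sum_ite, Finset.sum_const_zero, add_zero, Finset.sum_const, nsmul_eq_mul]
    congr 2
    have h3 : Nat.card ↥(X ⊓ scalars ι F) = ((elems X).filter fun x => x ∈ scalars ι F).card := by
      refine Nat.subtype_card _ fun y => ?_
      simp [mem_elems]
    rw [h3]
  have hne : ∃ i j, avg σ X (Matrix.single i j 1) ≠ 0 := by
    by_contra hcon
    push Not at hcon
    have h2 := sum_avg_single σ X
    simp only [hcon, Matrix.zero_apply, Finset.sum_const_zero] at h2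
    rw [hsum] at h2
    exact mul_ne_zero hcard (mul_ne_zero hn hn) h2.symm
  obtain ⟨i, j, hij⟩ := hne
  obtain ⟨A, hA⟩ := isUnit_of_invariant hσ hX hij (fun x hx => avg_invariant σ X _ hx)
  exact ⟨A, fun x hx => by rw [hA]; exact avg_invariant σ X _ hx⟩

/-- Non-degeneracy of a matrix form. -/
theorem sesqM_nondegenerate {σ : F →+* F} (hσ : Function.Surjective σ) (A : GL ι F) :
    IsNondegenerateForm (sesqM σ (A : Matrix ι ι F)) := by
  intro v hv
  have hinj : Function.Injective σ := σ.injective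
  constructor
  · have h0 : σ ∘ v ≠ 0 := by
      intro h
      apply hv
      funext i
      have := congrFun h i
      simp only [Function.comp_apply, Pi.zero_apply] at this
      simpa using this
    have h1 : (A : Matrix ι ι F) *ᵥ (σ ∘ v) ≠ 0 := by
      intro h
      apply h0
      have := inv_mulVec_mulVec A (σ ∘ v)
      rw [h, Matrix.mulVec_zero] at this
      exact this.symm
    obtain ⟨i, hi⟩ := Function.ne_iff.mp h1
    refine ⟨Pi.single i 1, ?_⟩
    simpa [sesqM] using hi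
  · obtain ⟨i, hi⟩ := Function.ne_iff.mp hv
    have : ∀ l, ∃ a, σ a = (((A⁻¹ : GL ι F) : Matrix ι ι F) *ᵥ Pi.single i 1) l := fun l => hσ _
    choose x hx using this
    refine ⟨x, ?_⟩
    have h2 : σ ∘ x = ((A⁻¹ : GL ι F) : Matrix ι ι F) *ᵥ Pi.single i 1 := funext hx
    unfold sesqM
    rw [h2, mulVec_inv_mulVec]
    simpa using hi

theorem sesqM_fixes {σ : F →+* F} {X : Subgroup (GL ι F)} {A : Matrix ι ι F}
    (hA : ∀ x ∈ X, (x : Matrix ι ι F)ᵀ * A * (x : Matrix ι ι F).map σ = A) :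
    FixesForm (matrixSet X) (sesqM σ A) := by
  rintro _ ⟨x, hx, rfl⟩ u v
  change sesqM σ A ((x : Matrix ι ι F) *ᵥ u) ((x : Matrix ι ι F) *ᵥ v) = _
  rw [sesqM_mulVec, hA x hx]

theorem exists_unitary_form {X : Subgroup (GL ι F)}
    (hX : ∀ W : Submodule F (ι → F), Inv X W → W = ⊥ ∨ W = ⊤)
    (htr : ∀ x ∈ X, x ∉ scalars ι F → Matrix.trace (x : Matrix ι ι F) = 0)
    (σ : F ≃+* F) (hne : σ ≠ RingEquiv.refl F) (hinv : ∀ a, σ (σ a) = a)
    (hζ : ∀ x ∈ X, ∀ c : F, (x : Matrix ι ι F) = c • 1 → c * σ c = 1)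
    (hn : (Fintype.card ι : F) ≠ 0) (hcard : (Nat.card ↥(X ⊓ scalars ι F) : F) ≠ 0) :
    ∃ f : (ι → F) → (ι → F) → F, IsUnitaryForm σ f ∧ FixesForm (matrixSet X) f := by
  let τ : F →+* F := σ
  have hτ : Function.Bijective τ := σ.bijective
  have hττ : ∀ a, τ (τ a) = a := hinv
  obtain ⟨A, hA⟩ := exists_invariant hτ hX htr hζ hn hcard
  -- the adjoint
  let star : Matrix ι ι F → Matrix ι ι F := fun M => (M.map τ)ᵀ
  have hstar_inv : ∀ M : Matrix ι ι F, (∀ x ∈ X, (x : Matrix ι ι F)ᵀ * M * (x : Matrix ι ι F).map τ = M) →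
      ∀ x ∈ X, (x : Matrix ι ι F)ᵀ * star M * (x : Matrix ι ι F).map τ = star M := by
    intro M hM x hx
    have h1 := congrArg (fun N : Matrix ι ι F => (N.map τ)ᵀ) (hM x hx)
    simp only [Matrix.transpose_map, Matrix.map_mul, Matrix.transpose_mul] at h1
    have h2 : ((x : Matrix ι ι F).map τ).map τ = x := by
      ext i j
      simp [hττ]
    have h3 : ((x : Matrix ι ι F)ᵀᵀ.map τ)ᵀ = ((x : Matrix ι ι F).map τ)ᵀ := by simp
    simp only [star] at h1 ⊢
    simpa [h2, mul_assoc, Matrix.transpose_map, hττ] using h1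
  have hstar_star : ∀ M, star (star M) = M := by
    intro M
    ext i j
    simp [star, hττ]
  -- a nonzero hermitian invariant matrix
  obtain ⟨B, hB0, hBinv, hBstar⟩ : ∃ B : Matrix ι ι F, B ≠ 0 ∧
      (∀ x ∈ X, (x : Matrix ι ι F)ᵀ * B * (x : Matrix ι ι F).map τ = B) ∧ star B = B := by
    have hAne : (A : Matrix ι ι F) ≠ 0 := by
      intro h
      have h1 : (A : Matrix ι ι F) * ((A⁻¹ : GL ι F) : Matrix ι ι F) = 1 := by
        rw [← Units.val_mul, mul_inv_cancel, Units.val_one]
      rw [h, zero_mul] at h1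
      exact zero_ne_one h1
    by_cases h0 : (A : Matrix ι ι F) + star A = 0
    · obtain ⟨a, ha⟩ : ∃ a, σ a ≠ a := by
        by_contra hcon
        push Not at hcon
        exact hne (RingEquiv.ext hcon)
      have hstarA : star A = -(A : Matrix ι ι F) := eq_neg_of_add_eq_zero_right h0
      refine ⟨(a - σ a) • (A : Matrix ι ι F), ?_, ?_, ?_⟩
      · intro h
        rcases smul_eq_zero.mp h with h1 | h1
        · exact ha (sub_eq_zero.mp h1).symm
        · exact hAne h1
      · intro x hx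
        rw [Matrix.mul_smul, Matrix.smul_mul, hA x hx]
      · have h1 : star ((a - σ a) • (A : Matrix ι ι F)) = τ (a - σ a) • star A := by
          ext i j
          simp [star]
        rw [h1, hstarA]
        ext i j
        simp [τ, hinv]
        ring
    · refine ⟨(A : Matrix ι ι F) + star A, h0, ?_, ?_⟩
      · intro x hx
        rw [mul_add, add_mul, hA x hx, hstar_inv _ hA x hx]
      · have h1 : star ((A : Matrix ι ι F) + star A) = star A + star (star A) := by
          ext i j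
          simp [star]
        rw [h1, hstar_star, add_comm]
  obtain ⟨B', hB'⟩ := isUnit_of_invariant hτ hX hB0 hBinv
  refine ⟨sesqM τ B, ⟨hne, hinv, (sesqM_isSesq τ B).add_left, (sesqM_isSesq τ B).smul_left, ?_, ?_⟩, sesqM_fixes hBinv⟩
  · intro v w
    unfold sesqM
    have h1 : ∀ a b : ι → F, σ (a ⬝ᵥ b) = (τ ∘ a) ⬝ᵥ (τ ∘ b) := by
      intro a b
      simp [dotProduct, map_sum, τ]
    rw [h1]
    have h2 : τ ∘ (B *ᵥ (τ ∘ v)) = B.map τ *ᵥ v := by
      funext i
      simp [Matrix.mulVec, dotProduct, map_sum, hττ]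
    rw [h2]
    have h3 : B = (B.map τ)ᵀ := hBstar.symm
    calc v ⬝ᵥ (B *ᵥ (τ ∘ w)) = v ⬝ᵥ ((B.map τ)ᵀ *ᵥ (τ ∘ w)) := by rw [← h3]
      _ = _ := by rw [Matrix.mulVec_transpose, dotProduct_comm, ← Matrix.dotProduct_mulVec]
  · rw [← hB']
    exact sesqM_nondegenerate hτ.2 B'

theorem exists_orthogonal_or_symplectic_form {X : Subgroup (GL ι F)}
    (hodd : Odd (Fintype.card F))
    (hX : ∀ W : Submodule F (ι → F), Inv X W → W = ⊥ ∨ W = ⊤)
    (htr : ∀ x ∈ X, x ∉ scalars ι F → Matrix.trace (x : Matrix ι ι F) = 0)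
    (hζ : ∀ x ∈ X, ∀ c : F, (x : Matrix ι ι F) = c • 1 → c * c = 1)
    (hn : (Fintype.card ι : F) ≠ 0) (hcard : (Nat.card ↥(X ⊓ scalars ι F) : F) ≠ 0) :
    (∃ Q : (ι → F) → F, IsNondegenerateQuadraticForm Q ∧ FixesQuadForm (matrixSet X) Q) ∨
      (∃ f : (ι → F) → (ι → F) → F, IsSymplecticForm f ∧ FixesForm (matrixSet X) f) := by
  have hbij : Function.Bijective (RingHom.id F) := Function.bijective_id
  obtain ⟨A, hA⟩ := exists_invariant hbij hX htr (fun x hx c hc => by simpa using hζ x hx c hc) hn hcard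
  have hA' : ∀ x ∈ X, (x : Matrix ι ι F)ᵀ * (A : Matrix ι ι F) * (x : Matrix ι ι F) = A := by
    intro x hx
    simpa using hA x hx
  have hAT : ∀ x ∈ X, (x : Matrix ι ι F)ᵀ * (A : Matrix ι ι F)ᵀ * (x : Matrix ι ι F) = (A : Matrix ι ι F)ᵀ := by
    intro x hx
    have := congrArg Matrix.transpose (hA' x hx)
    simpa [Matrix.transpose_mul, mul_assoc] using this
  have h2 := two_ne_zero_of_odd hodd
  have hinv' : ∀ {M : Matrix ι ι F}, (∀ x ∈ X, (x : Matrix ι ι F)ᵀ * M * (x : Matrix ι ι F) = M) →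
      ∀ x ∈ X, (x : Matrix ι ι F)ᵀ * M * (x : Matrix ι ι F).map (RingHom.id F) = M := by
    intro M hM x hx
    simpa using hM x hx
  by_cases h0 : (A : Matrix ι ι F) + (A : Matrix ι ι F)ᵀ = 0
  · right
    have hBne : (A : Matrix ι ι F) - (A : Matrix ι ι F)ᵀ ≠ 0 := by
      intro h
      have h3 : (2 : F) • (A : Matrix ι ι F) = 0 := by
        rw [two_smul]
        have : (A : Matrix ι ι F) + (A : Matrix ι ι F) =
            ((A : Matrix ι ι F) + (A : Matrix ι ι F)ᵀ) + ((A : Matrix ι ι F) - (A : Matrix ι ι F)ᵀ) := by abel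
        rw [this, h0, h, add_zero]
      rcases smul_eq_zero.mp h3 with h4 | h4
      · exact h2 h4
      · have h1 : (A : Matrix ι ι F) * ((A⁻¹ : GL ι F) : Matrix ι ι F) = 1 := by
          rw [← Units.val_mul, mul_inv_cancel, Units.val_one]
        rw [h4, zero_mul] at h1
        exact zero_ne_one h1
    have hBinv : ∀ x ∈ X, (x : Matrix ι ι F)ᵀ * ((A : Matrix ι ι F) - (A : Matrix ι ι F)ᵀ) * (x : Matrix ι ι F) =
        (A : Matrix ι ι F) - (A : Matrix ι ι F)ᵀ := by
      intro x hx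
      rw [mul_sub, sub_mul, hA' x hx, hAT x hx]
    obtain ⟨B', hB'⟩ := isUnit_of_invariant hbij hX hBne (hinv' hBinv)
    refine ⟨bil (B' : Matrix ι ι F), bil_symplectic B' ?_ ?_, ?_⟩
    · rw [hB']
      simp [Matrix.transpose_sub]
    · intro i
      rw [hB']
      simp
    · rintro _ ⟨x, hx, rfl⟩ u v
      change bil (B' : Matrix ι ι F) ((x : Matrix ι ι F) *ᵥ u) ((x : Matrix ι ι F) *ᵥ v) = _
      rw [bil_mulVec, hB', hBinv x hx]
  · left
    have hBinv : ∀ x ∈ X, (x : Matrix ι ι F)ᵀ * ((A : Matrix ι ι F) + (A : Matrix ι ι F)ᵀ) * (x : Matrix ι ι F) =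
        (A : Matrix ι ι F) + (A : Matrix ι ι F)ᵀ := by
      intro x hx
      rw [mul_add, add_mul, hA' x hx, hAT x hx]
    obtain ⟨B', hB'⟩ := isUnit_of_invariant hbij hX h0 (hinv' hBinv)
    refine ⟨quad (B' : Matrix ι ι F), quad_nondegenerate B' ?_ h2, ?_⟩
    · rw [hB']
      simp [Matrix.transpose_add, add_comm]
    · rintro _ ⟨x, hx, rfl⟩ v
      change bil (B' : Matrix ι ι F) ((x : Matrix ι ι F) *ᵥ v) ((x : Matrix ι ι F) *ᵥ v) = _
      rw [bil_mulVec, hB', hBinv x hx]
      rw [← hB']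
      rfl

end Average

end Cfsg.Agent.Lib.Classical.Asch.Forms
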