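import Mathlib
import Cfsg.Agent.Lib.Classical.Asch.Forms

/-!
# Reflexive forms and the adjoint of a matrix
-/

set_option autoImplicit false
set_option linter.style.haveILetI false
set_option linter.unusedSectionVars false

namespace Cfsg.Agent.Lib.Classical.Asch.Adj

open scoped MatrixGroups Matrix Kronecker
open Cfsg.Geo Cfsg.Agent.Lib.Classical.Asch.Basic Cfsg.Agent.Lib.Classical.Asch.Forms

variable {ι : Type} [Fintype ι] [DecidableEq ι] {F : Type*} [Field F]

/-- A non-degenerate reflexive sesquilinear form. -/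
structure ReflForm (σ : F ≃+* F) (ε : F) (f : (ι → F) → (ι → F) → F) : Prop where
  add_left : ∀ x y v, f (x + y) v = f x v + f y v
  smul_left : ∀ (c : F) (x v : ι → F), f (c • x) v = c * f x v
  herm : ∀ u v, f u v = ε * σ (f v u)
  invol : ∀ a, σ (σ a) = a
  nondeg : IsNondegenerateForm f

variable {σ : F ≃+* F} {ε : F} {f : (ι → F) → (ι → F) → F}

theorem ReflForm.add_right (hf : ReflForm σ ε f) (v x y : ι → F) : f v (x + y) = f v x + f v y := by
  rw [hf.herm v (x + y), hf.add_left, map_add, mul_add, ← hf.herm v x, ← hf.herm v y]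

theorem ReflForm.smul_right (hf : ReflForm σ ε f) (c : F) (v x : ι → F) : f v (c • x) = σ c * f v x := by
  rw [hf.herm v (c • x), hf.smul_left, map_mul, hf.herm v x]
  ring

theorem ReflForm.isSesq (hf : ReflForm σ ε f) : IsSesq (σ : F →+* F) f where
  add_left := hf.add_left
  smul_left := hf.smul_left
  add_right := hf.add_right
  smul_right c v x := hf.smul_right c v x

theorem ReflForm.zero_left (hf : ReflForm σ ε f) (v : ι → F) : f 0 v = 0 := by
  have := hf.smul_left 0 0 v
  simpa using this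

theorem ReflForm.zero_right (hf : ReflForm σ ε f) (v : ι → F) : f v 0 = 0 := by
  have := hf.smul_right 0 v 0
  simpa using this

theorem ReflForm.neg_left (hf : ReflForm σ ε f) (u v : ι → F) : f (-u) v = - f u v := by
  have := hf.smul_left (-1) u v
  simpa using this

theorem ReflForm.neg_right (hf : ReflForm σ ε f) (u v : ι → F) : f u (-v) = - f u v := by
  have := hf.smul_right (-1) u v
  simpa using this

theorem ReflForm.sub_left (hf : ReflForm σ ε f) (x y v : ι → F) : f (x - y) v = f x v - f y v := by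
  rw [sub_eq_add_neg, hf.add_left, hf.neg_left, sub_eq_add_neg]

theorem ReflForm.sub_right (hf : ReflForm σ ε f) (v x y : ι → F) : f v (x - y) = f v x - f v y := by
  rw [sub_eq_add_neg, hf.add_right, hf.neg_right, sub_eq_add_neg]

/-- The sign satisfies `ε σ(ε) = 1`. -/
theorem ReflForm.eps_mul [Nonempty ι] (hf : ReflForm σ ε f) : ε * σ ε = 1 := by
  obtain ⟨i⟩ := ‹Nonempty ι›
  have hv : (Pi.single i 1 : ι → F) ≠ 0 := by
    intro h
    have := congrFun h i
    simp at this
  obtain ⟨⟨x, hx⟩, -⟩ := hf.nondeg _ hv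
  have h1 : f x (Pi.single i 1) = ε * σ ε * f x (Pi.single i 1) := by
    conv_lhs => rw [hf.herm, hf.herm (Pi.single i 1) x, map_mul, hf.invol]
    ring
  have h2 : (ε * σ ε - 1) * f x (Pi.single i 1) = 0 := by
    rw [sub_mul, ← h1]
    ring
  rcases mul_eq_zero.mp h2 with h3 | h3
  · exact sub_eq_zero.mp h3
  · exact absurd h3 hx

theorem ReflForm.eps_ne_zero [Nonempty ι] (hf : ReflForm σ ε f) : ε ≠ 0 := by
  intro h
  have := hf.eps_mul
  rw [h, zero_mul] at this
  exact zero_ne_one this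

theorem reflForm_symplectic (hf : IsSymplecticForm f) : ReflForm (RingEquiv.refl F) (-1) f where
  add_left := hf.bilinear.add_left
  smul_left := hf.bilinear.smul_left
  herm u v := by
    rw [hf.skew]
    simp
  invol _ := rfl
  nondeg := hf.nondegenerate

theorem reflForm_symmetric (hf : IsSymmetricForm f) : ReflForm (RingEquiv.refl F) 1 f where
  add_left := hf.bilinear.add_left
  smul_left := hf.bilinear.smul_left
  herm u v := by
    rw [hf.symm]
    simp
  invol _ := rfl
  nondeg := hf.nondegenerate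

theorem reflForm_unitary (hf : IsUnitaryForm σ f) : ReflForm σ 1 f where
  add_left := hf.add_left
  smul_left := hf.smul_left
  herm u v := by
    rw [one_mul]
    exact hf.herm u v
  invol := hf.involutive
  nondeg := hf.nondegenerate

theorem reflForm_polar {Q : (ι → F) → F} (hQ : IsNondegenerateQuadraticForm Q) :
    ReflForm (RingEquiv.refl F) 1 (QuadraticMap.polar Q) where
  add_left := hQ.polar_bilinear.add_left
  smul_left := hQ.polar_bilinear.smul_left
  herm u v := by
    rw [QuadraticMap.polar_comm]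
    simp
  invol _ := rfl
  nondeg := hQ.nondegenerate

/-- The adjoint of a matrix. -/
noncomputable def adj (σ : F ≃+* F) (f : (ι → F) → (ι → F) → F) (x : Matrix ι ι F) : Matrix ι ι F :=
  (((gram f)⁻¹ : Matrix ι ι F) * xᵀ * gram f).map σ

theorem ReflForm.isUnit_gram (hf : ReflForm σ ε f) : IsUnit (gram f) :=
  Forms.isUnit_gram (σ := (σ : F →+* F)) σ.surjective hf.isSesq hf.nondeg

/-- The adjoint formula. -/
theorem ReflForm.adj_spec (hf : ReflForm σ ε f) (x : Matrix ι ι F) (u v : ι → F) :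
    f (x *ᵥ u) v = f u (adj σ f x *ᵥ v) := by
  rw [hf.isSesq.eq_sesqM, hf.isSesq.eq_sesqM]
  set J := gram f with hJ
  have hJu : IsUnit J := hf.isUnit_gram
  have h1 : (σ : F →+* F) ∘ (adj σ f x *ᵥ v) = (((J⁻¹ : Matrix ι ι F) * xᵀ * J) *ᵥ ((σ : F →+* F) ∘ v)) := by
    funext i
    simp only [adj, Function.comp_apply, Matrix.mulVec, dotProduct, map_sum, map_mul, Matrix.map_apply]
    refine Finset.sum_congr rfl fun j _ => ?_
    congr 1
    exact hf.invol _
  unfold sesqM
  rw [h1, Matrix.mulVec_mulVec, ← mul_assoc, ← mul_assoc]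
  have h2 : J * (J⁻¹ : Matrix ι ι F) = 1 := Matrix.mul_nonsing_inv _ ((Matrix.isUnit_iff_isUnit_det _).mp hJu)
  rw [h2, one_mul, ← Matrix.mulVec_mulVec, Matrix.dotProduct_mulVec u, Matrix.vecMul_transpose]

/-- Vectors are determined by the values of the form. -/
theorem ReflForm.eq_of_forall_right (hf : ReflForm σ ε f) {v w : ι → F} (h : ∀ u, f u v = f u w) : v = w := by
  by_contra hne
  have h0 : v - w ≠ 0 := sub_ne_zero.mpr hne
  obtain ⟨⟨x, hx⟩, -⟩ := hf.nondeg _ h0
  apply hx
  rw [hf.sub_right, h x, sub_self]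

theorem ReflForm.eq_of_forall_left (hf : ReflForm σ ε f) {v w : ι → F} (h : ∀ u, f v u = f w u) : v = w := by
  by_contra hne
  have h0 : v - w ≠ 0 := sub_ne_zero.mpr hne
  obtain ⟨-, ⟨x, hx⟩⟩ := hf.nondeg _ h0
  apply hx
  rw [hf.sub_left, h x, sub_self]

theorem matrix_ext_mulVec {x y : Matrix ι ι F} (h : ∀ v : ι → F, x *ᵥ v = y *ᵥ v) : x = y := by
  ext i j
  have := congrFun (h (Pi.single j 1)) i
  simpa using this

/-- Uniqueness of the adjoint. -/
theorem ReflForm.eq_adj (hf : ReflForm σ ε f) {x y : Matrix ι ι F}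
    (h : ∀ u v, f (x *ᵥ u) v = f u (y *ᵥ v)) : y = adj σ f x := by
  apply matrix_ext_mulVec
  intro v
  apply hf.eq_of_forall_right
  intro u
  rw [← h, hf.adj_spec]

theorem ReflForm.adj_one (hf : ReflForm σ ε f) : adj σ f (1 : Matrix ι ι F) = 1 :=
  (hf.eq_adj fun u v => by simp).symm

theorem ReflForm.adj_mul (hf : ReflForm σ ε f) (x y : Matrix ι ι F) :
    adj σ f (x * y) = adj σ f y * adj σ f x :=
  (hf.eq_adj fun u v => by
    rw [← Matrix.mulVec_mulVec, ← Matrix.mulVec_mulVec, hf.adj_spec, hf.adj_spec]).symm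

theorem ReflForm.adj_add (hf : ReflForm σ ε f) (x y : Matrix ι ι F) :
    adj σ f (x + y) = adj σ f x + adj σ f y :=
  (hf.eq_adj fun u v => by
    rw [Matrix.add_mulVec, Matrix.add_mulVec, hf.add_left, hf.add_right, hf.adj_spec, hf.adj_spec]).symm

theorem ReflForm.adj_smul (hf : ReflForm σ ε f) (c : F) (x : Matrix ι ι F) :
    adj σ f (c • x) = σ c • adj σ f x :=
  (hf.eq_adj fun u v => by
    rw [Matrix.smul_mulVec, Matrix.smul_mulVec, hf.smul_left, hf.smul_right, hf.invol, hf.adj_spec]).symm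

theorem ReflForm.adj_zero (hf : ReflForm σ ε f) : adj σ f (0 : Matrix ι ι F) = 0 := by
  have := hf.adj_smul 0 (0 : Matrix ι ι F)
  simpa using this

theorem ReflForm.adj_adj (hf : ReflForm σ ε f) (x : Matrix ι ι F) : adj σ f (adj σ f x) = x :=
  (hf.eq_adj fun u v => by
    rw [hf.herm, hf.herm u (x *ᵥ v), ← hf.adj_spec]).symm

theorem ReflForm.adj_pow (hf : ReflForm σ ε f) (x : Matrix ι ι F) (n : ℕ) : adj σ f (x ^ n) = (adj σ f x) ^ n := by
  induction n with
  | zero => simp [hf.adj_one]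
  | succ n ih => rw [pow_succ, hf.adj_mul, ih, pow_succ, (Commute.pow_left (Commute.refl _) n).eq]

/-- The adjoint of a similarity. -/
theorem ReflForm.adj_of_similarity (hf : ReflForm σ ε f) {g : GL ι F} {c : Fˣ}
    (hc : ∀ u v, f ((g : Matrix ι ι F) *ᵥ u) ((g : Matrix ι ι F) *ᵥ v) = (c : F) * f u v) :
    adj σ f (g : Matrix ι ι F) = σ (c : F) • ((g⁻¹ : GL ι F) : Matrix ι ι F) :=
  (hf.eq_adj fun u v => by
    rw [Matrix.smul_mulVec, hf.smul_right, hf.invol, ← hc]
    simp [Matrix.mulVec_mulVec]).symm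

/-- Conjugation by a similarity commutes with the adjoint. -/
theorem ReflForm.adj_conj (hf : ReflForm σ ε f) {g : GL ι F} (hg : g ∈ similarityGroup f) (x : Matrix ι ι F) :
    adj σ f (conj g x) = conj g (adj σ f x) := by
  obtain ⟨c, hc⟩ := hg
  have h1 := hf.adj_of_similarity hc
  have hc' : ∀ u v, f (((g⁻¹ : GL ι F) : Matrix ι ι F) *ᵥ u) (((g⁻¹ : GL ι F) : Matrix ι ι F) *ᵥ v) =
      ((c⁻¹ : Fˣ) : F) * f u v := by
    intro u v
    have := hc (((g⁻¹ : GL ι F) : Matrix ι ι F) *ᵥ u) (((g⁻¹ : GL ι F) : Matrix ι ι F) *ᵥ v)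
    rw [mulVec_inv_mulVec, mulVec_inv_mulVec] at this
    rw [this, ← mul_assoc, Units.val_inv_eq_inv_val, inv_mul_cancel₀ c.ne_zero, one_mul]
  have h2 := hf.adj_of_similarity hc'
  rw [inv_inv] at h2
  unfold conj
  rw [hf.adj_mul, hf.adj_mul, h1, h2]
  simp only [Matrix.mul_smul, Matrix.smul_mul, smul_smul, mul_assoc]
  have h3 : σ (c : F) * σ ((c⁻¹ : Fˣ) : F) = 1 := by
    rw [← map_mul, Units.val_inv_eq_inv_val, mul_inv_cancel₀ c.ne_zero, map_one]
  rw [h3, one_smul]

/-- Adjoint-closed sets. -/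
def AdjClosed (σ : F ≃+* F) (f : (ι → F) → (ι → F) → F) (E : Subalgebra F (Matrix ι ι F)) : Prop :=
  ∀ x ∈ E, adj σ f x ∈ E

theorem AdjClosed.isAdjointClosedFor {E : Subalgebra F (Matrix ι ι F)} (hf : ReflForm σ ε f) (h : AdjClosed σ f E) :
    IsAdjointClosedFor f E :=
  fun k hk => ⟨adj σ f k, h k hk, hf.adj_spec k⟩

/-- The adjoint of a member of a subgroup of the similarity group is a scalar multiple of the inverse. -/
theorem adjClosed_cent (hf : ReflForm σ ε f) {N : Subgroup (GL ι F)} (hN : N ≤ similarityGroup f) :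
    AdjClosed σ f (cent N) := by
  intro x hx
  rw [mem_cent] at hx ⊢
  intro g hg
  obtain ⟨c, hc⟩ := hN (inv_mem hg)
  have h1 := hx g⁻¹ (inv_mem hg)
  have h2 := congrArg (adj σ f) h1
  rw [hf.adj_mul, hf.adj_mul, hf.adj_of_similarity hc, inv_inv] at h2
  have hc0 : σ (c : F) ≠ 0 := by
    rw [Ne, map_eq_zero]
    exact c.ne_zero
  rw [Matrix.mul_smul, Matrix.smul_mul] at h2
  have h3 := congrArg (fun M => (σ (c : F))⁻¹ • M) h2
  simp only [smul_smul, inv_mul_cancel₀ hc0, one_smul] at h3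
  exact h3.symm

/-- The centre of an adjoint-closed subalgebra is adjoint-closed. -/
theorem adjClosed_centerOf (hf : ReflForm σ ε f) {C : Subalgebra F (Matrix ι ι F)} (hC : AdjClosed σ f C)
    {E : Subalgebra F (Matrix ι ι F)} (hE : ∀ x, x ∈ E ↔ x ∈ C ∧ ∀ y ∈ C, x * y = y * x) : AdjClosed σ f E := by
  intro x hx
  obtain ⟨h1, h2⟩ := (hE x).mp hx
  refine (hE _).mpr ⟨hC x h1, fun y hy => ?_⟩
  have h3 := h2 (adj σ f y) (hC y hy)
  have h4 := congrArg (adj σ f) h3
  rw [hf.adj_mul, hf.adj_mul, hf.adj_adj] at h4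
  exact h4.symm

end Cfsg.Agent.Lib.Classical.Asch.Adj
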