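import Mathlib

/-!
# Counting solutions of `x ^ m = x` in finite fields; subfields of a finite extension
-/

set_option autoImplicit false
set_option linter.style.haveILetI false

namespace Cfsg.Agent.Lib.Classical.Asch.FieldCount

/-- In a finite field with `|L| - 1` divisible by `m - 1`, the equation `x ^ m = x` has exactly `m` solutions. -/
theorem ncard_pow_eq_self {L : Type*} [Field L] [Finite L] {m : ℕ}
    (h : m - 1 ∣ Nat.card L - 1) : Set.ncard {x : L | x ^ m = x} = m := by
  classical
  haveI : Fintype L := Fintype.ofFinite L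
  have hcard : 1 < Nat.card L := Finite.one_lt_card
  have hm : 2 ≤ m := by
    by_contra hcon
    have h0 : m - 1 = 0 := by omega
    rw [h0, zero_dvd_iff] at h
    omega
  have hu : Nat.card Lˣ = Nat.card L - 1 := by
    rw [Nat.card_eq_fintype_card, Nat.card_eq_fintype_card, Fintype.card_units]
  have hker : Nat.card (powMonoidHom (m - 1) : Lˣ →* Lˣ).ker = m - 1 := by
    rw [IsCyclic.card_powMonoidHom_ker, hu]
    exact Nat.gcd_eq_right h
  have hS : {x : L | x ^ m = x} = insert 0 ((fun u : Lˣ => (u : L)) ''
      ((powMonoidHom (m - 1) : Lˣ →* Lˣ).ker : Set Lˣ)) := by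
    ext x
    simp only [Set.mem_ofPred_eq, Set.mem_insert_iff, Set.mem_image, SetLike.mem_coe, MonoidHom.mem_ker,
      powMonoidHom_apply]
    constructor
    · intro hx
      by_cases h0 : x = 0
      · exact Or.inl h0
      · right
        refine ⟨Units.mk0 x h0, ?_, rfl⟩
        apply Units.ext
        simp only [Units.val_pow_eq_pow_val, Units.val_mk0, Units.val_one]
        have : x ^ (m - 1) * x = 1 * x := by
          rw [one_mul, ← pow_succ, Nat.sub_add_cancel (by omega), hx]
        exact mul_right_cancel₀ h0 this
    · rintro (h0 | ⟨u, hu, rfl⟩)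
      · subst h0
        exact zero_pow (by omega)
      · have h2 := congrArg Units.val hu
        simp only [Units.val_pow_eq_pow_val, Units.val_one] at h2
        calc (u : L) ^ m = (u : L) ^ (m - 1) * u := by
              rw [← pow_succ, Nat.sub_add_cancel (by omega)]
          _ = u := by rw [h2, one_mul]
  rw [hS, Set.ncard_insert_of_notMem, Set.ncard_image_of_injective _ Units.val_injective]
  · rw [← Nat.card_coe_set_eq]
    have : Nat.card ((powMonoidHom (m - 1) : Lˣ →* Lˣ).ker : Set Lˣ) = m - 1 := hker
    rw [this]
    omega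
  · rintro ⟨u, _, hu⟩
    exact u.ne_zero hu

/-- The subalgebra of a finite field extension of degree `d`, of degree `r ∣ d`. -/
theorem exists_subalgebra (F L : Type*) [Field F] [Fintype F] [Field L] [Algebra F L] [Finite L]
    {r : ℕ} (hr : r ∣ Module.finrank F L) :
    ∃ K : Subalgebra F L, (∀ x, x ∈ K ↔ x ^ (Fintype.card F ^ r) = x) ∧ Module.finrank F K = r := by
  classical
  haveI : Fintype L := Fintype.ofFinite L
  have hiter : ∀ (n : ℕ) (x : L), ((FiniteField.frobeniusAlgHom F L) ^ n) x = x ^ (Fintype.card F ^ n) := by
    intro n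
    induction n with
    | zero => intro x; simp
    | succ n ih =>
      intro x
      rw [pow_succ', AlgHom.mul_apply, ih, FiniteField.coe_frobeniusAlgHom, pow_succ']
      change (x ^ Fintype.card F ^ n) ^ Fintype.card F = _
      rw [← pow_mul, mul_comm]
  let K : Subalgebra F L := AlgHom.equalizer ((FiniteField.frobeniusAlgHom F L) ^ r) (AlgHom.id F L)
  have hK : ∀ x, x ∈ K ↔ x ^ (Fintype.card F ^ r) = x := by
    intro x
    change ((FiniteField.frobeniusAlgHom F L) ^ r) x = (AlgHom.id F L) x ↔ _
    rw [hiter, AlgHom.id_apply]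
  refine ⟨K, hK, ?_⟩
  have hq : 1 < Fintype.card F := Fintype.one_lt_card
  have hL : Nat.card L = Fintype.card F ^ Module.finrank F L := by
    rw [Nat.card_eq_fintype_card, Module.card_eq_pow_finrank (K := F) (V := L)]
  have hcount := ncard_pow_eq_self (L := L) (m := Fintype.card F ^ r) (by
    rw [hL]
    exact Nat.pow_sub_one_dvd_pow_sub_one (Fintype.card F) hr)
  have hset : {x : L | x ^ (Fintype.card F ^ r) = x} = (K : Set L) := by
    ext x
    exact (hK x).symm
  rw [hset, ← Nat.card_coe_set_eq] at hcount
  haveI : Fintype K := Fintype.ofFinite K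
  have h2 : Nat.card K = Fintype.card F ^ Module.finrank F K := by
    rw [Nat.card_eq_fintype_card, Module.card_eq_pow_finrank (K := F) (V := K)]
  have h3 : Fintype.card F ^ Module.finrank F K = Fintype.card F ^ r := by
    rw [← h2]
    exact hcount
  exact Nat.pow_right_injective hq h3

end Cfsg.Agent.Lib.Classical.Asch.FieldCount
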