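import Mathlib
import Cfsg.Agent.Lib.Classical.Asch.Basic

/-!
# Subalgebras stable under an irreducible group have zero Jacobson radical
-/

set_option autoImplicit false
set_option linter.style.haveILetI false

namespace Cfsg.Agent.Lib.Classical.Asch.Stable

open scoped MatrixGroups Matrix
open Cfsg.Geo Cfsg.Agent.Lib.Classical.Asch.Basic

variable {ι : Type} [Fintype ι] [DecidableEq ι] {F : Type*} [Field F]

/-- Conjugation restricted to a stable subalgebra. -/
def conjC {G : Subgroup (GL ι F)} {C : Subalgebra F (Matrix ι ι F)}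
    (hC : Stable G (C : Set (Matrix ι ι F))) {g : GL ι F} (hg : g ∈ G) : ↥C →+* ↥C where
  toFun x := ⟨conj g x.1, hC g hg x.1 x.2⟩
  map_one' := Subtype.ext (conj_one g)
  map_mul' x y := Subtype.ext (conj_mul g x.1 y.1)
  map_zero' := Subtype.ext (by simp [conj])
  map_add' x y := Subtype.ext (conj_add g x.1 y.1)

@[simp] theorem conjC_coe {G : Subgroup (GL ι F)} {C : Subalgebra F (Matrix ι ι F)}
    (hC : Stable G (C : Set (Matrix ι ι F))) {g : GL ι F} (hg : g ∈ G) (x : ↥C) :
    (conjC hC hg x : Matrix ι ι F) = conj g x.1 := rfl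

/-- Abstract form: a ring acting faithfully on a finite nontrivial module, with "irreducibility" under a family of
semilinear maps, has zero radical. -/
theorem jacobson_eq_bot_abstract {R M A : Type*} [Ring R] [AddCommGroup M] [Module R M] [Nontrivial M]
    [Module.Finite R M] (hfaith : ∀ r : R, (∀ m : M, r • m = 0) → r = 0)
    (φ : A → R →+* R) (hφ : ∀ a, Function.Surjective (φ a)) (T : A → M →+ M)
    (hT : ∀ a r m, T a (r • m) = φ a r • T a m)
    (hirr : ∀ N : Submodule R M, (∀ a, ∀ m ∈ N, T a m ∈ N) → N = ⊥ ∨ N = ⊤) :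
    Ring.jacobson R = ⊥ := by
  have hN : Ring.jacobson R • (⊤ : Submodule R M) < ⊤ := Submodule.jacobson_smul_lt_top _
  have hmem : ∀ a, ∀ j ∈ Ring.jacobson R, φ a j ∈ Ring.jacobson R := by
    intro a j hj
    haveI : RingHomSurjective (φ a) := ⟨hφ a⟩
    exact Ring.le_comap_jacobson (φ a) hj
  have hinv : ∀ a, ∀ m ∈ Ring.jacobson R • (⊤ : Submodule R M), T a m ∈ Ring.jacobson R • (⊤ : Submodule R M) := by
    intro a m hm
    refine Submodule.smul_induction_on hm ?_ ?_
    · intro j hj u _
      rw [hT]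
      exact Submodule.smul_mem_smul (hmem a j hj) Submodule.mem_top
    · intro x y hx hy
      rw [map_add]
      exact Submodule.add_mem _ hx hy
  have hbot : Ring.jacobson R • (⊤ : Submodule R M) = ⊥ := by
    rcases hirr _ hinv with h | h
    · exact h
    · exact absurd h hN.ne
  rw [eq_bot_iff]
  intro j hj
  rw [Ideal.mem_bot]
  apply hfaith
  intro m
  have h1 : j • m ∈ Ring.jacobson R • (⊤ : Submodule R M) :=
    Submodule.smul_mem_smul hj Submodule.mem_top
  rw [hbot, Submodule.mem_bot] at h1
  exact h1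

/-- `C` acts on column vectors. -/
def toEndC (C : Subalgebra F (Matrix ι ι F)) : ↥C →+* Module.End F (ι → F) :=
  ((Matrix.toLinAlgEquiv' (R := F) (n := ι)) : Matrix ι ι F →+* _).comp C.val.toRingHom

/-- **Radical vanishes**: a subalgebra stable under an irreducible group has zero radical. -/
theorem jacobson_eq_bot [Nonempty ι] {G : Subgroup (GL ι F)}
    (hG : ∀ W : Submodule F (ι → F), Inv G W → W = ⊥ ∨ W = ⊤)
    {C : Subalgebra F (Matrix ι ι F)} (hC : Stable G (C : Set (Matrix ι ι F))) :
    Ring.jacobson ↥C = ⊥ := by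
  letI inst : Module ↥C (ι → F) := Module.compHom _ (toEndC C)
  have smul_def : ∀ (c : ↥C) (v : ι → F), c • v = c.1 *ᵥ v := fun c v => rfl
  have smul_alg : ∀ (a : F) (v : ι → F), (algebraMap F ↥C a) • v = a • v := by
    intro a v
    rw [smul_def]
    change (algebraMap F (Matrix ι ι F) a) *ᵥ v = _
    rw [Algebra.algebraMap_eq_smul_one, Matrix.smul_mulVec, Matrix.one_mulVec]
  haveI fin : Module.Finite ↥C (ι → F) := by
    classical
    refine ⟨⟨(Finset.univ : Finset ι).image fun i => (Pi.single i 1 : ι → F), ?_⟩⟩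
    rw [eq_top_iff]
    intro x _
    have hx : x = ∑ i, (algebraMap F ↥C (x i)) • (Pi.single i 1 : ι → F) := by
      ext j
      simp [smul_alg, Pi.single_apply, Finset.sum_apply]
    rw [hx]
    refine Submodule.sum_mem _ fun i _ => Submodule.smul_mem _ _ (Submodule.subset_span ?_)
    simp
  refine jacobson_eq_bot_abstract (M := ι → F) (A := G) ?_ (fun g => conjC hC g.2) ?_
    (fun g => (Matrix.mulVecLin (g.1 : Matrix ι ι F)).toAddMonoidHom) ?_ ?_
  · intro r hr
    apply Subtype.ext
    change r.1 = 0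
    ext a b
    have h2 : r.1 *ᵥ (Pi.single b 1) = 0 := hr (Pi.single b 1)
    have := congrFun h2 a
    simpa using this
  · intro g y
    refine ⟨conjC hC (inv_mem g.2) y, Subtype.ext ?_⟩
    simp [conj_conj_inv]
  · intro g r m
    change (g.1 : Matrix ι ι F) *ᵥ (r.1 *ᵥ m) = (conj g.1 r.1) *ᵥ ((g.1 : Matrix ι ι F) *ᵥ m)
    rw [conj_mulVec]
  · intro N hN
    let W : Submodule F (ι → F) :=
      { carrier := N
        add_mem' := N.add_mem
        zero_mem' := N.zero_mem
        smul_mem' := fun a v hv => by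
          rw [← smul_alg]
          exact N.smul_mem _ hv }
    have hW : Inv G W := fun g hg v hv => hN ⟨g, hg⟩ v hv
    rcases hG W hW with h | h
    · left
      rw [eq_bot_iff]
      intro x hx
      have : x ∈ W := hx
      rw [h] at this
      exact this
    · right
      rw [eq_top_iff]
      intro x _
      have : x ∈ W := by rw [h]; trivial
      exact this

/-- Stable subalgebras are semisimple. -/
theorem isSemisimpleRing_of_stable [Nonempty ι] {G : Subgroup (GL ι F)}
    (hG : ∀ W : Submodule F (ι → F), Inv G W → W = ⊥ ∨ W = ⊤)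
    {C : Subalgebra F (Matrix ι ι F)} (hC : Stable G (C : Set (Matrix ι ι F))) :
    IsSemisimpleRing ↥C := by
  haveI : IsArtinianRing ↥C := IsArtinianRing.of_finite F ↥C
  exact IsArtinianRing.isSemisimpleRing_iff_jacobson.mpr (jacobson_eq_bot hG hC)

end Cfsg.Agent.Lib.Classical.Asch.Stable
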