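import Mathlib
import Cfsg.Agent.Lib.Classical.Asch.Basic

/-!
# A semisimple subalgebra with scalar centre over a finite field is a full matrix algebra
-/

set_option autoImplicit false
set_option linter.style.haveILetI false

namespace Cfsg.Agent.Lib.Classical.Asch.Centralizer

open scoped MatrixGroups Matrix
open Cfsg.Geo Cfsg.Agent.Lib.Classical.Asch.Basic

variable {ι : Type} [Fintype ι] [DecidableEq ι] {F : Type*} [Field F]

theorem exists_matrix_of_center_scalar [Fintype F] [Nonempty ι]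
    {C : Subalgebra F (Matrix ι ι F)} [IsSemisimpleRing ↥C]
    (hZ : ∀ z ∈ C, (∀ y ∈ C, z * y = y * z) → ∃ c : F, z = c • (1 : Matrix ι ι F)) :
    ∃ (k : ℕ) (ψ : Matrix (Fin k) (Fin k) F →ₐ[F] Matrix ι ι F), 0 < k ∧ ∀ x, x ∈ C ↔ ∃ c, ψ c = x := by
  obtain ⟨n, D, d, _, _, _, hd, ⟨φ⟩⟩ :=
    IsSemisimpleRing.exists_algEquiv_pi_matrix_divisionRing_finite F ↥C
  -- central elements of the product
  have hcentral : ∀ w : (Π i, Matrix (Fin (d i)) (Fin (d i)) (D i)), (∀ u, w * u = u * w) →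
      ∃ c : F, w = c • 1 := by
    intro w hw
    obtain ⟨c, hc⟩ := hZ (φ.symm w).1 (φ.symm w).2 (fun y hy => by
      have h1 : φ.symm w * ⟨y, hy⟩ = ⟨y, hy⟩ * φ.symm w := by
        apply φ.injective
        rw [map_mul, map_mul, AlgEquiv.apply_symm_apply]
        exact hw _
      exact congrArg Subtype.val h1)
    refine ⟨c, ?_⟩
    have h2 : φ.symm w = c • 1 := Subtype.ext hc
    rw [← φ.apply_symm_apply w, h2, map_smul, map_one]
  haveI : ∀ i, Nonempty (Fin (d i)) := fun i => ⟨⟨0, Nat.pos_of_ne_zero (hd i).ne⟩⟩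
  have hnon : ∀ i, (1 : Matrix (Fin (d i)) (Fin (d i)) (D i)) ≠ 0 := fun i => one_ne_zero
  -- `n = 1`
  have hn : n = 1 := by
    have hn0 : n ≠ 0 := by
      rintro rfl
      have h1 : φ 1 = φ 0 := Subsingleton.elim _ _
      have h2 : (1 : ↥C) = 0 := φ.injective h1
      exact one_ne_zero (α := Matrix ι ι F) (congrArg Subtype.val h2)
    by_contra hn1
    have h2 : 2 ≤ n := by omega
    let i₀ : Fin n := ⟨0, by omega⟩
    let i₁ : Fin n := ⟨1, by omega⟩
    have hne : i₁ ≠ i₀ := by simp [i₀, i₁, Fin.ext_iff]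
    have hcen : ∀ u : (Π i, Matrix (Fin (d i)) (Fin (d i)) (D i)),
        (Pi.single i₀ 1 : (Π i, Matrix (Fin (d i)) (Fin (d i)) (D i))) * u = u * Pi.single i₀ 1 := by
      intro u
      funext i
      by_cases hi : i = i₀
      · subst hi
        simp
      · simp [Pi.single_eq_of_ne hi]
    obtain ⟨c, hc⟩ := hcentral _ hcen
    have h3 := congrFun hc i₁
    rw [Pi.single_eq_of_ne hne] at h3
    have h4 := congrFun hc i₀
    rw [Pi.single_eq_same] at h4
    have hc0 : c = 0 := by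
      by_contra hc0
      apply hnon i₁
      have h5 : c⁻¹ • (c • (1 : Π i, Matrix (Fin (d i)) (Fin (d i)) (D i))) i₁ = 1 := by
        rw [Pi.smul_apply, smul_smul, inv_mul_cancel₀ hc0, one_smul]
        rfl
      rw [← h5, ← h3, smul_zero]
    rw [hc0, zero_smul] at h4
    exact hnon i₀ h4
  subst hn
  let e₀ : (Π i, Matrix (Fin (d i)) (Fin (d i)) (D i)) ≃ₐ[F] Matrix (Fin (d 0)) (Fin (d 0)) (D 0) :=
    AlgEquiv.ofBijective (Pi.evalAlgHom F (fun i => Matrix (Fin (d i)) (Fin (d i)) (D i)) 0)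
      ⟨fun u v h => by
        funext i
        rw [Fin.fin_one_eq_zero i]
        exact h, fun a => ⟨Pi.single 0 a, by
        change (Pi.single (0 : Fin 1) a : (Π i, Matrix (Fin (d i)) (Fin (d i)) (D i))) 0 = a
        exact Pi.single_eq_same _ _⟩⟩
  let φ' : ↥C ≃ₐ[F] Matrix (Fin (d 0)) (Fin (d 0)) (D 0) := φ.trans e₀
  have hcentral' : ∀ w : Matrix (Fin (d 0)) (Fin (d 0)) (D 0), (∀ u, w * u = u * w) →
      ∃ c : F, w = c • 1 := by
    intro w hw
    obtain ⟨c, hc⟩ := hZ (φ'.symm w).1 (φ'.symm w).2 (fun y hy => by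
      have h1 : φ'.symm w * ⟨y, hy⟩ = ⟨y, hy⟩ * φ'.symm w := by
        apply φ'.injective
        rw [map_mul, map_mul, AlgEquiv.apply_symm_apply]
        exact hw _
      exact congrArg Subtype.val h1)
    refine ⟨c, ?_⟩
    have h2 : φ'.symm w = c • 1 := Subtype.ext hc
    rw [← φ'.apply_symm_apply w, h2, map_smul, map_one]
  haveI : Finite (D 0) := Module.finite_of_finite F
  have hcomm : ∀ a b : D 0, a * b = b * a := fun a b => (littleWedderburn (D 0)).mul_comm a b
  have hsurj : Function.Surjective (algebraMap F (D 0)) := by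
    intro a
    obtain ⟨c, hc⟩ := hcentral' (Matrix.scalar (Fin (d 0)) a) (fun u => by
      ext i j
      simp [Matrix.scalar_apply, Matrix.diagonal_mul, Matrix.mul_diagonal, hcomm])
    refine ⟨c, ?_⟩
    obtain ⟨i⟩ := (inferInstance : Nonempty (Fin (d 0)))
    have h1 := congrFun (congrFun hc i) i
    simp [Matrix.scalar_apply] at h1
    rw [h1, Algebra.algebraMap_eq_smul_one]
  let θ : F ≃ₐ[F] D 0 := AlgEquiv.ofBijective (Algebra.ofId F (D 0))
    ⟨(algebraMap F (D 0)).injective, hsurj⟩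
  let ψ₀ : Matrix (Fin (d 0)) (Fin (d 0)) F ≃ₐ[F] Matrix (Fin (d 0)) (Fin (d 0)) (D 0) := θ.mapMatrix
  refine ⟨d 0, C.val.comp (φ'.symm.toAlgHom.comp ψ₀.toAlgHom), Nat.pos_of_ne_zero (hd 0).ne, fun x => ?_⟩
  constructor
  · intro hx
    refine ⟨ψ₀.symm (φ' ⟨x, hx⟩), ?_⟩
    simp
  · rintro ⟨c, rfl⟩
    exact ((φ'.symm (ψ₀ c))).2

end Cfsg.Agent.Lib.Classical.Asch.Centralizer
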