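import Mathlib
import Cfsg.Agent.Lib.Classical.Asch.Basic

/-!
# A subgroup with scalar centraliser normalised by an irreducible group is irreducible
-/

set_option autoImplicit false
set_option linter.style.haveILetI false

namespace Cfsg.Agent.Lib.Classical.Asch.Clifford

open scoped MatrixGroups Matrix
open Cfsg.Geo Cfsg.Agent.Lib.Classical.Asch.Basic

variable {ι : Type} [Fintype ι] [DecidableEq ι] {F : Type*} [Field F]

/-- The image of a subspace. -/
noncomputable def img (g : GL ι F) (W : Submodule F (ι → F)) : Submodule F (ι → F) :=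
  W.map (Matrix.toLin' (g : Matrix ι ι F))

theorem mem_img {g : GL ι F} {W : Submodule F (ι → F)} {v : ι → F} :
    v ∈ img g W ↔ ((g⁻¹ : GL ι F) : Matrix ι ι F) *ᵥ v ∈ W := by
  constructor
  · rintro ⟨u, hu, rfl⟩
    simpa [inv_mulVec_mulVec] using hu
  · intro h
    exact ⟨_, h, by simp⟩

theorem mulVec_mem_img {g : GL ι F} {W : Submodule F (ι → F)} {v : ι → F} (hv : v ∈ W) :
    (g : Matrix ι ι F) *ᵥ v ∈ img g W := ⟨v, hv, rfl⟩

theorem finrank_img (g : GL ι F) (W : Submodule F (ι → F)) :
    Module.finrank F (img g W) = Module.finrank F W :=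
  (Submodule.equivMapOfInjective (Matrix.toLin' (g : Matrix ι ι F)) (by
    intro x y h
    exact mulVec_injective g h) W).finrank_eq.symm

theorem img_mono {g : GL ι F} {U W : Submodule F (ι → F)} (h : U ≤ W) : img g U ≤ img g W :=
  Submodule.map_mono h

theorem img_bot (g : GL ι F) : img g (⊥ : Submodule F (ι → F)) = ⊥ := Submodule.map_bot _

theorem img_inv_img (g : GL ι F) (W : Submodule F (ι → F)) : img g⁻¹ (img g W) = W := by
  ext v
  rw [mem_img, mem_img, inv_inv, inv_mulVec_mulVec]

theorem img_img_inv (g : GL ι F) (W : Submodule F (ι → F)) : img g (img g⁻¹ W) = W := by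
  have := img_inv_img g⁻¹ W
  rwa [inv_inv] at this

/-- **Clifford's theorem** in the form we need. -/
theorem clifford_irreducible [Nonempty ι] {G N : Subgroup (GL ι F)}
    (hG : ∀ W : Submodule F (ι → F), Inv G W → W = ⊥ ∨ W = ⊤)
    (hN : Normalizes G N) (hC : CentScalar N) :
    ∀ W : Submodule F (ι → F), Inv N W → W = ⊥ ∨ W = ⊤ := by
  -- minimal invariant subspace
  let S : Set (Submodule F (ι → F)) := {W | Inv N W ∧ W ≠ ⊥}
  have hS : S.Nonempty := ⟨⊤, fun _ _ _ _ => trivial, top_ne_bot⟩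
  obtain ⟨W₁, hW₁, hmin⟩ : ∃ W₁ ∈ S, ∀ W ∈ S, Module.finrank F W₁ ≤ Module.finrank F W :=
    ⟨Function.argminOn (fun W : Submodule F (ι → F) => Module.finrank F W) S hS,
      Function.argminOn_mem _ _ _, fun W hW =>
        Function.argminOn_le (fun W : Submodule F (ι → F) => Module.finrank F W) S hW⟩
  -- images of `W₁` are invariant
  have himg_inv : ∀ g ∈ G, Inv N (img g W₁) := by
    intro g hg x hx v hv
    rw [mem_img] at hv ⊢
    have h1 := hW₁.1 _ (hN g⁻¹ (inv_mem hg) x hx) _ hv
    convert h1 using 1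
    simp only [inv_inv, Matrix.mulVec_mulVec, ← Units.val_mul]
    congr 2
    group
  -- images of `W₁` are irreducible
  have himg_irr : ∀ g ∈ G, ∀ U : Submodule F (ι → F), Inv N U → U ≤ img g W₁ → U = ⊥ ∨ U = img g W₁ := by
    intro g hg U hU hle
    by_cases h0 : U = ⊥
    · exact Or.inl h0
    right
    apply Submodule.eq_of_le_of_finrank_le hle
    rw [finrank_img]
    have h1 : img g⁻¹ U ∈ S := by
      refine ⟨?_, ?_⟩
      · intro x hx v hv
        rw [mem_img, inv_inv] at hv ⊢
        have h2 := hU _ (hN g (hg) x hx) _ hv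
        convert h2 using 1
        simp only [Matrix.mulVec_mulVec, ← Units.val_mul]
        congr 2
        group
      · intro h2
        apply h0
        rw [← img_img_inv g U, h2, img_bot]
    have h3 := hmin _ h1
    rwa [finrank_img] at h3
  -- the sum of the images is everything
  have hinvT : Inv G (⨆ g : G, img g.1 W₁) := by
    intro g hg v hv
    have hle : (⨆ g : G, img g.1 W₁) ≤
        (⨆ g : G, img g.1 W₁).comap (Matrix.toLin' (g : Matrix ι ι F)) := by
      refine iSup_le fun h => ?_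
      rintro u hu
      rw [Submodule.mem_comap]
      have h2 : Matrix.toLin' (g : Matrix ι ι F) u ∈ img (g * h.1) W₁ := by
        rw [mem_img] at hu ⊢
        rw [Matrix.toLin'_apply, mul_inv_rev, Units.val_mul, ← Matrix.mulVec_mulVec, inv_mulVec_mulVec]
        exact hu
      exact le_iSup (fun g : G => img g.1 W₁) ⟨g * h.1, mul_mem hg h.2⟩ h2
    exact hle hv
  have hsum : (⨆ g : G, img g.1 W₁) = ⊤ := by
    rcases hG _ hinvT with h | h
    · exfalso
      apply hW₁.2
      have h1 : img (1 : GL ι F) W₁ ≤ ⨆ g : G, img g.1 W₁ := le_iSup (fun g : G => img g.1 W₁) ⟨1, one_mem G⟩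
      rw [h] at h1
      rw [eq_bot_iff]
      intro v hv
      have := h1 (mulVec_mem_img (g := 1) hv)
      simpa using this
    · exact h
  -- maximal complement
  let T : Set (Submodule F (ι → F)) := {U | Inv N U ∧ U ⊓ W₁ = ⊥}
  have hT : T.Nonempty := ⟨⊥, fun x _ v hv => by
    rw [Submodule.mem_bot] at hv ⊢
    rw [hv, Matrix.mulVec_zero], bot_inf_eq _⟩
  have hmaxT : ∃ U ∈ T, ∀ U' ∈ T, Module.finrank F U' ≤ Module.finrank F U := by
    let f : Submodule F (ι → F) → ℕ := fun U => Module.finrank F (ι → F) - Module.finrank F U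
    obtain ⟨U₀, hU₀, hf⟩ : ∃ U₀ ∈ T, ∀ U' ∈ T, f U₀ ≤ f U' :=
      ⟨Function.argminOn f T hT, Function.argminOn_mem _ _ _, fun U' hU' => Function.argminOn_le f T hU'⟩
    refine ⟨U₀, hU₀, fun U' hU' => ?_⟩
    have h1 : Module.finrank F (ι → F) - Module.finrank F U₀ ≤ Module.finrank F (ι → F) - Module.finrank F U' :=
      hf U' hU'
    have h2 : Module.finrank F U' ≤ Module.finrank F (ι → F) := Submodule.finrank_le U'
    have h3 : Module.finrank F U₀ ≤ Module.finrank F (ι → F) := Submodule.finrank_le U₀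
    omega
  obtain ⟨U, hU, hmax⟩ := hmaxT
  -- `U` complements `W₁`
  have hcompl : U ⊔ W₁ = ⊤ := by
    by_contra hne
    have : ∃ g : G, ¬ img g.1 W₁ ≤ U ⊔ W₁ := by
      by_contra hcon
      push Not at hcon
      apply hne
      rw [eq_top_iff, ← hsum]
      exact iSup_le hcon
    obtain ⟨g, hg⟩ := this
    have hinvUW : Inv N (U ⊔ W₁) := by
      intro x hx v hv
      obtain ⟨a, ha, b, hb, rfl⟩ := Submodule.mem_sup.mp hv
      rw [Matrix.mulVec_add]
      exact Submodule.add_mem_sup (hU.1 x hx a ha) (hW₁.1 x hx b hb)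
    have h1 : img g.1 W₁ ⊓ (U ⊔ W₁) = ⊥ := by
      rcases himg_irr g.1 g.2 (img g.1 W₁ ⊓ (U ⊔ W₁))
        (fun x hx v hv => ⟨himg_inv g.1 g.2 x hx v hv.1, hinvUW x hx v hv.2⟩) inf_le_left with h | h
      · exact h
      · exfalso
        apply hg
        exact inf_eq_left.mp h
    have hpos : img g.1 W₁ ≠ ⊥ := by
      intro h
      apply hW₁.2
      rw [← img_inv_img g.1 W₁, h, img_bot]
    let U' := U ⊔ img g.1 W₁
    have hU'T : U' ∈ T := by
      refine ⟨?_, ?_⟩
      · intro x hx v hv
        obtain ⟨a, ha, b, hb, rfl⟩ := Submodule.mem_sup.mp hv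
        rw [Matrix.mulVec_add]
        exact Submodule.add_mem_sup (hU.1 x hx a ha) (himg_inv g.1 g.2 x hx b hb)
      · rw [eq_bot_iff]
        rintro v ⟨hv1, hv2⟩
        obtain ⟨a, ha, b, hb, rfl⟩ := Submodule.mem_sup.mp hv1
        have hb0 : b ∈ img g.1 W₁ ⊓ (U ⊔ W₁) := by
          refine ⟨hb, ?_⟩
          have : b = (a + b) + (-a) := by abel
          rw [this]
          exact Submodule.add_mem _ (Submodule.mem_sup_right hv2)
            (Submodule.neg_mem _ (Submodule.mem_sup_left ha))
        rw [h1, Submodule.mem_bot] at hb0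
        subst hb0
        rw [add_zero] at hv2 ⊢
        have : a ∈ U ⊓ W₁ := ⟨ha, hv2⟩
        rwa [hU.2] at this
    have hlt : U < U' := by
      refine lt_of_le_of_ne le_sup_left ?_
      intro h
      apply hpos
      rw [eq_bot_iff, ← h1]
      refine le_inf le_rfl ?_
      have : img g.1 W₁ ≤ U := by
        rw [h]
        exact le_sup_right
      exact this.trans le_sup_left
    have h3 := Submodule.finrank_lt_finrank_of_lt hlt
    have h4 := hmax U' hU'T
    omega
  have hisc : IsCompl W₁ U := by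
    refine ⟨?_, ?_⟩
    · rw [disjoint_iff, inf_comm]
      exact hU.2
    · rw [codisjoint_iff, sup_comm]
      exact hcompl
  -- the projection
  let π : (ι → F) →ₗ[F] (ι → F) := W₁.projection U hisc
  let pm : Matrix ι ι F := LinearMap.toMatrix' π
  have hpm : ∀ v, pm *ᵥ v = π v := fun v => by
    simp [pm, LinearMap.toMatrix'_mulVec]
  have hπl : ∀ w ∈ W₁, π w = w := fun w hw => Submodule.projection_apply_left hisc ⟨w, hw⟩
  have hπr : ∀ u ∈ U, π u = 0 := fun u hu => Submodule.projection_apply_right hisc ⟨u, hu⟩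
  have hcent : pm ∈ cent N := by
    rw [mem_cent]
    intro x hx
    apply Matrix.toLin'.injective
    apply LinearMap.ext
    intro v
    rw [Matrix.toLin'_apply, Matrix.toLin'_apply, ← Matrix.mulVec_mulVec, ← Matrix.mulVec_mulVec, hpm, hpm]
    have hv : v ∈ W₁ ⊔ U := by
      rw [hisc.sup_eq_top]
      trivial
    obtain ⟨a, ha, b, hb, rfl⟩ := Submodule.mem_sup.mp hv
    rw [Matrix.mulVec_add, map_add, map_add, hπl a ha, hπr b hb, add_zero,
      hπl _ (hW₁.1 x hx a ha), hπr _ (hU.1 x hx b hb), add_zero]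
  obtain ⟨c, hc⟩ := hC pm hcent
  have hc1 : c = 1 := by
    have hW : W₁ ≠ ⊥ := hW₁.2
    obtain ⟨w, hw, hw0⟩ := Submodule.exists_mem_ne_zero_of_ne_bot hW
    have h1 : c • w = w := by
      have h2 := hπl w hw
      rw [← hpm, hc, Matrix.smul_mulVec, Matrix.one_mulVec] at h2
      exact h2
    have h2 : (c - 1) • w = 0 := by rw [sub_smul, one_smul, h1, sub_self]
    rcases smul_eq_zero.mp h2 with h3 | h3
    · exact sub_eq_zero.mp h3
    · exact absurd h3 hw0
  have hUbot : U = ⊥ := by
    rw [eq_bot_iff]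
    intro u hu
    have h2 := hπr u hu
    rw [← hpm, hc, hc1, one_smul, Matrix.one_mulVec] at h2
    rw [Submodule.mem_bot]
    exact h2
  have hW1top : W₁ = ⊤ := by
    rw [hUbot, bot_sup_eq] at hcompl
    exact hcompl
  intro W hW
  by_cases h0 : W = ⊥
  · exact Or.inl h0
  right
  have h5 := hmin W ⟨hW, h0⟩
  rw [hW1top, finrank_top] at h5
  exact Submodule.eq_top_of_finrank_eq (le_antisymm (Submodule.finrank_le W) h5)

end Cfsg.Agent.Lib.Classical.Asch.Clifford
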