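import Mathlib
import Cfsg.Agent.Lib.Classical.Asch.Stable
import Cfsg.Agent.Lib.Classical.Asch.FieldCount

/-!
# Commutative subalgebras stable under an irreducible group

Such a subalgebra consists of scalars, or it gives a decomposition (class 2) or an extension field (class 3).
-/

set_option autoImplicit false
set_option linter.style.haveILetI false
set_option linter.unusedSectionVars false

namespace Cfsg.Agent.Lib.Classical.Asch.Comm

open scoped MatrixGroups Matrix
open Cfsg.Geo Cfsg.Agent.Lib.Classical.Asch.Basic Cfsg.Agent.Lib.Classical.Asch.Stable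

variable {ι : Type} [Fintype ι] [DecidableEq ι] {F : Type*} [Field F]

theorem eq_zero_of_isNilpotent_comm {R : Type*} [CommRing R] (hJ : Ring.jacobson R = ⊥) {x : R}
    (hx : IsNilpotent x) : x = 0 := by
  have h : x ∈ Ideal.jacobson (⊥ : Ideal R) := by
    rw [Ideal.mem_jacobson_bot]
    intro y
    exact ((Commute.all x y).isNilpotent_mul_right hx).isUnit_add_one
  rw [Ideal.jacobson_bot, hJ] at h
  exact h

/-- A commutative ring structure on a commutative subalgebra. -/
abbrev commRingOf (E : Subalgebra F (Matrix ι ι F)) (hc : ∀ x ∈ E, ∀ y ∈ E, x * y = y * x) : CommRing ↥E :=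
  { E.toRing with mul_comm := fun x y => Subtype.ext (hc x.1 x.2 y.1 y.2) }

/-- Reducedness. -/
theorem eq_zero_of_pow_eq_zero [Nonempty ι] {G : Subgroup (GL ι F)}
    (hG : ∀ W : Submodule F (ι → F), Inv G W → W = ⊥ ∨ W = ⊤)
    {E : Subalgebra F (Matrix ι ι F)} (hE : Stable G (E : Set (Matrix ι ι F)))
    (hc : ∀ x ∈ E, ∀ y ∈ E, x * y = y * x) {x : Matrix ι ι F} (hx : x ∈ E) {k : ℕ} (hk : x ^ k = 0) :
    x = 0 := by
  letI := commRingOf E hc
  have hJ : Ring.jacobson ↥E = ⊥ := jacobson_eq_bot hG hE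
  have h : (⟨x, hx⟩ : ↥E) = 0 := by
    apply eq_zero_of_isNilpotent_comm hJ
    refine ⟨k, Subtype.ext ?_⟩
    exact hk
  exact congrArg Subtype.val h

/-- Primitive idempotent of `E`. -/
structure IsPrim (E : Subalgebra F (Matrix ι ι F)) (e : Matrix ι ι F) : Prop where
  mem : e ∈ E
  idem : e * e = e
  ne_zero : e ≠ 0
  prim : ∀ f ∈ E, f * f = f → f * e = f → f = 0 ∨ f = e

theorem exists_prim [Finite F] [Nonempty ι] (E : Subalgebra F (Matrix ι ι F))
    (hc : ∀ x ∈ E, ∀ y ∈ E, x * y = y * x) : ∃ e, IsPrim E e := by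
  let S : Set (Matrix ι ι F) := {e | e ∈ E ∧ e * e = e ∧ e ≠ 0}
  have hS : S.Nonempty := ⟨1, E.one_mem, mul_one 1, one_ne_zero⟩
  obtain ⟨e, he, hmin⟩ := Set.exists_min_image S Matrix.rank (Set.toFinite S) hS
  refine ⟨e, he.1, he.2.1, he.2.2, fun f hf hff hfe => ?_⟩
  by_cases h0 : f = 0
  · exact Or.inl h0
  right
  have hle : Matrix.rank e ≤ Matrix.rank f := hmin f ⟨hf, hff, h0⟩
  have hef : e * f = f := by rw [hc e he.1 f hf, hfe]
  have hle2 : LinearMap.range f.mulVecLin ≤ LinearMap.range e.mulVecLin := by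
    rintro _ ⟨v, rfl⟩
    refine ⟨f.mulVecLin v, ?_⟩
    simp only [Matrix.mulVecLin_apply, Matrix.mulVec_mulVec, hef]
  have heq : LinearMap.range f.mulVecLin = LinearMap.range e.mulVecLin :=
    Submodule.eq_of_le_of_finrank_le hle2 hle
  have h1 : f * e = e := by
    ext i j
    have h2 : e.mulVecLin (Pi.single j 1) ∈ LinearMap.range f.mulVecLin := by
      rw [heq]
      exact ⟨_, rfl⟩
    obtain ⟨u, hu⟩ := h2
    have h3 : f *ᵥ (e *ᵥ (Pi.single j 1)) = e *ᵥ (Pi.single j 1) := by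
      simp only [Matrix.mulVecLin_apply] at hu
      rw [← hu, Matrix.mulVec_mulVec, hff]
    have h4 := congrFun h3 i
    rw [Matrix.mulVec_mulVec] at h4
    simpa using h4
  rw [← hfe, h1]

theorem IsPrim.eq_of_mul_ne_zero {E : Subalgebra F (Matrix ι ι F)}
    (hc : ∀ x ∈ E, ∀ y ∈ E, x * y = y * x) {e e' : Matrix ι ι F} (he : IsPrim E e) (he' : IsPrim E e')
    (h : e * e' ≠ 0) : e = e' := by
  have hm : e * e' ∈ E := E.mul_mem he.mem he'.mem
  have hi : (e * e') * (e * e') = e * e' := by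
    calc (e * e') * (e * e') = e * (e' * e) * e' := by simp only [mul_assoc]
      _ = e * (e * e') * e' := by rw [hc e' he'.mem e he.mem]
      _ = (e * e) * (e' * e') := by simp only [mul_assoc]
      _ = e * e' := by rw [he.idem, he'.idem]
  have h1 : (e * e') * e = e * e' := by
    rw [mul_assoc, hc e' he'.mem e he.mem, ← mul_assoc, he.idem]
  have h2 : (e * e') * e' = e * e' := by rw [mul_assoc, he'.idem]
  rcases he.prim _ hm hi h1 with h3 | h3
  · exact absurd h3 h
  rcases he'.prim _ hm hi h2 with h4 | h4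
  · exact absurd h4 h
  rw [← h3, h4]

theorem conj_zero (g : GL ι F) : conj g (0 : Matrix ι ι F) = 0 := by simp [conj]

theorem IsPrim.conj {G : Subgroup (GL ι F)} {E : Subalgebra F (Matrix ι ι F)}
    (hE : Stable G (E : Set (Matrix ι ι F))) {e : Matrix ι ι F} (he : IsPrim E e) {g : GL ι F}
    (hg : g ∈ G) : IsPrim E (Basic.conj g e) := by
  refine ⟨hE g hg e he.mem, ?_, ?_, ?_⟩
  · rw [← Basic.conj_mul, he.idem]
  · intro h
    apply he.ne_zero
    rw [← conj_inv_conj g e, h, conj_zero]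
  · intro f hf hff hfe
    have h1 : Basic.conj g⁻¹ f ∈ E := hE g⁻¹ (inv_mem hg) f hf
    have h2 : Basic.conj g⁻¹ f * Basic.conj g⁻¹ f = Basic.conj g⁻¹ f := by
      rw [← Basic.conj_mul, hff]
    have h3 : Basic.conj g⁻¹ f * e = Basic.conj g⁻¹ f := by
      have : Basic.conj g⁻¹ (f * Basic.conj g e) = Basic.conj g⁻¹ f := by rw [hfe]
      rwa [Basic.conj_mul, conj_inv_conj] at this
    rcases he.prim _ h1 h2 h3 with h4 | h4
    · left
      rw [← conj_conj_inv g f, h4, conj_zero]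
    · right
      rw [← conj_conj_inv g f, h4]

theorem rank_conj (g : GL ι F) (e : Matrix ι ι F) : Matrix.rank (Basic.conj g e) = Matrix.rank e := by
  unfold Basic.conj
  rw [Matrix.rank_mul_eq_left_of_isUnit_det _ _ (Matrix.isUnits_det_units g⁻¹),
    Matrix.rank_mul_eq_right_of_isUnit_det _ _ (Matrix.isUnits_det_units g)]

theorem range_conj (g : GL ι F) (x : Matrix ι ι F) :
    (LinearMap.range x.mulVecLin).map (Matrix.toLin' (g : Matrix ι ι F)) =
      LinearMap.range (Basic.conj g x).mulVecLin := by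
  ext v
  simp only [Submodule.mem_map, LinearMap.mem_range, Matrix.mulVecLin_apply, Matrix.toLin'_apply]
  constructor
  · rintro ⟨_, ⟨u, rfl⟩, rfl⟩
    refine ⟨(g : Matrix ι ι F) *ᵥ u, ?_⟩
    rw [conj_mulVec]
  · rintro ⟨u, rfl⟩
    refine ⟨_, ⟨((g⁻¹ : GL ι F) : Matrix ι ι F) *ᵥ u, rfl⟩, ?_⟩
    rw [← conj_mulVec, mulVec_inv_mulVec]

/-- In a finite monoid every element has a non-trivial idempotent power. -/
theorem exists_idem_pow {M : Type*} [Monoid M] [Finite M] (x : M) : ∃ N, 0 < N ∧ x ^ N * x ^ N = x ^ N := by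
  obtain ⟨a, b, hab, h⟩ : ∃ a b : ℕ, a < b ∧ x ^ a = x ^ b := by
    obtain ⟨a, b, hne, h⟩ := Finite.exists_ne_map_eq_of_infinite (fun n : ℕ => x ^ n)
    rcases lt_or_gt_of_ne hne with h1 | h1
    · exact ⟨a, b, h1, h⟩
    · exact ⟨b, a, h1, h.symm⟩
  set p := b - a with hp
  have hp0 : 0 < p := by omega
  have hb : b = a + p := by omega
  have h1 : ∀ m, a ≤ m → x ^ (m + p) = x ^ m := by
    intro m hm
    obtain ⟨c, rfl⟩ := Nat.exists_eq_add_of_le hm
    have : a + c + p = (a + p) + c := by omega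
    rw [this, pow_add, ← hb, ← h, pow_add]
  have h2 : ∀ k m, a ≤ m → x ^ (m + k * p) = x ^ m := by
    intro k
    induction k with
    | zero => intro m _; simp
    | succ k ih =>
      intro m hm
      have : m + (k + 1) * p = (m + k * p) + p := by ring
      rw [this, h1 _ (by omega), ih m hm]
  refine ⟨(a + 1) * p, Nat.mul_pos (by omega) hp0, ?_⟩
  have h3 : a ≤ (a + 1) * p := by nlinarith
  rw [← pow_add, h2 _ _ h3]

section Orbit

variable [Fintype F] [Nonempty ι] {G : Subgroup (GL ι F)} {E : Subalgebra F (Matrix ι ι F)}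

/-- The orbit of a matrix under conjugation. -/
noncomputable def orbitF (G : Subgroup (GL ι F)) (e : Matrix ι ι F) : Finset (Matrix ι ι F) :=
  (Set.toFinite {x | ∃ g ∈ G, x = Basic.conj g e}).toFinset

theorem mem_orbitF {e x : Matrix ι ι F} : x ∈ orbitF G e ↔ ∃ g ∈ G, x = Basic.conj g e := by
  simp [orbitF]

theorem self_mem_orbitF (e : Matrix ι ι F) : e ∈ orbitF G e :=
  mem_orbitF.mpr ⟨1, one_mem G, by simp [Basic.conj]⟩

theorem conj_mem_orbitF {e x : Matrix ι ι F} {g : GL ι F} (hg : g ∈ G) (hx : x ∈ orbitF G e) :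
    Basic.conj g x ∈ orbitF G e := by
  obtain ⟨h, hh, rfl⟩ := mem_orbitF.mp hx
  exact mem_orbitF.mpr ⟨g * h, mul_mem hg hh, conj_conj g h e⟩

variable (hG : ∀ W : Submodule F (ι → F), Inv G W → W = ⊥ ∨ W = ⊤)
  (hE : Stable G (E : Set (Matrix ι ι F))) (hc : ∀ x ∈ E, ∀ y ∈ E, x * y = y * x)
  {e₀ : Matrix ι ι F} (he₀ : IsPrim E e₀)

include hE he₀ in
theorem isPrim_of_mem_orbitF {x : Matrix ι ι F} (hx : x ∈ orbitF G e₀) : IsPrim E x := by
  obtain ⟨g, hg, rfl⟩ := mem_orbitF.mp hx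
  exact he₀.conj hE hg

include hE hc he₀ in
theorem sum_mul_of_mem {x : Matrix ι ι F} (hx : x ∈ orbitF G e₀) :
    (∑ y ∈ orbitF G e₀, y) * x = x := by
  rw [Finset.sum_mul, Finset.sum_eq_single x]
  · exact (isPrim_of_mem_orbitF hE he₀ hx).idem
  · intro y hy hne
    by_contra h
    exact hne ((isPrim_of_mem_orbitF hE he₀ hy).eq_of_mul_ne_zero hc (isPrim_of_mem_orbitF hE he₀ hx) h)
  · intro h
    exact absurd hx h

include hG hE hc he₀ in
/-- The orbit of a primitive idempotent sums to one. -/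
theorem orbit_sum_eq_one : ∑ y ∈ orbitF G e₀, y = 1 := by
  set s := ∑ y ∈ orbitF G e₀, y with hs
  have hss : s * s = s := by
    conv_lhs => rw [hs, Finset.mul_sum]
    rw [hs]
    exact Finset.sum_congr rfl fun x hx => sum_mul_of_mem hE hc he₀ hx
  have hconj : ∀ g ∈ G, Basic.conj g s = s := by
    intro g hg
    have h1 : Basic.conj g s = ∑ y ∈ orbitF G e₀, Basic.conj g y := by
      rw [hs, ← conjAlg_apply, map_sum]
      rfl
    rw [h1, hs]
    refine Finset.sum_nbij' (Basic.conj g) (Basic.conj g⁻¹) (fun x hx => conj_mem_orbitF hg hx)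
      (fun x hx => conj_mem_orbitF (inv_mem hg) hx) (fun x _ => conj_inv_conj g x)
      (fun x _ => conj_conj_inv g x) (fun x _ => rfl)
  let W : Submodule F (ι → F) := LinearMap.range s.mulVecLin
  have hW : Inv G W := by
    rintro g hg _ ⟨v, rfl⟩
    refine ⟨(g : Matrix ι ι F) *ᵥ v, ?_⟩
    simp only [Matrix.mulVecLin_apply]
    conv_lhs => rw [← hconj g hg]
    rw [conj_mulVec]
  have hs0 : s * e₀ = e₀ := sum_mul_of_mem hE hc he₀ (self_mem_orbitF e₀)
  rcases hG W hW with h | h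
  · exfalso
    apply he₀.ne_zero
    ext i j
    have h1 : s *ᵥ (e₀ *ᵥ Pi.single j 1) ∈ W := ⟨_, rfl⟩
    rw [h, Submodule.mem_bot, Matrix.mulVec_mulVec, hs0] at h1
    have := congrFun h1 i
    simpa using this
  · ext i j
    have h1 : (Pi.single j 1 : ι → F) ∈ W := by rw [h]; trivial
    obtain ⟨u, hu⟩ := h1
    simp only [Matrix.mulVecLin_apply] at hu
    have h2 : s *ᵥ (Pi.single j 1) = Pi.single j 1 := by
      rw [← hu, Matrix.mulVec_mulVec, hss]
    have := congrFun h2 i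
    simpa [Matrix.one_apply, Pi.single_apply, eq_comm] using this

include hG hE hc he₀ in
/-- Decomposition case. -/
theorem decomposition_of_two_le (ht : 2 ≤ (orbitF G e₀).card) :
    ∃ (t m : ℕ) (D : Fin t → Submodule F (ι → F)), IsMDecomposition m D ∧ G ≤ decompositionStabilizer D := by
  set O := orbitF G e₀ with hO
  let enum : ↥O ≃ Fin O.card := O.equivFin
  let x : Fin O.card → Matrix ι ι F := fun i => (enum.symm i).1
  have hxmem : ∀ i, x i ∈ O := fun i => (enum.symm i).2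
  have hxprim : ∀ i, IsPrim E (x i) := fun i => isPrim_of_mem_orbitF hE he₀ (hxmem i)
  have hxinj : Function.Injective x := fun i j h => enum.symm.injective (Subtype.ext h)
  have hxorth : ∀ i j, i ≠ j → x i * x j = 0 := by
    intro i j hij
    by_contra h
    exact hij (hxinj ((hxprim i).eq_of_mul_ne_zero hc (hxprim j) h))
  have hsum : ∑ i, x i = 1 := by
    calc ∑ i, x i = ∑ y : ↥O, y.1 := Equiv.sum_comp enum.symm (fun y : ↥O => y.1)
      _ = ∑ y ∈ O, y := Finset.sum_coe_sort O (fun y => y)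
      _ = 1 := orbit_sum_eq_one hG hE hc he₀
  let D : Fin O.card → Submodule F (ι → F) := fun i => LinearMap.range (x i).mulVecLin
  refine ⟨O.card, Matrix.rank e₀, D, ⟨ht, ?_, ?_, ?_, ?_⟩, ?_⟩
  · rw [Nat.pos_iff_ne_zero]
    intro h0
    apply he₀.ne_zero
    have h1 : LinearMap.range e₀.mulVecLin = ⊥ := Submodule.finrank_eq_zero.mp h0
    ext i j
    have h2 : e₀ *ᵥ (Pi.single j 1) ∈ LinearMap.range e₀.mulVecLin := ⟨_, rfl⟩
    rw [h1, Submodule.mem_bot] at h2
    have := congrFun h2 i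
    simpa using this
  · intro i
    obtain ⟨g, _, hg⟩ := mem_orbitF.mp (hxmem i)
    change Matrix.rank (x i) = _
    rw [hg, rank_conj]
  · rw [iSupIndep_def]
    intro i
    rw [Submodule.disjoint_def]
    intro v hv hv'
    have h1 : (⨆ j, ⨆ (_ : j ≠ i), D j) ≤ LinearMap.ker (x i).mulVecLin := by
      refine iSup₂_le fun j hj => ?_
      rintro _ ⟨u, rfl⟩
      simp only [LinearMap.mem_ker, Matrix.mulVecLin_apply, Matrix.mulVec_mulVec]
      rw [hxorth i j (Ne.symm hj), Matrix.zero_mulVec]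
    have h2 : x i *ᵥ v = 0 := h1 hv'
    obtain ⟨u, rfl⟩ := hv
    simp only [Matrix.mulVecLin_apply, Matrix.mulVec_mulVec, (hxprim i).idem] at h2 ⊢
    exact h2
  · rw [eq_top_iff]
    intro v _
    have h1 : v = ∑ i, x i *ᵥ v := by
      rw [← Matrix.sum_mulVec, hsum, Matrix.one_mulVec]
    rw [h1]
    exact Submodule.sum_mem _ fun i _ => Submodule.mem_iSup_of_mem i ⟨v, rfl⟩
  · intro g hg
    let σ₀ : Fin O.card → Fin O.card := fun i => enum ⟨Basic.conj g (x i), conj_mem_orbitF hg (hxmem i)⟩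
    have hσ₀ : ∀ i, x (σ₀ i) = Basic.conj g (x i) := by
      intro i
      simp [x, σ₀]
    have hinj : Function.Injective σ₀ := by
      intro i j hij
      apply hxinj
      have := congrArg x hij
      rw [hσ₀, hσ₀] at this
      rw [← conj_inv_conj g (x i), this, conj_inv_conj]
    refine ⟨Equiv.ofBijective σ₀ (Finite.injective_iff_bijective.mp hinj), fun i => ?_⟩
    change (LinearMap.range (x i).mulVecLin).map _ = LinearMap.range (x (σ₀ i)).mulVecLin
    rw [range_conj, hσ₀]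

include hG hE hc he₀ in
theorem eq_one_of_card_eq_one (ht : (orbitF G e₀).card = 1) : e₀ = 1 := by
  obtain ⟨a, ha⟩ := Finset.card_eq_one.mp ht
  have h1 : e₀ ∈ orbitF G e₀ := self_mem_orbitF e₀
  rw [ha, Finset.mem_singleton] at h1
  have h2 := orbit_sum_eq_one hG hE hc he₀
  rw [ha, Finset.sum_singleton, ← h1] at h2
  exact h2

/-- Trivial idempotents and reducedness give inverses. -/
theorem exists_inv_of_prim_one {E : Subalgebra F (Matrix ι ι F)} (h1 : IsPrim E 1)
    (hred : ∀ x ∈ E, ∀ k : ℕ, x ^ k = 0 → x = 0) {x : Matrix ι ι F} (hx : x ∈ E) (h0 : x ≠ 0) :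
    ∃ y ∈ E, x * y = 1 := by
  haveI : Finite ↥E := inferInstance
  obtain ⟨N, hN, hid⟩ := exists_idem_pow (⟨x, hx⟩ : ↥E)
  have hid' : x ^ N * x ^ N = x ^ N := congrArg Subtype.val hid
  have hmem : x ^ N ∈ E := E.pow_mem hx N
  rcases h1.prim _ hmem hid' (mul_one _) with h | h
  · exact absurd (hred x hx N h) h0
  · refine ⟨x ^ (N - 1), E.pow_mem hx _, ?_⟩
    rw [← pow_succ', Nat.sub_add_cancel hN, h]

/-- The subfield of degree `r` in a field subalgebra. -/
theorem exists_subfield_of_field {E : Subalgebra F (Matrix ι ι F)}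
    (hc : ∀ x ∈ E, ∀ y ∈ E, x * y = y * x) (hinv : ∀ x ∈ E, x ≠ 0 → ∃ y ∈ E, x * y = 1)
    {r : ℕ} (hr : r ∣ Module.finrank F ↥E) :
    ∃ K : Subalgebra F (Matrix ι ι F),
      (∀ x, x ∈ K ↔ x ∈ E ∧ x ^ (Fintype.card F ^ r) = x) ∧ Module.finrank F K = r := by
  have hfield : IsField ↥E :=
    { exists_pair_ne := ⟨0, 1, fun h => one_ne_zero (α := Matrix ι ι F) (congrArg Subtype.val h).symm⟩
      mul_comm := fun x y => Subtype.ext (hc x.1 x.2 y.1 y.2)
      mul_inv_cancel := fun {a} ha => by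
        obtain ⟨y, hy, hxy⟩ := hinv a.1 a.2 (fun h => ha (Subtype.ext h))
        exact ⟨⟨y, hy⟩, Subtype.ext hxy⟩ }
  letI instF : Field ↥E := hfield.toField
  letI instA : Algebra F ↥E := E.algebra
  obtain ⟨K₀, hK₀, hr₀⟩ := FieldCount.exists_subalgebra F ↥E (r := r) hr
  let φ : ↥E →ₐ[F] Matrix ι ι F := E.val
  have hφ : Function.Injective φ := Subtype.val_injective
  refine ⟨K₀.map φ, fun x => ?_, ?_⟩
  · rw [Subalgebra.mem_map]
    constructor
    · rintro ⟨y, hy, rfl⟩
      refine ⟨y.2, ?_⟩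
      have := (hK₀ y).mp hy
      exact congrArg Subtype.val this
    · rintro ⟨hx, hx2⟩
      exact ⟨⟨x, hx⟩, (hK₀ _).mpr (Subtype.ext hx2), rfl⟩
  · rw [← hr₀]
    exact (Subalgebra.equivMapOfInjective K₀ φ hφ).toLinearEquiv.finrank_eq.symm

/-- **Lemma E**: a commutative subalgebra stable under an irreducible group consists of scalars, or gives a decomposition
or a field. -/
theorem comm_trichotomy {G : Subgroup (GL ι F)}
    (hG : ∀ W : Submodule F (ι → F), Inv G W → W = ⊥ ∨ W = ⊤)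
    {E : Subalgebra F (Matrix ι ι F)} (hE : Stable G (E : Set (Matrix ι ι F)))
    (hc : ∀ x ∈ E, ∀ y ∈ E, x * y = y * x) :
    (∀ x ∈ E, ∃ c : F, x = c • (1 : Matrix ι ι F)) ∨
    (∃ (t m : ℕ) (D : Fin t → Submodule F (ι → F)), IsMDecomposition m D ∧ G ≤ decompositionStabilizer D) ∨
    (∃ (r : ℕ) (K : Subalgebra F (Matrix ι ι F)), r.Prime ∧ IsFieldSubalgebra r K ∧
      G ≤ subalgebraNormalizer K) := by
  obtain ⟨e₀, he₀⟩ := exists_prim E hc
  by_cases ht : 2 ≤ (orbitF G e₀).card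
  · exact Or.inr (Or.inl (decomposition_of_two_le hG hE hc he₀ ht))
  have hcard : (orbitF G e₀).card = 1 := by
    have : 0 < (orbitF G e₀).card := Finset.card_pos.mpr ⟨e₀, self_mem_orbitF e₀⟩
    omega
  have he1 : e₀ = 1 := eq_one_of_card_eq_one hG hE hc he₀ hcard
  subst he1
  have hinv : ∀ x ∈ E, x ≠ 0 → ∃ y ∈ E, x * y = 1 := fun x hx h0 =>
    exists_inv_of_prim_one he₀ (fun x hx k hk => eq_zero_of_pow_eq_zero hG hE hc hx hk) hx h0
  by_cases hd : Module.finrank F ↥E = 1
  · left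
    intro x hx
    have h1 : (1 : ↥E) ≠ 0 := fun h => one_ne_zero (α := Matrix ι ι F) (congrArg Subtype.val h)
    obtain ⟨c, hc'⟩ := (finrank_eq_one_iff_of_nonzero' (1 : ↥E) h1).mp hd ⟨x, hx⟩
    exact ⟨c, (congrArg Subtype.val hc').symm⟩
  · right; right
    obtain ⟨r, hr, hrd⟩ := Nat.exists_prime_and_dvd hd
    obtain ⟨K, hK, hKr⟩ := exists_subfield_of_field hc hinv hrd
    refine ⟨r, K, hr, ⟨?_, ?_, hKr⟩, ?_⟩
    · intro x hx y hy
      exact hc x ((hK x).mp hx).1 y ((hK y).mp hy).1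
    · intro x hx h0
      obtain ⟨hxE, hxp⟩ := (hK x).mp hx
      obtain ⟨y, hy, hxy⟩ := hinv x hxE h0
      refine ⟨y, (hK y).mpr ⟨hy, ?_⟩, hxy⟩
      set N := Fintype.card F ^ r with hN
      have hyx : y * x = 1 := by rw [← hxy]; exact hc y hy x hxE
      have h2 : y ^ N * x = 1 := by
        calc y ^ N * x = y ^ N * x ^ N := by rw [hxp]
          _ = (y * x) ^ N := by
            rw [(show Commute y x from hc y hy x hxE).mul_pow]
          _ = 1 := by rw [hyx, one_pow]
      calc y ^ N = y ^ N * (x * y) := by rw [hxy, mul_one]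
        _ = (y ^ N * x) * y := by rw [mul_assoc]
        _ = y := by rw [h2, one_mul]
    · have hfw : ∀ g ∈ G, ∀ k ∈ K, Basic.conj g k ∈ K := by
        intro g hg k hk
        obtain ⟨hkE, hkp⟩ := (hK k).mp hk
        refine (hK _).mpr ⟨hE g hg k hkE, ?_⟩
        have := map_pow (conjAlg g) k (Fintype.card F ^ r)
        simp only [conjAlg_apply] at this
        rw [← this, hkp]
      intro g hg k
      constructor
      · exact hfw g hg k
      · intro h
        have := hfw g⁻¹ (inv_mem hg) _ h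
        have h3 : Basic.conj g⁻¹ (Basic.conj g k) = k := conj_inv_conj g k
        rw [← h3]
        exact this

end Orbit

end Cfsg.Agent.Lib.Classical.Asch.Comm
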