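import Mathlib

/-!
# The Skolem–Noether theorem for full matrix algebras over a field

A unital algebra endomorphism of `M_κ(F)` is the conjugation by an invertible matrix.
-/

set_option autoImplicit false

namespace Cfsg.Agent.Lib.Classical.Asch.SkolemNoether

open scoped MatrixGroups Matrix

variable {κ : Type*} [Fintype κ] [DecidableEq κ] {F : Type*} [Field F]

/-- Matrix units. -/
abbrev E (a b : κ) : Matrix κ κ F := Matrix.single a b 1

theorem E_mul_E_same (a b c : κ) : (E a b : Matrix κ κ F) * E b c = E a c := by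
  simp [E, Matrix.single_mul_single_same]

theorem E_mul_E_of_ne (a b c d : κ) (h : b ≠ c) : (E a b : Matrix κ κ F) * E c d = 0 :=
  Matrix.single_mul_single_of_ne 1 a b c h 1

/-- `τ` preserves non-vanishing of matrix units. -/
theorem map_E_ne_zero [Nonempty κ] {R : Type*} [Ring R] [Algebra F R] [Nontrivial R]
    (τ : Matrix κ κ F →ₐ[F] R) (j : κ) : τ (E j j) ≠ 0 := by
  intro h
  apply one_ne_zero (α := R)
  have h1 : (1 : Matrix κ κ F) = ∑ a, E a j * E j j * E j a := by
    rw [← Matrix.sum_single_one]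
    refine Finset.sum_congr rfl fun a _ => ?_
    rw [E_mul_E_same, E_mul_E_same]
  rw [← map_one τ, h1, map_sum]
  refine Finset.sum_eq_zero fun a _ => ?_
  rw [map_mul, map_mul, h, mul_zero, zero_mul]

theorem single_mul_eq_sum (c : Matrix κ κ F) (j j₀ : κ) :
    c * E j j₀ = ∑ i, c i j • (E i j₀ : Matrix κ κ F) := by
  ext a b
  rw [Matrix.sum_apply]
  by_cases hb : b = j₀
  · subst hb
    rw [E, Matrix.mul_single_apply_same, Finset.sum_eq_single a]
    · simp
    · intro i _ hi
      simp [Matrix.single_apply_of_row_ne hi]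
    · simp
  · rw [E, Matrix.mul_single_apply_of_ne 1 j j₀ a b hb c, Finset.sum_eq_zero]
    intro i _
    simp [Matrix.single_apply_of_col_ne _ _ (Ne.symm hb)]

/-- **Skolem–Noether** for `M_κ(F)`. -/
theorem skolem_noether [Nonempty κ] (τ : Matrix κ κ F →ₐ[F] Matrix κ κ F) :
    ∃ b : GL κ F, ∀ c, τ c = (b : Matrix κ κ F) * c * ((b⁻¹ : GL κ F) : Matrix κ κ F) := by
  obtain ⟨j₀⟩ := ‹Nonempty κ›
  have hne := map_E_ne_zero τ j₀
  obtain ⟨v₀, hv₀⟩ : ∃ v, τ (E j₀ j₀) *ᵥ v ≠ 0 := by
    by_contra hcon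
    push Not at hcon
    apply hne
    ext a b
    have := congrFun (hcon (Pi.single b 1)) a
    simpa using this
  set w := τ (E j₀ j₀) *ᵥ v₀ with hw
  -- the matrix with columns `τ (E j j₀) w`
  let b : Matrix κ κ F := Matrix.of fun i j => (τ (E j j₀) *ᵥ w) i
  have hcol : ∀ j, b *ᵥ Pi.single j 1 = τ (E j j₀) *ᵥ w := by
    intro j
    ext i
    simp [b]
  have hb : ∀ c, τ c * b = b * c := by
    intro c
    ext i j
    have h1 : (τ c * b) i j = (τ c *ᵥ (τ (E j j₀) *ᵥ w)) i := by
      simp [Matrix.mul_apply, Matrix.mulVec, dotProduct, b]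
    have h2 : τ c *ᵥ (τ (E j j₀) *ᵥ w) = ∑ a, c a j • (τ (E a j₀) *ᵥ w) := by
      rw [Matrix.mulVec_mulVec, ← map_mul, single_mul_eq_sum, map_sum]
      rw [Matrix.sum_mulVec]
      refine Finset.sum_congr rfl fun a _ => ?_
      rw [map_smul, Matrix.smul_mulVec]
    rw [h1, h2]
    simp [Matrix.mul_apply, b, mul_comm]
  have hinj : Function.Injective (fun x => b *ᵥ x) := by
    intro x y hxy
    by_contra hne'
    have hz : b *ᵥ (x - y) = 0 := by
      rw [Matrix.mulVec_sub]
      exact sub_eq_zero.mpr hxy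
    obtain ⟨i, hi⟩ : ∃ i, (x - y) i ≠ 0 := by
      by_contra hcon
      push Not at hcon
      exact hne' (sub_eq_zero.mp (funext hcon))
    set z := x - y with hzdef
    -- `E j₀ i z = z i e_{j₀}`
    have h3 : (E j₀ i : Matrix κ κ F) *ᵥ z = z i • Pi.single j₀ 1 := by
      ext a
      rw [E, Matrix.single_mulVec_eq]
      simp [Pi.single_apply, mul_comm]
    have h4 : b *ᵥ ((E j₀ i : Matrix κ κ F) *ᵥ z) = 0 := by
      rw [Matrix.mulVec_mulVec, ← hb, ← Matrix.mulVec_mulVec, hz, Matrix.mulVec_zero]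
    rw [h3, Matrix.mulVec_smul, hcol, smul_eq_zero] at h4
    rcases h4 with h4 | h4
    · exact hi h4
    · have : τ (E j₀ j₀) *ᵥ w = w := by
        rw [hw, Matrix.mulVec_mulVec, ← map_mul, E_mul_E_same]
      exact hv₀ (by rw [← this, h4])
  have hu : IsUnit b := Matrix.mulVec_injective_iff_isUnit.mp hinj
  obtain ⟨u, hu⟩ := hu
  refine ⟨u, fun c => ?_⟩
  have h5 := hb c
  rw [← hu] at h5
  calc τ c = τ c * ((u : Matrix κ κ F) * ((u⁻¹ : GL κ F) : Matrix κ κ F)) := by
        rw [← Units.val_mul, mul_inv_cancel, Units.val_one, mul_one]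
    _ = _ := by rw [← mul_assoc, h5]

end Cfsg.Agent.Lib.Classical.Asch.SkolemNoether
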