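import Mathlib
import Cfsg.Agent.Lib.Classical.Asch.Basic
import Cfsg.Agent.Lib.Classical.Asch.SkolemNoether

/-!
# Frames: a unital copy of `M_k(F)` in `M_n(F)` is `1 ⊗ M_k(F)` in suitable coordinates
-/

set_option autoImplicit false
set_option linter.style.haveILetI false
set_option linter.unusedSectionVars false

namespace Cfsg.Agent.Lib.Classical.Asch.Frame

open scoped MatrixGroups Matrix Kronecker
open Cfsg.Geo Cfsg.Agent.Lib.Classical.Asch.Basic
open Cfsg.Agent.Lib.Classical.Asch.SkolemNoether (E E_mul_E_same E_mul_E_of_ne single_mul_eq_sum skolem_noether)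

variable {ι : Type} [Fintype ι] [DecidableEq ι] {F : Type*} [Field F]

section frame

variable {k : ℕ} (ψ : Matrix (Fin k) (Fin k) F →ₐ[F] Matrix ι ι F) (j₀ : Fin k)

/-- The matrix units in the copy. -/
abbrev c (a b : Fin k) : Matrix ι ι F := ψ (E a b)

theorem c_mul_c_same (a b d : Fin k) : c ψ a b * c ψ b d = c ψ a d := by
  simp only [c, ← map_mul, E_mul_E_same]

theorem c_mul_c_of_ne (a b d l : Fin k) (h : b ≠ d) : c ψ a b * c ψ d l = 0 := by
  simp only [c, ← map_mul, E_mul_E_of_ne a b d l h, map_zero]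

theorem sum_c_self : ∑ a, c ψ a a = 1 := by
  rw [← map_one ψ, ← Matrix.sum_single_one, map_sum]

/-- The range of the first diagonal unit. -/
def W : Submodule F (ι → F) := LinearMap.range (c ψ j₀ j₀).mulVecLin

theorem mulVec_c_of_mem {u : ι → F} (hu : u ∈ W ψ j₀) : c ψ j₀ j₀ *ᵥ u = u := by
  obtain ⟨y, rfl⟩ := hu
  simp only [Matrix.mulVecLin_apply, Matrix.mulVec_mulVec, c_mul_c_same]

theorem c_mulVec_mem (a : Fin k) (y : ι → F) : c ψ j₀ a *ᵥ y ∈ W ψ j₀ := by
  refine ⟨c ψ j₀ a *ᵥ y, ?_⟩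
  simp only [Matrix.mulVecLin_apply, Matrix.mulVec_mulVec, c_mul_c_same]

/-- The frame vectors. -/
noncomputable def v (x : Fin (Module.finrank F (W ψ j₀)) × Fin k) : ι → F :=
  c ψ x.2 j₀ *ᵥ ((Module.finBasis F (W ψ j₀) x.1 : W ψ j₀) : ι → F)

theorem psi_mulVec_v (m : Matrix (Fin k) (Fin k) F) (x : Fin (Module.finrank F (W ψ j₀)) × Fin k) :
    ψ m *ᵥ v ψ j₀ x = ∑ i, m i x.2 • v ψ j₀ (x.1, i) := by
  unfold v
  rw [Matrix.mulVec_mulVec, ← map_mul, single_mul_eq_sum, map_sum, Matrix.sum_mulVec]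
  refine Finset.sum_congr rfl fun i _ => ?_
  rw [map_smul, Matrix.smul_mulVec]

theorem c_mulVec_v (a : Fin k) (x : Fin (Module.finrank F (W ψ j₀)) × Fin k) :
    c ψ j₀ a *ᵥ v ψ j₀ x = if x.2 = a then ((Module.finBasis F (W ψ j₀) x.1 : W ψ j₀) : ι → F) else 0 := by
  unfold v
  rw [Matrix.mulVec_mulVec]
  split_ifs with h
  · subst h
    rw [c_mul_c_same]
    exact mulVec_c_of_mem ψ j₀ (Module.finBasis F (W ψ j₀) x.1).2
  · rw [c_mul_c_of_ne ψ _ _ _ _ (Ne.symm h), Matrix.zero_mulVec]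

theorem v_linearIndependent : LinearIndependent F (v ψ j₀) := by
  rw [Fintype.linearIndependent_iff]
  intro g hg x
  obtain ⟨α, a⟩ := x
  have h1 : c ψ j₀ a *ᵥ (∑ x, g x • v ψ j₀ x) = 0 := by rw [hg, Matrix.mulVec_zero]
  rw [Matrix.mulVec_sum] at h1
  simp only [Matrix.mulVec_smul, c_mulVec_v] at h1
  rw [Fintype.sum_prod_type] at h1
  have h2 : ∑ α', g (α', a) • ((Module.finBasis F (W ψ j₀) α' : W ψ j₀) : ι → F) = 0 := by
    rw [← h1]
    refine Finset.sum_congr rfl fun α' _ => ?_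
    rw [Finset.sum_eq_single a]
    · simp
    · intro b _ hb
      simp [hb]
    · simp
  have h3 : ∑ α', g (α', a) • (Module.finBasis F (W ψ j₀) α') = 0 := by
    apply Subtype.ext
    simpa using h2
  exact (Fintype.linearIndependent_iff.mp (Module.finBasis F (W ψ j₀)).linearIndependent _ h3) α

theorem v_span : ⊤ ≤ Submodule.span F (Set.range (v ψ j₀)) := by
  intro y _
  have h1 : y = ∑ a, c ψ a j₀ *ᵥ (c ψ j₀ a *ᵥ y) := by
    simp only [Matrix.mulVec_mulVec, c_mul_c_same]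
    rw [← Matrix.sum_mulVec, sum_c_self, Matrix.one_mulVec]
  rw [h1]
  refine Submodule.sum_mem _ fun a _ => ?_
  have hu := c_mulVec_mem ψ j₀ a y
  set u : W ψ j₀ := ⟨_, hu⟩ with hudef
  have h2 : c ψ j₀ a *ᵥ y = ∑ α, ((Module.finBasis F (W ψ j₀)).repr u α) •
      ((Module.finBasis F (W ψ j₀) α : W ψ j₀) : ι → F) := by
    have h3 := (Module.finBasis F (W ψ j₀)).sum_repr u
    have h4 := map_sum (W ψ j₀).subtype (fun α => (Module.finBasis F (W ψ j₀)).repr u α •
      Module.finBasis F (W ψ j₀) α) Finset.univ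
    rw [h3] at h4
    simpa only [map_smul, Submodule.subtype_apply] using h4
  rw [h2, Matrix.mulVec_sum]
  refine Submodule.sum_mem _ fun α _ => ?_
  rw [Matrix.mulVec_smul]
  exact Submodule.smul_mem _ _ (Submodule.subset_span ⟨(α, a), rfl⟩)

include j₀ in
/-- Coordinates. -/
theorem exists_frame :
    ∃ (d : ℕ) (e : ι ≃ Fin d × Fin k) (P : GL ι F), ∀ m : Matrix (Fin k) (Fin k) F,
      ψ m * (P : Matrix ι ι F) = (P : Matrix ι ι F) *
        ((1 : Matrix (Fin d) (Fin d) F) ⊗ₖ m).submatrix e e := by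
  set d := Module.finrank F (W ψ j₀) with hd
  let B : Module.Basis (Fin d × Fin k) F (ι → F) :=
    Module.Basis.mk (v_linearIndependent ψ j₀) (v_span ψ j₀)
  have hcard : Fintype.card ι = Fintype.card (Fin d × Fin k) := by
    have h1 := Module.finrank_eq_card_basis B
    rwa [Module.finrank_fintype_fun_eq_card] at h1
  let e : ι ≃ Fin d × Fin k := Fintype.equivOfCardEq hcard
  let B' : Module.Basis ι F (ι → F) := B.reindex e.symm
  let S : Module.Basis ι F (ι → F) := Pi.basisFun F ι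
  let P : GL ι F := ⟨S.toMatrix B', B'.toMatrix S, S.toMatrix_mul_toMatrix_flip B',
    B'.toMatrix_mul_toMatrix_flip S⟩
  have hP : ∀ l m, (P : Matrix ι ι F) l m = v ψ j₀ (e m) l := by
    intro l m
    change S.toMatrix B' l m = _
    rw [Module.Basis.toMatrix_apply, Pi.basisFun_repr, Module.Basis.reindex_apply, Equiv.symm_symm,
      Module.Basis.mk_apply]
  refine ⟨d, e, P, fun m => ?_⟩
  ext l x
  have h1 : (ψ m * (P : Matrix ι ι F)) l x = (ψ m *ᵥ v ψ j₀ (e x)) l := by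
    rw [Matrix.mul_apply, Matrix.mulVec, dotProduct]
    exact Finset.sum_congr rfl fun i _ => by rw [hP]
  rw [h1, psi_mulVec_v, Matrix.mul_apply]
  have h2 : ∀ m' : ι, (P : Matrix ι ι F) l m' * ((1 : Matrix (Fin d) (Fin d) F) ⊗ₖ m).submatrix e e m' x =
      (fun z : Fin d × Fin k => v ψ j₀ z l * ((1 : Matrix (Fin d) (Fin d) F) ⊗ₖ m) z (e x)) (e m') := by
    intro m'
    rw [hP]
    rfl
  rw [Finset.sum_congr rfl fun m' _ => h2 m', Equiv.sum_comp e
    (fun z : Fin d × Fin k => v ψ j₀ z l * ((1 : Matrix (Fin d) (Fin d) F) ⊗ₖ m) z (e x)),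
    Fintype.sum_prod_type, Finset.sum_apply]
  rw [Finset.sum_eq_single (e x).1]
  · refine Finset.sum_congr rfl fun i _ => ?_
    rw [Matrix.kroneckerMap_apply, Matrix.one_apply_eq, one_mul, Pi.smul_apply, smul_eq_mul, mul_comm]
  · intro α _ hα
    refine Finset.sum_eq_zero fun i _ => ?_
    rw [Matrix.kroneckerMap_apply, Matrix.one_apply_ne hα, zero_mul, mul_zero]
  · intro h
    exact absurd (Finset.mem_univ _) h

end frame

section kron

variable {d k : ℕ}

/-- `c ↦ 1 ⊗ c`. -/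
def kronOne (d k : ℕ) (F : Type*) [Field F] :
    Matrix (Fin k) (Fin k) F →ₐ[F] Matrix (Fin d × Fin k) (Fin d × Fin k) F where
  toFun c := (1 : Matrix (Fin d) (Fin d) F) ⊗ₖ c
  map_one' := Matrix.one_kronecker_one
  map_mul' x y := by rw [← Matrix.mul_kronecker_mul, mul_one]
  map_zero' := Matrix.kronecker_zero _
  map_add' x y := Matrix.kronecker_add _ _ _
  commutes' r := by
    rw [Algebra.algebraMap_eq_smul_one, Algebra.algebraMap_eq_smul_one, Matrix.kronecker_smul,
      Matrix.one_kronecker_one]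

@[simp] theorem kronOne_apply (m : Matrix (Fin k) (Fin k) F) :
    kronOne d k F m = (1 : Matrix (Fin d) (Fin d) F) ⊗ₖ m := rfl

theorem kronOne_injective [Nonempty (Fin d)] : Function.Injective (kronOne d k F) := by
  intro x y h
  obtain ⟨α⟩ := ‹Nonempty (Fin d)›
  ext a b
  have := congrFun (congrFun h (α, a)) (α, b)
  simpa using this

theorem mul_kronOne_E_apply (M : Matrix (Fin d × Fin k) (Fin d × Fin k) F) (x y u v : Fin k) (α β : Fin d) :
    (M * kronOne d k F (E x y)) (α, u) (β, v) = M (α, u) (β, x) * (if y = v then 1 else 0) := by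
  rw [Matrix.mul_apply, Fintype.sum_prod_type, Finset.sum_eq_single β, Finset.sum_eq_single x]
  · simp [Matrix.single_apply]
  · intro w _ hw
    simp [Matrix.single_apply, Ne.symm hw]
  · simp
  · intro γ _ hγ
    refine Finset.sum_eq_zero fun w _ => ?_
    simp [Matrix.one_apply_ne hγ]
  · simp

theorem kronOne_E_mul_apply (M : Matrix (Fin d × Fin k) (Fin d × Fin k) F) (x y u v : Fin k) (α β : Fin d) :
    (kronOne d k F (E x y) * M) (α, u) (β, v) = (if x = u then 1 else 0) * M (α, y) (β, v) := by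
  rw [Matrix.mul_apply, Fintype.sum_prod_type, Finset.sum_eq_single α, Finset.sum_eq_single y]
  · simp [Matrix.single_apply]
  · intro w _ hw
    simp [Matrix.single_apply, Ne.symm hw]
  · simp
  · intro γ _ hγ
    refine Finset.sum_eq_zero fun w _ => ?_
    simp [Matrix.one_apply_ne (Ne.symm hγ)]
  · simp

/-- The commutant of `1 ⊗ M_k(F)`. -/
theorem commutant_kronOne (hk : 0 < k) (M : Matrix (Fin d × Fin k) (Fin d × Fin k) F)
    (h : ∀ c, M * kronOne d k F c = kronOne d k F c * M) :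
    ∃ a : Matrix (Fin d) (Fin d) F, M = a ⊗ₖ (1 : Matrix (Fin k) (Fin k) F) := by
  let j₀ : Fin k := ⟨0, hk⟩
  refine ⟨Matrix.of fun α β => M (α, j₀) (β, j₀), ?_⟩
  ext ⟨α, u⟩ ⟨β, v⟩
  have h1 := congrFun (congrFun (h (E v j₀)) (α, u)) (β, j₀)
  rw [mul_kronOne_E_apply, kronOne_E_mul_apply] at h1
  simp only [if_true, mul_one] at h1
  rw [h1, Matrix.kroneckerMap_apply, Matrix.of_apply]
  by_cases huv : v = u
  · subst huv
    simp
  · simp [huv, Ne.symm huv]

end kron

theorem coe_glReindex {κ : Type} [Fintype κ] [DecidableEq κ] (f : κ ≃ ι) (x : GL κ F) :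
    ((glReindex f x : GL ι F) : Matrix ι ι F) = (x : Matrix κ κ F).submatrix f.symm f.symm := rfl

/-- Algebra maps from maps landing in the range of an injective algebra map. -/
theorem exists_algHom_of_range {R A A' B : Type*} [CommSemiring R] [Ring A] [Ring A'] [Ring B] [Algebra R A]
    [Algebra R A'] [Algebra R B]
    (X : A' →ₐ[R] B) (hX : Function.Injective X) (Y : A →ₐ[R] B) (hY : ∀ a, ∃ a', X a' = Y a) :
    ∃ τ : A →ₐ[R] A', ∀ a, X (τ a) = Y a := by
  let e : A' ≃ₐ[R] X.range := AlgEquiv.ofInjective X hX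
  let Y' : A →ₐ[R] X.range := Y.codRestrict X.range (fun a => by
    obtain ⟨a', h⟩ := hY a
    exact ⟨a', h⟩)
  refine ⟨e.symm.toAlgHom.comp Y', fun a => ?_⟩
  have h1 : e (e.symm (Y' a)) = Y' a := e.apply_symm_apply _
  have h2 := congrArg Subtype.val h1
  exact h2

/-- An element normalising `1 ⊗ M_k(F)` is a Kronecker product. -/
theorem mem_kronecker_of_normalizes {d k : ℕ} (hd : 0 < d) (hk : 0 < k) (h : GL (Fin d × Fin k) F)
    (hnorm : ∀ m, ∃ m', (h : Matrix (Fin d × Fin k) (Fin d × Fin k) F) * kronOne d k F m = kronOne d k F m' * (h : Matrix (Fin d × Fin k) (Fin d × Fin k) F)) :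
    h ∈ kroneckerSubgroup d k F := by
  haveI : Nonempty (Fin k) := ⟨⟨0, hk⟩⟩
  haveI : Nonempty (Fin d) := ⟨⟨0, hd⟩⟩
  let Y : Matrix (Fin k) (Fin k) F →ₐ[F] Matrix (Fin d × Fin k) (Fin d × Fin k) F :=
    (conjAlg h).toAlgHom.comp (kronOne d k F)
  have hY : ∀ m, ∃ m', kronOne d k F m' = Y m := by
    intro m
    obtain ⟨m', hm'⟩ := hnorm m
    refine ⟨m', ?_⟩
    change _ = (h : Matrix (Fin d × Fin k) (Fin d × Fin k) F) * kronOne d k F m * ((h⁻¹ : GL (Fin d × Fin k) F) : Matrix (Fin d × Fin k) (Fin d × Fin k) F)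
    rw [hm', mul_assoc, ← Units.val_mul, mul_inv_cancel, Units.val_one, mul_one]
  obtain ⟨τ, hτ⟩ := exists_algHom_of_range _ kronOne_injective Y hY
  obtain ⟨b, hb⟩ := skolem_noether τ
  -- the element `1 ⊗ b`
  let b' : GL (Fin d × Fin k) F := Units.map (kronOne d k F).toMonoidHom b
  have hb' : ((b' : GL (Fin d × Fin k) F) : Matrix (Fin d × Fin k) (Fin d × Fin k) F) = kronOne d k F (b : Matrix (Fin k) (Fin k) F) := rfl
  have hb'inv : ((b'⁻¹ : GL (Fin d × Fin k) F) : Matrix (Fin d × Fin k) (Fin d × Fin k) F) = kronOne d k F ((b⁻¹ : GL (Fin k) F) : Matrix (Fin k) (Fin k) F) := by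
    have : b'⁻¹ = Units.map (kronOne d k F).toMonoidHom b⁻¹ := by
      rw [map_inv]
    rw [this]
    rfl
  -- `b'⁻¹ h` commutes with `1 ⊗ M_k`
  have key : ∀ m, (h : Matrix (Fin d × Fin k) (Fin d × Fin k) F) * kronOne d k F m =
      (b' : Matrix (Fin d × Fin k) (Fin d × Fin k) F) * kronOne d k F m * ((b'⁻¹ : GL (Fin d × Fin k) F) : Matrix (Fin d × Fin k) (Fin d × Fin k) F) * (h : Matrix (Fin d × Fin k) (Fin d × Fin k) F) := by
    intro m
    have h1 : kronOne d k F (τ m) = Y m := hτ m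
    have h2 : Y m = (h : Matrix (Fin d × Fin k) (Fin d × Fin k) F) * kronOne d k F m * ((h⁻¹ : GL (Fin d × Fin k) F) : Matrix (Fin d × Fin k) (Fin d × Fin k) F) := rfl
    have h3 : (h : Matrix (Fin d × Fin k) (Fin d × Fin k) F) * kronOne d k F m = Y m * (h : Matrix (Fin d × Fin k) (Fin d × Fin k) F) := by
      rw [h2, mul_assoc, ← Units.val_mul, inv_mul_cancel, Units.val_one, mul_one]
    rw [h3, ← h1, hb, hb', hb'inv, map_mul, map_mul]
  set x : GL (Fin d × Fin k) F := b'⁻¹ * h with hx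
  have hxc : ∀ m, (x : Matrix (Fin d × Fin k) (Fin d × Fin k) F) * kronOne d k F m = kronOne d k F m * (x : Matrix (Fin d × Fin k) (Fin d × Fin k) F) := by
    intro m
    calc (x : Matrix (Fin d × Fin k) (Fin d × Fin k) F) * kronOne d k F m
        = ((b'⁻¹ : GL (Fin d × Fin k) F) : Matrix (Fin d × Fin k) (Fin d × Fin k) F) * ((h : Matrix (Fin d × Fin k) (Fin d × Fin k) F) * kronOne d k F m) := by
          rw [hx, Units.val_mul, mul_assoc]
      _ = (((b'⁻¹ : GL (Fin d × Fin k) F) : Matrix (Fin d × Fin k) (Fin d × Fin k) F) * (b' : Matrix (Fin d × Fin k) (Fin d × Fin k) F)) * kronOne d k F m *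
            (((b'⁻¹ : GL (Fin d × Fin k) F) : Matrix (Fin d × Fin k) (Fin d × Fin k) F) * (h : Matrix (Fin d × Fin k) (Fin d × Fin k) F)) := by
          rw [key]
          simp only [mul_assoc]
      _ = kronOne d k F m * (x : Matrix (Fin d × Fin k) (Fin d × Fin k) F) := by
          rw [← Units.val_mul, inv_mul_cancel, Units.val_one, one_mul, hx, Units.val_mul]
  have hxic : ∀ m, ((x⁻¹ : GL (Fin d × Fin k) F) : Matrix (Fin d × Fin k) (Fin d × Fin k) F) * kronOne d k F m =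
      kronOne d k F m * ((x⁻¹ : GL (Fin d × Fin k) F) : Matrix (Fin d × Fin k) (Fin d × Fin k) F) := by
    intro m
    calc ((x⁻¹ : GL (Fin d × Fin k) F) : Matrix (Fin d × Fin k) (Fin d × Fin k) F) * kronOne d k F m
        = ((x⁻¹ : GL (Fin d × Fin k) F) : Matrix (Fin d × Fin k) (Fin d × Fin k) F) * (kronOne d k F m * ((x : Matrix (Fin d × Fin k) (Fin d × Fin k) F) *
            ((x⁻¹ : GL (Fin d × Fin k) F) : Matrix (Fin d × Fin k) (Fin d × Fin k) F))) := by
          rw [← Units.val_mul, mul_inv_cancel, Units.val_one, mul_one]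
      _ = ((x⁻¹ : GL (Fin d × Fin k) F) : Matrix (Fin d × Fin k) (Fin d × Fin k) F) * ((x : Matrix (Fin d × Fin k) (Fin d × Fin k) F) * kronOne d k F m) *
            ((x⁻¹ : GL (Fin d × Fin k) F) : Matrix (Fin d × Fin k) (Fin d × Fin k) F) := by
          rw [hxc]
          simp only [mul_assoc]
      _ = _ := by
          rw [← mul_assoc, ← Units.val_mul, inv_mul_cancel, Units.val_one, one_mul]
  obtain ⟨a, ha⟩ := commutant_kronOne hk _ hxc
  obtain ⟨a', ha'⟩ := commutant_kronOne hk _ hxic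
  have haa' : a * a' = 1 := by
    have h1 : (x : Matrix (Fin d × Fin k) (Fin d × Fin k) F) * ((x⁻¹ : GL (Fin d × Fin k) F) : Matrix (Fin d × Fin k) (Fin d × Fin k) F) = 1 := by
      rw [← Units.val_mul, mul_inv_cancel, Units.val_one]
    rw [ha, ha', ← Matrix.mul_kronecker_mul, mul_one] at h1
    let j₀ : Fin k := ⟨0, hk⟩
    ext i l
    have h2 := congrFun (congrFun h1 (i, j₀)) (l, j₀)
    simpa [Matrix.one_apply, Prod.ext_iff] using h2
  let A : GL (Fin d) F := ⟨a, a', haa', mul_eq_one_comm.mp haa'⟩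
  refine ⟨A, b, ?_⟩
  have h4 : (h : Matrix (Fin d × Fin k) (Fin d × Fin k) F) = (b' : Matrix (Fin d × Fin k) (Fin d × Fin k) F) * (x : Matrix (Fin d × Fin k) (Fin d × Fin k) F) := by
    rw [hx, Units.val_mul, ← mul_assoc, ← Units.val_mul, mul_inv_cancel, Units.val_one, one_mul]
  rw [h4, hb', ha, kronOne_apply, ← Matrix.mul_kronecker_mul, one_mul, mul_one]

/-- In frame coordinates, an element normalising the copy of `M_k(F)` lies in the tensor product subgroup. -/
theorem mem_tensorProductSubgroup [Nonempty ι] {d k : ℕ} (hk : 0 < k)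
    (ψ : Matrix (Fin k) (Fin k) F →ₐ[F] Matrix ι ι F) (e : ι ≃ Fin d × Fin k) (P : GL ι F)
    (hP : ∀ m : Matrix (Fin k) (Fin k) F, ψ m * (P : Matrix ι ι F) = (P : Matrix ι ι F) *
        ((1 : Matrix (Fin d) (Fin d) F) ⊗ₖ m).submatrix e e)
    {g : GL ι F} (hg : ∀ m, ∃ m', (g : Matrix ι ι F) * ψ m = ψ m' * (g : Matrix ι ι F)) :
    g ∈ tensorProductSubgroup d k e P := by
  have hd : 0 < d := by
    obtain ⟨i⟩ := ‹Nonempty ι›
    exact Fin.pos (e i).1
  let h : GL (Fin d × Fin k) F := (glReindex e.symm).symm (P⁻¹ * g * P)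
  have hh : glReindex e.symm h = P⁻¹ * g * P := (glReindex e.symm).apply_symm_apply _
  have hh' : ((P⁻¹ * g * P : GL ι F) : Matrix ι ι F) = (h : Matrix _ _ F).submatrix e e := by
    rw [← hh]
    rfl
  have hP' : ∀ m, ((P⁻¹ : GL ι F) : Matrix ι ι F) * ψ m * (P : Matrix ι ι F) =
      ((1 : Matrix (Fin d) (Fin d) F) ⊗ₖ m).submatrix e e := by
    intro m
    rw [mul_assoc, hP, ← mul_assoc, ← Units.val_mul, inv_mul_cancel, Units.val_one, one_mul]
  have hmem : h ∈ kroneckerSubgroup d k F := by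
    refine mem_kronecker_of_normalizes hd hk h fun m => ?_
    obtain ⟨m', hm'⟩ := hg m
    refine ⟨m', ?_⟩
    have h1 : ((P⁻¹ * g * P : GL ι F) : Matrix ι ι F) * (((P⁻¹ : GL ι F) : Matrix ι ι F) * ψ m * (P : Matrix ι ι F))
        = (((P⁻¹ : GL ι F) : Matrix ι ι F) * ψ m' * (P : Matrix ι ι F)) * ((P⁻¹ * g * P : GL ι F) : Matrix ι ι F) := by
      have hPP : (P : Matrix ι ι F) * ((P⁻¹ : GL ι F) : Matrix ι ι F) = 1 := by
        rw [← Units.val_mul, mul_inv_cancel, Units.val_one]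
      calc ((P⁻¹ * g * P : GL ι F) : Matrix ι ι F) * (((P⁻¹ : GL ι F) : Matrix ι ι F) * ψ m * (P : Matrix ι ι F))
          = ((P⁻¹ : GL ι F) : Matrix ι ι F) * (g : Matrix ι ι F) * ((P : Matrix ι ι F) * ((P⁻¹ : GL ι F) : Matrix ι ι F)) *
              (ψ m * (P : Matrix ι ι F)) := by
            simp only [Units.val_mul, mul_assoc]
        _ = ((P⁻¹ : GL ι F) : Matrix ι ι F) * ((g : Matrix ι ι F) * ψ m) * (P : Matrix ι ι F) := by
            rw [hPP]; simp only [mul_one, mul_assoc]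
        _ = ((P⁻¹ : GL ι F) : Matrix ι ι F) * (ψ m' * (g : Matrix ι ι F)) * (P : Matrix ι ι F) := by rw [hm']
        _ = ((P⁻¹ : GL ι F) : Matrix ι ι F) * ψ m' * ((P : Matrix ι ι F) * ((P⁻¹ : GL ι F) : Matrix ι ι F)) *
              (g : Matrix ι ι F) * (P : Matrix ι ι F) := by
            rw [hPP]; simp only [mul_one, mul_assoc]
        _ = _ := by
            simp only [Units.val_mul, mul_assoc]
    rw [hP', hP', hh', Matrix.submatrix_mul_equiv, Matrix.submatrix_mul_equiv] at h1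
    ext i j
    have h2 := congrFun (congrFun h1 (e.symm i)) (e.symm j)
    simpa using h2
  refine ⟨glReindex e.symm h, ⟨h, hmem, rfl⟩, ?_⟩
  change P * glReindex e.symm h * P⁻¹ = g
  rw [hh]
  group

end Cfsg.Agent.Lib.Classical.Asch.Frame
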