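import Mathlib
import Cfsg.Agent.Lib.Classical.Asch.Comm
import Cfsg.Agent.Lib.Classical.Asch.Centralizer
import Cfsg.Agent.Lib.Classical.Asch.Frame
import Cfsg.Agent.Lib.Classical.Asch.Clifford

/-!
# The dichotomy for subgroups normalised by an irreducible group

If `G` is irreducible and lies in no raw geometric subgroup of classes 2, 3, 4/7, then every subgroup `N` normalised by `G` is
scalar or absolutely irreducible.
-/

set_option autoImplicit false
set_option linter.style.haveILetI false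
set_option linter.unusedSectionVars false

namespace Cfsg.Agent.Lib.Classical.Asch.Dichotomy

open scoped MatrixGroups Matrix Kronecker
open Cfsg.Geo Cfsg.Agent.Lib.Classical.Asch.Basic Cfsg.Agent.Lib.Classical.Asch.Frame
open Cfsg.Agent.Lib.Classical.Asch.Stable Cfsg.Agent.Lib.Classical.Asch.Comm
open Cfsg.Agent.Lib.Classical.Asch.Centralizer Cfsg.Agent.Lib.Classical.Asch.Clifford

variable {ι : Type} [Fintype ι] [DecidableEq ι] {F : Type*} [Field F]

/-- `a ↦ a ⊗ 1`. -/
def kronRight (d k : ℕ) (F : Type*) [Field F] :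
    Matrix (Fin d) (Fin d) F →ₐ[F] Matrix (Fin d × Fin k) (Fin d × Fin k) F where
  toFun a := a ⊗ₖ (1 : Matrix (Fin k) (Fin k) F)
  map_one' := Matrix.one_kronecker_one
  map_mul' x y := by rw [← Matrix.mul_kronecker_mul, mul_one]
  map_zero' := Matrix.zero_kronecker _
  map_add' x y := Matrix.add_kronecker _ _ _
  commutes' r := by
    rw [Algebra.algebraMap_eq_smul_one, Algebra.algebraMap_eq_smul_one, Matrix.smul_kronecker,
      Matrix.one_kronecker_one]

@[simp] theorem kronRight_apply {d k : ℕ} (a : Matrix (Fin d) (Fin d) F) :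
    kronRight d k F a = a ⊗ₖ (1 : Matrix (Fin k) (Fin k) F) := rfl

/-- The outer copy in frame coordinates. -/
noncomputable def outer {d k : ℕ} (e : ι ≃ Fin d × Fin k) (P : GL ι F) :
    Matrix (Fin d) (Fin d) F →ₐ[F] Matrix ι ι F :=
  (conjAlg P).toAlgHom.comp ((Matrix.reindexAlgEquiv F F e.symm).toAlgHom.comp (kronRight d k F))

theorem outer_mul {d k : ℕ} (e : ι ≃ Fin d × Fin k) (P : GL ι F) (a : Matrix (Fin d) (Fin d) F) :
    outer e P a * (P : Matrix ι ι F) = (P : Matrix ι ι F) * (a ⊗ₖ (1 : Matrix (Fin k) (Fin k) F)).submatrix e e := by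
  change (P : Matrix ι ι F) * (a ⊗ₖ (1 : Matrix (Fin k) (Fin k) F)).submatrix e e *
    ((P⁻¹ : GL ι F) : Matrix ι ι F) * (P : Matrix ι ι F) = _
  rw [mul_assoc, ← Units.val_mul, inv_mul_cancel, Units.val_one, mul_one]

theorem outer_injective {d k : ℕ} (hk : 0 < k) (e : ι ≃ Fin d × Fin k) (P : GL ι F) :
    Function.Injective (outer e P) := by
  intro a a' h
  have h1 : outer e P a * (P : Matrix ι ι F) = outer e P a' * (P : Matrix ι ι F) := by rw [h]
  rw [outer_mul, outer_mul] at h1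
  have h2 := congrArg (fun M => ((P⁻¹ : GL ι F) : Matrix ι ι F) * M) h1
  simp only [← mul_assoc, ← Units.val_mul, inv_mul_cancel, Units.val_one, one_mul] at h2
  ext i j
  have h3 := congrFun (congrFun h2 (e.symm (i, ⟨0, hk⟩))) (e.symm (j, ⟨0, hk⟩))
  simpa using h3

/-- All the frame data of a central simple subalgebra. -/
structure FrameData (C : Subalgebra F (Matrix ι ι F)) (d k : ℕ) (ψ : Matrix (Fin k) (Fin k) F →ₐ[F] Matrix ι ι F)
    (e : ι ≃ Fin d × Fin k) (P : GL ι F) : Prop where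
  hk : 0 < k
  hd : 0 < d
  mem_iff : ∀ x, x ∈ C ↔ ∃ m, ψ m = x
  frame : ∀ m : Matrix (Fin k) (Fin k) F, ψ m * (P : Matrix ι ι F) = (P : Matrix ι ι F) *
    ((1 : Matrix (Fin d) (Fin d) F) ⊗ₖ m).submatrix e e

theorem exists_frameData [Fintype F] [Nonempty ι] {C : Subalgebra F (Matrix ι ι F)} [IsSemisimpleRing ↥C]
    (hZ : ∀ z ∈ C, (∀ y ∈ C, z * y = y * z) → ∃ c : F, z = c • (1 : Matrix ι ι F)) :
    ∃ (d k : ℕ) (ψ : Matrix (Fin k) (Fin k) F →ₐ[F] Matrix ι ι F) (e : ι ≃ Fin d × Fin k) (P : GL ι F),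
      FrameData C d k ψ e P := by
  obtain ⟨k, ψ, hk, hψ⟩ := exists_matrix_of_center_scalar hZ
  obtain ⟨d, e, P, hP⟩ := exists_frame ψ ⟨0, hk⟩
  refine ⟨d, k, ψ, e, P, hk, ?_, hψ, hP⟩
  obtain ⟨i⟩ := ‹Nonempty ι›
  exact Fin.pos (e i).1

variable {C : Subalgebra F (Matrix ι ι F)} {d k : ℕ} {ψ : Matrix (Fin k) (Fin k) F →ₐ[F] Matrix ι ι F}
  {e : ι ≃ Fin d × Fin k} {P : GL ι F}

/-- The commutant of `C` is the outer copy. -/
theorem FrameData.exists_outer_eq (h : FrameData C d k ψ e P) {x : Matrix ι ι F}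
    (hx : ∀ y ∈ C, x * y = y * x) : ∃ a, outer e P a = x := by
  let M : Matrix (Fin d × Fin k) (Fin d × Fin k) F :=
    (((P⁻¹ : GL ι F) : Matrix ι ι F) * x * (P : Matrix ι ι F)).submatrix e.symm e.symm
  have hPP : (P : Matrix ι ι F) * ((P⁻¹ : GL ι F) : Matrix ι ι F) = 1 := by
    rw [← Units.val_mul, mul_inv_cancel, Units.val_one]
  have hPP' : ((P⁻¹ : GL ι F) : Matrix ι ι F) * (P : Matrix ι ι F) = 1 := by
    rw [← Units.val_mul, inv_mul_cancel, Units.val_one]
  have hfr : ∀ m, ((P⁻¹ : GL ι F) : Matrix ι ι F) * ψ m * (P : Matrix ι ι F) =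
      ((1 : Matrix (Fin d) (Fin d) F) ⊗ₖ m).submatrix e e := by
    intro m
    rw [mul_assoc, h.frame, ← mul_assoc, hPP', one_mul]
  have hM : ∀ m, M * kronOne d k F m = kronOne d k F m * M := by
    intro m
    have h1 : kronOne d k F m = (((P⁻¹ : GL ι F) : Matrix ι ι F) * ψ m * (P : Matrix ι ι F)).submatrix e.symm e.symm := by
      rw [hfr]
      ext i j
      simp
    rw [h1]
    simp only [M]
    rw [Matrix.submatrix_mul_equiv, Matrix.submatrix_mul_equiv]
    congr 1
    have h2 := hx (ψ m) ((h.mem_iff _).mpr ⟨m, rfl⟩)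
    calc ((P⁻¹ : GL ι F) : Matrix ι ι F) * x * (P : Matrix ι ι F) *
          (((P⁻¹ : GL ι F) : Matrix ι ι F) * ψ m * (P : Matrix ι ι F))
        = ((P⁻¹ : GL ι F) : Matrix ι ι F) * x * ((P : Matrix ι ι F) * ((P⁻¹ : GL ι F) : Matrix ι ι F)) *
            ψ m * (P : Matrix ι ι F) := by simp only [mul_assoc]
      _ = ((P⁻¹ : GL ι F) : Matrix ι ι F) * (x * ψ m) * (P : Matrix ι ι F) := by
          rw [hPP]; simp only [mul_one, mul_assoc]
      _ = ((P⁻¹ : GL ι F) : Matrix ι ι F) * ψ m * ((P : Matrix ι ι F) * ((P⁻¹ : GL ι F) : Matrix ι ι F)) *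
            x * (P : Matrix ι ι F) := by
          rw [h2, hPP]; simp only [mul_one, mul_assoc]
      _ = _ := by simp only [mul_assoc]
  obtain ⟨a, ha⟩ := commutant_kronOne h.hk M hM
  refine ⟨a, ?_⟩
  have h3 : ((P⁻¹ : GL ι F) : Matrix ι ι F) * x * (P : Matrix ι ι F) =
      (a ⊗ₖ (1 : Matrix (Fin k) (Fin k) F)).submatrix e e := by
    rw [← ha]
    ext i j
    simp [M]
  change (P : Matrix ι ι F) * (a ⊗ₖ (1 : Matrix (Fin k) (Fin k) F)).submatrix e e *
    ((P⁻¹ : GL ι F) : Matrix ι ι F) = x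
  rw [← h3]
  calc (P : Matrix ι ι F) * (((P⁻¹ : GL ι F) : Matrix ι ι F) * x * (P : Matrix ι ι F)) * ((P⁻¹ : GL ι F) : Matrix ι ι F)
      = ((P : Matrix ι ι F) * ((P⁻¹ : GL ι F) : Matrix ι ι F)) * x *
          ((P : Matrix ι ι F) * ((P⁻¹ : GL ι F) : Matrix ι ι F)) := by simp only [mul_assoc]
    _ = x := by rw [hPP, one_mul, mul_one]

/-- The outer copy commutes with `C`. -/
theorem FrameData.outer_comm (h : FrameData C d k ψ e P) (a : Matrix (Fin d) (Fin d) F) {y : Matrix ι ι F}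
    (hy : y ∈ C) : outer e P a * y = y * outer e P a := by
  obtain ⟨m, rfl⟩ := (h.mem_iff y).mp hy
  have hPP : (P : Matrix ι ι F) * ((P⁻¹ : GL ι F) : Matrix ι ι F) = 1 := by
    rw [← Units.val_mul, mul_inv_cancel, Units.val_one]
  have hPP' : ((P⁻¹ : GL ι F) : Matrix ι ι F) * (P : Matrix ι ι F) = 1 := by
    rw [← Units.val_mul, inv_mul_cancel, Units.val_one]
  have h1 : (outer e P a * ψ m) * (P : Matrix ι ι F) = (ψ m * outer e P a) * (P : Matrix ι ι F) := by
    have hXY : ((a ⊗ₖ (1 : Matrix (Fin k) (Fin k) F)).submatrix e e) *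
        (((1 : Matrix (Fin d) (Fin d) F) ⊗ₖ m).submatrix e e) =
        (((1 : Matrix (Fin d) (Fin d) F) ⊗ₖ m).submatrix e e) *
        ((a ⊗ₖ (1 : Matrix (Fin k) (Fin k) F)).submatrix e e) := by
      rw [Matrix.submatrix_mul_equiv, Matrix.submatrix_mul_equiv, ← Matrix.mul_kronecker_mul,
        ← Matrix.mul_kronecker_mul, mul_one, one_mul, mul_one, one_mul]
    calc (outer e P a * ψ m) * (P : Matrix ι ι F)
        = outer e P a * (ψ m * (P : Matrix ι ι F)) := mul_assoc _ _ _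
      _ = (outer e P a * (P : Matrix ι ι F)) * ((1 : Matrix (Fin d) (Fin d) F) ⊗ₖ m).submatrix e e := by
          rw [h.frame, mul_assoc]
      _ = (P : Matrix ι ι F) * (((a ⊗ₖ (1 : Matrix (Fin k) (Fin k) F)).submatrix e e) *
          (((1 : Matrix (Fin d) (Fin d) F) ⊗ₖ m).submatrix e e)) := by
          rw [outer_mul, mul_assoc]
      _ = (ψ m * (P : Matrix ι ι F)) * (a ⊗ₖ (1 : Matrix (Fin k) (Fin k) F)).submatrix e e := by
          rw [hXY, h.frame, mul_assoc]
      _ = (ψ m * outer e P a) * (P : Matrix ι ι F) := by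
          rw [mul_assoc (ψ m) (outer e P a), outer_mul, mul_assoc]
  have h2 := congrArg (fun M => M * ((P⁻¹ : GL ι F) : Matrix ι ι F)) h1
  simpa only [mul_assoc, hPP, mul_one] using h2

/-- The raw geometric outcomes. -/
def RawGeom (G : Subgroup (GL ι F)) : Prop :=
  (∃ (t m : ℕ) (D : Fin t → Submodule F (ι → F)), IsMDecomposition m D ∧ G ≤ decompositionStabilizer D) ∨
  (∃ (r : ℕ) (K : Subalgebra F (Matrix ι ι F)), r.Prime ∧ IsFieldSubalgebra r K ∧ G ≤ subalgebraNormalizer K) ∨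
  (∃ (d k : ℕ) (e : ι ≃ Fin d × Fin k) (P : GL ι F), 2 ≤ d ∧ 2 ≤ k ∧ G ≤ tensorProductSubgroup d k e P)

/-- The center of a subalgebra as a subalgebra. -/
def centerOf (C : Subalgebra F (Matrix ι ι F)) : Subalgebra F (Matrix ι ι F) :=
  C ⊓ Subalgebra.centralizer F (C : Set (Matrix ι ι F))

theorem mem_centerOf {C : Subalgebra F (Matrix ι ι F)} {x : Matrix ι ι F} :
    x ∈ centerOf C ↔ x ∈ C ∧ ∀ y ∈ C, x * y = y * x := by
  unfold centerOf
  rw [Algebra.mem_inf, Subalgebra.mem_centralizer_iff]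
  constructor
  · rintro ⟨h1, h2⟩
    exact ⟨h1, fun y hy => (h2 y hy).symm⟩
  · rintro ⟨h1, h2⟩
    exact ⟨h1, fun y hy => (h2 y hy).symm⟩

theorem stable_centerOf {G : Subgroup (GL ι F)} {C : Subalgebra F (Matrix ι ι F)}
    (hC : Stable G (C : Set (Matrix ι ι F))) : Stable G (centerOf C : Set (Matrix ι ι F)) := by
  intro g hg x hx
  have hx' : x ∈ centerOf C := hx
  rw [mem_centerOf] at hx'
  change Basic.conj g x ∈ centerOf C
  rw [mem_centerOf]
  refine ⟨hC g hg x hx'.1, fun y hy => ?_⟩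
  have h1 : Basic.conj g⁻¹ y ∈ C := hC g⁻¹ (inv_mem hg) y hy
  have h2 := hx'.2 _ h1
  have h3 := congrArg (Basic.conj g) h2
  rwa [Basic.conj_mul, Basic.conj_mul, conj_conj_inv] at h3

/-- **Dichotomy**. -/
theorem dichotomy [Fintype F] [Nonempty ι] {G N : Subgroup (GL ι F)}
    (hG : ∀ W : Submodule F (ι → F), Inv G W → W = ⊥ ∨ W = ⊤) (hN : Normalizes G N) :
    RawGeom G ∨ N ≤ scalars ι F ∨ CentScalar N := by
  have hC : Stable G (cent N : Set (Matrix ι ι F)) := stable_cent hN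
  have hE := stable_centerOf hC
  have hcomm : ∀ x ∈ centerOf (cent N), ∀ y ∈ centerOf (cent N), x * y = y * x := by
    intro x hx y hy
    exact (mem_centerOf.mp hx).2 y (mem_centerOf.mp hy).1
  rcases comm_trichotomy hG hE hcomm with h | h | h
  · haveI : IsSemisimpleRing ↥(cent N) := isSemisimpleRing_of_stable hG hC
    have hZ : ∀ z ∈ cent N, (∀ y ∈ cent N, z * y = y * z) → ∃ c : F, z = c • (1 : Matrix ι ι F) :=
      fun z hz hzy => h z (mem_centerOf.mpr ⟨hz, hzy⟩)
    obtain ⟨d, k, ψ, e, P, hfr⟩ := exists_frameData hZ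
    by_cases hd : 2 ≤ d
    · by_cases hk : 2 ≤ k
      · left
        refine Or.inr (Or.inr ⟨d, k, e, P, hd, hk, fun g hg => ?_⟩)
        refine mem_tensorProductSubgroup hfr.hk ψ e P hfr.frame fun m => ?_
        have h1 : ψ m ∈ cent N := (hfr.mem_iff _).mpr ⟨m, rfl⟩
        obtain ⟨m', hm'⟩ := (hfr.mem_iff _).mp (hC g hg _ h1)
        refine ⟨m', ?_⟩
        rw [hm']
        unfold Basic.conj
        rw [mul_assoc, ← Units.val_mul, inv_mul_cancel, Units.val_one, mul_one]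
      · -- `k = 1`: the centraliser is scalar
        right; right
        have hk1 : k = 1 := by
          have := hfr.hk
          omega
        subst hk1
        intro x hx
        obtain ⟨m, rfl⟩ := (hfr.mem_iff x).mp hx
        refine ⟨m 0 0, ?_⟩
        have hm : m = m 0 0 • (1 : Matrix (Fin 1) (Fin 1) F) := by
          ext i j
          rw [Fin.fin_one_eq_zero i, Fin.fin_one_eq_zero j]
          simp
        conv_lhs => rw [hm]
        rw [map_smul, map_one]
    · -- `d = 1`: the subgroup is scalar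
      right; left
      have hd1 : d = 1 := by
        have := hfr.hd
        omega
      subst hd1
      intro x hx
      obtain ⟨a, ha⟩ := hfr.exists_outer_eq (x := (x : Matrix ι ι F)) (fun y hy =>
        (mem_cent.mp hy x hx))
      rw [mem_scalars_iff']
      refine ⟨a 0 0, ?_⟩
      rw [← ha]
      have hm : a = a 0 0 • (1 : Matrix (Fin 1) (Fin 1) F) := by
        ext i j
        rw [Fin.fin_one_eq_zero i, Fin.fin_one_eq_zero j]
        simp
      conv_lhs => rw [hm]
      rw [map_smul, map_one]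
  · exact Or.inl (Or.inl h)
  · exact Or.inl (Or.inr (Or.inl h))

/-- **Dichotomy**, final form. -/
theorem dichotomy' [Fintype F] [Nonempty ι] {G N : Subgroup (GL ι F)}
    (hG : ∀ W : Submodule F (ι → F), Inv G W → W = ⊥ ∨ W = ⊤) (hN : Normalizes G N) :
    RawGeom G ∨ N ≤ scalars ι F ∨ ((∀ W : Submodule F (ι → F), Inv N W → W = ⊥ ∨ W = ⊤) ∧ CentScalar N) := by
  rcases dichotomy hG hN with h | h | h
  · exact Or.inl h
  · exact Or.inr (Or.inl h)
  · exact Or.inr (Or.inr ⟨clifford_irreducible hG hN h, h⟩)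

/-- The dichotomy for the subgroups of `G` normalised by `G`. -/
def Dich (G : Subgroup (GL ι F)) : Prop :=
  ∀ N : Subgroup (GL ι F), N ≤ G → Normalizes G N →
    N ≤ scalars ι F ∨ ((∀ W : Submodule F (ι → F), Inv N W → W = ⊥ ∨ W = ⊤) ∧ CentScalar N)

theorem dich_of_not_raw [Fintype F] [Nonempty ι] {G : Subgroup (GL ι F)}
    (hG : ∀ W : Submodule F (ι → F), Inv G W → W = ⊥ ∨ W = ⊤) (hraw : ¬ RawGeom G) : Dich G := by
  intro N _ hN
  rcases dichotomy' hG hN with h | h | h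
  · exact absurd h hraw
  · exact Or.inl h
  · exact Or.inr h

end Cfsg.Agent.Lib.Classical.Asch.Dichotomy
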