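import Mathlib
import Cfsg.Agent.Lib.Classical.Asch.Basic

/-!
# Pure tensors and slots on `(Fin t → Fin m)`
-/

set_option autoImplicit false
set_option linter.style.haveILetI false
set_option linter.unusedSectionVars false

namespace Cfsg.Agent.Lib.Classical.Asch.PureTensor

open scoped MatrixGroups Matrix Kronecker
open Cfsg.Geo Cfsg.Agent.Lib.Classical.Asch.Basic

variable {F : Type*} [Field F] {t m : ℕ}

/-- The pure tensor matrix. -/
def pureMat (gs : Fin t → Matrix (Fin m) (Fin m) F) : Matrix (Fin t → Fin m) (Fin t → Fin m) F :=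
  Matrix.of fun x y => ∏ i, gs i (x i) (y i)

@[simp] theorem pureMat_apply (gs : Fin t → Matrix (Fin m) (Fin m) F) (x y : Fin t → Fin m) :
    pureMat gs x y = ∏ i, gs i (x i) (y i) := rfl

theorem pureMat_mul (gs hs : Fin t → Matrix (Fin m) (Fin m) F) :
    pureMat gs * pureMat hs = pureMat (fun i => gs i * hs i) := by
  ext x y
  simp only [Matrix.mul_apply, pureMat_apply]
  rw [Finset.prod_univ_sum, Fintype.piFinset_univ]
  refine Finset.sum_congr rfl fun z _ => ?_
  rw [Finset.prod_mul_distrib]

theorem pureMat_one : pureMat (fun _ : Fin t => (1 : Matrix (Fin m) (Fin m) F)) = 1 := by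
  ext x y
  simp only [pureMat_apply]
  by_cases h : x = y
  · subst h
    simp
  · rw [Matrix.one_apply_ne h]
    obtain ⟨i, hi⟩ := Function.ne_iff.mp h
    exact Finset.prod_eq_zero (Finset.mem_univ i) (Matrix.one_apply_ne hi)

theorem pureMat_transpose (gs : Fin t → Matrix (Fin m) (Fin m) F) :
    (pureMat gs)ᵀ = pureMat (fun i => (gs i)ᵀ) := rfl

theorem pureMat_smul (cs : Fin t → F) (gs : Fin t → Matrix (Fin m) (Fin m) F) :
    pureMat (fun i => cs i • gs i) = (∏ i, cs i) • pureMat gs := by
  ext x y
  simp [Finset.prod_mul_distrib]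

/-- A pure tensor of invertible matrices, as an element of `GL`. -/
def pureGL (gs : Fin t → GL (Fin m) F) : GL (Fin t → Fin m) F where
  val := pureMat fun i => (gs i : Matrix (Fin m) (Fin m) F)
  inv := pureMat fun i => ((gs i)⁻¹ : GL (Fin m) F)
  val_inv := by
    rw [pureMat_mul, ← pureMat_one]
    congr 1
    funext i
    rw [← Units.val_mul, mul_inv_cancel, Units.val_one]
  inv_val := by
    rw [pureMat_mul, ← pureMat_one]
    congr 1
    funext i
    rw [← Units.val_mul, inv_mul_cancel, Units.val_one]

theorem pureGL_isPure (gs : Fin t → GL (Fin m) F) : IsPureTensor m t (pureGL gs) :=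
  ⟨gs, fun _ _ => rfl⟩

/-- The slot action. -/
def slot (i : Fin t) (c : Matrix (Fin m) (Fin m) F) : Matrix (Fin t → Fin m) (Fin t → Fin m) F :=
  pureMat (Function.update (fun _ => 1) i c)

theorem slot_mul (i : Fin t) (c c' : Matrix (Fin m) (Fin m) F) : slot i c * slot i c' = slot i (c * c') := by
  unfold slot
  rw [pureMat_mul]
  congr 1
  funext j
  by_cases h : j = i
  · subst h
    simp
  · simp [Function.update_of_ne h]

theorem slot_one (i : Fin t) : slot i (1 : Matrix (Fin m) (Fin m) F) = 1 := by
  unfold slot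
  rw [← pureMat_one]
  congr 1
  simp

theorem slot_apply (i : Fin t) (c : Matrix (Fin m) (Fin m) F) (x y : Fin t → Fin m) :
    slot i c x y = c (x i) (y i) * ∏ j ∈ Finset.univ.erase i, (1 : Matrix (Fin m) (Fin m) F) (x j) (y j) := by
  unfold slot
  rw [pureMat_apply, ← Finset.mul_prod_erase _ _ (Finset.mem_univ i)]
  congr 1
  · simp
  · refine Finset.prod_congr rfl fun j hj => ?_
    rw [Function.update_of_ne (Finset.ne_of_mem_erase hj)]

theorem slot_add (i : Fin t) (c c' : Matrix (Fin m) (Fin m) F) : slot i (c + c') = slot i c + slot i c' := by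
  ext x y
  rw [Matrix.add_apply, slot_apply, slot_apply, slot_apply, Matrix.add_apply, add_mul]

theorem slot_smul (i : Fin t) (a : F) (c : Matrix (Fin m) (Fin m) F) : slot i (a • c) = a • slot i c := by
  ext x y
  rw [Matrix.smul_apply, slot_apply, slot_apply, Matrix.smul_apply, smul_eq_mul, smul_eq_mul, mul_assoc]

theorem slot_zero_eq (i : Fin t) : slot i (0 : Matrix (Fin m) (Fin m) F) = 0 := by
  have := slot_smul i (0 : F) (0 : Matrix (Fin m) (Fin m) F)
  simpa using this

/-- The slot action as an algebra map. -/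
def slotAlg (i : Fin t) : Matrix (Fin m) (Fin m) F →ₐ[F] Matrix (Fin t → Fin m) (Fin t → Fin m) F where
  toFun := slot i
  map_one' := slot_one i
  map_mul' x y := (slot_mul i x y).symm
  map_zero' := slot_zero_eq i
  map_add' := slot_add i
  commutes' r := by
    rw [Algebra.algebraMap_eq_smul_one, Algebra.algebraMap_eq_smul_one, slot_smul, slot_one]

@[simp] theorem slotAlg_apply (i : Fin t) (c : Matrix (Fin m) (Fin m) F) : slotAlg i c = slot i c := rfl

theorem slot_injective (hm : 0 < m) (i : Fin t) : Function.Injective (slot (F := F) (m := m) i) := by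
  intro c c' h
  ext a b
  let x₀ : Fin t → Fin m := fun _ => ⟨0, hm⟩
  have h1 := congrFun (congrFun h (Function.update x₀ i a)) (Function.update x₀ i b)
  rw [slot_apply, slot_apply] at h1
  have h2 : ∏ j ∈ Finset.univ.erase i, (1 : Matrix (Fin m) (Fin m) F) ((Function.update x₀ i a) j)
      ((Function.update x₀ i b) j) = 1 := by
    refine Finset.prod_eq_one fun j hj => ?_
    have hj' := Finset.ne_of_mem_erase hj
    rw [Function.update_of_ne hj', Function.update_of_ne hj', Matrix.one_apply_eq]
  rw [h2, mul_one, mul_one] at h1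
  simpa using h1

/-- Commuting: pure tensor and slot. -/
theorem pureMat_mul_slot (gs gs' : Fin t → Matrix (Fin m) (Fin m) F) (hgs : ∀ j, gs j * gs' j = 1)
    (i : Fin t) (c : Matrix (Fin m) (Fin m) F) :
    pureMat gs * slot i c = slot i (gs i * c * gs' i) * pureMat gs := by
  have hgs' : ∀ j, gs' j * gs j = 1 := fun j => mul_eq_one_comm.mp (hgs j)
  unfold slot
  rw [pureMat_mul, pureMat_mul]
  congr 1
  funext j
  by_cases h : j = i
  · subst h
    simp [mul_assoc, hgs']
  · simp [Function.update_of_ne h]

/-- The slots in different positions commute. -/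
theorem slot_comm {i j : Fin t} (h : i ≠ j) (c c' : Matrix (Fin m) (Fin m) F) :
    slot i c * slot j c' = slot j c' * slot i c := by
  unfold slot
  rw [pureMat_mul, pureMat_mul]
  congr 1
  funext l
  by_cases h1 : l = i
  · subst h1
    simp [Function.update_of_ne h]
  · by_cases h2 : l = j
    · subst h2
      simp [Function.update_of_ne h1]
    · simp [Function.update_of_ne h1, Function.update_of_ne h2]

/-- The factor permutation. -/
def permMat (σ : Equiv.Perm (Fin t)) : Matrix (Fin t → Fin m) (Fin t → Fin m) F :=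
  Matrix.of fun x y => if y = x ∘ σ then 1 else 0

@[simp] theorem permMat_apply (σ : Equiv.Perm (Fin t)) (x y : Fin t → Fin m) :
    (permMat σ : Matrix _ _ F) x y = if y = x ∘ σ then 1 else 0 := rfl

theorem permMat_mul_apply (σ : Equiv.Perm (Fin t)) (M : Matrix (Fin t → Fin m) (Fin t → Fin m) F)
    (x y : Fin t → Fin m) : ((permMat σ : Matrix (Fin t → Fin m) (Fin t → Fin m) F) * M) x y = M (x ∘ σ) y := by
  rw [Matrix.mul_apply, Finset.sum_eq_single (x ∘ σ)]
  · simp
  · intro z _ hz
    simp [hz]
  · simp

theorem mul_permMat_apply (σ : Equiv.Perm (Fin t)) (M : Matrix (Fin t → Fin m) (Fin t → Fin m) F)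
    (x y : Fin t → Fin m) : (M * (permMat σ : Matrix (Fin t → Fin m) (Fin t → Fin m) F)) x y = M x (y ∘ σ.symm) := by
  rw [Matrix.mul_apply, Finset.sum_eq_single (y ∘ σ.symm)]
  · have : y = (y ∘ σ.symm) ∘ σ := by
      funext j
      simp
    simp only [permMat_apply]
    rw [if_pos this, mul_one]
  · intro z _ hz
    have : y ≠ z ∘ σ := by
      intro h
      apply hz
      rw [h]
      funext j
      simp
    simp [this]
  · simp

theorem permMat_mul_permMat (σ τ : Equiv.Perm (Fin t)) :
    (permMat σ : Matrix (Fin t → Fin m) (Fin t → Fin m) F) * permMat τ = permMat (σ * τ) := by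
  ext x y
  rw [permMat_mul_apply, permMat_apply, permMat_apply]
  rfl

theorem permMat_one : (permMat (1 : Equiv.Perm (Fin t)) : Matrix (Fin t → Fin m) (Fin t → Fin m) F) = 1 := by
  ext x y
  rw [permMat_apply, Matrix.one_apply]
  have : x ∘ (1 : Equiv.Perm (Fin t)) = x := rfl
  rw [this]
  by_cases h : x = y
  · simp [h]
  · simp [h, Ne.symm h]

/-- The factor permutation in `GL`. -/
def permGL (σ : Equiv.Perm (Fin t)) : GL (Fin t → Fin m) F where
  val := permMat σ
  inv := permMat σ⁻¹
  val_inv := by rw [permMat_mul_permMat, mul_inv_cancel, permMat_one]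
  inv_val := by rw [permMat_mul_permMat, inv_mul_cancel, permMat_one]

theorem permGL_isFactor (σ : Equiv.Perm (Fin t)) : IsFactorPermutation m t (permGL σ : GL _ F) :=
  ⟨σ, fun _ _ => rfl⟩

/-- Factor permutations permute slots. -/
theorem permMat_mul_slot (σ : Equiv.Perm (Fin t)) (i : Fin t) (c : Matrix (Fin m) (Fin m) F) :
    (permMat σ : Matrix (Fin t → Fin m) (Fin t → Fin m) F) * slot i c = slot (σ i) c * permMat σ := by
  ext x y
  rw [permMat_mul_apply, mul_permMat_apply, slot_apply, slot_apply]
  simp only [Function.comp_apply, Equiv.symm_apply_apply]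
  congr 1
  refine Finset.prod_bij (fun j _ => σ j) ?_ ?_ ?_ ?_
  · intro j hj
    simp only [Finset.mem_erase, Finset.mem_univ, and_true]
    exact fun h => (Finset.ne_of_mem_erase hj) (σ.injective h)
  · intro a _ b _ h
    exact σ.injective h
  · intro b hb
    refine ⟨σ.symm b, ?_, by simp⟩
    simp only [Finset.mem_erase, Finset.mem_univ, and_true]
    intro h
    apply Finset.ne_of_mem_erase hb
    rw [← h]
    simp
  · intro j _
    change (1 : Matrix (Fin m) (Fin m) F) (x (σ j)) (y j) = (1 : Matrix (Fin m) (Fin m) F) (x (σ j)) (y (σ.symm (σ j)))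
    rw [Equiv.symm_apply_apply]

end Cfsg.Agent.Lib.Classical.Asch.PureTensor
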