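import Mathlib
import Cfsg.Agent.Lib.Classical.Asch.Dichotomy
import Cfsg.Agent.Lib.Classical.Asch.PureTensor

/-!
# Commuting copies of `M_m(F)` and the tensor wreath subgroup
-/

set_option autoImplicit false
set_option linter.style.haveILetI false
set_option linter.unusedSectionVars false

namespace Cfsg.Agent.Lib.Classical.Asch.TensorWreath

open scoped MatrixGroups Matrix Kronecker
open Cfsg.Geo Cfsg.Agent.Lib.Classical.Asch.Basic Cfsg.Agent.Lib.Classical.Asch.Frame
open Cfsg.Agent.Lib.Classical.Asch.Dichotomy Cfsg.Agent.Lib.Classical.Asch.PureTensor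
open Cfsg.Agent.Lib.Classical.Asch.SkolemNoether (E skolem_noether)

variable {F : Type*} [Field F]

theorem pureMat_cons {t m : ℕ} (gs : Fin (t + 1) → Matrix (Fin m) (Fin m) F) (b b' : Fin m) (f f' : Fin t → Fin m) :
    pureMat gs (Fin.cons b f) (Fin.cons b' f') = gs 0 b b' * pureMat (fun i => gs i.succ) f f' := by
  simp [Fin.prod_univ_succ]

theorem slot_zero_cons {t m : ℕ} (c : Matrix (Fin m) (Fin m) F) (b b' : Fin m) (f f' : Fin t → Fin m) :
    slot (0 : Fin (t + 1)) c (Fin.cons b f) (Fin.cons b' f') =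
      c b b' * (1 : Matrix (Fin t → Fin m) (Fin t → Fin m) F) f f' := by
  unfold slot
  rw [pureMat_cons, Function.update_self, ← pureMat_one]
  congr 2

theorem slot_succ_cons {t m : ℕ} (i : Fin t) (c : Matrix (Fin m) (Fin m) F) (b b' : Fin m) (f f' : Fin t → Fin m) :
    slot i.succ c (Fin.cons b f) (Fin.cons b' f') = (1 : Matrix (Fin m) (Fin m) F) b b' * slot i c f f' := by
  unfold slot
  rw [pureMat_cons, Function.update_of_ne (Ne.symm (Fin.succ_ne_zero i))]
  congr 2
  funext j
  by_cases h : j = i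
  · subst h
    simp
  · rw [Function.update_of_ne h, Function.update_of_ne (fun h' => h (Fin.succ_injective _ h'))]

/-- The splitting of the coordinates. -/
def consE (t m : ℕ) : (Fin t → Fin m) × Fin m ≃ (Fin (t + 1) → Fin m) :=
  (Equiv.prodComm _ _).trans (Fin.consEquiv fun _ => Fin m)

@[simp] theorem consE_apply {t m : ℕ} (f : Fin t → Fin m) (b : Fin m) :
    consE t m (f, b) = Fin.cons b f := rfl

/-- **Coordinates**: commuting copies of `M_m(F)` with scalar common commutant. -/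
theorem exists_coords {m : ℕ} (hm : 0 < m) : ∀ (t : ℕ) {ι : Type} [Fintype ι] [DecidableEq ι] [Nonempty ι]
    (ψ : Fin t → (Matrix (Fin m) (Fin m) F →ₐ[F] Matrix ι ι F))
    (_ : ∀ i j, i ≠ j → ∀ a b, ψ i a * ψ j b = ψ j b * ψ i a)
    (_ : ∀ x : Matrix ι ι F, (∀ i a, x * ψ i a = ψ i a * x) → ∃ c : F, x = c • 1),
    ∃ (e : ι ≃ (Fin t → Fin m)) (P : GL ι F), ∀ i c,
      ψ i c * (P : Matrix ι ι F) = (P : Matrix ι ι F) * (slot i c).submatrix e e := by
  intro t
  induction t with
  | zero =>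
    intro ι _ _ _ ψ _ hscal
    haveI : Subsingleton ι := by
      refine ⟨fun i j => ?_⟩
      by_contra hij
      obtain ⟨c, hc⟩ := hscal (Matrix.single i j 1) (fun i => Fin.elim0 i)
      have := congrFun (congrFun hc i) j
      simp [Matrix.one_apply_ne hij] at this
    haveI : Unique ι := uniqueOfSubsingleton (Classical.arbitrary ι)
    exact ⟨Equiv.ofUnique _ _, 1, fun i => Fin.elim0 i⟩
  | succ t ih =>
    intro ι _ _ _ ψ hcomm hscal
    obtain ⟨d, e₁, P₁, hP₁⟩ := exists_frame (ψ 0) (⟨0, hm⟩ : Fin m)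
    have hd : 0 < d := by
      obtain ⟨i⟩ := ‹Nonempty ι›
      exact Fin.pos (e₁ i).1
    haveI : Nonempty (Fin d) := ⟨⟨0, hd⟩⟩
    have hfr : FrameData (ψ 0).range d m (ψ 0) e₁ P₁ := ⟨hm, hd, fun x => AlgHom.mem_range _, hP₁⟩
    have hinj := outer_injective hm e₁ P₁
    -- the remaining copies live in the outer part
    have hex : ∀ i : Fin t, ∃ τ : Matrix (Fin m) (Fin m) F →ₐ[F] Matrix (Fin d) (Fin d) F,
        ∀ a, outer e₁ P₁ (τ a) = ψ i.succ a := by
      intro i
      refine exists_algHom_of_range _ hinj (ψ i.succ) fun a => ?_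
      refine hfr.exists_outer_eq fun y hy => ?_
      obtain ⟨b, rfl⟩ := (AlgHom.mem_range _).mp hy
      exact hcomm _ _ (Fin.succ_ne_zero i) a b
    choose τ hτ using hex
    have hcomm' : ∀ i j, i ≠ j → ∀ a b, τ i a * τ j b = τ j b * τ i a := by
      intro i j hij a b
      apply hinj
      rw [map_mul, map_mul, hτ, hτ]
      exact hcomm _ _ (fun h => hij (Fin.succ_injective _ h)) a b
    have hscal' : ∀ x : Matrix (Fin d) (Fin d) F, (∀ i a, x * τ i a = τ i a * x) → ∃ c : F, x = c • 1 := by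
      intro x hx
      obtain ⟨c, hc⟩ := hscal (outer e₁ P₁ x) (fun i a => by
        refine Fin.cases ?_ ?_ i
        · exact hfr.outer_comm x ((AlgHom.mem_range _).mpr ⟨a, rfl⟩)
        · intro j
          rw [← hτ, ← map_mul, ← map_mul, hx])
      refine ⟨c, hinj ?_⟩
      rw [hc, map_smul, map_one]
    obtain ⟨e₂, P₂, hP₂⟩ := ih τ hcomm' hscal'
    let e : ι ≃ (Fin (t + 1) → Fin m) :=
      e₁.trans ((e₂.prodCongr (Equiv.refl (Fin m))).trans (consE t m))
    let R₁ : GL (Fin d × Fin m) F := Units.map (kronRight d m F).toMonoidHom P₂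
    let R₀ : GL ι F := glReindex e₁.symm R₁
    have hR₀ : (R₀ : Matrix ι ι F) = ((P₂ : Matrix (Fin d) (Fin d) F) ⊗ₖ (1 : Matrix (Fin m) (Fin m) F)).submatrix e₁ e₁ := rfl
    refine ⟨e, P₁ * R₀, fun i c => ?_⟩
    -- the shape of the slots in the coordinates
    have hs0 : (slot (0 : Fin (t + 1)) c).submatrix e e =
        ((1 : Matrix (Fin d) (Fin d) F) ⊗ₖ c).submatrix e₁ e₁ := by
      ext x y
      rw [Matrix.submatrix_apply, Matrix.submatrix_apply]
      change slot (0 : Fin (t + 1)) c (Fin.cons (e₁ x).2 (e₂ (e₁ x).1)) (Fin.cons (e₁ y).2 (e₂ (e₁ y).1)) = _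
      rw [slot_zero_cons, Matrix.kroneckerMap_apply, mul_comm]
      congr 1
      by_cases h : (e₁ x).1 = (e₁ y).1
      · rw [h, Matrix.one_apply_eq, Matrix.one_apply_eq]
      · rw [Matrix.one_apply_ne h, Matrix.one_apply_ne (fun h' => h (e₂.injective h'))]
    have hss : ∀ j : Fin t, (slot j.succ c).submatrix e e =
        (((slot j c).submatrix e₂ e₂) ⊗ₖ (1 : Matrix (Fin m) (Fin m) F)).submatrix e₁ e₁ := by
      intro j
      ext x y
      rw [Matrix.submatrix_apply, Matrix.submatrix_apply]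
      change slot j.succ c (Fin.cons (e₁ x).2 (e₂ (e₁ x).1)) (Fin.cons (e₁ y).2 (e₂ (e₁ y).1)) = _
      rw [slot_succ_cons, Matrix.kroneckerMap_apply, mul_comm]
      rfl
    rw [Units.val_mul, hR₀]
    refine Fin.cases ?_ ?_ i
    · rw [hs0, ← mul_assoc, hP₁, mul_assoc, mul_assoc, Matrix.submatrix_mul_equiv, Matrix.submatrix_mul_equiv,
        ← Matrix.mul_kronecker_mul, ← Matrix.mul_kronecker_mul, one_mul, mul_one, mul_one, one_mul]
    · intro j
      rw [hss, ← hτ, ← mul_assoc, outer_mul, mul_assoc, mul_assoc, Matrix.submatrix_mul_equiv,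
        Matrix.submatrix_mul_equiv, ← Matrix.mul_kronecker_mul, ← Matrix.mul_kronecker_mul, one_mul, hP₂]

/-- An element permuting the slots, with scalar common commutant of the slots, lies in the standard tensor wreath group. -/
theorem mem_standard {t m : ℕ} (hm : 0 < m) (ht : 0 < t) (h : GL (Fin t → Fin m) F) (π : Equiv.Perm (Fin t))
    (hnorm : ∀ i c, ∃ c', (h : Matrix (Fin t → Fin m) (Fin t → Fin m) F) * slot i c =
      slot (π i) c' * (h : Matrix (Fin t → Fin m) (Fin t → Fin m) F))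
    (hscal : ∀ x : Matrix (Fin t → Fin m) (Fin t → Fin m) F, (∀ i c, x * slot i c = slot i c * x) →
      ∃ a : F, x = a • 1) :
    h ∈ tensorWreathStandard m t F := by
  haveI : Nonempty (Fin m) := ⟨⟨0, hm⟩⟩
  have hex : ∀ i, ∃ τ : Matrix (Fin m) (Fin m) F →ₐ[F] Matrix (Fin m) (Fin m) F,
      ∀ c, slotAlg (π i) (τ c) = (conjAlg h).toAlgHom.comp (slotAlg i) c := by
    intro i
    refine exists_algHom_of_range _ (slot_injective hm (π i)) _ fun c => ?_
    obtain ⟨c', hc'⟩ := hnorm i c
    refine ⟨c', ?_⟩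
    change slot (π i) c' = (h : Matrix (Fin t → Fin m) (Fin t → Fin m) F) * slot i c * ((h⁻¹ : GL _ F) : Matrix _ _ F)
    rw [hc', mul_assoc, ← Units.val_mul, mul_inv_cancel, Units.val_one, mul_one]
  choose τ hτ using hex
  have hSN := fun i => skolem_noether (τ i)
  choose b hb using hSN
  have hτ' : ∀ i c, (h : Matrix (Fin t → Fin m) (Fin t → Fin m) F) * slot i c =
      slot (π i) ((b i : Matrix (Fin m) (Fin m) F) * c * (((b i)⁻¹ : GL (Fin m) F) : Matrix (Fin m) (Fin m) F)) *
        (h : Matrix (Fin t → Fin m) (Fin t → Fin m) F) := by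
    intro i c
    have h1 := hτ i c
    rw [hb] at h1
    rw [slotAlg_apply] at h1
    rw [h1]
    change _ = (h : Matrix (Fin t → Fin m) (Fin t → Fin m) F) * slot i c * ((h⁻¹ : GL _ F) : Matrix _ _ F) *
      (h : Matrix (Fin t → Fin m) (Fin t → Fin m) F)
    rw [mul_assoc, ← Units.val_mul, inv_mul_cancel, Units.val_one, mul_one]
  let β : GL (Fin t → Fin m) F := pureGL b
  let s : GL (Fin t → Fin m) F := permGL π
  let y : GL (Fin t → Fin m) F := s * β
  have hy : ∀ i c, (y : Matrix (Fin t → Fin m) (Fin t → Fin m) F) * slot i c =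
      slot (π i) ((b i : Matrix (Fin m) (Fin m) F) * c * (((b i)⁻¹ : GL (Fin m) F) : Matrix (Fin m) (Fin m) F)) *
        (y : Matrix (Fin t → Fin m) (Fin t → Fin m) F) := by
    intro i c
    have h1 : (β : Matrix (Fin t → Fin m) (Fin t → Fin m) F) * slot i c =
        slot i ((b i : Matrix (Fin m) (Fin m) F) * c * (((b i)⁻¹ : GL (Fin m) F) : Matrix (Fin m) (Fin m) F)) *
          (β : Matrix (Fin t → Fin m) (Fin t → Fin m) F) :=
      pureMat_mul_slot _ (fun i => (((b i)⁻¹ : GL (Fin m) F) : Matrix (Fin m) (Fin m) F)) (fun j => by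
        rw [← Units.val_mul, mul_inv_cancel, Units.val_one]) i c
    have h2 : ∀ c', (s : Matrix (Fin t → Fin m) (Fin t → Fin m) F) * slot i c' =
        slot (π i) c' * (s : Matrix (Fin t → Fin m) (Fin t → Fin m) F) := fun c' => permMat_mul_slot π i c'
    change (s : Matrix (Fin t → Fin m) (Fin t → Fin m) F) * (β : Matrix (Fin t → Fin m) (Fin t → Fin m) F) * slot i c =
      _ * ((s : Matrix (Fin t → Fin m) (Fin t → Fin m) F) * (β : Matrix (Fin t → Fin m) (Fin t → Fin m) F))
    rw [mul_assoc, h1, ← mul_assoc, h2, mul_assoc]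
  let x : GL (Fin t → Fin m) F := y⁻¹ * h
  have hyi : ∀ i c, ((y⁻¹ : GL _ F) : Matrix (Fin t → Fin m) (Fin t → Fin m) F) *
      slot (π i) ((b i : Matrix (Fin m) (Fin m) F) * c * (((b i)⁻¹ : GL (Fin m) F) : Matrix (Fin m) (Fin m) F)) =
      slot i c * ((y⁻¹ : GL _ F) : Matrix (Fin t → Fin m) (Fin t → Fin m) F) := by
    intro i c
    have h1 := hy i c
    have h2 := congrArg (fun M => ((y⁻¹ : GL _ F) : Matrix (Fin t → Fin m) (Fin t → Fin m) F) * M *
      ((y⁻¹ : GL _ F) : Matrix (Fin t → Fin m) (Fin t → Fin m) F)) h1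
    simp only [mul_assoc, ← Units.val_mul, mul_inv_cancel, Units.val_one, mul_one] at h2
    simp only [← mul_assoc, ← Units.val_mul, inv_mul_cancel, Units.val_one, one_mul] at h2
    exact h2.symm
  have hxc : ∀ i c, (x : Matrix (Fin t → Fin m) (Fin t → Fin m) F) * slot i c =
      slot i c * (x : Matrix (Fin t → Fin m) (Fin t → Fin m) F) := by
    intro i c
    change ((y⁻¹ : GL _ F) : Matrix (Fin t → Fin m) (Fin t → Fin m) F) * (h : Matrix (Fin t → Fin m) (Fin t → Fin m) F) * slot i c =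
      slot i c * (((y⁻¹ : GL _ F) : Matrix (Fin t → Fin m) (Fin t → Fin m) F) * (h : Matrix (Fin t → Fin m) (Fin t → Fin m) F))
    rw [mul_assoc, hτ', ← mul_assoc, hyi, mul_assoc]
  obtain ⟨a, ha⟩ := hscal _ hxc
  have ha0 : a ≠ 0 := by
    rintro rfl
    rw [zero_smul] at ha
    have h1 : (x : Matrix (Fin t → Fin m) (Fin t → Fin m) F) * ((x⁻¹ : GL _ F) : Matrix _ _ F) = 1 := by
      rw [← Units.val_mul, mul_inv_cancel, Units.val_one]
    rw [ha, zero_mul] at h1
    haveI : Nonempty (Fin t → Fin m) := ⟨fun _ => ⟨0, hm⟩⟩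
    exact zero_ne_one h1
  let i₀ : Fin t := ⟨0, ht⟩
  let A : GL (Fin m) F := Units.map (Matrix.scalar (Fin m) : F →+* Matrix (Fin m) (Fin m) F).toMonoidHom (Units.mk0 a ha0)
  have hA : (A : Matrix (Fin m) (Fin m) F) = a • 1 := by
    simp [A, Matrix.smul_one_eq_diagonal]
  let gs : Fin t → GL (Fin m) F := Function.update (fun _ => (1 : GL (Fin m) F)) i₀ A
  have hx : x = pureGL gs := by
    apply Units.ext
    rw [ha]
    change _ = pureMat fun i => ((gs i : GL (Fin m) F) : Matrix (Fin m) (Fin m) F)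
    have h1 : (fun i => ((gs i : GL (Fin m) F) : Matrix (Fin m) (Fin m) F)) =
        Function.update (fun _ => 1) i₀ (a • 1) := by
      funext j
      by_cases hj : j = i₀
      · subst hj
        simp [gs, hA]
      · simp [gs, Function.update_of_ne hj]
    rw [h1]
    change _ = slot i₀ (a • 1)
    rw [slot_smul, slot_one]
  have hh : h = s * β * x := by
    change h = y * (y⁻¹ * h)
    group
  rw [hh]
  refine Subgroup.mul_mem _ (Subgroup.mul_mem _ ?_ ?_) ?_
  · exact Subgroup.subset_closure (Or.inr (permGL_isFactor π))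
  · exact Subgroup.subset_closure (Or.inl (pureGL_isPure b))
  · rw [hx]
    exact Subgroup.subset_closure (Or.inl (pureGL_isPure _))

/-- The tensor wreath subgroup in coordinates. -/
theorem mem_tensorWreath_of_perm {ι : Type} [Fintype ι] [DecidableEq ι] {t m : ℕ} (hm : 0 < m) (ht : 0 < t)
    (ψ : Fin t → (Matrix (Fin m) (Fin m) F →ₐ[F] Matrix ι ι F))
    (hscal : ∀ x : Matrix ι ι F, (∀ i a, x * ψ i a = ψ i a * x) → ∃ c : F, x = c • 1)
    (e : ι ≃ (Fin t → Fin m)) (P : GL ι F)
    (hP : ∀ i c, ψ i c * (P : Matrix ι ι F) = (P : Matrix ι ι F) * (slot i c).submatrix e e)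
    (g : GL ι F) (π : Equiv.Perm (Fin t))
    (hg : ∀ i c, ∃ c', (g : Matrix ι ι F) * ψ i c = ψ (π i) c' * (g : Matrix ι ι F)) :
    g ∈ tensorWreathSubgroup m t e P := by
  let h : GL (Fin t → Fin m) F := (glReindex e.symm).symm (P⁻¹ * g * P)
  have hh : glReindex e.symm h = P⁻¹ * g * P := (glReindex e.symm).apply_symm_apply _
  have hh' : ((P⁻¹ * g * P : GL ι F) : Matrix ι ι F) = (h : Matrix _ _ F).submatrix e e := by
    rw [← hh]
    rfl
  have hPP : (P : Matrix ι ι F) * ((P⁻¹ : GL ι F) : Matrix ι ι F) = 1 := by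
    rw [← Units.val_mul, mul_inv_cancel, Units.val_one]
  have hPP' : ((P⁻¹ : GL ι F) : Matrix ι ι F) * (P : Matrix ι ι F) = 1 := by
    rw [← Units.val_mul, inv_mul_cancel, Units.val_one]
  have hP' : ∀ i c, ((P⁻¹ : GL ι F) : Matrix ι ι F) * ψ i c * (P : Matrix ι ι F) = (slot i c).submatrix e e := by
    intro i c
    rw [mul_assoc, hP, ← mul_assoc, hPP', one_mul]
  have hmem : h ∈ tensorWreathStandard m t F := by
    refine mem_standard hm ht h π (fun i c => ?_) (fun x hx => ?_)
    · obtain ⟨c', hc'⟩ := hg i c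
      refine ⟨c', ?_⟩
      have h1 : ((P⁻¹ * g * P : GL ι F) : Matrix ι ι F) * (((P⁻¹ : GL ι F) : Matrix ι ι F) * ψ i c * (P : Matrix ι ι F))
          = (((P⁻¹ : GL ι F) : Matrix ι ι F) * ψ (π i) c' * (P : Matrix ι ι F)) * ((P⁻¹ * g * P : GL ι F) : Matrix ι ι F) := by
        calc ((P⁻¹ * g * P : GL ι F) : Matrix ι ι F) * (((P⁻¹ : GL ι F) : Matrix ι ι F) * ψ i c * (P : Matrix ι ι F))
            = ((P⁻¹ : GL ι F) : Matrix ι ι F) * (g : Matrix ι ι F) * ((P : Matrix ι ι F) * ((P⁻¹ : GL ι F) : Matrix ι ι F)) *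
                (ψ i c * (P : Matrix ι ι F)) := by
              simp only [Units.val_mul, mul_assoc]
          _ = ((P⁻¹ : GL ι F) : Matrix ι ι F) * ((g : Matrix ι ι F) * ψ i c) * (P : Matrix ι ι F) := by
              rw [hPP]; simp only [mul_one, mul_assoc]
          _ = ((P⁻¹ : GL ι F) : Matrix ι ι F) * (ψ (π i) c' * (g : Matrix ι ι F)) * (P : Matrix ι ι F) := by rw [hc']
          _ = ((P⁻¹ : GL ι F) : Matrix ι ι F) * ψ (π i) c' * ((P : Matrix ι ι F) * ((P⁻¹ : GL ι F) : Matrix ι ι F)) *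
                (g : Matrix ι ι F) * (P : Matrix ι ι F) := by
              rw [hPP]; simp only [mul_one, mul_assoc]
          _ = _ := by
              simp only [Units.val_mul, mul_assoc]
      rw [hP', hP', hh', Matrix.submatrix_mul_equiv, Matrix.submatrix_mul_equiv] at h1
      ext a b
      have h2 := congrFun (congrFun h1 (e.symm a)) (e.symm b)
      simpa using h2
    · -- transport the commutant
      let y : Matrix ι ι F := (P : Matrix ι ι F) * x.submatrix e e * ((P⁻¹ : GL ι F) : Matrix ι ι F)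
      obtain ⟨c, hc⟩ := hscal y (fun i a => by
        have h1 : ψ i a = (P : Matrix ι ι F) * (slot i a).submatrix e e * ((P⁻¹ : GL ι F) : Matrix ι ι F) := by
          rw [← hP, mul_assoc, hPP, mul_one]
        have h2 : x.submatrix e e * (slot i a).submatrix e e = (slot i a).submatrix e e * x.submatrix e e := by
          rw [Matrix.submatrix_mul_equiv, Matrix.submatrix_mul_equiv, hx]
        rw [h1]
        calc (P : Matrix ι ι F) * x.submatrix e e * ((P⁻¹ : GL ι F) : Matrix ι ι F) *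
              ((P : Matrix ι ι F) * (slot i a).submatrix e e * ((P⁻¹ : GL ι F) : Matrix ι ι F))
            = (P : Matrix ι ι F) * x.submatrix e e * (((P⁻¹ : GL ι F) : Matrix ι ι F) * (P : Matrix ι ι F)) *
                (slot i a).submatrix e e * ((P⁻¹ : GL ι F) : Matrix ι ι F) := by simp only [mul_assoc]
          _ = (P : Matrix ι ι F) * (x.submatrix e e * (slot i a).submatrix e e) * ((P⁻¹ : GL ι F) : Matrix ι ι F) := by
              rw [hPP', mul_one]; simp only [mul_assoc]
          _ = (P : Matrix ι ι F) * ((slot i a).submatrix e e * x.submatrix e e) * ((P⁻¹ : GL ι F) : Matrix ι ι F) := by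
              rw [h2]
          _ = (P : Matrix ι ι F) * (slot i a).submatrix e e * (((P⁻¹ : GL ι F) : Matrix ι ι F) * (P : Matrix ι ι F)) *
                x.submatrix e e * ((P⁻¹ : GL ι F) : Matrix ι ι F) := by
              rw [hPP', mul_one]; simp only [mul_assoc]
          _ = _ := by simp only [y, mul_assoc])
      refine ⟨c, ?_⟩
      have h3 : x.submatrix e e = c • 1 := by
        have h4 := congrArg (fun M => ((P⁻¹ : GL ι F) : Matrix ι ι F) * M * (P : Matrix ι ι F)) hc
        simp only [y] at h4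
        have h5 : ((P⁻¹ : GL ι F) : Matrix ι ι F) * ((P : Matrix ι ι F) * x.submatrix e e * ((P⁻¹ : GL ι F) : Matrix ι ι F)) *
            (P : Matrix ι ι F) = (((P⁻¹ : GL ι F) : Matrix ι ι F) * (P : Matrix ι ι F)) * x.submatrix e e *
              (((P⁻¹ : GL ι F) : Matrix ι ι F) * (P : Matrix ι ι F)) := by simp only [mul_assoc]
        rw [h5, hPP', one_mul, mul_one, Matrix.mul_smul, Matrix.smul_mul, mul_one, hPP'] at h4
        exact h4
      ext a b
      have h6 := congrFun (congrFun h3 (e.symm a)) (e.symm b)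
      simp only [Matrix.submatrix_apply, Equiv.apply_symm_apply, Matrix.smul_apply, Matrix.one_apply,
        EmbeddingLike.apply_eq_iff_eq] at h6
      simpa [Matrix.one_apply] using h6
  refine ⟨glReindex e.symm h, ⟨h, hmem, rfl⟩, ?_⟩
  change P * glReindex e.symm h * P⁻¹ = g
  rw [hh]
  group

end Cfsg.Agent.Lib.Classical.Asch.TensorWreath
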