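import Mathlib
import Cfsg.Agent.Lib.Classical.Asch.TensorWreath
import Cfsg.Agent.Lib.Classical.Asch.Stable

/-!
# Minimal normal subgroups modulo scalars

For a subgroup `G` of `GL ι F` containing the scalars, the subgroups normalised by `G`, and the minimal ones among those
strictly above the scalars.
-/

set_option autoImplicit false
set_option linter.style.haveILetI false
set_option linter.unusedSectionVars false

namespace Cfsg.Agent.Lib.Classical.Asch.MinNormal

open scoped MatrixGroups Matrix commutatorElement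
open Cfsg.Geo Cfsg.Agent.Lib.Classical.Asch.Basic

variable {ι : Type} [Fintype ι] [DecidableEq ι] {F : Type*} [Field F]

theorem scalar_comm {z : GL ι F} (hz : z ∈ scalars ι F) (g : GL ι F) : z * g = g * z := by
  obtain ⟨c, hc⟩ := (mem_scalars_iff' z).mp hz
  apply Units.ext
  rw [Units.val_mul, Units.val_mul, hc]
  simp

theorem normalizes_iff_map {G N : Subgroup (GL ι F)} :
    Normalizes G N ↔ ∀ g ∈ G, N.map (MulAut.conj g).toMonoidHom ≤ N := by
  constructor
  · rintro h g hg _ ⟨x, hx, rfl⟩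
    exact h g hg x hx
  · intro h g hg x hx
    exact h g hg ⟨x, hx, rfl⟩

theorem Normalizes.sup {G A B : Subgroup (GL ι F)} (hA : Normalizes G A) (hB : Normalizes G B) :
    Normalizes G (A ⊔ B) := by
  rw [normalizes_iff_map] at hA hB ⊢
  intro g hg
  rw [Subgroup.map_sup]
  exact sup_le_sup (hA g hg) (hB g hg)

theorem Normalizes.commutator {G A B : Subgroup (GL ι F)} (hA : Normalizes G A) (hB : Normalizes G B) :
    Normalizes G ⁅A, B⁆ := by
  rw [normalizes_iff_map] at hA hB ⊢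
  intro g hg
  rw [Subgroup.map_commutator]
  exact Subgroup.commutator_mono (hA g hg) (hB g hg)

theorem normalizes_scalars (G : Subgroup (GL ι F)) : Normalizes G (scalars ι F) :=
  fun g _ x hx => (scalars_normal (ι := ι) (F := F)).conj_mem x hx g

theorem normalizes_self (N : Subgroup (GL ι F)) : Normalizes N N :=
  fun _ hg _ hx => mul_mem (mul_mem hg hx) (inv_mem hg)

theorem Normalizes.mono {G G' N : Subgroup (GL ι F)} (h : Normalizes G N) (hG : G' ≤ G) : Normalizes G' N :=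
  fun g hg x hx => h g (hG hg) x hx

theorem Normalizes.iSup {κ : Sort*} {G : Subgroup (GL ι F)} {A : κ → Subgroup (GL ι F)}
    (hA : ∀ g ∈ G, ∀ i, ∃ j, (A i).map (MulAut.conj g).toMonoidHom ≤ A j) : Normalizes G (⨆ i, A i) := by
  rw [normalizes_iff_map]
  intro g hg
  rw [Subgroup.map_iSup]
  refine iSup_le fun i => ?_
  obtain ⟨j, hj⟩ := hA g hg i
  exact hj.trans (le_iSup A j)

/-- Commutators of central things vanish. -/
theorem commutator_eq_bot_of_le_scalars {A B : Subgroup (GL ι F)} (h : A ≤ scalars ι F) : ⁅A, B⁆ = ⊥ := by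
  rw [Subgroup.commutator_eq_bot_iff_le_centralizer]
  intro a ha
  rw [Subgroup.mem_centralizer_iff]
  intro b _
  exact (scalar_comm (h ha) b).symm

/-- Three subgroups: `⁅A, B⁆` scalar implies `⁅⁅A, A⁆, B⁆ = 1`. -/
theorem commutator_commutator_eq_bot {A B : Subgroup (GL ι F)} (h : ⁅A, B⁆ ≤ scalars ι F) : ⁅⁅A, A⁆, B⁆ = ⊥ := by
  refine Subgroup.commutator_commutator_eq_bot_of_rotate ?_ ?_
  · exact commutator_eq_bot_of_le_scalars h
  · rw [Subgroup.commutator_comm B A]
    exact commutator_eq_bot_of_le_scalars h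

theorem comm_of_commutator_eq_bot {A B : Subgroup (GL ι F)} (h : ⁅A, B⁆ = ⊥) {a b : GL ι F} (ha : a ∈ A) (hb : b ∈ B) :
    a * b = b * a := by
  rw [Subgroup.commutator_eq_bot_iff_le_centralizer] at h
  exact (Subgroup.mem_centralizer_iff.mp (h ha) b hb).symm

/-- The centraliser of `B` modulo scalars. -/
def modCent (B : Subgroup (GL ι F)) : Subgroup (GL ι F) :=
  (Subgroup.centralizer ((B.map (QuotientGroup.mk' (scalars ι F))) : Set (GL ι F ⧸ scalars ι F))).comap
    (QuotientGroup.mk' (scalars ι F))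

theorem mem_modCent {B : Subgroup (GL ι F)} {x : GL ι F} :
    x ∈ modCent B ↔ ∀ y ∈ B, x * y * x⁻¹ * y⁻¹ ∈ scalars ι F := by
  unfold modCent
  rw [Subgroup.mem_comap, Subgroup.mem_centralizer_iff]
  constructor
  · intro h y hy
    have h1 := h (QuotientGroup.mk' (scalars ι F) y) ⟨y, hy, rfl⟩
    rw [← map_mul, ← map_mul] at h1
    have h2 := (QuotientGroup.eq_iff_div_mem (N := scalars ι F)).mp h1.symm
    have h3 : x * y / (y * x) = x * y * x⁻¹ * y⁻¹ := by rw [div_eq_mul_inv]; group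
    rwa [h3] at h2
  · rintro h _ ⟨y, hy, rfl⟩
    rw [← map_mul, ← map_mul]
    symm
    refine (QuotientGroup.eq_iff_div_mem (N := scalars ι F)).mpr ?_
    have h3 : x * y / (y * x) = x * y * x⁻¹ * y⁻¹ := by rw [div_eq_mul_inv]; group
    rw [h3]
    exact h y hy

theorem commutator_le_scalars_iff {A B : Subgroup (GL ι F)} : ⁅A, B⁆ ≤ scalars ι F ↔ A ≤ modCent B := by
  rw [Subgroup.commutator_le]
  constructor
  · intro h a ha
    rw [mem_modCent]
    intro y hy
    exact h a ha y hy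
  · intro h a ha b hb
    exact mem_modCent.mp (h ha) b hb

/-- `H ⊔ Z` has the same commutators as `H`. -/
theorem commutator_sup_scalars_le (A B : Subgroup (GL ι F)) :
    ⁅A ⊔ scalars ι F, B ⊔ scalars ι F⁆ ≤ ⁅A, B⁆ := by
  rw [Subgroup.commutator_le]
  intro x hx y hy
  obtain ⟨a, ha, z, hz, rfl⟩ := Subgroup.mem_sup_of_normal_right.mp hx
  obtain ⟨b, hb, w, hw, rfl⟩ := Subgroup.mem_sup_of_normal_right.mp hy
  have h : ⁅a * z, b * w⁆ = ⁅a, b⁆ := by
    rw [commutatorElement_def, commutatorElement_def]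
    have e1 : z * b = b * z := scalar_comm hz b
    have e2 : z * w = w * z := scalar_comm hz w
    have e3 : w * a⁻¹ = a⁻¹ * w := scalar_comm hw a⁻¹
    calc a * z * (b * w) * (a * z)⁻¹ * (b * w)⁻¹ = a * (z * b) * w * z⁻¹ * a⁻¹ * w⁻¹ * b⁻¹ := by group
      _ = a * b * (z * w) * z⁻¹ * a⁻¹ * w⁻¹ * b⁻¹ := by rw [e1]; group
      _ = a * b * (w * a⁻¹) * w⁻¹ * b⁻¹ := by rw [e2]; group
      _ = a * b * a⁻¹ * b⁻¹ := by rw [e3]; group
  rw [h]
  exact Subgroup.commutator_mem_commutator ha hb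

/-- `N` is minimal above the scalars among the subgroups normalised by `G`. -/
structure IsMinOver (G L : Subgroup (GL ι F)) : Prop where
  scalars_le : scalars ι F ≤ L
  ne_scalars : L ≠ scalars ι F
  le : L ≤ G
  norm : Normalizes G L
  min : ∀ M : Subgroup (GL ι F), scalars ι F ≤ M → M ≤ L → Normalizes G M → M = scalars ι F ∨ M = L

theorem exists_isMinOver [Finite F] {G : Subgroup (GL ι F)} (hZ : scalars ι F ≤ G) (hne : G ≠ scalars ι F) :
    ∃ L, IsMinOver G L := by
  haveI : Finite (GL ι F) := inferInstance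
  haveI : Finite (Subgroup (GL ι F)) := Finite.of_injective (fun H => (H : Set (GL ι F))) SetLike.coe_injective
  let P : Subgroup (GL ι F) → Prop := fun L => scalars ι F ≤ L ∧ L ≠ scalars ι F ∧ L ≤ G ∧ Normalizes G L
  have hP : ∃ L, P L := ⟨G, hZ, hne, le_rfl, normalizes_self G⟩
  obtain ⟨L, hL⟩ := exists_minimal_of_wellFoundedLT P hP
  refine ⟨L, hL.1.1, hL.1.2.1, hL.1.2.2.1, hL.1.2.2.2, fun M h1 h2 h3 => ?_⟩
  by_cases hM : M = scalars ι F
  · exact Or.inl hM
  · refine Or.inr (le_antisymm h2 ?_)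
    exact hL.2 ⟨h1, hM, h2.trans hL.1.2.2.1, h3⟩ h2

/-- A minimal member of the conjugation-closed family inside `L`. -/
theorem exists_minimal_normal [Finite F] {L : Subgroup (GL ι F)} (hZ : scalars ι F ≤ L) (hne : L ≠ scalars ι F) :
    ∃ S, scalars ι F ≤ S ∧ S ≠ scalars ι F ∧ S ≤ L ∧ Normalizes L S ∧
      ∀ M : Subgroup (GL ι F), scalars ι F ≤ M → M ≤ S → Normalizes L M → M = scalars ι F ∨ M = S := by
  obtain ⟨S, hS⟩ := exists_isMinOver hZ hne
  exact ⟨S, hS.scalars_le, hS.ne_scalars, hS.le, hS.norm, hS.min⟩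

/-- The conjugate of a subgroup. -/
def cj (g : GL ι F) (S : Subgroup (GL ι F)) : Subgroup (GL ι F) := S.map (MulAut.conj g).toMonoidHom

theorem mem_cj {g x : GL ι F} {S : Subgroup (GL ι F)} : x ∈ cj g S ↔ g⁻¹ * x * g ∈ S := by
  unfold cj
  rw [Subgroup.mem_map]
  constructor
  · rintro ⟨y, hy, rfl⟩
    have : g⁻¹ * (MulAut.conj g).toMonoidHom y * g = y := by
      simp [MulAut.conj_apply, mul_assoc]
    rwa [this]
  · intro h
    refine ⟨_, h, ?_⟩
    simp [MulAut.conj_apply, mul_assoc]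

theorem mul_mem_cj {g x : GL ι F} {S : Subgroup (GL ι F)} (hx : x ∈ S) : g * x * g⁻¹ ∈ cj g S :=
  mem_cj.mpr (by simpa [mul_assoc] using hx)

theorem cj_mul (g h : GL ι F) (S : Subgroup (GL ι F)) : cj (g * h) S = cj g (cj h S) := by
  ext x
  rw [mem_cj, mem_cj, mem_cj]
  have : (g * h)⁻¹ * x * (g * h) = h⁻¹ * (g⁻¹ * x * g) * h := by group
  rw [this]

theorem cj_one (S : Subgroup (GL ι F)) : cj (1 : GL ι F) S = S := by
  ext x
  rw [mem_cj]
  simp

theorem cj_inv_cj (g : GL ι F) (S : Subgroup (GL ι F)) : cj g⁻¹ (cj g S) = S := by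
  rw [← cj_mul, inv_mul_cancel, cj_one]

theorem cj_cj_inv (g : GL ι F) (S : Subgroup (GL ι F)) : cj g (cj g⁻¹ S) = S := by
  rw [← cj_mul, mul_inv_cancel, cj_one]

theorem cj_commutator (g : GL ι F) (A B : Subgroup (GL ι F)) : cj g ⁅A, B⁆ = ⁅cj g A, cj g B⁆ :=
  Subgroup.map_commutator _ _ _

theorem cj_sup (g : GL ι F) (A B : Subgroup (GL ι F)) : cj g (A ⊔ B) = cj g A ⊔ cj g B :=
  Subgroup.map_sup _ _ _

theorem cj_scalars (g : GL ι F) : cj g (scalars ι F) = scalars ι F := by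
  ext x
  rw [mem_cj]
  constructor
  · intro h
    have := (scalars_normal (ι := ι) (F := F)).conj_mem _ h g
    simpa [mul_assoc] using this
  · intro h
    have := (scalars_normal (ι := ι) (F := F)).conj_mem _ h g⁻¹
    simpa [mul_assoc] using this

theorem cj_mono {g : GL ι F} {A B : Subgroup (GL ι F)} (h : A ≤ B) : cj g A ≤ cj g B :=
  Subgroup.map_mono h

/-- Conjugate of a subgroup normalised by a normal subgroup. -/
theorem Normalizes.cj_of_normal {G L S : Subgroup (GL ι F)} (hL : Normalizes G L) (hS : Normalizes L S) {g : GL ι F}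
    (hg : g ∈ G) : Normalizes L (cj g S) := by
  intro l hl x hx
  rw [mem_cj] at hx ⊢
  have h1 : g⁻¹ * l * g ∈ L := by
    have := hL g⁻¹ (inv_mem hg) l hl
    simpa using this
  have h2 := hS _ h1 _ hx
  have h3 : g⁻¹ * (l * x * l⁻¹) * g = g⁻¹ * l * g * (g⁻¹ * x * g) * (g⁻¹ * l * g)⁻¹ := by group
  rw [h3]
  exact h2

/-- Elements of the commutant of a subgroup, as a subgroup. -/
def commSub (x : Matrix ι ι F) : Subgroup (GL ι F) where
  carrier := {g | (g : Matrix ι ι F) * x = x * (g : Matrix ι ι F)}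
  mul_mem' {a b} ha hb := by
    have ha' : (a : Matrix ι ι F) * x = x * (a : Matrix ι ι F) := ha
    have hb' : (b : Matrix ι ι F) * x = x * (b : Matrix ι ι F) := hb
    change ((a * b : GL ι F) : Matrix ι ι F) * x = x * ((a * b : GL ι F) : Matrix ι ι F)
    rw [Units.val_mul, mul_assoc, hb', ← mul_assoc, ha', mul_assoc]
  one_mem' := by
    change ((1 : GL ι F) : Matrix ι ι F) * x = x * ((1 : GL ι F) : Matrix ι ι F)
    simp
  inv_mem' {a} ha := by
    have ha' : (a : Matrix ι ι F) * x = x * (a : Matrix ι ι F) := ha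
    change ((a⁻¹ : GL ι F) : Matrix ι ι F) * x = x * ((a⁻¹ : GL ι F) : Matrix ι ι F)
    have h1 : ((a⁻¹ : GL ι F) : Matrix ι ι F) * (a : Matrix ι ι F) = 1 := by
      rw [← Units.val_mul, inv_mul_cancel, Units.val_one]
    have h2 : (a : Matrix ι ι F) * ((a⁻¹ : GL ι F) : Matrix ι ι F) = 1 := by
      rw [← Units.val_mul, mul_inv_cancel, Units.val_one]
    calc ((a⁻¹ : GL ι F) : Matrix ι ι F) * x
        = ((a⁻¹ : GL ι F) : Matrix ι ι F) * x * ((a : Matrix ι ι F) * ((a⁻¹ : GL ι F) : Matrix ι ι F)) := by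
          rw [h2, mul_one]
      _ = ((a⁻¹ : GL ι F) : Matrix ι ι F) * ((a : Matrix ι ι F) * x) * ((a⁻¹ : GL ι F) : Matrix ι ι F) := by
          rw [ha']; simp only [mul_assoc]
      _ = x * ((a⁻¹ : GL ι F) : Matrix ι ι F) := by
          rw [← mul_assoc, h1, one_mul]

theorem mem_cent_iff_le_commSub {N : Subgroup (GL ι F)} {x : Matrix ι ι F} : x ∈ cent N ↔ N ≤ commSub x :=
  mem_cent

theorem scalars_le_commSub (x : Matrix ι ι F) : scalars ι F ≤ commSub x := by
  intro z hz
  obtain ⟨c, hc⟩ := (mem_scalars_iff' z).mp hz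
  change (z : Matrix ι ι F) * x = x * (z : Matrix ι ι F)
  rw [hc]
  simp

end Cfsg.Agent.Lib.Classical.Asch.MinNormal
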