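import Mathlib
import Cfsg.Agent.Lib.Classical.Asch.MinNormal

/-!
# Aschbacher's theorem: abelian minimal normal subgroups modulo scalars

If `L` is minimal over the scalars among the subgroups normalised by `G` and `L` is abelian modulo scalars, then it is a central
product of the scalars with a subgroup `R` of exponent dividing `s = r * gcd 2 r`.
-/

set_option autoImplicit false
set_option linter.style.haveILetI false
set_option linter.unusedSectionVars false

namespace Cfsg.Agent.Lib.Classical.Asch.SympType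

open scoped MatrixGroups Matrix commutatorElement
open Cfsg.Geo Cfsg.Agent.Lib.Classical.Asch.Basic
open Cfsg.Agent.Lib.Classical.Asch.Dichotomy Cfsg.Agent.Lib.Classical.Asch.MinNormal

theorem mul_pow_of_central {Γ : Type*} [Group Γ] {x y c : Γ} (hc : ∀ g, c * g = g * c) (h : y * x = c * x * y) (n : ℕ) :
    (x * y) ^ n = c ^ (n.choose 2) * x ^ n * y ^ n := by
  have hck : ∀ (k : ℕ) (g : Γ), c ^ k * g = g * c ^ k := fun k g => (Commute.pow_left (hc g) k)
  have h1 : ∀ n : ℕ, y ^ n * x = c ^ n * x * y ^ n := by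
    intro n
    induction n with
    | zero => simp
    | succ n ih =>
      calc y ^ (n + 1) * x = y ^ n * (y * x) := by rw [pow_succ, mul_assoc]
        _ = y ^ n * (c * x * y) := by rw [h]
        _ = (y ^ n * c) * x * y := by simp only [mul_assoc]
        _ = c * (y ^ n * x) * y := by rw [← hc (y ^ n)]; simp only [mul_assoc]
        _ = c * (c ^ n * x * y ^ n) * y := by rw [ih]
        _ = _ := by rw [pow_succ' c, pow_succ y]; simp only [mul_assoc]
  induction n with
  | zero => simp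
  | succ n ih =>
    have h2 : (n + 1).choose 2 = n.choose 2 + n := by
      rw [Nat.choose_succ_succ' n 1, Nat.choose_one_right, add_comm]
    calc (x * y) ^ (n + 1) = (x * y) ^ n * (x * y) := pow_succ _ _
      _ = c ^ n.choose 2 * x ^ n * (y ^ n * x) * y := by rw [ih]; simp only [mul_assoc]
      _ = c ^ n.choose 2 * x ^ n * (c ^ n * x * y ^ n) * y := by rw [h1]
      _ = c ^ n.choose 2 * (x ^ n * c ^ n) * x * y ^ n * y := by simp only [mul_assoc]
      _ = c ^ n.choose 2 * (c ^ n * x ^ n) * x * y ^ n * y := by rw [hck n (x ^ n)]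
      _ = _ := by rw [h2, pow_add c, pow_succ x, pow_succ y]; simp only [mul_assoc]

variable {ι : Type} [Fintype ι] [DecidableEq ι] {F : Type*} [Field F]

/-- The scalars as `Fˣ`. -/
def scal (ι : Type) [Fintype ι] [DecidableEq ι] (F : Type*) [Field F] : Fˣ →* GL ι F :=
  Units.map (Matrix.scalar ι : F →+* Matrix ι ι F).toMonoidHom

theorem scal_mem (u : Fˣ) : scal ι F u ∈ scalars ι F := ⟨u, rfl⟩

theorem coe_scal (u : Fˣ) : (scal ι F u : Matrix ι ι F) = (u : F) • (1 : Matrix ι ι F) := by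
  change Matrix.scalar ι (u : F) = _
  simp [Matrix.smul_one_eq_diagonal]

theorem scal_injective [Nonempty ι] : Function.Injective (scal ι F) := by
  intro u v h
  obtain ⟨i⟩ := ‹Nonempty ι›
  have h1 := congrArg (fun g : GL ι F => (g : Matrix ι ι F) i i) h
  simp only [coe_scal] at h1
  simp only [Matrix.smul_apply, Matrix.one_apply_eq, smul_eq_mul, mul_one] at h1
  exact Units.ext h1

theorem mem_scalars_iff_scal {z : GL ι F} : z ∈ scalars ι F ↔ ∃ u : Fˣ, scal ι F u = z := Iff.rfl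

theorem commutator_mem_of_le {L : Subgroup (GL ι F)} (hL : ⁅L, L⁆ ≤ scalars ι F) {x y : GL ι F} (hx : x ∈ L) (hy : y ∈ L) :
    x * y * x⁻¹ * y⁻¹ ∈ scalars ι F :=
  hL (Subgroup.commutator_mem_commutator hx hy)

theorem mul_comm_comm (x y : GL ι F) : y * x = (y * x * y⁻¹ * x⁻¹) * x * y := by group

/-- The elements of `L` whose `n`-th power is a scalar. -/
def powSub {L : Subgroup (GL ι F)} (hL : ⁅L, L⁆ ≤ scalars ι F) (n : ℕ) : Subgroup (GL ι F) where
  carrier := {x | x ∈ L ∧ x ^ n ∈ scalars ι F}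
  mul_mem' {a b} ha hb := by
    refine ⟨mul_mem ha.1 hb.1, ?_⟩
    have hc := commutator_mem_of_le hL hb.1 ha.1
    rw [mul_pow_of_central (fun g => scalar_comm hc g) (mul_comm_comm a b)]
    exact mul_mem (mul_mem (pow_mem hc _) ha.2) hb.2
  one_mem' := ⟨one_mem L, by simp⟩
  inv_mem' {a} ha := by
    refine ⟨inv_mem ha.1, ?_⟩
    rw [inv_pow]
    exact inv_mem ha.2

theorem mem_powSub {L : Subgroup (GL ι F)} {hL : ⁅L, L⁆ ≤ scalars ι F} {n : ℕ} {x : GL ι F} :
    x ∈ powSub hL n ↔ x ∈ L ∧ x ^ n ∈ scalars ι F := Iff.rfl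

/-- All the `r`-th powers are scalars, for some prime `r`. -/
theorem exists_prime_pow_mem [Finite F] {G L : Subgroup (GL ι F)} (hmin : IsMinOver G L) (hL : ⁅L, L⁆ ≤ scalars ι F) :
    ∃ r : ℕ, r.Prime ∧ ∀ x ∈ L, x ^ r ∈ scalars ι F := by
  have hZ : ¬ L ≤ scalars ι F := fun h => hmin.ne_scalars (le_antisymm h hmin.scalars_le)
  obtain ⟨x, hxL, hxZ⟩ := Set.not_subset.mp hZ
  let X : GL ι F ⧸ scalars ι F := QuotientGroup.mk x
  have hX : ∀ k : ℕ, X ^ k = 1 ↔ x ^ k ∈ scalars ι F := by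
    intro k
    rw [← QuotientGroup.mk_pow, QuotientGroup.eq_one_iff]
  haveI : Finite (GL ι F ⧸ scalars ι F) := inferInstance
  have hm : orderOf X ≠ 1 := by
    intro h
    rw [orderOf_eq_one_iff] at h
    apply hxZ
    have := (hX 1).mp (by simpa using h)
    simpa using this
  obtain ⟨r, hr, hrm⟩ := Nat.exists_prime_and_dvd hm
  refine ⟨r, hr, ?_⟩
  have hmpos : 0 < orderOf X := orderOf_pos X
  obtain ⟨m', hm'⟩ := hrm
  have hy : x ^ m' ∉ scalars ι F := by
    intro h
    have h1 : orderOf X ∣ m' := orderOf_dvd_of_pow_eq_one ((hX m').mpr h)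
    have hm'pos : 0 < m' := by
      rcases Nat.eq_zero_or_pos m' with h0 | h0
      · rw [h0, mul_zero] at hm'
        omega
      · exact h0
    have h2 := Nat.le_of_dvd hm'pos h1
    have h3 := hr.two_le
    nlinarith
  have hmem : powSub hL r = L := by
    rcases hmin.min (powSub hL r) (fun z hz => ⟨hmin.scalars_le hz, pow_mem hz r⟩) (fun z hz => hz.1) (by
      intro g hg z hz
      refine ⟨hmin.norm g hg z hz.1, ?_⟩
      rw [conj_pow]
      exact normalizes_scalars G g hg _ hz.2) with h | h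
    · exfalso
      apply hy
      rw [← h]
      refine ⟨pow_mem hxL _, ?_⟩
      rw [← pow_mul, mul_comm, ← hm']
      exact (hX _).mp (pow_orderOf_eq_one X)
    · exact h
  intro z hz
  rw [← hmem] at hz
  exact hz.2

/-- Commutators have order dividing `r`. -/
theorem commutator_pow_eq_one {L : Subgroup (GL ι F)} (hL : ⁅L, L⁆ ≤ scalars ι F) {r : ℕ}
    (hr : ∀ x ∈ L, x ^ r ∈ scalars ι F) {x y : GL ι F} (hx : x ∈ L) (hy : y ∈ L) :
    (x * y * x⁻¹ * y⁻¹) ^ r = 1 := by
  set c := x * y * x⁻¹ * y⁻¹ with hc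
  have hcZ : c ∈ scalars ι F := commutator_mem_of_le hL hx hy
  have h1 : x * y * x⁻¹ = c * y := by
    rw [hc]
    group
  have h2 : (x * y * x⁻¹) ^ r = x * y ^ r * x⁻¹ := conj_pow
  have h3 : x * y ^ r * x⁻¹ = y ^ r := by
    rw [← scalar_comm (hr y hy) x]
    group
  have h4 : (c * y) ^ r = c ^ r * y ^ r := (show Commute c y from scalar_comm hcZ y).mul_pow r
  rw [h1, h4] at h2
  rw [h3] at h2
  exact mul_eq_right.mp h2

/-- The elements of `L` of exponent dividing `s`. -/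
def oneSub {L : Subgroup (GL ι F)} (hL : ⁅L, L⁆ ≤ scalars ι F) (s : ℕ)
    (hc : ∀ x ∈ L, ∀ y ∈ L, (x * y * x⁻¹ * y⁻¹) ^ (s.choose 2) = 1) : Subgroup (GL ι F) where
  carrier := {x | x ∈ L ∧ x ^ s = 1}
  mul_mem' {a b} ha hb := by
    refine ⟨mul_mem ha.1 hb.1, ?_⟩
    have hcz := commutator_mem_of_le hL hb.1 ha.1
    rw [mul_pow_of_central (fun g => scalar_comm hcz g) (mul_comm_comm a b), hc b hb.1 a ha.1, ha.2, hb.2]
    simp
  one_mem' := ⟨one_mem L, by simp⟩
  inv_mem' {a} ha := by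
    refine ⟨inv_mem ha.1, ?_⟩
    rw [inv_pow, ha.2, inv_one]

/-- `x ↦ x ^ s` is a homomorphism on `L`. -/
theorem mul_pow_eq {L : Subgroup (GL ι F)} (hL : ⁅L, L⁆ ≤ scalars ι F) {s : ℕ}
    (hc : ∀ x ∈ L, ∀ y ∈ L, (x * y * x⁻¹ * y⁻¹) ^ (s.choose 2) = 1) {a b : GL ι F} (ha : a ∈ L) (hb : b ∈ L) :
    (a * b) ^ s = a ^ s * b ^ s := by
  have hcz := commutator_mem_of_le hL hb ha
  rw [mul_pow_of_central (fun g => scalar_comm hcz g) (mul_comm_comm a b), hc b hb a ha, one_mul]

/-- The scalar `x ^ s`. -/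
noncomputable def powHom [Nonempty ι] {L : Subgroup (GL ι F)} (hL : ⁅L, L⁆ ≤ scalars ι F) (s : ℕ)
    (hs : ∀ x ∈ L, x ^ s ∈ scalars ι F)
    (hc : ∀ x ∈ L, ∀ y ∈ L, (x * y * x⁻¹ * y⁻¹) ^ (s.choose 2) = 1) : L →* Fˣ where
  toFun x := (mem_scalars_iff_scal.mp (hs x x.2)).choose
  map_one' := by
    apply scal_injective (ι := ι)
    rw [(mem_scalars_iff_scal.mp (hs _ (1 : L).2)).choose_spec]
    simp
  map_mul' x y := by
    apply scal_injective (ι := ι)
    rw [(mem_scalars_iff_scal.mp (hs _ (x * y : L).2)).choose_spec, map_mul,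
      (mem_scalars_iff_scal.mp (hs _ x.2)).choose_spec, (mem_scalars_iff_scal.mp (hs _ y.2)).choose_spec]
    exact mul_pow_eq hL hc x.2 y.2

theorem scal_powHom [Nonempty ι] {L : Subgroup (GL ι F)} (hL : ⁅L, L⁆ ≤ scalars ι F) (s : ℕ)
    (hs : ∀ x ∈ L, x ^ s ∈ scalars ι F)
    (hc : ∀ x ∈ L, ∀ y ∈ L, (x * y * x⁻¹ * y⁻¹) ^ (s.choose 2) = 1) (x : L) :
    scal ι F (powHom hL s hs hc x) = (x : GL ι F) ^ s :=
  (mem_scalars_iff_scal.mp (hs x x.2)).choose_spec

/-- `L` is the product of the scalars and the elements of exponent dividing `s`. -/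
theorem oneSub_sup_eq [Finite F] [Nonempty ι] {G L : Subgroup (GL ι F)} (hmin : IsMinOver G L)
    (hL : ⁅L, L⁆ ≤ scalars ι F) (hnc : ¬ ∀ a ∈ L, ∀ b ∈ L, a * b = b * a) (s : ℕ)
    (hs : ∀ x ∈ L, x ^ s ∈ scalars ι F)
    (hc : ∀ x ∈ L, ∀ y ∈ L, (x * y * x⁻¹ * y⁻¹) ^ (s.choose 2) = 1) :
    oneSub hL s hc ⊔ scalars ι F = L := by
  have hnorm : Normalizes G (oneSub hL s hc) := by
    intro g hg x hx
    refine ⟨hmin.norm g hg x hx.1, ?_⟩
    rw [conj_pow, hx.2]
    simp
  have hle : oneSub hL s hc ≤ L := fun x hx => hx.1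
  rcases hmin.min _ le_sup_right (sup_le hle hmin.scalars_le) (Normalizes.sup hnorm (normalizes_scalars G)) with h | h
  · exfalso
    apply hnc
    haveI : Finite Fˣ := inferInstance
    let Q := Fˣ ⧸ (powMonoidHom s : Fˣ →* Fˣ).range
    haveI : IsCyclic Q := isCyclic_of_surjective (QuotientGroup.mk' _) (QuotientGroup.mk'_surjective _)
    let θ : L →* Q := (QuotientGroup.mk' _).comp (powHom hL s hs hc)
    have hker : θ.ker ≤ Subgroup.center L := by
      intro x hx
      have h1 : powHom hL s hs hc x ∈ (powMonoidHom s : Fˣ →* Fˣ).range := by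
        have : QuotientGroup.mk' (powMonoidHom s : Fˣ →* Fˣ).range (powHom hL s hs hc x) = 1 := hx
        rwa [← MonoidHom.mem_ker, QuotientGroup.ker_mk'] at this
      obtain ⟨w, hw⟩ := h1
      have hw' : w ^ s = powHom hL s hs hc x := hw
      have hxs := scal_powHom hL s hs hc x
      rw [← hw', map_pow] at hxs
      -- `y = x / w` has exponent dividing `s`
      have hy : (x : GL ι F) * (scal ι F w)⁻¹ ∈ oneSub hL s hc := by
        refine ⟨mul_mem x.2 (inv_mem (hmin.scalars_le (scal_mem w))), ?_⟩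
        have hcm : Commute (x : GL ι F) (scal ι F w)⁻¹ :=
          (scalar_comm (inv_mem (scal_mem w)) (x : GL ι F)).symm
        rw [hcm.mul_pow, ← hxs, inv_pow, mul_inv_cancel]
      have hy' : (x : GL ι F) * (scal ι F w)⁻¹ ∈ scalars ι F := by
        have h2 : oneSub hL s hc ≤ scalars ι F := sup_eq_right.mp h
        exact h2 hy
      have hxZ : (x : GL ι F) ∈ scalars ι F := by
        have h3 := mul_mem hy' (scal_mem w)
        simpa using h3
      rw [Subgroup.mem_center_iff]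
      intro g
      exact Subtype.ext (scalar_comm hxZ (g : GL ι F)).symm
    intro a ha b hb
    have hcomm := MonoidHom.isMulCommutative_of_isCyclic_of_ker_le_center θ hker
    have := hcomm.is_comm.comm (⟨a, ha⟩ : L) ⟨b, hb⟩
    simpa using congrArg Subtype.val this
  · exact h

/-- The data of the symplectic-type subgroup extracted from an abelian minimal normal subgroup modulo scalars. -/
structure SympData (G R : Subgroup (GL ι F)) (r s : ℕ) : Prop where
  prime : r.Prime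
  hs : s = r * Nat.gcd 2 r
  hchar : (r : F) ≠ 0
  norm : Normalizes G R
  irr : ∀ W : Submodule F (ι → F), Inv R W → W = ⊥ ∨ W = ⊤
  cs : CentScalar R
  notZ : ¬ R ≤ scalars ι F
  pow_s : ∀ x ∈ R, x ^ s = 1
  le : R ≤ G
  comm : ∀ x ∈ R, ∀ y ∈ R, x * y * x⁻¹ * y⁻¹ ∈ scalars ι F
  comm_pow : ∀ x ∈ R, ∀ y ∈ R, (x * y * x⁻¹ * y⁻¹) ^ r = 1

theorem dvd_choose_s {r : ℕ} (hr : r.Prime) : r ∣ (r * Nat.gcd 2 r).choose 2 := by
  rcases hr.eq_two_or_odd' with h | h
  · subst h
    decide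
  · have h3 : 3 ≤ r := by
      have := hr.two_le
      rcases h with ⟨k, hk⟩
      omega
    have hg : Nat.gcd 2 r = 1 := by
      rw [Nat.coprime_iff_gcd_eq_one.symm]
      exact (Nat.coprime_two_left).mpr h
    rw [hg, mul_one]
    exact hr.dvd_choose_self (by norm_num) (by omega)

theorem dvd_s (r : ℕ) : r ∣ r * Nat.gcd 2 r := Dvd.intro _ rfl

/-- **From `L` to `R`**. -/
theorem exists_sympData [Fintype F] [Nonempty ι] {G L : Subgroup (GL ι F)}
    (hD : Dich G) (hmin : IsMinOver G L)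
    (hL : ⁅L, L⁆ ≤ scalars ι F) :
    ∃ R r s, SympData G R r s ∧ (∀ x ∈ scalars ι F, x ^ s = 1 → x ∈ R) ∧ R ≤ L := by
  have hLZ : ¬ L ≤ scalars ι F := fun h => hmin.ne_scalars (le_antisymm h hmin.scalars_le)
  obtain ⟨hLirr, hLcs⟩ : (∀ W : Submodule F (ι → F), Inv L W → W = ⊥ ∨ W = ⊤) ∧ CentScalar L := by
    rcases hD L hmin.le hmin.norm with h | h
    · exact absurd h hLZ
    · exact h
  have hnc : ¬ ∀ a ∈ L, ∀ b ∈ L, a * b = b * a := by
    intro h
    apply hLZ
    intro x hx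
    exact (mem_scalars_iff' x).mpr (hLcs _ (coe_mem_cent_iff.mpr fun g hg => h g hg x hx))
  obtain ⟨r, hr, hrL⟩ := exists_prime_pow_mem hmin hL
  have hcr : ∀ x ∈ L, ∀ y ∈ L, (x * y * x⁻¹ * y⁻¹) ^ r = 1 := fun x hx y hy =>
    commutator_pow_eq_one hL hrL hx hy
  set s := r * Nat.gcd 2 r with hsdef
  have hcs : ∀ x ∈ L, ∀ y ∈ L, (x * y * x⁻¹ * y⁻¹) ^ (s.choose 2) = 1 := by
    intro x hx y hy
    obtain ⟨k, hk⟩ := dvd_choose_s hr
    rw [hsdef, hk, pow_mul, hcr x hx y hy, one_pow]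
  have hsZ : ∀ x ∈ L, x ^ s ∈ scalars ι F := by
    intro x hx
    rw [hsdef, pow_mul]
    exact pow_mem (hrL x hx) _
  have hsup := oneSub_sup_eq hmin hL hnc s hsZ hcs
  set R := oneSub hL s hcs with hR
  have hRle : R ≤ L := fun x hx => hx.1
  have hnorm : Normalizes G R := by
    intro g hg x hx
    refine ⟨hmin.norm g hg x hx.1, ?_⟩
    rw [conj_pow, hx.2]
    simp
  have hRZ : ¬ R ≤ scalars ι F := by
    intro h
    rw [sup_eq_right.mpr h] at hsup
    exact hmin.ne_scalars hsup.symm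
  obtain ⟨hRirr, hRcs⟩ : (∀ W : Submodule F (ι → F), Inv R W → W = ⊥ ∨ W = ⊤) ∧ CentScalar R := by
    rcases hD R (hRle.trans hmin.le) hnorm with h | h
    · exact absurd h hRZ
    · exact h
  refine ⟨R, r, s, ⟨hr, hsdef, ?_, hnorm, hRirr, hRcs, hRZ, fun x hx => hx.2,
    hRle.trans hmin.le,
    fun x hx y hy => commutator_mem_of_le hL (hRle hx) (hRle hy),
    fun x hx y hy => hcr x (hRle hx) y (hRle hy)⟩, fun x hx hxs => ⟨hmin.scalars_le hx, hxs⟩, hRle⟩
  -- the prime is not the characteristic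
  intro h0
  apply hnc
  intro a ha b hb
  have hc1 := hcr a ha b hb
  obtain ⟨u, hu⟩ := commutator_mem_of_le hL ha hb
  have hu' : scal ι F u = a * b * a⁻¹ * b⁻¹ := hu
  have hu1 : u ^ r = 1 := by
    apply scal_injective (ι := ι)
    rw [map_pow, hu', hc1, map_one]
  haveI : Fact r.Prime := ⟨hr⟩
  haveI : CharP F r := by
    have h1 := CharP.ringChar_of_prime_eq_zero hr h0
    rw [← h1]
    exact ringChar.charP F
  have hu2 : (u : F) = 1 := by
    have h2 : ((u : F) - 1) ^ r = 0 := by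
      rw [sub_pow_char, ← Units.val_pow_eq_pow_val, hu1]
      simp
    have h3 := pow_eq_zero_iff (hr.ne_zero) |>.mp h2
    exact sub_eq_zero.mp h3
  have hu3 : u = 1 := Units.ext hu2
  rw [hu3, map_one] at hu'
  have h5 : a * b * a⁻¹ * b⁻¹ * b * a = a * b := by group
  rw [← hu'] at h5
  simpa using h5.symm

end Cfsg.Agent.Lib.Classical.Asch.SympType
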