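import Mathlib
import Cfsg.Agent.Lib.Classical.Asch.SympType

/-!
# Aschbacher's theorem: structure of the symplectic-type subgroup

Burnside's theorem for absolutely irreducible groups, linear independence of coset representatives, the order formula
`|R / Z(R)| = n ^ 2`, and the symplectic-type conditions.
-/

set_option autoImplicit false
set_option linter.style.haveILetI false
set_option linter.unusedSectionVars false

namespace Cfsg.Agent.Lib.Classical.Asch.SympStruct

open scoped MatrixGroups Matrix Kronecker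
open Cfsg.Geo Cfsg.Agent.Lib.Classical.Asch.Basic Cfsg.Agent.Lib.Classical.Asch.Stable
open Cfsg.Agent.Lib.Classical.Asch.Dichotomy Cfsg.Agent.Lib.Classical.Asch.MinNormal
open Cfsg.Agent.Lib.Classical.Asch.SympType

variable {ι : Type} [Fintype ι] [DecidableEq ι] {F : Type*} [Field F]

/-- Independence of common eigenvectors with distinct characters (Dedekind). -/
theorem linearIndependent_of_chars {A : Type*} [MulOneClass A] {J : Type*} [Fintype J] {V : Type*} [AddCommGroup V]
    [Module F V] (act : A → V →ₗ[F] V) (χ : J → (A →* F)) (hχ : Function.Injective χ) (u : J → V)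
    (hu : ∀ j, u j ≠ 0) (hact : ∀ a j, act a (u j) = χ j a • u j) : LinearIndependent F u := by
  classical
  rw [Fintype.linearIndependent_iff]
  intro g hg j₀
  obtain ⟨ℓ, hℓ⟩ : ∃ ℓ : Module.Dual F V, ℓ (u j₀) ≠ 0 := by
    by_contra hcon
    push Not at hcon
    exact hu j₀ ((Module.forall_dual_apply_eq_zero_iff F _).mp hcon)
  have hind : LinearIndependent F (fun j => (χ j : A → F)) :=
    (linearIndependent_monoidHom A F).comp χ hχ
  rw [Fintype.linearIndependent_iff] at hind
  have h1 := hind (fun j => g j * ℓ (u j)) (by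
    funext a
    have h2 := congrArg (fun v => ℓ (act a v)) hg
    simp only [map_sum, map_smul, map_zero, hact, smul_eq_mul, Finset.sum_apply, Pi.smul_apply, Pi.zero_apply] at h2 ⊢
    rw [← h2]
    refine Finset.sum_congr rfl fun j _ => ?_
    ring) j₀
  exact (mul_eq_zero.mp h1).resolve_right hℓ

/-- The scalars form a submonoid of matrices image. -/
def matSub (R : Subgroup (GL ι F)) : Submonoid (Matrix ι ι F) :=
  R.toSubmonoid.map (Units.coeHom (Matrix ι ι F))

theorem coe_matSub (R : Subgroup (GL ι F)) : (matSub R : Set (Matrix ι ι F)) = matrixSet R := by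
  ext x
  simp [matSub, matrixSet]

/-- **Burnside's theorem** for absolutely irreducible groups. -/
theorem burnside [Fintype F] [Nonempty ι] {R : Subgroup (GL ι F)}
    (hirr : ∀ W : Submodule F (ι → F), Inv R W → W = ⊥ ∨ W = ⊤) (hcs : CentScalar R) :
    Submodule.span F (matrixSet R) = ⊤ := by
  let A : Subalgebra F (Matrix ι ι F) := Algebra.adjoin F (matrixSet R)
  have hAspan : Subalgebra.toSubmodule A = Submodule.span F (matrixSet R) := by
    have h1 := Algebra.adjoin_eq_span (R := F) (s := (matrixSet R : Set (Matrix ι ι F)))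
    rw [← coe_matSub, Submonoid.closure_eq] at h1
    rw [coe_matSub] at h1
    exact h1
  have hmem : ∀ x ∈ R, (x : Matrix ι ι F) ∈ A := fun x hx => Algebra.subset_adjoin ⟨x, hx, rfl⟩
  have hst : Stable R (A : Set (Matrix ι ι F)) := by
    intro g hg x hx
    have hx' : x ∈ A := hx
    change Basic.conj g x ∈ A
    refine Algebra.adjoin_induction (p := fun y _ => Basic.conj g y ∈ A) ?_ ?_ ?_ ?_ hx'
    · rintro _ ⟨y, hy, rfl⟩
      rw [conj_coe]
      exact hmem _ (mul_mem (mul_mem hg hy) (inv_mem hg))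
    · intro c
      rw [Algebra.algebraMap_eq_smul_one, Basic.conj_smul, conj_one]
      exact A.smul_mem A.one_mem c
    · intro a b _ _ ha hb
      rw [Basic.conj_add]
      exact A.add_mem ha hb
    · intro a b _ _ ha hb
      rw [Basic.conj_mul]
      exact A.mul_mem ha hb
  haveI : IsSemisimpleRing ↥A := isSemisimpleRing_of_stable hirr hst
  have hZ : ∀ z ∈ A, (∀ y ∈ A, z * y = y * z) → ∃ c : F, z = c • (1 : Matrix ι ι F) := by
    intro z _ hzy
    exact hcs z (mem_cent.mpr fun g hg => (hzy _ (hmem g hg)).symm)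
  obtain ⟨d, k, ψ, e, P, hfr⟩ := exists_frameData hZ
  -- `d = 1`
  have hd : d = 1 := by
    by_contra hd
    have hd2 : 1 < d := by
      have := hfr.hd
      omega
    let a : Matrix (Fin d) (Fin d) F := Matrix.single ⟨0, hfr.hd⟩ ⟨1, hd2⟩ 1
    obtain ⟨c, hc⟩ := hcs (outer e P a) (mem_cent.mpr fun g hg => (hfr.outer_comm a (hmem g hg)).symm)
    have h1 : outer e P a = outer e P (c • 1) := by
      rw [map_smul, map_one, hc]
    have h2 := outer_injective hfr.hk e P h1
    have h3 := congrFun (congrFun h2 ⟨0, hfr.hd⟩) ⟨1, hd2⟩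
    simp [a, Fin.ext_iff] at h3
  subst hd
  rw [← hAspan, eq_top_iff]
  intro M _
  rw [Subalgebra.mem_toSubmodule]
  have hPP : (P : Matrix ι ι F) * ((P⁻¹ : GL ι F) : Matrix ι ι F) = 1 := by
    rw [← Units.val_mul, mul_inv_cancel, Units.val_one]
  have hPP' : ((P⁻¹ : GL ι F) : Matrix ι ι F) * (P : Matrix ι ι F) = 1 := by
    rw [← Units.val_mul, inv_mul_cancel, Units.val_one]
  set N : Matrix ι ι F := ((P⁻¹ : GL ι F) : Matrix ι ι F) * M * (P : Matrix ι ι F) with hN
  let m : Matrix (Fin k) (Fin k) F := fun a b => N (e.symm (0, a)) (e.symm (0, b))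
  have hm : ((1 : Matrix (Fin 1) (Fin 1) F) ⊗ₖ m).submatrix e e = N := by
    ext i j
    have hi : e.symm (0, (e i).2) = i := by
      have : ((0 : Fin 1), (e i).2) = e i := Prod.ext (Subsingleton.elim _ _) rfl
      rw [this, Equiv.symm_apply_apply]
    have hj : e.symm (0, (e j).2) = j := by
      have : ((0 : Fin 1), (e j).2) = e j := Prod.ext (Subsingleton.elim _ _) rfl
      rw [this, Equiv.symm_apply_apply]
    have h1 : (1 : Matrix (Fin 1) (Fin 1) F) (e i).1 (e j).1 = 1 := by
      rw [Subsingleton.elim (e i).1 (e j).1, Matrix.one_apply_eq]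
    rw [Matrix.submatrix_apply, Matrix.kroneckerMap_apply, h1, one_mul]
    change N (e.symm (0, (e i).2)) (e.symm (0, (e j).2)) = N i j
    rw [hi, hj]
  have h1 := hfr.frame m
  rw [hm, hN] at h1
  have h2 : ψ m = M := by
    calc ψ m = ψ m * ((P : Matrix ι ι F) * ((P⁻¹ : GL ι F) : Matrix ι ι F)) := by rw [hPP, mul_one]
      _ = (ψ m * (P : Matrix ι ι F)) * ((P⁻¹ : GL ι F) : Matrix ι ι F) := by rw [mul_assoc]
      _ = ((P : Matrix ι ι F) * ((P⁻¹ : GL ι F) : Matrix ι ι F)) * M *
            ((P : Matrix ι ι F) * ((P⁻¹ : GL ι F) : Matrix ι ι F)) := by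
          rw [h1]; simp only [mul_assoc]
      _ = M := by rw [hPP, one_mul, mul_one]
  rw [← h2]
  exact (hfr.mem_iff _).mpr ⟨m, rfl⟩

/-- The commutator character. -/
noncomputable def chr (i₀ : ι) {A : Subgroup (GL ι F)} (x : GL ι F)
    (h : ∀ y ∈ A, y * x * y⁻¹ * x⁻¹ ∈ scalars ι F) : A →* F where
  toFun y := (((y : GL ι F) * x * (y : GL ι F)⁻¹ * x⁻¹ : GL ι F) : Matrix ι ι F) i₀ i₀
  map_one' := by simp
  map_mul' a b := by
    obtain ⟨c, hc⟩ := (mem_scalars_iff' _).mp (h _ a.2)
    obtain ⟨d, hd⟩ := (mem_scalars_iff' _).mp (h _ b.2)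
    have hb := h _ b.2
    have key : ((a * b : A) : GL ι F) * x * ((a * b : A) : GL ι F)⁻¹ * x⁻¹ =
        ((a : GL ι F) * x * (a : GL ι F)⁻¹ * x⁻¹) * ((b : GL ι F) * x * (b : GL ι F)⁻¹ * x⁻¹) := by
      have h1 : ((a * b : A) : GL ι F) * x * ((a * b : A) : GL ι F)⁻¹ * x⁻¹ =
          (a : GL ι F) * ((b : GL ι F) * x * (b : GL ι F)⁻¹ * x⁻¹) * x * (a : GL ι F)⁻¹ * x⁻¹ := by
        simp only [Subgroup.coe_mul]
        group
      rw [h1, ← scalar_comm hb (a : GL ι F)]
      have h3 := scalar_comm hb ((a : GL ι F) * x * (a : GL ι F)⁻¹ * x⁻¹)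
      calc _ = ((b : GL ι F) * x * (b : GL ι F)⁻¹ * x⁻¹) * ((a : GL ι F) * x * (a : GL ι F)⁻¹ * x⁻¹) := by group
        _ = _ := h3
    rw [key, Units.val_mul, hc, hd]
    simp [Matrix.mul_apply, Matrix.one_apply]

theorem coe_eq_chr_smul (i₀ : ι) {A : Subgroup (GL ι F)} (x : GL ι F)
    (h : ∀ y ∈ A, y * x * y⁻¹ * x⁻¹ ∈ scalars ι F) (y : A) :
    (((y : GL ι F) * x * (y : GL ι F)⁻¹ * x⁻¹ : GL ι F) : Matrix ι ι F) = chr i₀ x h y • (1 : Matrix ι ι F) := by
  obtain ⟨c, hc⟩ := (mem_scalars_iff' _).mp (h _ y.2)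
  have h1 : chr i₀ x h y = c := by
    change (((y : GL ι F) * x * (y : GL ι F)⁻¹ * x⁻¹ : GL ι F) : Matrix ι ι F) i₀ i₀ = c
    rw [hc]
    simp
  rw [h1, hc]

/-- The conjugate `y x y⁻¹` is a multiple of `x`. -/
theorem conj_eq_chr_smul (i₀ : ι) {A : Subgroup (GL ι F)} (x : GL ι F)
    (h : ∀ y ∈ A, y * x * y⁻¹ * x⁻¹ ∈ scalars ι F) (y : A) :
    Basic.conj (y : GL ι F) (x : Matrix ι ι F) = chr i₀ x h y • (x : Matrix ι ι F) := by
  have h1 := coe_eq_chr_smul i₀ x h y
  have h2 : ((y : GL ι F) * x * (y : GL ι F)⁻¹ : GL ι F) =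
      ((y : GL ι F) * x * (y : GL ι F)⁻¹ * x⁻¹) * x := by group
  rw [conj_coe, h2, Units.val_mul, h1, Matrix.smul_mul, one_mul]

section Data

variable [Fintype F] [Nonempty ι] {G R : Subgroup (GL ι F)} {r s : ℕ}

theorem SympData.mem_center_iff (D : SympData G R r s) (x : R) :
    x ∈ Subgroup.center R ↔ (x : GL ι F) ∈ scalars ι F := by
  rw [Subgroup.mem_center_iff]
  constructor
  · intro h
    refine (mem_scalars_iff' _).mpr (D.cs _ (coe_mem_cent_iff.mpr fun g hg => ?_))
    exact congrArg Subtype.val (h ⟨g, hg⟩)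
  · intro h g
    exact Subtype.ext (scalar_comm h _).symm

/-- A non-scalar element has a conjugate which is a nontrivial multiple. -/
theorem SympData.exists_noncomm (D : SympData G R r s) {x : GL ι F} (hx : x ∈ R) (hxZ : x ∉ scalars ι F) :
    ∃ y ∈ R, ∃ u : Fˣ, u ≠ 1 ∧ y * x * y⁻¹ * x⁻¹ = scal ι F u := by
  by_contra hcon
  push Not at hcon
  apply hxZ
  refine (mem_scalars_iff' _).mpr (D.cs _ (coe_mem_cent_iff.mpr fun g hg => ?_))
  obtain ⟨u, hu⟩ := D.comm g hg x hx
  have hu' : scal ι F u = g * x * g⁻¹ * x⁻¹ := hu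
  have hu1 : u = 1 := by
    by_contra hne
    exact hcon g hg u hne hu'.symm
  rw [hu1, map_one] at hu'
  have h5 : g * x * g⁻¹ * x⁻¹ * x * g = g * x := by group
  rw [← hu'] at h5
  simpa using h5.symm

/-- Traces vanish off the scalars. -/
theorem SympData.trace_eq_zero (D : SympData G R r s) {x : GL ι F} (hx : x ∈ R) (hxZ : x ∉ scalars ι F) :
    Matrix.trace (x : Matrix ι ι F) = 0 := by
  obtain ⟨y, _, u, hu, h⟩ := SympData.exists_noncomm D hx hxZ
  have h1 : y * x * y⁻¹ = scal ι F u * x := by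
    rw [← h]
    group
  have h2 : Matrix.trace ((y * x * y⁻¹ : GL ι F) : Matrix ι ι F) = Matrix.trace (x : Matrix ι ι F) := by
    rw [Units.val_mul, Units.val_mul, Matrix.trace_mul_comm, ← mul_assoc, ← Units.val_mul, inv_mul_cancel,
      Units.val_one, one_mul]
  rw [h1, Units.val_mul, coe_scal, Matrix.smul_mul, one_mul, Matrix.trace_smul, smul_eq_mul] at h2
  have h3 : ((u : F) - 1) * Matrix.trace (x : Matrix ι ι F) = 0 := by
    rw [sub_mul, h2, one_mul, sub_self]
  rcases mul_eq_zero.mp h3 with h4 | h4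
  · exact absurd (Units.ext (sub_eq_zero.mp h4)) hu
  · exact h4

theorem comm_of_commutator_eq {y a b : GL ι F} (h : y * a * y⁻¹ * a⁻¹ = y * b * y⁻¹ * b⁻¹) :
    y * (a⁻¹ * b) = (a⁻¹ * b) * y := by
  have h1 : a * y⁻¹ * a⁻¹ = b * y⁻¹ * b⁻¹ := by
    have := congrArg (fun w => y⁻¹ * w) h
    simpa [mul_assoc] using this
  have h2 : y⁻¹ * (a⁻¹ * b) = (a⁻¹ * b) * y⁻¹ := by
    have := congrArg (fun w => a⁻¹ * w * b) h1
    simpa [mul_assoc] using this
  calc y * (a⁻¹ * b) = y * ((a⁻¹ * b) * y⁻¹) * y := by group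
    _ = y * (y⁻¹ * (a⁻¹ * b)) * y := by rw [h2]
    _ = _ := by group

/-- Coset representatives are linearly independent. -/
theorem SympData.linearIndependent_reps (D : SympData G R r s) {J : Type*} [Fintype J] (x : J → GL ι F)
    (hx : ∀ j, x j ∈ R) (hne : ∀ j j', j ≠ j' → (x j)⁻¹ * x j' ∉ scalars ι F) :
    LinearIndependent F (fun j => (x j : Matrix ι ι F)) := by
  classical
  obtain ⟨i₀⟩ := ‹Nonempty ι›
  have hcm : ∀ j, ∀ y ∈ R, y * x j * y⁻¹ * (x j)⁻¹ ∈ scalars ι F := fun j y hy => D.comm y hy _ (hx j)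
  refine linearIndependent_of_chars (A := R) (fun y => ((conjAlg (y : GL ι F)).toLinearMap))
    (fun j => chr i₀ (x j) (hcm j)) ?_ _ ?_ ?_
  · intro j j' h
    by_contra hjj
    apply hne j j' hjj
    refine (mem_scalars_iff' _).mpr (D.cs _ (coe_mem_cent_iff.mpr fun y hy => ?_))
    refine comm_of_commutator_eq ?_
    apply Units.ext
    have h' : chr i₀ (x j) (hcm j) = chr i₀ (x j') (hcm j') := h
    rw [coe_eq_chr_smul i₀ (x j) (hcm j) ⟨y, hy⟩, coe_eq_chr_smul i₀ (x j') (hcm j') ⟨y, hy⟩, h']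
  · intro j h
    have h1 : ((x j)⁻¹ * x j : GL ι F) = 1 := inv_mul_cancel _
    have h2 := congrArg Units.val h1
    rw [Units.val_mul, h, mul_zero, Units.val_one] at h2
    exact zero_ne_one h2
  · intro y j
    exact conj_eq_chr_smul i₀ (x j) (hcm j) y

/-- The order of `R` modulo its centre is the dimension of the matrix algebra. -/
theorem SympData.card_quot_center (D : SympData G R r s) :
    Nat.card (R ⧸ Subgroup.center R) = Fintype.card ι ^ 2 := by
  classical
  let J := R ⧸ Subgroup.center R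
  letI : Fintype J := Fintype.ofFinite J
  let x : J → GL ι F := fun j => ((Quotient.out j : R) : GL ι F)
  have hx : ∀ j, x j ∈ R := fun j => (Quotient.out j : R).2
  have hmk : ∀ j : J, (QuotientGroup.mk (Quotient.out j) : J) = j := fun j => QuotientGroup.out_eq' j
  have hne : ∀ j j', j ≠ j' → (x j)⁻¹ * x j' ∉ scalars ι F := by
    intro j j' hj h
    apply hj
    rw [← hmk j, ← hmk j']
    refine QuotientGroup.eq.mpr ?_
    rw [SympData.mem_center_iff D]
    exact h
  have hli := SympData.linearIndependent_reps D x hx hne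
  have hspan : ⊤ ≤ Submodule.span F (Set.range fun j => (x j : Matrix ι ι F)) := by
    rw [← burnside D.irr D.cs, Submodule.span_le]
    rintro _ ⟨y, hy, rfl⟩
    let j : J := QuotientGroup.mk (⟨y, hy⟩ : R)
    have h1 : (Quotient.out j : R)⁻¹ * ⟨y, hy⟩ ∈ Subgroup.center R :=
      QuotientGroup.eq.mp ((hmk j).trans rfl)
    rw [SympData.mem_center_iff D] at h1
    obtain ⟨c, hc⟩ := (mem_scalars_iff' _).mp h1
    have h2 : (y : Matrix ι ι F) = c • (x j : Matrix ι ι F) := by
      have h3 : y = x j * ((((Quotient.out j : R)⁻¹ * ⟨y, hy⟩ : R)) : GL ι F) := by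
        simp [x]
      conv_lhs => rw [h3]
      rw [Units.val_mul, hc]
      simp
    change (y : Matrix ι ι F) ∈ _
    rw [h2]
    exact Submodule.smul_mem _ _ (Submodule.subset_span ⟨j, rfl⟩)
  let b := Module.Basis.mk hli hspan
  have h1 := Module.finrank_eq_card_basis b
  rw [Module.finrank_matrix, Module.finrank_self, mul_one] at h1
  rw [Nat.card_eq_fintype_card]
  change Fintype.card J = _
  rw [← h1, sq]

theorem SympData.s_eq_pow (D : SympData G R r s) : ∃ k, s = r ^ k := by
  rcases D.prime.eq_two_or_odd' with h | h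
  · subst h
    refine ⟨2, ?_⟩
    rw [D.hs]
    decide
  · refine ⟨1, ?_⟩
    have hg : Nat.gcd 2 r = 1 := (Nat.coprime_two_left).mpr h
    rw [D.hs, hg, mul_one, pow_one]

theorem SympData.isPGroup (D : SympData G R r s) : IsPGroup r R := by
  obtain ⟨k, hk⟩ := SympData.s_eq_pow D
  intro g
  refine ⟨k, Subtype.ext ?_⟩
  rw [Subgroup.coe_pow, ← hk, D.pow_s _ g.2]
  rfl

/-- The order formula. -/
theorem SympData.exists_card (D : SympData G R r s) :
    ∃ m, Fintype.card ι = r ^ m ∧ Nat.card (R ⧸ Subgroup.center R) = r ^ (2 * m) := by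
  haveI : Fact r.Prime := ⟨D.prime⟩
  have h1 : IsPGroup r (R ⧸ Subgroup.center R) := (SympData.isPGroup D).to_quotient _
  obtain ⟨k, hk⟩ := IsPGroup.iff_card.mp h1
  have h2 := SympData.card_quot_center D
  rw [hk] at h2
  have h3 : Fintype.card ι ∣ r ^ k := by
    rw [h2]
    exact Dvd.intro_left _ (sq _).symm
  obtain ⟨m, _, hm⟩ := (Nat.dvd_prime_pow D.prime).mp h3
  refine ⟨m, hm, ?_⟩
  rw [hk, h2, hm, ← pow_mul, mul_comm]

theorem SympData.card_eq (_D : SympData G R r s) :
    Nat.card R = Nat.card (Subgroup.center R) * Nat.card (R ⧸ Subgroup.center R) := by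
  have := Subgroup.card_eq_card_quotient_mul_card_subgroup (Subgroup.center R)
  rw [this, mul_comm]

/-- `R` is not commutative. -/
theorem SympData.not_comm (D : SympData G R r s) : ¬ ∀ a ∈ R, ∀ b ∈ R, a * b = b * a := by
  intro h
  apply D.notZ
  intro x hx
  exact (mem_scalars_iff' _).mpr (D.cs _ (coe_mem_cent_iff.mpr fun g hg => h g hg x hx))

/-- The exponent. -/
theorem SympData.exponent_eq (D : SympData G R r s) : Monoid.exponent R = s := by
  have hdvd : Monoid.exponent R ∣ s := by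
    refine Monoid.exponent_dvd_of_forall_pow_eq_one fun g => Subtype.ext ?_
    rw [Subgroup.coe_pow, D.pow_s _ g.2]
    rfl
  have hne1 : Monoid.exponent R ≠ 1 := by
    intro h
    haveI := Monoid.exp_eq_one_iff.mp h
    apply D.notZ
    intro x hx
    have : (⟨x, hx⟩ : R) = 1 := Subsingleton.elim _ _
    rw [show x = 1 from congrArg Subtype.val this]
    exact one_mem _
  rcases D.prime.eq_two_or_odd' with h | h
  · subst h
    have hs4 : s = 4 := by
      rw [D.hs]
      decide
    rw [hs4] at hdvd ⊢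
    have h4 : Monoid.exponent R ∈ Nat.divisors 4 := Nat.mem_divisors.mpr ⟨hdvd, by norm_num⟩
    have h5 : Nat.divisors 4 = {1, 2, 4} := by decide
    rw [h5] at h4
    simp only [Finset.mem_insert, Finset.mem_singleton] at h4
    rcases h4 with h4 | h4 | h4
    · exact absurd h4 hne1
    · exfalso
      apply SympData.not_comm D
      intro a ha b hb
      have := mul_comm_of_exponent_two h4 (⟨a, ha⟩ : R) ⟨b, hb⟩
      simpa using congrArg Subtype.val this
    · exact h4
  · have hg : Nat.gcd 2 r = 1 := (Nat.coprime_two_left).mpr h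
    have hsr : s = r := by rw [D.hs, hg, mul_one]
    rw [hsr] at hdvd ⊢
    rcases (Nat.dvd_prime D.prime).mp hdvd with h1 | h1
    · exact absurd h1 hne1
    · exact h1

/-- Subgroups of scalars are cyclic. -/
theorem isCyclic_of_le_scalars {A : Type*} [Group A] [Finite A] (f : A →* GL ι F) (hf : Function.Injective f)
    (hA : ∀ a, f a ∈ scalars ι F) : IsCyclic A := by
  obtain ⟨i₀⟩ := ‹Nonempty ι›
  let φ : A →* F :=
    { toFun := fun a => (f a : Matrix ι ι F) i₀ i₀
      map_one' := by simp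
      map_mul' := fun a b => by
        obtain ⟨c, hc⟩ := (mem_scalars_iff' _).mp (hA a)
        obtain ⟨d, hd⟩ := (mem_scalars_iff' _).mp (hA b)
        rw [map_mul, Units.val_mul, hc, hd]
        simp [Matrix.mul_apply, Matrix.one_apply] }
  refine isCyclic_of_subgroup_isDomain φ ?_
  intro a b h
  apply hf
  obtain ⟨c, hc⟩ := (mem_scalars_iff' _).mp (hA a)
  obtain ⟨d, hd⟩ := (mem_scalars_iff' _).mp (hA b)
  have h1 : c = d := by
    have h2 : (f a : Matrix ι ι F) i₀ i₀ = (f b : Matrix ι ι F) i₀ i₀ := h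
    rw [hc, hd] at h2
    simpa using h2
  apply Units.ext
  rw [hc, hd, h1]

/-- **Symplectic type**. -/
theorem SympData.isSymplecticTypeGroup (D : SympData G R r s) (hD : Dich G) :
    IsSymplecticTypeGroup r R where
  prime := D.prime
  pGroup := SympData.isPGroup D
  exponent_eq := by
    rw [SympData.exponent_eq D, D.hs]
  cyclic_of_characteristic := by
    intro A hA hcomm
    let A' : Subgroup (GL ι F) := A.map R.subtype
    have hA'n : Normalizes G A' := by
      rintro g hg _ ⟨x, hx, rfl⟩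
      -- conjugation by `g` is an automorphism of `R`
      let φ : R ≃* R :=
        { toFun := fun y => ⟨g * y * g⁻¹, D.norm g hg y y.2⟩
          invFun := fun y => ⟨g⁻¹ * y * g, by
            have := D.norm g⁻¹ (inv_mem hg) y y.2
            simpa using this⟩
          left_inv := fun y => Subtype.ext (by simp [mul_assoc])
          right_inv := fun y => Subtype.ext (by simp [mul_assoc])
          map_mul' := fun a b => Subtype.ext (by simp [mul_assoc]) }
      have h1 : φ x ∈ A := by
        have h2 := (Subgroup.characteristic_iff_map_eq.mp hA) φ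
        rw [← h2]
        exact ⟨x, hx, rfl⟩
      exact ⟨φ x, h1, rfl⟩
    have hA'Z : A' ≤ scalars ι F := by
      have hA'G : A' ≤ G := by
        rintro _ ⟨x, _, rfl⟩
        exact D.le x.2
      rcases hD A' hA'G hA'n with h | h
      · exact h
      · intro x hx
        refine (mem_scalars_iff' _).mpr (h.2 _ (coe_mem_cent_iff.mpr fun y hy => ?_))
        obtain ⟨y', hy', rfl⟩ := hy
        obtain ⟨x', hx', rfl⟩ := hx
        have := hcomm.is_comm.comm (⟨y', hy'⟩ : A) ⟨x', hx'⟩
        simpa using congrArg (fun w : A => ((w : R) : GL ι F)) this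
    refine isCyclic_of_le_scalars (R.subtype.comp A.subtype) ?_ ?_
    · exact R.subtype_injective.comp A.subtype_injective
    · intro a
      exact hA'Z ⟨a, a.2, rfl⟩

/-- The centre is the group of `s`-th roots of unity. -/
theorem SympData.card_center (D : SympData G R r s) (hscal : ∀ x ∈ scalars ι F, x ^ s = 1 → x ∈ R) :
    Nat.card (Subgroup.center R) = (Nat.card Fˣ).gcd s := by
  rw [← IsCyclic.card_powMonoidHom_ker]
  refine Nat.card_congr ?_
  have hmem : ∀ u : (powMonoidHom s : Fˣ →* Fˣ).ker, scal ι F (u : Fˣ) ∈ R := by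
    intro u
    refine hscal _ (SympType.scal_mem _) ?_
    have h1 : (u : Fˣ) ^ s = 1 := u.2
    rw [← map_pow, h1, map_one]
  let f : (powMonoidHom s : Fˣ →* Fˣ).ker → Subgroup.center R := fun u =>
    ⟨⟨scal ι F (u : Fˣ), hmem u⟩, (SympData.mem_center_iff D _).mpr (SympType.scal_mem _)⟩
  refine (Equiv.ofBijective f ⟨?_, ?_⟩).symm
  · intro u v h
    have h1 : scal ι F (u : Fˣ) = scal ι F (v : Fˣ) := congrArg (fun w : Subgroup.center R => ((w : R) : GL ι F)) h
    exact Subtype.ext (scal_injective h1)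
  · rintro ⟨⟨x, hx⟩, hxc⟩
    obtain ⟨u, hu⟩ := (SympData.mem_center_iff D _).mp hxc
    have hu' : scal ι F u = x := hu
    have hu1 : u ^ s = 1 := by
      apply scal_injective (ι := ι)
      rw [map_pow, hu', D.pow_s x hx, map_one]
    refine ⟨⟨u, hu1⟩, Subtype.ext (Subtype.ext hu')⟩

/-- The prime divides `q - 1`. -/
theorem SympData.dvd_card_units (D : SympData G R r s) : r ∣ Nat.card Fˣ := by
  obtain ⟨x, hx, hxZ⟩ := Set.not_subset.mp D.notZ
  obtain ⟨y, hy, u, hu, h⟩ := SympData.exists_noncomm D hx hxZ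
  have h1 : u ^ r = 1 := by
    apply scal_injective (ι := ι)
    rw [map_pow, ← h, D.comm_pow y hy x hx, map_one]
  haveI : Fact r.Prime := ⟨D.prime⟩
  have h2 : orderOf u = r := orderOf_eq_prime h1 hu
  rw [← h2]
  exact orderOf_dvd_natCard u

end Data

end Cfsg.Agent.Lib.Classical.Asch.SympStruct
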