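import Mathlib
import Cfsg.Agent.Lib.Classical.Asch.SympStruct

/-!
# Aschbacher's theorem: monomial form of absolutely irreducible groups, abelian modulo scalars

If `R` is absolutely irreducible, abelian modulo scalars, of exponent dividing `s`, with `s ∣ q - 1`, then in a suitable basis all
its elements are monomial with entries `s`-th roots of unity.
-/

set_option autoImplicit false
set_option linter.style.haveILetI false
set_option linter.unusedSectionVars false

namespace Cfsg.Agent.Lib.Classical.Asch.Monomial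

open scoped MatrixGroups Matrix
open Polynomial
open Cfsg.Geo Cfsg.Agent.Lib.Classical.Asch.Basic
open Cfsg.Agent.Lib.Classical.Asch.MinNormal Cfsg.Agent.Lib.Classical.Asch.SympType
open Cfsg.Agent.Lib.Classical.Asch.SympStruct

variable {ι : Type} [Fintype ι] [DecidableEq ι] {F : Type*} [Field F]

theorem prod_X_sub_C_eq [Fintype F] : (∏ a : F, (X - C a) : F[X]) = X ^ Fintype.card F - X := by
  classical
  have hq : 1 < Fintype.card F := Fintype.one_lt_card
  have hm : (X ^ Fintype.card F - X : F[X]).Monic := by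
    obtain ⟨n, hn⟩ : ∃ n, Fintype.card F = n + 1 := ⟨Fintype.card F - 1, by omega⟩
    rw [hn]
    refine monic_X_pow_sub ?_
    rw [degree_X]
    have : 1 < n + 1 := by omega
    exact_mod_cast this
  have hr := FiniteField.roots_X_pow_card_sub_X F
  have hc : Multiset.card (X ^ Fintype.card F - X : F[X]).roots = (X ^ Fintype.card F - X : F[X]).natDegree := by
    rw [FiniteField.X_pow_card_sub_X_natDegree_eq F hq, hr]
    rfl
  have h := prod_multiset_X_sub_C_of_monic_of_roots_card_eq hm hc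
  rw [hr] at h
  exact h

theorem aeval_mulVec_mem (y : Matrix ι ι F) {W : Submodule F (ι → F)} (hW : ∀ w ∈ W, y *ᵥ w ∈ W) (p : F[X]) :
    ∀ w ∈ W, (aeval y p) *ᵥ w ∈ W := by
  induction p using Polynomial.induction_on with
  | C a =>
    intro w hw
    rw [aeval_C, Algebra.algebraMap_eq_smul_one, Matrix.smul_mulVec, Matrix.one_mulVec]
    exact W.smul_mem a hw
  | add p q hp hq =>
    intro w hw
    rw [map_add, Matrix.add_mulVec]
    exact W.add_mem (hp w hw) (hq w hw)
  | monomial n a ih =>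
    intro w hw
    rw [pow_succ, ← mul_assoc, map_mul, aeval_X, ← Matrix.mulVec_mulVec]
    exact ih _ (hW w hw)

theorem exists_eigen_aux (y : Matrix ι ι F) {W : Submodule F (ι → F)} (hW : ∀ w ∈ W, y *ᵥ w ∈ W) (T : Finset F) :
    ∀ w ∈ W, w ≠ 0 → (aeval y (∏ a ∈ T, (X - C a) : F[X])) *ᵥ w = 0 →
      ∃ w' ∈ W, w' ≠ 0 ∧ ∃ c : F, y *ᵥ w' = c • w' := by
  classical
  induction T using Finset.induction_on with
  | empty =>
    intro w _ hw0 h
    simp at h
    exact absurd h hw0
  | insert a T hTa ih =>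
    intro w hw hw0 h
    rw [Finset.prod_insert hTa, map_mul, ← Matrix.mulVec_mulVec] at h
    set w₁ := (aeval y (∏ a ∈ T, (X - C a) : F[X])) *ᵥ w with hw₁
    by_cases h0 : w₁ = 0
    · exact ih w hw hw0 h0
    · refine ⟨w₁, aeval_mulVec_mem y hW _ w hw, h0, a, ?_⟩
      rw [map_sub, aeval_X, aeval_C, Matrix.sub_mulVec, Algebra.algebraMap_eq_smul_one, Matrix.smul_mulVec,
        Matrix.one_mulVec] at h
      exact sub_eq_zero.mp h

/-- An operator satisfying `y ^ q = y` has an eigenvector in every nonzero invariant subspace. -/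
theorem exists_eigenvector [Fintype F] (y : Matrix ι ι F) (hy : y ^ Fintype.card F = y) {W : Submodule F (ι → F)}
    (hW : ∀ w ∈ W, y *ᵥ w ∈ W) {w : ι → F} (hw : w ∈ W) (hw0 : w ≠ 0) :
    ∃ w' ∈ W, w' ≠ 0 ∧ ∃ c : F, y *ᵥ w' = c • w' := by
  refine exists_eigen_aux y hW Finset.univ w hw hw0 ?_
  rw [prod_X_sub_C_eq, map_sub, map_pow, aeval_X, hy, sub_self, Matrix.zero_mulVec]

/-- The stabiliser of a line. -/
def St (R : Subgroup (GL ι F)) (v : ι → F) : Subgroup (GL ι F) where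
  carrier := {x | x ∈ R ∧ ∃ c : F, (x : Matrix ι ι F) *ᵥ v = c • v}
  mul_mem' {a b} ha hb := by
    obtain ⟨ha, c, hc⟩ := ha
    obtain ⟨hb, d, hd⟩ := hb
    refine ⟨mul_mem ha hb, c * d, ?_⟩
    rw [Units.val_mul, ← Matrix.mulVec_mulVec, hd, Matrix.mulVec_smul, hc, smul_smul, mul_comm]
  one_mem' := ⟨one_mem R, 1, by simp⟩
  inv_mem' {a} ha := by
    obtain ⟨ha, c, hc⟩ := ha
    refine ⟨inv_mem ha, c⁻¹, ?_⟩
    by_cases hv : v = 0
    · simp [hv]
    · have hc0 : c ≠ 0 := by
        rintro rfl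
        rw [zero_smul] at hc
        apply hv
        have := inv_mulVec_mulVec a v
        rw [hc, Matrix.mulVec_zero] at this
        exact this.symm
      have h1 := inv_mulVec_mulVec a v
      rw [hc, Matrix.mulVec_smul] at h1
      have h2 : c⁻¹ • (c • ((a⁻¹ : GL ι F) : Matrix ι ι F) *ᵥ v) = c⁻¹ • v := by rw [h1]
      rwa [smul_smul, inv_mul_cancel₀ hc0, one_smul] at h2

theorem mem_St {R : Subgroup (GL ι F)} {v : ι → F} {x : GL ι F} :
    x ∈ St R v ↔ x ∈ R ∧ ∃ c : F, (x : Matrix ι ι F) *ᵥ v = c • v := Iff.rfl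

theorem mulVec_ne_zero (g : GL ι F) {v : ι → F} (hv : v ≠ 0) : (g : Matrix ι ι F) *ᵥ v ≠ 0 := by
  intro h
  apply hv
  have := inv_mulVec_mulVec g v
  rw [h, Matrix.mulVec_zero] at this
  exact this.symm

/-- **Monomial form**. -/
theorem exists_monomial [Fintype F] [Nonempty ι] {R : Subgroup (GL ι F)}
    (hirr : ∀ W : Submodule F (ι → F), Inv R W → W = ⊥ ∨ W = ⊤)
    (hcomm : ∀ x ∈ R, ∀ y ∈ R, x * y * x⁻¹ * y⁻¹ ∈ scalars ι F) {s : ℕ} (hpow : ∀ x ∈ R, x ^ s = 1)
    (hsq : s ∣ Fintype.card F - 1) :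
    ∃ B : GL ι F, ∀ x ∈ R, ∀ i j,
      ((B : Matrix ι ι F) * (x : Matrix ι ι F) * ((B⁻¹ : GL ι F) : Matrix ι ι F)) i j = 0 ∨
      (((B : Matrix ι ι F) * (x : Matrix ι ι F) * ((B⁻¹ : GL ι F) : Matrix ι ι F)) i j) ^ s = 1 := by
  classical
  obtain ⟨i₀⟩ := ‹Nonempty ι›
  have hq1 : 1 ≤ Fintype.card F := Fintype.card_pos
  have hpowq : ∀ x ∈ R, (x : Matrix ι ι F) ^ Fintype.card F = x := by
    intro x hx
    obtain ⟨k, hk⟩ := hsq
    have h1 : x ^ Fintype.card F = x := by
      have h2 : Fintype.card F = s * k + 1 := by omega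
      rw [h2, pow_succ, pow_mul, hpow x hx, one_pow, one_mul]
    have h3 := congrArg Units.val h1
    rwa [Units.val_pow_eq_pow_val] at h3
  -- a vector with maximal line stabiliser
  let T : Finset (ι → F) := Finset.univ.filter (fun v => v ≠ 0)
  have hT : T.Nonempty := by
    refine ⟨Pi.single i₀ 1, ?_⟩
    simp [T]
  obtain ⟨v₀, hv₀T, hv₀max⟩ := Finset.exists_max_image T (fun v => Nat.card (St R v)) hT
  have hv₀ : v₀ ≠ 0 := (Finset.mem_filter.mp hv₀T).2
  set Bb := St R v₀ with hBb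
  have hBmax : ∀ v : ι → F, v ≠ 0 → Bb ≤ St R v → Bb = St R v := by
    intro v hv hle
    refine Subgroup.eq_of_le_of_card_ge hle ?_
    exact hv₀max v (Finset.mem_filter.mpr ⟨Finset.mem_univ _, hv⟩)
  have hBR : Bb ≤ R := fun x hx => hx.1
  -- the character on the line
  have hchi : ∀ b : Bb, ∃ c : F, ((b : GL ι F) : Matrix ι ι F) *ᵥ v₀ = c • v₀ := fun b => b.2.2
  choose χ₀ hχ₀ using hchi
  have hχ₀uniq : ∀ {b : Bb} {c : F}, ((b : GL ι F) : Matrix ι ι F) *ᵥ v₀ = c • v₀ → χ₀ b = c := by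
    intro b c h
    have h1 : χ₀ b • v₀ = c • v₀ := by rw [← hχ₀ b, h]
    exact smul_left_injective F hv₀ h1
  let χ : Bb →* F :=
    { toFun := χ₀
      map_one' := by
        apply hχ₀uniq
        simp
      map_mul' := fun a b => by
        apply hχ₀uniq
        rw [Subgroup.coe_mul, Units.val_mul, ← Matrix.mulVec_mulVec, hχ₀ b, Matrix.mulVec_smul, hχ₀ a, smul_smul,
          mul_comm] }
  have hχ : ∀ b : Bb, ((b : GL ι F) : Matrix ι ι F) *ᵥ v₀ = χ b • v₀ := hχ₀
  have hχne : ∀ b : Bb, χ b ≠ 0 := by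
    intro b h
    have h1 := hχ b
    rw [h, zero_smul] at h1
    exact mulVec_ne_zero (b : GL ι F) hv₀ h1
  have hχs : ∀ b : Bb, χ b ^ s = 1 := by
    intro b
    rw [← map_pow]
    have : b ^ s = 1 := Subtype.ext (by rw [Subgroup.coe_pow]; exact hpow _ (hBR b.2))
    rw [this, map_one]
  -- elements commuting with the stabiliser lie in it
  have hself : ∀ w ∈ R, (∀ b ∈ Bb, b * (w : GL ι F) = w * b) → w ∈ Bb := by
    intro w hw hwb
    let W : Submodule F (ι → F) :=
      { carrier := {u | ∀ b : Bb, ((b : GL ι F) : Matrix ι ι F) *ᵥ u = χ b • u}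
        add_mem' := fun {a c} ha hc b => by
          rw [Matrix.mulVec_add, ha b, hc b, smul_add]
        zero_mem' := fun b => by simp
        smul_mem' := fun c u hu b => by
          rw [Matrix.mulVec_smul, hu b, smul_comm] }
    have hWinv : ∀ u ∈ W, (w : Matrix ι ι F) *ᵥ u ∈ W := by
      intro u hu b
      have h1 := congrArg Units.val (hwb b b.2)
      rw [Units.val_mul, Units.val_mul] at h1
      rw [Matrix.mulVec_mulVec, h1, ← Matrix.mulVec_mulVec, hu b, Matrix.mulVec_smul]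
    obtain ⟨u, huW, hu0, c, hc⟩ := exists_eigenvector (w : Matrix ι ι F) (hpowq w hw) hWinv (w := v₀) hχ hv₀
    have hle : Bb ≤ St R u := fun b hb => ⟨hBR hb, χ ⟨b, hb⟩, huW ⟨b, hb⟩⟩
    rw [hBmax u hu0 hle]
    exact ⟨hw, c, hc⟩
  -- the characters of the translates
  have hcm : ∀ x ∈ R, ∀ y ∈ Bb, y * x * y⁻¹ * x⁻¹ ∈ scalars ι F := fun x hx y hy => hcomm y (hBR hy) x hx
  have hact : ∀ (x : GL ι F) (hx : x ∈ R) (b : Bb), ((b : GL ι F) : Matrix ι ι F) *ᵥ ((x : Matrix ι ι F) *ᵥ v₀) =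
      (chr i₀ x (hcm x hx) * χ) b • ((x : Matrix ι ι F) *ᵥ v₀) := by
    intro x hx b
    have h1 := conj_eq_chr_smul i₀ x (hcm x hx) b
    have h2 : ((b : GL ι F) : Matrix ι ι F) * (x : Matrix ι ι F) =
        Basic.conj (b : GL ι F) (x : Matrix ι ι F) * ((b : GL ι F) : Matrix ι ι F) := by
      have hbb : (((b : GL ι F)⁻¹ : GL ι F) : Matrix ι ι F) * ((b : GL ι F) : Matrix ι ι F) = 1 := by
        rw [← Units.val_mul, inv_mul_cancel, Units.val_one]
      unfold Basic.conj
      rw [mul_assoc _ _ ((b : GL ι F) : Matrix ι ι F), hbb, mul_one]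
    rw [Matrix.mulVec_mulVec, h2, h1, Matrix.smul_mul, Matrix.smul_mulVec, ← Matrix.mulVec_mulVec, hχ b,
      Matrix.mulVec_smul, smul_smul, MonoidHom.mul_apply]
  have hcharinj : ∀ (x x' : GL ι F) (hx : x ∈ R) (hx' : x' ∈ R),
      chr i₀ x (hcm x hx) * χ = chr i₀ x' (hcm x' hx') * χ → x⁻¹ * x' ∈ Bb := by
    intro x x' hx hx' h
    refine hself _ (mul_mem (inv_mem hx) hx') fun b hb => ?_
    refine comm_of_commutator_eq ?_
    apply Units.ext
    have h1 : chr i₀ x (hcm x hx) ⟨b, hb⟩ = chr i₀ x' (hcm x' hx') ⟨b, hb⟩ := by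
      have h2 := DFunLike.congr_fun h ⟨b, hb⟩
      rw [MonoidHom.mul_apply, MonoidHom.mul_apply] at h2
      exact mul_right_cancel₀ (hχne _) h2
    rw [coe_eq_chr_smul i₀ x (hcm x hx) ⟨b, hb⟩, coe_eq_chr_smul i₀ x' (hcm x' hx') ⟨b, hb⟩, h1]
  -- the translates
  let J := R ⧸ Bb.subgroupOf R
  letI : Fintype J := Fintype.ofFinite J
  let xs : J → GL ι F := fun j => ((Quotient.out j : R) : GL ι F)
  have hxs : ∀ j, xs j ∈ R := fun j => (Quotient.out j : R).2
  have hmk : ∀ j : J, (QuotientGroup.mk (Quotient.out j) : J) = j := fun j => QuotientGroup.out_eq' j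
  let u : J → (ι → F) := fun j => (xs j : Matrix ι ι F) *ᵥ v₀
  have hu0 : ∀ j, u j ≠ 0 := fun j => mulVec_ne_zero _ hv₀
  have hli : LinearIndependent F u := by
    refine linearIndependent_of_chars (A := Bb)
      (fun b => Matrix.mulVecLin ((b : GL ι F) : Matrix ι ι F))
      (fun j => chr i₀ (xs j) (hcm _ (hxs j)) * χ) ?_ u hu0 ?_
    · intro j j' h
      have h1 := hcharinj _ _ (hxs j) (hxs j') h
      rw [← hmk j, ← hmk j']
      refine QuotientGroup.eq.mpr ?_
      rw [Subgroup.mem_subgroupOf]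
      exact h1
    · intro b j
      exact hact (xs j) (hxs j) b
  -- the action on the translates
  have hmove : ∀ (y : GL ι F) (hy : y ∈ R) (j : J), ∃ (j' : J) (c : F), c ^ s = 1 ∧
      (y : Matrix ι ι F) *ᵥ u j = c • u j' := by
    intro y hy j
    let j' : J := QuotientGroup.mk (⟨y, hy⟩ * Quotient.out j)
    have h1 : (Quotient.out j' : R)⁻¹ * (⟨y, hy⟩ * Quotient.out j) ∈ Bb.subgroupOf R :=
      QuotientGroup.eq.mp ((hmk j').trans rfl)
    rw [Subgroup.mem_subgroupOf] at h1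
    set b : Bb := ⟨_, h1⟩ with hb
    refine ⟨j', χ b, hχs b, ?_⟩
    have h2 : y * xs j = xs j' * (b : GL ι F) := by
      simp [hb, xs]
    have h3 := congrArg Units.val h2
    rw [Units.val_mul, Units.val_mul] at h3
    change (y : Matrix ι ι F) *ᵥ ((xs j : Matrix ι ι F) *ᵥ v₀) = χ b • ((xs j' : Matrix ι ι F) *ᵥ v₀)
    rw [Matrix.mulVec_mulVec, h3, ← Matrix.mulVec_mulVec, hχ b, Matrix.mulVec_smul]
  -- they span
  have hspan : ⊤ ≤ Submodule.span F (Set.range u) := by
    let W₁ := Submodule.span F (Set.range u)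
    have hinv : Inv R W₁ := by
      intro y hy w hw
      induction hw using Submodule.span_induction with
      | mem w hw =>
        obtain ⟨j, rfl⟩ := hw
        obtain ⟨j', c, _, hc⟩ := hmove y hy j
        rw [hc]
        exact W₁.smul_mem c (Submodule.subset_span ⟨j', rfl⟩)
      | zero => simp
      | add a b _ _ ha hb =>
        rw [Matrix.mulVec_add]
        exact W₁.add_mem ha hb
      | smul c a _ ha =>
        rw [Matrix.mulVec_smul]
        exact W₁.smul_mem c ha
    rcases hirr W₁ hinv with h | h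
    · exfalso
      have h1 : u (QuotientGroup.mk 1) ∈ W₁ := Submodule.subset_span ⟨_, rfl⟩
      rw [h, Submodule.mem_bot] at h1
      exact hu0 _ h1
    · exact h.ge
  let bs := Module.Basis.mk hli hspan
  have hcard : Fintype.card ι = Fintype.card J := by
    have h1 := Module.finrank_eq_card_basis bs
    rwa [Module.finrank_fintype_fun_eq_card] at h1
  let eJ : ι ≃ J := Fintype.equivOfCardEq hcard
  -- the change of basis
  let P : Matrix ι ι F := Matrix.of fun i k => u (eJ k) i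
  have hPcol : ∀ k, P *ᵥ Pi.single k 1 = u (eJ k) := by
    intro k
    rw [Matrix.mulVec_single_one]
    rfl
  have hPunit : IsUnit P := by
    rw [← Matrix.linearIndependent_cols_iff_isUnit]
    have : P.col = u ∘ eJ := rfl
    rw [this]
    exact hli.comp _ eJ.injective
  obtain ⟨PG, hPG⟩ := hPunit
  have hPG' : (PG : Matrix ι ι F) = P := hPG
  refine ⟨PG⁻¹, fun x hx i k => ?_⟩
  rw [inv_inv]
  obtain ⟨j', c, hcs', hc⟩ := hmove x hx (eJ k)
  have h1 : (((PG⁻¹ : GL ι F) : Matrix ι ι F) * (x : Matrix ι ι F) * (PG : Matrix ι ι F)) *ᵥ Pi.single k 1 =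
      c • (Pi.single (eJ.symm j') 1 : ι → F) := by
    have h2 : u j' = P *ᵥ Pi.single (eJ.symm j') 1 := by
      rw [hPcol, Equiv.apply_symm_apply]
    rw [← Matrix.mulVec_mulVec, ← Matrix.mulVec_mulVec, hPG', hPcol, hc, h2, Matrix.mulVec_smul, ← hPG',
      inv_mulVec_mulVec]
  have h3 : ((((PG⁻¹ : GL ι F) : Matrix ι ι F) * (x : Matrix ι ι F) * (PG : Matrix ι ι F))) i k =
      (c • (Pi.single (eJ.symm j') 1 : ι → F)) i := by
    rw [← h1, Matrix.mulVec_single_one]
    rfl
  rw [h3]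
  by_cases hij : i = eJ.symm j'
  · right
    subst hij
    simp [hcs']
  · left
    simp [hij]

end Cfsg.Agent.Lib.Classical.Asch.Monomial
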