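import Mathlib
import Cfsg.Agent.Lib.Classical.Asch.Basic
import Cfsg.Agent.Lib.Classical.Asch.FieldCount

/-!
# Subfield groups

An element normalising a group with scalar centraliser realised over a subfield `F₀` lies in the subfield group of `F₀`.
-/

set_option autoImplicit false
set_option linter.style.haveILetI false
set_option linter.unusedSectionVars false

namespace Cfsg.Agent.Lib.Classical.Asch.Subfield

open scoped MatrixGroups Matrix
open Cfsg.Geo Cfsg.Agent.Lib.Classical.Asch.Basic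

variable {ι : Type} [Fintype ι] [DecidableEq ι] {F : Type*} [Field F]

/-- Cyclic groups: elements killed by `M` are `d`-th powers when `|C| = d M`. -/
theorem exists_pow_eq_of_pow_eq_one {C : Type*} [CommGroup C] [IsCyclic C] [Finite C] {d M : ℕ}
    (hN : Nat.card C = d * M) (y : C) (hy : y ^ M = 1) : ∃ z : C, z ^ d = y := by
  obtain ⟨ω, hω⟩ := IsCyclic.exists_generator (α := C)
  have hord : orderOf ω = d * M := by
    rw [← hN]
    exact orderOf_eq_card_of_forall_mem_zpowers hω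
  have hM : 0 < d * M := by
    rw [← hN]
    exact Nat.card_pos
  have hM0 : 0 < M := Nat.pos_of_mul_pos_left hM
  have hd0 : 0 < d := Nat.pos_of_mul_pos_right hM
  obtain ⟨j, hj⟩ : ∃ j : ℕ, ω ^ j = y := by
    obtain ⟨k, hk⟩ := hω y
    refine ⟨(k % (orderOf ω : ℤ)).toNat, ?_⟩
    have h0 : (0 : ℤ) ≤ k % (orderOf ω : ℤ) := Int.emod_nonneg _ (by rw [hord]; exact_mod_cast hM.ne')
    rw [← zpow_natCast, Int.toNat_of_nonneg h0, zpow_mod_orderOf]
    exact hk
  have h1 : ω ^ (j * M) = 1 := by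
    rw [pow_mul, hj, hy]
  have h2 : d * M ∣ j * M := by
    rw [← hord]
    exact orderOf_dvd_of_pow_eq_one h1
  have h3 : d ∣ j := Nat.dvd_of_mul_dvd_mul_right hM0 h2
  obtain ⟨i, rfl⟩ := h3
  exact ⟨ω ^ i, by rw [← pow_mul, mul_comm, hj]⟩

/-- The geometric sum. -/
def geom (Q k : ℕ) : ℕ := ∑ i ∈ Finset.range k, Q ^ i

theorem geom_succ (Q k : ℕ) : geom Q (k + 1) = Q * geom Q k + 1 := by
  unfold geom
  rw [Finset.sum_range_succ', Finset.mul_sum]
  simp [pow_succ']

theorem geom_mul (Q k : ℕ) (hQ : 1 ≤ Q) : (Q - 1) * geom Q k + 1 = Q ^ k := by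
  induction k with
  | zero => simp [geom]
  | succ k ih =>
    obtain ⟨Q', rfl⟩ : ∃ Q', Q = Q' + 1 := ⟨Q - 1, by omega⟩
    rw [geom_succ, pow_succ, ← ih]
    simp only [Nat.add_sub_cancel]
    ring

/-- Iterates of `a ^ Q = c a`. -/
theorem pow_pow_eq {a c : F} {Q : ℕ} (h : a ^ Q = c * a) (k : ℕ) : a ^ (Q ^ k) = c ^ geom Q k * a := by
  induction k with
  | zero => simp [geom]
  | succ k ih =>
    rw [pow_succ, pow_mul, ih, mul_pow, h, geom_succ, pow_succ (c) _, pow_mul', ← mul_assoc]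

/-- A subfield of a finite field: the order of the big field is a power of the order of the subfield. -/
theorem exists_card_eq_pow [Fintype F] (F₀ : Subfield F) : ∃ s, Fintype.card F = Nat.card F₀ ^ s := by
  classical
  haveI : Fintype F₀ := Fintype.ofFinite F₀
  refine ⟨Module.finrank F₀ F, ?_⟩
  rw [Nat.card_eq_fintype_card]
  exact Module.card_eq_pow_finrank (K := F₀) (V := F)

/-- The elements fixed by `x ↦ x ^ |F₀|` are the elements of `F₀`. -/
theorem mem_subfield_iff [Fintype F] (F₀ : Subfield F) {s : ℕ} (hs : Fintype.card F = Nat.card F₀ ^ s) (x : F) :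
    x ∈ F₀ ↔ x ^ Nat.card F₀ = x := by
  classical
  haveI : Fintype F₀ := Fintype.ofFinite F₀
  have hsub : ∀ y ∈ F₀, y ^ Nat.card F₀ = y := by
    intro y hy
    have h1 := FiniteField.pow_card (⟨y, hy⟩ : F₀)
    rw [← Nat.card_eq_fintype_card] at h1
    exact congrArg Subtype.val h1
  refine ⟨hsub x, fun hx => ?_⟩
  have hs0 : s ≠ 0 := by
    rintro rfl
    have : 1 < Fintype.card F := Fintype.one_lt_card
    rw [hs] at this
    simp at this
  have hcount := FieldCount.ncard_pow_eq_self (L := F) (m := Nat.card F₀) (by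
    rw [Nat.card_eq_fintype_card (α := F), hs]
    exact Nat.sub_one_dvd_pow_sub_one _ _)
  have hsubset : (F₀ : Set F) ⊆ {y : F | y ^ Nat.card F₀ = y} := fun y hy => hsub y hy
  have heq : (F₀ : Set F) = {y : F | y ^ Nat.card F₀ = y} := by
    apply Set.eq_of_subset_of_ncard_le hsubset _ (Set.toFinite _)
    rw [hcount, ← Nat.card_coe_set_eq]
    exact le_rfl
  have : x ∈ (F₀ : Set F) := by
    rw [heq]
    exact hx
  exact this

/-- Lemma Sub. -/
theorem mem_subfieldSubgroup_of_normalizes [Fintype F] [Nonempty ι] (F₀ : Subfield F) {s : ℕ}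
    (hs : Fintype.card F = Nat.card F₀ ^ s) {X : Subgroup (GL ι F)}
    (hX : CentScalar X) (B : GL ι F)
    (hB : ∀ x ∈ X, ∀ i j, ((B : Matrix ι ι F) * (x : Matrix ι ι F) * ((B⁻¹ : GL ι F) : Matrix ι ι F)) i j ∈ F₀)
    {g : GL ι F} (hg : ∀ x ∈ X, g * x * g⁻¹ ∈ X) :
    g ∈ subfieldSubgroup F₀ B⁻¹ := by
  classical
  haveI : Fintype F₀ := Fintype.ofFinite F₀
  set Q := Nat.card F₀ with hQdef
  have hQ1 : 1 ≤ Q := Nat.succ_le_of_lt Nat.card_pos
  let σ : F →+* F := (FiniteField.frobeniusAlgHom F₀ F).toRingHom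
  have hσ : ∀ a, σ a = a ^ Q := by
    intro a
    rw [hQdef, Nat.card_eq_fintype_card]
    rfl
  let Φ : GL ι F →* GL ι F := Matrix.GeneralLinearGroup.map σ
  have hΦ : ∀ y : GL ι F, ∀ i j, (Φ y : Matrix ι ι F) i j = ((y : Matrix ι ι F) i j) ^ Q := by
    intro y i j
    rw [← hσ]
    rfl
  have hfix : ∀ x ∈ X, Φ (B * x * B⁻¹) = B * x * B⁻¹ := by
    intro x hx
    apply Units.ext
    ext i j
    rw [hΦ]
    exact (mem_subfield_iff F₀ hs _).mp (hB x hx i j)
  set G := B * g * B⁻¹ with hG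
  -- `G⁻¹ Φ(G)` centralises
  have hD : ∀ x ∈ X, (G⁻¹ * Φ G) * (B * x * B⁻¹) = (B * x * B⁻¹) * (G⁻¹ * Φ G) := by
    intro x hx
    have h1 := hfix _ (hg x hx)
    have h2 : B * (g * x * g⁻¹) * B⁻¹ = G * (B * x * B⁻¹) * G⁻¹ := by
      rw [hG]
      group
    rw [h2, map_mul, map_mul, hfix x hx, map_inv] at h1
    have h3 : Φ G * (B * x * B⁻¹) = G * (B * x * B⁻¹) * G⁻¹ * Φ G := by
      rw [← h1]
      group
    calc (G⁻¹ * Φ G) * (B * x * B⁻¹) = G⁻¹ * (Φ G * (B * x * B⁻¹)) := by group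
      _ = (B * x * B⁻¹) * (G⁻¹ * Φ G) := by
        rw [h3]
        group
  have hcent : ((B⁻¹ * (G⁻¹ * Φ G) * B : GL ι F) : Matrix ι ι F) ∈ cent X := by
    rw [coe_mem_cent_iff]
    intro x hx
    have h1 := hD x hx
    calc x * (B⁻¹ * (G⁻¹ * Φ G) * B) = B⁻¹ * ((B * x * B⁻¹) * (G⁻¹ * Φ G)) * B := by group
      _ = B⁻¹ * ((G⁻¹ * Φ G) * (B * x * B⁻¹)) * B := by rw [h1]
      _ = (B⁻¹ * (G⁻¹ * Φ G) * B) * x := by group
  obtain ⟨c, hc⟩ := hX _ hcent
  have hD2 : ((G⁻¹ * Φ G : GL ι F) : Matrix ι ι F) = c • 1 := by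
    have h1 : G⁻¹ * Φ G = B * (B⁻¹ * (G⁻¹ * Φ G) * B) * B⁻¹ := by group
    rw [h1, Units.val_mul, Units.val_mul, hc, Matrix.mul_smul, mul_one, Matrix.smul_mul, ← Units.val_mul,
      mul_inv_cancel, Units.val_one]
  have hΦG : (Φ G : Matrix ι ι F) = c • (G : Matrix ι ι F) := by
    have h1 : Φ G = G * (G⁻¹ * Φ G) := by group
    rw [h1, Units.val_mul, hD2, Matrix.mul_smul, mul_one]
  have hentry : ∀ i j, ((G : Matrix ι ι F) i j) ^ Q = c * (G : Matrix ι ι F) i j := by
    intro i j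
    rw [← hΦ, hΦG]
    rfl
  -- `c` is non-zero of norm one
  have hc0 : c ≠ 0 := by
    rintro rfl
    rw [zero_smul] at hD2
    have h1 : ((G⁻¹ * Φ G : GL ι F) : Matrix ι ι F) * (((G⁻¹ * Φ G)⁻¹ : GL ι F) : Matrix ι ι F) = 1 := by
      rw [← Units.val_mul, mul_inv_cancel, Units.val_one]
    rw [hD2, zero_mul] at h1
    exact zero_ne_one h1
  obtain ⟨i₀, j₀, hij⟩ : ∃ i j, (G : Matrix ι ι F) i j ≠ 0 := by
    by_contra hcon
    push Not at hcon
    have h1 : (G : Matrix ι ι F) = 0 := by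
      ext i j
      exact hcon i j
    have h2 : (G : Matrix ι ι F) * ((G⁻¹ : GL ι F) : Matrix ι ι F) = 1 := by
      rw [← Units.val_mul, mul_inv_cancel, Units.val_one]
    rw [h1, zero_mul] at h2
    exact zero_ne_one h2
  have hnorm : c ^ geom Q s = 1 := by
    have h1 := pow_pow_eq (hentry i₀ j₀) s
    rw [← hs, FiniteField.pow_card] at h1
    have h2 : (c ^ geom Q s - 1) * (G : Matrix ι ι F) i₀ j₀ = 0 := by
      rw [sub_mul, one_mul, ← h1, sub_self]
    rcases mul_eq_zero.mp h2 with h3 | h3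
    · exact sub_eq_zero.mp h3
    · exact absurd h3 hij
  -- Hilbert 90
  have hcard : Nat.card Fˣ = (Q - 1) * geom Q s := by
    rw [Nat.card_eq_fintype_card, Fintype.card_units, hs]
    have := geom_mul Q s hQ1
    omega
  obtain ⟨z, hz⟩ := exists_pow_eq_of_pow_eq_one hcard ((Units.mk0 c hc0)⁻¹) (by
    rw [inv_pow, inv_eq_one]
    apply Units.ext
    simpa using hnorm)
  have hz' : (z : F) ^ (Q - 1) * c = 1 := by
    have h1 := congrArg Units.val hz
    simp only [Units.val_pow_eq_pow_val, Units.val_inv_eq_inv_val, Units.val_mk0] at h1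
    rw [h1, inv_mul_cancel₀ hc0]
  -- the matrix over the subfield
  have hmem : ∀ i j, (z : F) * (G : Matrix ι ι F) i j ∈ F₀ := by
    intro i j
    rw [mem_subfield_iff F₀ hs, mul_pow, hentry]
    calc (z : F) ^ Q * (c * (G : Matrix ι ι F) i j)
        = (z : F) ^ (Q - 1 + 1) * (c * (G : Matrix ι ι F) i j) := by rw [Nat.sub_add_cancel hQ1]
      _ = ((z : F) ^ (Q - 1) * c) * ((z : F) * (G : Matrix ι ι F) i j) := by ring
      _ = _ := by rw [hz', one_mul]
  let M₀ : Matrix ι ι F₀ := Matrix.of fun i j => ⟨(z : F) * (G : Matrix ι ι F) i j, hmem i j⟩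
  have hM₀ : M₀.map F₀.subtype = (z : F) • (G : Matrix ι ι F) := by
    ext i j
    rfl
  have hdet : M₀.det ≠ 0 := by
    intro h
    have h1 : (M₀.map F₀.subtype).det = 0 := by
      rw [← RingHom.mapMatrix_apply, ← RingHom.map_det, h, map_zero]
    rw [hM₀, Matrix.det_smul] at h1
    rcases mul_eq_zero.mp h1 with h2 | h2
    · exact pow_ne_zero _ z.ne_zero h2
    · exact (Matrix.GeneralLinearGroup.det G).ne_zero h2
  let g₀ : GL ι F₀ := Matrix.GeneralLinearGroup.mkOfDetNeZero M₀ hdet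
  let zg : GL ι F := Units.map (Matrix.scalar ι : F →+* Matrix ι ι F).toMonoidHom z⁻¹
  have hzg : zg ∈ scalars ι F := ⟨z⁻¹, rfl⟩
  have hG2 : G = zg * Matrix.GeneralLinearGroup.map F₀.subtype g₀ := by
    apply Units.ext
    have h1 : ((Matrix.GeneralLinearGroup.map F₀.subtype g₀ : GL ι F) : Matrix ι ι F) = M₀.map F₀.subtype := rfl
    have h3 : ((zg * Matrix.GeneralLinearGroup.map F₀.subtype g₀ : GL ι F) : Matrix ι ι F) =
      (zg : Matrix ι ι F) * ((Matrix.GeneralLinearGroup.map F₀.subtype g₀ : GL ι F) : Matrix ι ι F) := Units.val_mul _ _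
    rw [h3, h1, hM₀]
    have h2 : (zg : Matrix ι ι F) = ((z⁻¹ : Fˣ) : F) • 1 := by
      simp [zg, Matrix.smul_one_eq_diagonal]
    rw [h2, Matrix.smul_mul, one_mul, smul_smul]
    simp
  refine ⟨G, ?_, ?_⟩
  · rw [hG2]
    exact Subgroup.mul_mem _ (Subgroup.mem_sup_right hzg) (Subgroup.mem_sup_left ⟨g₀, rfl⟩)
  · change B⁻¹ * G * B⁻¹⁻¹ = g
    rw [hG]
    group

/-- A subalgebra defined by `x ^ m = x` as a subfield. -/
def subfieldOfSubalgebra {R : Type*} [CommRing R] [Algebra R F] (K : Subalgebra R F) (m : ℕ)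
    (hK : ∀ x, x ∈ K ↔ x ^ m = x) : Subfield F :=
  { K.toSubring with
    inv_mem' := fun x hx => by
      have hx' : x ∈ K := hx
      change x⁻¹ ∈ K
      rw [hK] at hx' ⊢
      rw [inv_pow, hx'] }

theorem mem_subfieldOfSubalgebra {R : Type*} [CommRing R] [Algebra R F] (K : Subalgebra R F) (m : ℕ)
    (hK : ∀ x, x ∈ K ↔ x ^ m = x) (x : F) : x ∈ subfieldOfSubalgebra K m hK ↔ x ∈ K := Iff.rfl

theorem card_subfieldOfSubalgebra {R : Type*} [CommRing R] [Algebra R F] (K : Subalgebra R F) (m : ℕ)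
    (hK : ∀ x, x ∈ K ↔ x ^ m = x) : Nat.card (subfieldOfSubalgebra K m hK) = Nat.card K := rfl

/-- From a proper subfield to one of prime index containing it. -/
theorem exists_prime_index_subfield [Fintype F] (F₀ : Subfield F) (h : F₀ ≠ ⊤) :
    ∃ (F₁ : Subfield F) (s : ℕ), F₀ ≤ F₁ ∧ s.Prime ∧ Fintype.card F = Nat.card F₁ ^ s := by
  classical
  haveI : Fintype F₀ := Fintype.ofFinite F₀
  have hcard : Fintype.card F = Fintype.card F₀ ^ Module.finrank F₀ F :=
    Module.card_eq_pow_finrank (K := F₀) (V := F)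
  have hQ : 1 < Fintype.card F₀ := Fintype.one_lt_card
  have hs1 : Module.finrank F₀ F ≠ 1 := by
    intro h1
    rw [h1, pow_one] at hcard
    apply h
    have h2 : (F₀ : Set F) = Set.univ := by
      apply Set.eq_of_subset_of_ncard_le (Set.subset_univ _) _ (Set.toFinite _)
      rw [Set.ncard_univ, ← Nat.card_coe_set_eq, Nat.card_eq_fintype_card (α := F), hcard]
      exact le_of_eq (Nat.card_eq_fintype_card).symm
    exact SetLike.coe_injective h2
  obtain ⟨r, hr, k, hk⟩ := Nat.exists_prime_and_dvd hs1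
  obtain ⟨K, hK, hKk⟩ := FieldCount.exists_subalgebra F₀ F (r := k) (Dvd.intro_left r hk.symm)
  refine ⟨subfieldOfSubalgebra K _ hK, r, ?_, hr, ?_⟩
  · intro x hx
    exact K.algebraMap_mem (⟨x, hx⟩ : F₀)
  · rw [card_subfieldOfSubalgebra]
    haveI : Fintype K := Fintype.ofFinite K
    have h3 : Fintype.card K = Fintype.card F₀ ^ Module.finrank F₀ K :=
      Module.card_eq_pow_finrank (K := F₀) (V := K)
    rw [Nat.card_eq_fintype_card, h3, hKk, ← pow_mul, mul_comm, ← hk]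
    exact hcard

/-- The subfield of order `p ^ d` for `d ∣ e`, where `|F| = p ^ e`. -/
theorem exists_subfield_of_dvd [Fintype F] (p e d : ℕ) (hp : p.Prime) [CharP F p]
    (hF : Fintype.card F = p ^ e) (hd : d ∣ e) :
    ∃ F₁ : Subfield F, Nat.card F₁ = p ^ d ∧ ∀ x : F, x ∈ F₁ ↔ x ^ (p ^ d) = x := by
  classical
  haveI : Fact p.Prime := ⟨hp⟩
  letI : Algebra (ZMod p) F := ZMod.algebra F p
  have hfin : Module.finrank (ZMod p) F = e := by
    have h1 : Fintype.card F = Fintype.card (ZMod p) ^ Module.finrank (ZMod p) F :=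
      Module.card_eq_pow_finrank (K := ZMod p) (V := F)
    rw [hF, ZMod.card] at h1
    exact (Nat.pow_right_injective hp.two_le h1).symm
  have hd' : d ∣ Module.finrank (ZMod p) F := by rwa [hfin]
  obtain ⟨K, hK, hKk⟩ := FieldCount.exists_subalgebra (ZMod p) F (r := d) hd'
  rw [ZMod.card] at hK
  refine ⟨subfieldOfSubalgebra K _ hK, ?_, fun x => hK x⟩
  rw [card_subfieldOfSubalgebra]
  haveI : Fintype K := Fintype.ofFinite K
  have h3 : Fintype.card K = Fintype.card (ZMod p) ^ Module.finrank (ZMod p) K :=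
    Module.card_eq_pow_finrank (K := ZMod p) (V := K)
  rw [Nat.card_eq_fintype_card, h3, hKk, ZMod.card]

end Cfsg.Agent.Lib.Classical.Asch.Subfield
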