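import Mathlib
import Cfsg.Agent.Lib.Classical.Asch.Monomial
import Cfsg.Agent.Lib.Classical.Asch.Forms
import Cfsg.Agent.Lib.Classical.Asch.Subfield
import Cfsg.Agent.Lib.Classical.Asch.FieldCount

/-!
# Aschbacher's theorem: the symplectic-type case

From a subgroup `R` with `SympData` to class 5, class 6 or class 8.
-/

set_option autoImplicit false
set_option linter.style.haveILetI false
set_option linter.unusedSectionVars false

namespace Cfsg.Agent.Lib.Classical.Asch.CaseA

open scoped MatrixGroups Matrix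
open Cfsg.Geo Cfsg.Agent.Lib.Classical.Asch.Basic
open Cfsg.Agent.Lib.Classical.Asch.Dichotomy Cfsg.Agent.Lib.Classical.Asch.MinNormal
open Cfsg.Agent.Lib.Classical.Asch.SympType Cfsg.Agent.Lib.Classical.Asch.SympStruct
open Cfsg.Agent.Lib.Classical.Asch.Monomial Cfsg.Agent.Lib.Classical.Asch.Forms
open Cfsg.Agent.Lib.Classical.Asch.Subfield Cfsg.Agent.Lib.Classical.Asch.FieldCount

variable {ι : Type} [Fintype ι] [DecidableEq ι] {F : Type*} [Field F]

section Frob

variable [Fintype F]

/-- The Frobenius power with `x ↦ x ^ (p ^ f)`, for `|F| = p ^ (2 f)`. -/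
noncomputable def frobEquiv (p f : ℕ) [Fact p.Prime] [CharP F p] : F ≃+* F :=
  RingEquiv.ofBijective (iterateFrobenius F p f) (Finite.injective_iff_bijective.mp (RingHom.injective _))

theorem frobEquiv_apply (p f : ℕ) [Fact p.Prime] [CharP F p] (a : F) : frobEquiv p f a = a ^ (p ^ f) := by
  change iterateFrobenius F p f a = _
  rw [iterateFrobenius_def]

theorem frobEquiv_invol (p f : ℕ) [Fact p.Prime] [CharP F p] (h : Fintype.card F = p ^ (2 * f)) (a : F) :
    frobEquiv p f (frobEquiv p f a) = a := by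
  rw [frobEquiv_apply, frobEquiv_apply, ← pow_mul, ← pow_add, ← two_mul, ← h, FiniteField.pow_card]

theorem frobEquiv_ne (p f : ℕ) [Fact p.Prime] [CharP F p] (hf : 0 < f) (h : Fintype.card F = p ^ (2 * f)) :
    frobEquiv p f ≠ RingEquiv.refl F := by
  intro he
  have hall : ∀ a : F, a ^ (p ^ f) = a := fun a => by
    have := congrArg (fun σ : F ≃+* F => σ a) he
    simpa [frobEquiv_apply] using this
  have hdvd : p ^ f - 1 ∣ Nat.card F - 1 := by
    rw [Nat.card_eq_fintype_card, h, two_mul, pow_add]
    have h1 : p ^ f * p ^ f - 1 = (p ^ f - 1) * (p ^ f + 1) := by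
      have hp : 1 ≤ p ^ f := Nat.one_le_pow _ _ (Fact.out : p.Prime).pos
      obtain ⟨k, hk⟩ : ∃ k, p ^ f = k + 1 := ⟨p ^ f - 1, by omega⟩
      rw [hk]
      simp only [Nat.add_sub_cancel]
      have : (k + 1) * (k + 1) - 1 = k * (k + 1 + 1) := by
        have : (k + 1) * (k + 1) = k * (k + 1 + 1) + 1 := by ring
        omega
      exact this
    rw [h1]
    exact Dvd.intro _ rfl
  have hn := ncard_pow_eq_self (L := F) hdvd
  have huniv : {x : F | x ^ (p ^ f) = x} = Set.univ := Set.eq_univ_of_forall hall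
  rw [huniv, Set.ncard_univ, Nat.card_eq_fintype_card, h] at hn
  have hlt : p ^ f < p ^ (2 * f) := Nat.pow_lt_pow_right (Fact.out : p.Prime).one_lt (by omega)
  omega

end Frob

variable [Fintype F] [Nonempty ι] {G R : Subgroup (GL ι F)} {r s : ℕ}

/-- `R` modulo scalars: orders are nonzero in the field. -/
theorem SympData.card_inf_ne_zero (D : SympData G R r s) : (Nat.card ↥(R ⊓ scalars ι F) : F) ≠ 0 := by
  obtain ⟨k, hk⟩ := SympData.s_eq_pow D
  haveI : Fact r.Prime := ⟨D.prime⟩
  have h1 : IsPGroup r ↥(R ⊓ scalars ι F) := by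
    intro g
    refine ⟨k, Subtype.ext ?_⟩
    rw [Subgroup.coe_pow, ← hk, D.pow_s _ g.2.1]
    rfl
  obtain ⟨n, hn⟩ := IsPGroup.iff_card.mp h1
  rw [hn, Nat.cast_pow]
  exact pow_ne_zero _ D.hchar

theorem SympData.scalar_pow (D : SympData G R r s) {x : GL ι F} (hx : x ∈ R) {c : F}
    (hc : (x : Matrix ι ι F) = c • 1) : c ^ s = 1 := by
  obtain ⟨i₀⟩ := ‹Nonempty ι›
  have h1 := D.pow_s x hx
  have h2 := congrArg (fun g : GL ι F => (g : Matrix ι ι F) i₀ i₀) h1
  simp only [Units.val_pow_eq_pow_val, Units.val_one, Matrix.one_apply_eq] at h2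
  rw [hc, smul_pow, one_pow] at h2
  simpa using h2

theorem SympData.normalizer (D : SympData G R r s) : G ≤ subgroupNormalizer R := by
  intro g hg
  unfold subgroupNormalizer
  rw [Subgroup.mem_normalizer_iff]
  intro x
  constructor
  · exact D.norm g hg x
  · intro h
    have := D.norm g⁻¹ (inv_mem hg) _ h
    simpa [mul_assoc] using this

/-- The subfield outcome, with the realisation of `R` and the containment in the `p ^ gcd(d, e)`-subfield. -/
theorem SympData.subfield_outcome' (D : SympData G R r s) {p e d : ℕ} (hp : p.Prime) [CharP F p]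
    (hF : Fintype.card F = p ^ e) (hsq : s ∣ Fintype.card F - 1) (hd0 : 0 < d) (hde : d < e) (hsd : s ∣ p ^ d - 1) :
    ∃ (F₀ : Subfield F) (r' : ℕ) (B : GL ι F), r'.Prime ∧ Fintype.card F = Nat.card F₀ ^ r' ∧
      G ≤ subfieldSubgroup F₀ B⁻¹ ∧ (∀ x ∈ R, ∀ i j, ((B : Matrix ι ι F) * (x : Matrix ι ι F) * ((B⁻¹ : GL ι F) : Matrix ι ι F)) i j ∈ F₀) ∧
      ∀ u : F, u ^ s = 1 → u ∈ F₀ := by
  have hg : s ∣ p ^ Nat.gcd d e - 1 := by
    rw [← Nat.pow_sub_one_gcd_pow_sub_one]
    refine Nat.dvd_gcd hsd ?_
    rw [← hF]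
    exact hsq
  have hgle : Nat.gcd d e ≤ d := Nat.gcd_le_left _ hd0
  obtain ⟨F₁, hF₁card, hF₁⟩ := exists_subfield_of_dvd p e (Nat.gcd d e) hp hF (Nat.gcd_dvd_right d e)
  have hne : F₁ ≠ ⊤ := by
    rintro rfl
    have h1 : Nat.card (⊤ : Subfield F) = Fintype.card F := by
      rw [← Nat.card_eq_fintype_card]
      exact Nat.card_congr Subfield.topEquiv.toEquiv
    rw [h1, hF] at hF₁card
    have h2 : p ^ Nat.gcd d e < p ^ e := Nat.pow_lt_pow_right hp.one_lt (by omega)
    omega
  obtain ⟨F₂, r', hle, hr', hcard⟩ := exists_prime_index_subfield F₁ hne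
  obtain ⟨B, hB⟩ := exists_monomial D.irr D.comm D.pow_s hsq
  have hroot : ∀ u : F, u ^ s = 1 → u ∈ F₁ := by
    intro u h
    rw [hF₁]
    obtain ⟨k, hk⟩ := hg
    have h1 : p ^ Nat.gcd d e = s * k + 1 := by
      have : 1 ≤ p ^ Nat.gcd d e := Nat.one_le_pow _ _ hp.pos
      omega
    rw [h1, pow_succ, pow_mul, h, one_pow, one_mul]
  have hreal : ∀ x ∈ R, ∀ i j, ((B : Matrix ι ι F) * (x : Matrix ι ι F) * ((B⁻¹ : GL ι F) : Matrix ι ι F)) i j ∈ F₂ := by
    intro x hx i j
    apply hle
    rcases hB x hx i j with h | h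
    · rw [h]
      exact F₁.zero_mem
    · exact hroot _ h
  refine ⟨F₂, r', B, hr', hcard, fun g hg' => ?_, hreal, fun u hu => hle (hroot u hu)⟩
  exact mem_subfieldSubgroup_of_normalizes F₂ hcard D.cs B hreal (D.norm g hg')

/-- The subfield outcome. -/
theorem SympData.subfield_outcome (D : SympData G R r s) {p e d : ℕ} (hp : p.Prime) [CharP F p]
    (hF : Fintype.card F = p ^ e) (hsq : s ∣ Fintype.card F - 1) (hd0 : 0 < d) (hde : d < e) (hsd : s ∣ p ^ d - 1) :
    ∃ (F₀ : Subfield F) (r' : ℕ) (B : GL ι F), r'.Prime ∧ Fintype.card F = Nat.card F₀ ^ r' ∧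
      G ≤ subfieldSubgroup F₀ B := by
  obtain ⟨F₀, r', B, h1, h2, h3, -, -⟩ := SympData.subfield_outcome' D hp hF hsq hd0 hde hsd
  exact ⟨F₀, r', B⁻¹, h1, h2, h3⟩

/-- The unitary outcome. -/
theorem SympData.unitary_outcome (D : SympData G R r s) {p f : ℕ} [Fact p.Prime] [CharP F p] (hf : 0 < f)
    (hF : Fintype.card F = p ^ (2 * f)) (hs : s ∣ p ^ f + 1) {n : ℕ} (hn : Fintype.card ι = r ^ n) :
    ∃ (σ : F ≃+* F) (u : (ι → F) → (ι → F) → F), IsUnitaryForm σ u ∧ G ≤ similarityGroup u := by
  have hn' : (Fintype.card ι : F) ≠ 0 := by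
    rw [hn, Nat.cast_pow]
    exact pow_ne_zero _ D.hchar
  obtain ⟨u, hu, hinv⟩ := exists_unitary_form D.irr (fun x hx hxZ => SympData.trace_eq_zero D hx hxZ)
    (frobEquiv p f) (frobEquiv_ne p f hf hF) (frobEquiv_invol p f hF)
    (fun x hx c hc => by
      have h1 := SympData.scalar_pow D hx hc
      rw [frobEquiv_apply, ← pow_succ']
      obtain ⟨k, hk⟩ := hs
      have h2 : p ^ f + 1 = s * k := hk
      rw [h2, pow_mul, h1, one_pow])
    hn' (SympData.card_inf_ne_zero D)
  exact ⟨frobEquiv p f, u, hu, fun g hg => mem_similarityGroup_unitary D.cs hu hinv (D.norm g hg)⟩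

/-- **The symplectic-type case**. -/
theorem caseA (D : SympData G R r s) (hscal : ∀ x ∈ scalars ι F, x ^ s = 1 → x ∈ R)
    (hD : Dich G) (hn : 3 ≤ Fintype.card ι) :
    (IsLinearSymplecticTypeData r R ∧ G ≤ subgroupNormalizer R) ∨
    (∃ (F₀ : Subfield F) (r' : ℕ) (B : GL ι F), r'.Prime ∧ Fintype.card F = Nat.card F₀ ^ r' ∧
      G ≤ subfieldSubgroup F₀ B) ∨
    (∃ (σ : F ≃+* F) (u : (ι → F) → (ι → F) → F), IsUnitaryForm σ u ∧ G ≤ similarityGroup u) ∨
    (∃ u : (ι → F) → (ι → F) → F, IsSymplecticForm u ∧ G ≤ similarityGroup u) ∨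
    (∃ Q : (ι → F) → F, IsNondegenerateQuadraticForm Q ∧ Odd (Fintype.card F) ∧ G ≤ quadSimilarityGroup Q) := by
  classical
  set p := ringChar F with hpdef
  haveI : CharP F p := ringChar.charP F
  obtain ⟨e', hp, hF⟩ := FiniteField.card F p
  haveI : Fact p.Prime := ⟨hp⟩
  set e : ℕ := (e' : ℕ) with he
  have he0 : 0 < e := e'.pos
  have hrp : r ≠ p := by
    intro h
    apply D.hchar
    rw [h]
    exact CharP.cast_eq_zero F p
  have hqF : Nat.card Fˣ = Fintype.card F - 1 := by
    rw [Nat.card_eq_fintype_card, Fintype.card_units]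
  have hdvdq : r ∣ Fintype.card F - 1 := by
    rw [← hqF]
    exact SympData.dvd_card_units D
  obtain ⟨m, hm, hquot⟩ := SympData.exists_card D
  have hcenter := SympData.card_center D hscal
  rw [hqF] at hcenter
  have hcardR := SympData.card_eq D
  have hn' : (Fintype.card ι : F) ≠ 0 := by
    rw [hm, Nat.cast_pow]
    exact pow_ne_zero _ D.hchar
  have hsymp := SympData.isSymplecticTypeGroup D hD
  have habs : ActsAbsolutelyIrreducibly (matrixSet R) :=
    actsAbsolutelyIrreducibly_iff.mpr ⟨actsIrreducibly_iff.mpr D.irr, D.cs⟩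
  have hm1 : 1 ≤ m := by
    rcases Nat.eq_zero_or_pos m with h | h
    · rw [h, pow_zero] at hm
      omega
    · exact h
  by_cases hsq : s ∣ Fintype.card F - 1
  · -- the scalars of `R` are all the `s`-th roots of unity
    have hz : Nat.card (Subgroup.center R) = s := by
      rw [hcenter]
      exact Nat.gcd_eq_right hsq
    by_cases hsub : ∃ d, 0 < d ∧ d < e ∧ s ∣ p ^ d - 1
    · obtain ⟨d, hd0, hde, hsd⟩ := hsub
      exact Or.inr (Or.inl (SympData.subfield_outcome D hp hF hsq hd0 hde hsd))
    · push Not at hsub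
      have hmin : IsMinimalFieldFor (Nat.card (Subgroup.center R)) p e F := by
        refine ⟨hp, inferInstance, hF, ?_, ?_⟩
        · rw [hz, ← hF]
          exact hsq
        · intro d hd0 hde
          rw [hz]
          exact hsub d hd0 hde
      rcases D.prime.eq_two_or_odd' with h2 | hodd
      · -- `r = 2`
        subst h2
        have hs4 : s = 4 := by
          rw [D.hs]
          decide
        have hpodd : p % 2 = 1 := by
          have hpne : p ≠ 2 := fun h => hrp h.symm
          exact hp.eq_two_or_odd.resolve_left hpne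
        have hm2 : 4 ≤ Fintype.card ι := by
          rw [hm]
          obtain ⟨m', rfl⟩ : ∃ m', m = m' + 1 := ⟨m - 1, by omega⟩
          rcases Nat.eq_zero_or_pos m' with h0 | h0
          · subst h0
            rw [hm] at hn
            omega
          · calc 4 = 2 ^ 2 := by norm_num
              _ ≤ 2 ^ (m' + 1) := Nat.pow_le_pow_right (by norm_num) (by omega)
        by_cases he1 : e = 1
        · left
          refine ⟨⟨hsymp, habs, p, e, hrp, hmin, Or.inr (Or.inl ⟨rfl, he1, by rw [hz, hs4], hm2, m, ?_⟩)⟩,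
            SympData.normalizer D⟩
          rw [hcardR, hz, hquot, hs4, pow_add]
          norm_num
        · -- `e = 2`
          have hsqp : 4 ∣ p ^ 2 - 1 := by
            have h1 : p ^ 2 % 4 = 1 % 4 := by
              have h2 : p % 4 = 1 ∨ p % 4 = 3 := by omega
              rcases h2 with h2 | h2 <;> simp [Nat.pow_mod, h2]
            exact Nat.dvd_of_mod_eq_zero (Nat.sub_mod_eq_zero_of_mod_eq h1)
          have he2 : e = 2 := by
            by_contra hne
            exact hsub 2 (by norm_num) (by omega) (by rw [hs4]; exact hsqp)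
          have hp4 : 4 ∣ p + 1 := by
            have h1 := hsub 1 (by norm_num) (by omega)
            rw [hs4, pow_one] at h1
            have h2 : p % 4 = 1 ∨ p % 4 = 3 := by omega
            rcases h2 with h2 | h2
            · exfalso
              exact h1 (Nat.dvd_of_mod_eq_zero (Nat.sub_mod_eq_zero_of_mod_eq (by simpa using h2)))
            · omega
          right; right; left
          exact SympData.unitary_outcome D (f := 1) (by norm_num) (by rw [hF, he2]) (by
            rw [hs4, pow_one]
            exact hp4) hm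
      · -- `r` odd
        have hg : Nat.gcd 2 r = 1 := (Nat.coprime_two_left).mpr hodd
        have hsr : s = r := by rw [D.hs, hg, mul_one]
        rcases Nat.even_or_odd e with hev | hod
        · obtain ⟨f, hf⟩ := hev
          have hfe : e = 2 * f := by omega
          have hf0 : 0 < f := by omega
          right; right; left
          refine SympData.unitary_outcome D hf0 (by rw [hF, hfe]) ?_ hm
          rw [hsr]
          have h1 : r ∣ p ^ (2 * f) - 1 := by
            rw [← hfe, ← hF]
            exact hdvdq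
          have h2 : p ^ (2 * f) - 1 = (p ^ f + 1) * (p ^ f - 1) := by
            rw [mul_comm 2 f, pow_mul]
            have := Nat.sq_sub_sq (p ^ f) 1
            simpa using this
          rw [h2] at h1
          rcases (Nat.Prime.dvd_mul D.prime).mp h1 with h3 | h3
          · exact h3
          · exfalso
            refine hsub f hf0 (by omega) ?_
            rw [hsr]
            exact h3
        · left
          refine ⟨⟨hsymp, habs, p, e, hrp, hmin, Or.inl ⟨hodd, hod, by rw [hz, hsr], m, hm1, ?_⟩⟩,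
            SympData.normalizer D⟩
          rw [hcardR, hz, hquot, hsr, pow_add, pow_one]
  · -- `r = 2` and `q ≡ 3 mod 4`
    have hr2 : r = 2 := by
      rcases D.prime.eq_two_or_odd' with h2 | hodd
      · exact h2
      · exfalso
        apply hsq
        have hg : Nat.gcd 2 r = 1 := (Nat.coprime_two_left).mpr hodd
        have hsr : s = r := by rw [D.hs, hg, mul_one]
        rw [hsr]
        exact hdvdq
    subst hr2
    have hs4 : s = 4 := by
      rw [D.hs]
      decide
    have hq1 : 1 < Fintype.card F := Fintype.one_lt_card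
    have hodd : Odd (Fintype.card F) := by
      rw [Nat.odd_iff]
      omega
    have hζ : ∀ x ∈ R, ∀ c : F, (x : Matrix ι ι F) = c • 1 → c * c = 1 := by
      intro x hx c hc
      have h1 := SympData.scalar_pow D hx hc
      rw [hs4] at h1 hsq
      have hc0 : c ≠ 0 := by
        rintro rfl
        rw [zero_pow (by norm_num)] at h1
        exact zero_ne_one h1
      -- the order of `c` divides `gcd(4, q - 1) = 2`
      let cu : Fˣ := Units.mk0 c hc0
      have h2 : cu ^ 4 = 1 := Units.ext (by simpa [cu] using h1)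
      have h3 : orderOf cu ∣ 4 := orderOf_dvd_of_pow_eq_one h2
      have h4 : orderOf cu ∣ Fintype.card F - 1 := by
        rw [← hqF]
        exact orderOf_dvd_natCard cu
      have h5 : orderOf cu ∈ Nat.divisors 4 := Nat.mem_divisors.mpr ⟨h3, by norm_num⟩
      have h6 : Nat.divisors 4 = {1, 2, 4} := by decide
      rw [h6] at h5
      simp only [Finset.mem_insert, Finset.mem_singleton] at h5
      have h7 : orderOf cu ∣ 2 := by
        rcases h5 with h5 | h5 | h5
        · rw [h5]
          norm_num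
        · rw [h5]
        · rw [h5] at h4
          exact absurd h4 hsq
      have h8 : cu ^ 2 = 1 := orderOf_dvd_iff_pow_eq_one.mp h7
      have h9 := congrArg Units.val h8
      simpa [cu, sq] using h9
    rcases exists_orthogonal_or_symplectic_form hodd D.irr
        (fun x hx hxZ => SympData.trace_eq_zero D hx hxZ) hζ hn' (SympData.card_inf_ne_zero D) with ⟨Q, hQ, hinv⟩ | ⟨u, hu, hinv⟩
    · right; right; right; right
      exact ⟨Q, hQ, hodd, fun g hg => mem_quadSimilarityGroup D.cs hQ hodd hinv (D.norm g hg)⟩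
    · right; right; right; left
      exact ⟨u, hu, fun g hg => mem_similarityGroup_symplectic D.cs hu hinv (D.norm g hg)⟩

end Cfsg.Agent.Lib.Classical.Asch.CaseA
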