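import Mathlib
import Cfsg.Agent.Lib.Classical.Asch.CaseA
import Cfsg.Agent.Lib.Classical.Asch.Gram

/-!
# Coordinates adapted to a decomposition; small-field exclusions
-/

set_option autoImplicit false
set_option linter.style.haveILetI false
set_option linter.unusedSectionVars false

namespace Cfsg.Agent.Lib.Classical.Asch.Block

open scoped MatrixGroups Matrix Kronecker
open Cfsg.Geo Cfsg.Agent.Lib.Classical.Asch.Basic Cfsg.Agent.Lib.Classical.Asch.Gram

variable {ι : Type} [Fintype ι] [DecidableEq ι] {F : Type*} [Field F]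

/-- A basis adapted to a decomposition. -/
theorem exists_blockBasis {t m : ℕ} {D : Fin t → Submodule F (ι → F)} (hD : IsMDecomposition m D) :
    ∃ B : Module.Basis (Fin t × Fin m) F (ι → F), (∀ i j, B (i, j) ∈ D i) ∧
      ∀ i, ∀ w ∈ D i, ∀ k, k ≠ i → ∀ j, B.repr w (k, j) = 0 := by
  classical
  have hint : DirectSum.IsInternal D :=
    DirectSum.isInternal_submodule_of_iSupIndep_of_iSup_eq_top hD.indep hD.iSup_eq_top
  let v : ∀ i, Module.Basis (Fin m) F (D i) := fun i => Module.finBasisOfFinrankEq F (D i) (hD.finrank_eq i)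
  let B₀ := hint.collectedBasis v
  let B : Module.Basis (Fin t × Fin m) F (ι → F) := B₀.reindex (Equiv.sigmaEquivProd (Fin t) (Fin m))
  have hB : ∀ i j, B (i, j) = (v i j : ι → F) := by
    intro i j
    simp only [B, Module.Basis.reindex_apply]
    have : (Equiv.sigmaEquivProd (Fin t) (Fin m)).symm (i, j) = ⟨i, j⟩ := rfl
    rw [this]
    exact congrFun (hint.collectedBasis_coe v) ⟨i, j⟩
  refine ⟨B, fun i j => ?_, fun i w hw k hk j => ?_⟩
  · rw [hB]
    exact (v i j).2
  · have h1 : w = ∑ j', ((v i).repr ⟨w, hw⟩ j') • B (i, j') := by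
      simp only [hB]
      have := (v i).sum_repr ⟨w, hw⟩
      have h2 := congrArg (Submodule.subtype (D i)) this
      rw [map_sum] at h2
      simp only [map_smul, Submodule.subtype_apply] at h2
      exact h2.symm
    rw [h1, map_sum, Finsupp.finsetSum_apply]
    refine Finset.sum_eq_zero fun j' _ => ?_
    rw [map_smul, Finsupp.smul_apply, Module.Basis.repr_self, Finsupp.single_apply, if_neg, smul_zero]
    intro h
    exact hk (congrArg Prod.fst h).symm

/-- The number of coordinates. -/
theorem card_eq_mul {t m : ℕ} {D : Fin t → Submodule F (ι → F)} (hD : IsMDecomposition m D) :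
    Fintype.card ι = t * m := by
  obtain ⟨B, -, -⟩ := exists_blockBasis hD
  have h1 := Module.finrank_eq_card_basis B
  rw [Module.finrank_fintype_fun_eq_card] at h1
  simpa using h1

theorem mulVec_mem {t : ℕ} {D : Fin t → Submodule F (ι → F)} {g : GL ι F} {π : Equiv.Perm (Fin t)}
    (hπ : ∀ i, (D i).map (Matrix.toLin' (g : Matrix ι ι F)) = D (π i)) {i : Fin t} {w : ι → F} (hw : w ∈ D i) :
    (g : Matrix ι ι F) *ᵥ w ∈ D (π i) := by
  rw [← hπ]
  exact ⟨w, hw, by simp⟩

/-- The action of a member of the stabiliser in adapted coordinates. -/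
theorem exists_blocks {t m : ℕ} {D : Fin t → Submodule F (ι → F)} (B : Module.Basis (Fin t × Fin m) F (ι → F))
    (hB : ∀ i j, B (i, j) ∈ D i) (hB' : ∀ i, ∀ w ∈ D i, ∀ k, k ≠ i → ∀ j, B.repr w (k, j) = 0)
    {g : GL ι F} {π : Equiv.Perm (Fin t)} (hπ : ∀ i, (D i).map (Matrix.toLin' (g : Matrix ι ι F)) = D (π i)) :
    ∃ A : Fin t → Matrix (Fin m) (Fin m) F, (∀ i, (A i).det ≠ 0) ∧
      ∀ u i j, B.repr ((g : Matrix ι ι F) *ᵥ u) (π i, j) = ∑ j', A i j j' * B.repr u (i, j') := by
  classical
  let A : Fin t → Matrix (Fin m) (Fin m) F := fun i j j' => B.repr ((g : Matrix ι ι F) *ᵥ B (i, j')) (π i, j)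
  have hform : ∀ u i j, B.repr ((g : Matrix ι ι F) *ᵥ u) (π i, j) = ∑ j', A i j j' * B.repr u (i, j') := by
    intro u i j
    have h1 : (g : Matrix ι ι F) *ᵥ u = ∑ x, B.repr u x • ((g : Matrix ι ι F) *ᵥ B x) := by
      conv_lhs => rw [← B.sum_repr u]
      rw [Matrix.mulVec_sum]
      simp [Matrix.mulVec_smul]
    rw [h1, map_sum, Finsupp.finsetSum_apply, Fintype.sum_prod_type]
    rw [Finset.sum_eq_single i]
    · refine Finset.sum_congr rfl fun j' _ => ?_
      rw [map_smul, Finsupp.smul_apply, smul_eq_mul, mul_comm]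
    · intro k _ hk
      refine Finset.sum_eq_zero fun j' _ => ?_
      rw [map_smul, Finsupp.smul_apply, hB' (π k) _ (mulVec_mem hπ (hB k j')) (π i) (fun h => hk (π.injective h).symm) j,
        smul_zero]
    · simp
  refine ⟨A, fun i hdet => ?_, hform⟩
  obtain ⟨v, hv, hAv⟩ := Matrix.exists_mulVec_eq_zero_iff.mpr hdet
  let w : ι → F := ∑ j', v j' • B (i, j')
  have hwr : ∀ j', B.repr w (i, j') = v j' := by
    intro j'
    simp only [w, map_sum, map_smul, Finsupp.finsetSum_apply, Finsupp.smul_apply, Module.Basis.repr_self,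
      Finsupp.single_apply, Prod.mk.injEq, true_and, smul_eq_mul, mul_ite, mul_one, mul_zero]
    simp
  have hwm : w ∈ D i := Submodule.sum_mem _ fun j' _ => Submodule.smul_mem _ _ (hB i j')
  have hgw : (g : Matrix ι ι F) *ᵥ w = 0 := by
    apply B.repr.injective
    ext ⟨k, j⟩
    by_cases hk : k = π i
    · subst hk
      rw [hform]
      simp only [hwr, map_zero, Finsupp.zero_apply]
      exact congrFun hAv j
    · rw [hB' (π i) _ (mulVec_mem hπ hwm) k hk j]
      simp
  have hw0 : w = 0 := by
    have := inv_mulVec_mulVec g w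
    rw [hgw, Matrix.mulVec_zero] at this
    exact this.symm
  apply hv
  funext j'
  rw [← hwr j', hw0]
  simp

/-- Monomial coordinates for a decomposition into lines. -/
theorem exists_lineBasis {t : ℕ} {D : Fin t → Submodule F (ι → F)} (hD : IsMDecomposition 1 D) :
    ∃ B : Module.Basis (Fin t) F (ι → F), ∀ g ∈ decompositionStabilizer D, ∃ (π : Equiv.Perm (Fin t)) (c : Fin t → F),
      (∀ i, c i ≠ 0) ∧ ∀ u i, B.repr ((g : Matrix ι ι F) *ᵥ u) (π i) = c i * B.repr u i := by
  classical
  obtain ⟨B, hB, hB'⟩ := exists_blockBasis hD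
  let B₁ : Module.Basis (Fin t) F (ι → F) := B.reindex (Equiv.prodUnique (Fin t) (Fin 1))
  have hB₁ : ∀ u i, B₁.repr u i = B.repr u (i, 0) := by
    intro u i
    simp only [B₁, Module.Basis.repr_reindex_apply]
    rfl
  refine ⟨B₁, fun g hg => ?_⟩
  obtain ⟨π, hπ⟩ := hg
  obtain ⟨A, hA, hform⟩ := exists_blocks B hB hB' hπ
  refine ⟨π, fun i => A i 0 0, fun i => ?_, fun u i => ?_⟩
  · have := hA i
    rwa [Matrix.det_fin_one] at this
  · rw [hB₁, hB₁, hform, Fin.sum_univ_one]

theorem exists_ne_of_two_le {t : ℕ} (ht : 2 ≤ t) : ∃ i j : Fin t, i ≠ j :=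
  ⟨⟨0, by omega⟩, ⟨1, by omega⟩, by simp [Fin.ext_iff]⟩

/-- **E1**: over the field with two elements a decomposition into lines has an invariant line. -/
theorem lines_two [Fintype F] (hq : Fintype.card F = 2) {t : ℕ} {D : Fin t → Submodule F (ι → F)}
    (hD : IsMDecomposition 1 D) :
    ∃ W : Submodule F (ι → F), W ≠ ⊥ ∧ W ≠ ⊤ ∧ decompositionStabilizer D ≤ subspaceStabilizer W := by
  classical
  obtain ⟨B, hB⟩ := exists_lineBasis hD
  obtain ⟨i₀, i₁, h01⟩ := exists_ne_of_two_le hD.two_le
  let W : Submodule F (ι → F) :=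
    { carrier := {u | ∀ i j, B.repr u i = B.repr u j}
      add_mem' := by
        intro a b ha hb i j
        simp [ha i j, hb i j]
      zero_mem' := by
        intro i j
        simp
      smul_mem' := by
        intro c a ha i j
        simp [ha i j] }
  have h1 : ∀ c : F, c ≠ 0 → c = 1 := by
    intro c hc
    have := FiniteField.pow_card_sub_one_eq_one c hc
    rwa [hq, pow_one] at this
  refine ⟨W, ?_, ?_, le_subspaceStabilizer ?_⟩
  · intro h
    have hmem : B.equivFun.symm (fun _ => 1) ∈ W := by
      intro i j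
      simp
    rw [h, Submodule.mem_bot] at hmem
    have h2 := congrFun (congrArg B.equivFun hmem) i₀
    simp at h2
  · intro h
    have hmem : B i₀ ∈ W := by rw [h]; exact Submodule.mem_top
    have h2 := hmem i₀ i₁
    simp [h01.symm] at h2
  · intro g hg u hu i j
    obtain ⟨π, c, hc, hform⟩ := hB g hg
    have h2 : ∀ i, B.repr ((g : Matrix ι ι F) *ᵥ u) (π i) = B.repr u i := by
      intro i
      rw [hform, h1 _ (hc i), one_mul]
    have h3 := h2 (π.symm i)
    have h4 := h2 (π.symm j)
    rw [Equiv.apply_symm_apply] at h3 h4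
    rw [h3, h4]
    exact hu _ _

/-- **E2**: over the field with three elements a decomposition into lines preserves a quadratic form. -/
theorem lines_three [Fintype F] (hq : Fintype.card F = 3) {t : ℕ} {D : Fin t → Submodule F (ι → F)}
    (hD : IsMDecomposition 1 D) :
    ∃ Q : (ι → F) → F, IsNondegenerateQuadraticForm Q ∧ decompositionStabilizer D ≤ quadSimilarityGroup Q := by
  classical
  obtain ⟨B, hB⟩ := exists_lineBasis hD
  have h2 : (2 : F) ≠ 0 := by
    intro h
    have hc : ringChar F = 2 := by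
      have := CharTwo.of_one_ne_zero_of_two_eq_zero (R := F) one_ne_zero h
      exact ringChar.eq F 2
    obtain ⟨n, hp, hn⟩ := FiniteField.card F (ringChar F)
    rw [hq, hc] at hn
    have : 2 ∣ 3 := by
      rw [hn]
      exact dvd_pow_self _ n.ne_zero
    omega
  let A : GL (Fin t) F := 1
  have hQ : IsNondegenerateQuadraticForm (pullQ B.equivFun (quad (A : Matrix (Fin t) (Fin t) F))) :=
    pullQ_nondegenerate _ (quad_nondegenerate A (by simp [A]) h2)
  refine ⟨_, hQ, fun g hg => ?_⟩
  obtain ⟨π, c, hc, hform⟩ := hB g hg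
  refine ⟨1, fun v => ?_⟩
  have h3 : ∀ x : Fin t → F, quad (A : Matrix (Fin t) (Fin t) F) x = ∑ i, x i * x i := by
    intro x
    simp [quad, bil, A, dotProduct]
  simp only [pullQ, h3, Units.val_one, one_mul, Module.Basis.equivFun_apply]
  rw [← Equiv.sum_comp π]
  refine Finset.sum_congr rfl fun i _ => ?_
  rw [hform]
  have h4 := FiniteField.pow_card_sub_one_eq_one (c i) (hc i)
  rw [hq] at h4
  linear_combination (B.repr v i * B.repr v i) * h4

open Cfsg.Agent.Lib.Classical.Asch.CaseA in
/-- **E3**: over the field with four elements a decomposition into lines preserves a unitary form. -/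
theorem lines_four [Fintype F] (hq : Fintype.card F = 4) {t : ℕ} {D : Fin t → Submodule F (ι → F)}
    (hD : IsMDecomposition 1 D) :
    ∃ (σ : F ≃+* F) (f : (ι → F) → (ι → F) → F), IsUnitaryForm σ f ∧ decompositionStabilizer D ≤ similarityGroup f := by
  classical
  obtain ⟨B, hB⟩ := exists_lineBasis hD
  obtain ⟨p, hp⟩ := CharP.exists F
  obtain ⟨e, hpp, hn⟩ := FiniteField.card F p
  have hp2 : p = 2 := by
    have h1 : p ∣ 4 := by
      rw [← hq, hn]
      exact dvd_pow_self _ e.ne_zero
    have h2 : p ∣ 2 ^ 2 := by norm_num; exact h1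
    have h3 := hpp.dvd_of_dvd_pow h2
    exact (Nat.prime_dvd_prime_iff_eq hpp Nat.prime_two).mp h3
  subst hp2
  haveI : Fact (Nat.Prime 2) := ⟨Nat.prime_two⟩
  have hc4 : Fintype.card F = 2 ^ (2 * 1) := by rw [hq]; norm_num
  let σ : F ≃+* F := frobEquiv 2 1
  have hσ : ∀ a : F, σ a = a ^ 2 := by
    intro a
    have := frobEquiv_apply (F := F) 2 1 a
    simpa using this
  let f : (ι → F) → (ι → F) → F := fun u v => ∑ i, B.repr u i * σ (B.repr v i)
  refine ⟨σ, f, ?_, fun g hg => ?_⟩
  · refine ⟨frobEquiv_ne 2 1 (by norm_num) hc4, frobEquiv_invol 2 1 hc4, ?_, ?_, ?_, ?_⟩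
    · intro x y v
      simp only [f, map_add, Finsupp.add_apply, add_mul, Finset.sum_add_distrib]
    · intro c x v
      simp only [f, map_smul, Finsupp.smul_apply, smul_eq_mul, Finset.mul_sum, mul_assoc]
    · intro v w
      simp only [f, map_sum, map_mul]
      refine Finset.sum_congr rfl fun i _ => ?_
      rw [frobEquiv_invol 2 1 hc4, mul_comm]
    · intro v hv
      obtain ⟨i, hi⟩ : ∃ i, B.repr v i ≠ 0 := by
        by_contra hcon
        push Not at hcon
        apply hv
        apply B.repr.injective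
        ext i
        simp [hcon i]
      have hi' : σ (B.repr v i) ≠ 0 := by
        rwa [Ne, map_eq_zero]
      refine ⟨⟨B i, ?_⟩, ⟨B i, ?_⟩⟩
      · simp only [f, Module.Basis.repr_self, Finsupp.single_apply, ite_mul, one_mul, zero_mul, Finset.sum_ite_eq,
          Finset.mem_univ, if_true]
        exact hi'
      · simp only [f, Module.Basis.repr_self, Finsupp.single_apply]
        rw [Finset.sum_eq_single i]
        · simpa using hi
        · intro b _ hb
          rw [if_neg (Ne.symm hb)]
          simp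
        · simp
  · obtain ⟨π, c, hc, hform⟩ := hB g hg
    refine ⟨1, fun u v => ?_⟩
    simp only [f, Units.val_one, one_mul]
    rw [← Equiv.sum_comp π]
    refine Finset.sum_congr rfl fun i _ => ?_
    rw [hform, hform, map_mul, hσ (c i)]
    have h4 := FiniteField.pow_card_sub_one_eq_one (c i) (hc i)
    rw [hq] at h4
    linear_combination (B.repr u i * σ (B.repr v i)) * h4

/-- The block symplectic form. -/
noncomputable def blockForm {t : ℕ} (B : Module.Basis (Fin t × Fin 2) F (ι → F)) (u v : ι → F) : F :=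
  ∑ i, (B.repr u (i, 0) * B.repr v (i, 1) - B.repr u (i, 1) * B.repr v (i, 0))

theorem blockForm_symplectic {t : ℕ} (B : Module.Basis (Fin t × Fin 2) F (ι → F)) :
    IsSymplecticForm (blockForm B) := by
  classical
  refine ⟨⟨?_, ?_, ?_, ?_⟩, ?_, ?_, ?_⟩
  · intro x y v
    simp only [blockForm, map_add, Finsupp.add_apply, ← Finset.sum_add_distrib]
    refine Finset.sum_congr rfl fun i _ => ?_
    ring
  · intro c x v
    simp only [blockForm, map_smul, Finsupp.smul_apply, smul_eq_mul, Finset.mul_sum]
    refine Finset.sum_congr rfl fun i _ => ?_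
    ring
  · intro x y v
    simp only [blockForm, map_add, Finsupp.add_apply, ← Finset.sum_add_distrib]
    refine Finset.sum_congr rfl fun i _ => ?_
    ring
  · intro c x v
    simp only [blockForm, map_smul, Finsupp.smul_apply, smul_eq_mul, Finset.mul_sum]
    refine Finset.sum_congr rfl fun i _ => ?_
    ring
  · intro v w
    simp only [blockForm, ← Finset.sum_neg_distrib]
    refine Finset.sum_congr rfl fun i _ => ?_
    ring
  · intro v
    simp only [blockForm]
    refine Finset.sum_eq_zero fun i _ => ?_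
    ring
  · intro v hv
    obtain ⟨⟨i, j⟩, hi⟩ : ∃ x, B.repr v x ≠ 0 := by
      by_contra hcon
      push Not at hcon
      apply hv
      apply B.repr.injective
      ext x
      simp [hcon x]
    have h0 : ∀ w, blockForm B (B (i, 0)) w = B.repr w (i, 1) := by
      intro w
      simp only [blockForm, Module.Basis.repr_self, Finsupp.single_apply, Prod.mk.injEq]
      rw [Finset.sum_eq_single i]
      · simp
      · intro b _ hb
        simp [Ne.symm hb]
      · simp
    have h1 : ∀ w, blockForm B (B (i, 1)) w = - B.repr w (i, 0) := by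
      intro w
      simp only [blockForm, Module.Basis.repr_self, Finsupp.single_apply, Prod.mk.injEq]
      rw [Finset.sum_eq_single i]
      · simp
      · intro b _ hb
        simp [Ne.symm hb]
      · simp
    have h0' : ∀ w, blockForm B w (B (i, 0)) = - B.repr w (i, 1) := by
      intro w
      simp only [blockForm, Module.Basis.repr_self, Finsupp.single_apply, Prod.mk.injEq]
      rw [Finset.sum_eq_single i]
      · simp
      · intro b _ hb
        simp [Ne.symm hb]
      · simp
    have h1' : ∀ w, blockForm B w (B (i, 1)) = B.repr w (i, 0) := by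
      intro w
      simp only [blockForm, Module.Basis.repr_self, Finsupp.single_apply, Prod.mk.injEq]
      rw [Finset.sum_eq_single i]
      · simp
      · intro b _ hb
        simp [Ne.symm hb]
      · simp
    rcases (by omega : j = 0 ∨ j = 1) with rfl | rfl
    · exact ⟨⟨B (i, 1), by rw [h1]; exact neg_ne_zero.mpr hi⟩, ⟨B (i, 1), by rw [h1']; exact hi⟩⟩
    · exact ⟨⟨B (i, 0), by rw [h0]; exact hi⟩, ⟨B (i, 0), by rw [h0']; exact neg_ne_zero.mpr hi⟩⟩

/-- Blocks of dimension two: the form changes by the determinants. -/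
theorem blockForm_mulVec {t : ℕ} (B : Module.Basis (Fin t × Fin 2) F (ι → F)) {g : GL ι F} {π : Equiv.Perm (Fin t)}
    {A : Fin t → Matrix (Fin 2) (Fin 2) F}
    (hform : ∀ u i j, B.repr ((g : Matrix ι ι F) *ᵥ u) (π i, j) = ∑ j', A i j j' * B.repr u (i, j')) (u v : ι → F) :
    blockForm B ((g : Matrix ι ι F) *ᵥ u) ((g : Matrix ι ι F) *ᵥ v) =
      ∑ i, (A i).det * (B.repr u (i, 0) * B.repr v (i, 1) - B.repr u (i, 1) * B.repr v (i, 0)) := by
  unfold blockForm
  rw [← Equiv.sum_comp π]
  refine Finset.sum_congr rfl fun i _ => ?_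
  simp only [hform, Fin.sum_univ_two, Matrix.det_fin_two]
  ring

/-- **E5**: over the field with two elements a decomposition into planes preserves a symplectic form. -/
theorem planes_two [Fintype F] (hq : Fintype.card F = 2) {t : ℕ} {D : Fin t → Submodule F (ι → F)}
    (hD : IsMDecomposition 2 D) :
    ∃ f : (ι → F) → (ι → F) → F, IsSymplecticForm f ∧ decompositionStabilizer D ≤ similarityGroup f := by
  classical
  obtain ⟨B, hB, hB'⟩ := exists_blockBasis hD
  refine ⟨blockForm B, blockForm_symplectic B, fun g hg => ?_⟩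
  obtain ⟨π, hπ⟩ := hg
  obtain ⟨A, hA, hform⟩ := exists_blocks B hB hB' hπ
  refine ⟨1, fun u v => ?_⟩
  rw [blockForm_mulVec B hform, Units.val_one, one_mul]
  unfold blockForm
  refine Finset.sum_congr rfl fun i _ => ?_
  have h1 := FiniteField.pow_card_sub_one_eq_one _ (hA i)
  rw [hq, pow_one] at h1
  rw [h1, one_mul]

end Cfsg.Agent.Lib.Classical.Asch.Block
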