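import Mathlib
import Cfsg.Agent.Lib.Classical.Asch.MinNormal

/-!
# Aschbacher's theorem: the tensor-wreath outcome

If `L` is minimal over the scalars among subgroups normalised by `G` and is not abelian modulo scalars, then a minimal normal
subgroup `S` of `L` over the scalars is either all of `L`, or its conjugates produce a tensor-power decomposition.
-/

set_option autoImplicit false
set_option linter.style.haveILetI false
set_option linter.unusedSectionVars false

namespace Cfsg.Agent.Lib.Classical.Asch.CaseB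

open scoped MatrixGroups Matrix commutatorElement
open Cfsg.Geo Cfsg.Agent.Lib.Classical.Asch.Basic Cfsg.Agent.Lib.Classical.Asch.Frame
open Cfsg.Agent.Lib.Classical.Asch.Stable Cfsg.Agent.Lib.Classical.Asch.Dichotomy
open Cfsg.Agent.Lib.Classical.Asch.TensorWreath Cfsg.Agent.Lib.Classical.Asch.MinNormal
open Cfsg.Agent.Lib.Classical.Asch.PureTensor

variable {ι : Type} [Fintype ι] [DecidableEq ι] {F : Type*} [Field F]

/-- Minimal normal in `L` over the scalars. -/
structure MinN (L T : Subgroup (GL ι F)) : Prop where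
  scalars_le : scalars ι F ≤ T
  ne_scalars : T ≠ scalars ι F
  le : T ≤ L
  norm : Normalizes L T
  min : ∀ M : Subgroup (GL ι F), scalars ι F ≤ M → M ≤ T → Normalizes L M → M = scalars ι F ∨ M = T

theorem MinN.cj {G L S : Subgroup (GL ι F)} (hS : MinN L S) (hL : Normalizes G L) {g : GL ι F} (hg : g ∈ G) :
    MinN L (cj g S) where
  scalars_le := by
    rw [← cj_scalars g]
    exact cj_mono hS.scalars_le
  ne_scalars := by
    intro h
    apply hS.ne_scalars
    rw [← cj_inv_cj g S, h, cj_scalars]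
  le := by
    intro x hx
    have h1 := hS.le (mem_cj.mp hx)
    have h2 := hL g hg _ h1
    simpa [mul_assoc] using h2
  norm := Normalizes.cj_of_normal hL hS.norm hg
  min := by
    intro M h1 h2 h3
    have h4 : scalars ι F ≤ MinNormal.cj g⁻¹ M := by
      rw [← cj_scalars g⁻¹]
      exact cj_mono h1
    have h5 : MinNormal.cj g⁻¹ M ≤ S := by
      have := cj_mono (g := g⁻¹) h2
      rwa [cj_inv_cj] at this
    have h6 : Normalizes L (MinNormal.cj g⁻¹ M) := Normalizes.cj_of_normal hL h3 (inv_mem hg)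
    rcases hS.min _ h4 h5 h6 with h | h
    · left
      rw [← cj_cj_inv g M, h, cj_scalars]
    · right
      rw [← cj_cj_inv g M, h]

theorem MinN.commutator_le {L T T' : Subgroup (GL ι F)} (hT : MinN L T) (hT' : MinN L T') (hne : T ≠ T') :
    ⁅T, T'⁆ ≤ scalars ι F := by
  have h1 : T ⊓ T' = scalars ι F := by
    have hn : Normalizes L (T ⊓ T') := fun g hg x hx => ⟨hT.norm g hg x hx.1, hT'.norm g hg x hx.2⟩
    rcases hT.min (T ⊓ T') (le_inf hT.scalars_le hT'.scalars_le) inf_le_left hn with h | h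
    · exact h
    · exfalso
      have hle : T ≤ T' := inf_eq_left.mp h
      rcases hT'.min T hT.scalars_le hle hT.norm with h' | h'
      · exact hT.ne_scalars h'
      · exact hne h'
  rw [← h1, Subgroup.commutator_le]
  intro x hx y hy
  rw [commutatorElement_def, Subgroup.mem_inf]
  constructor
  · have h2 := hT.norm y (hT'.le hy) x⁻¹ (inv_mem hx)
    have h3 : x * y * x⁻¹ * y⁻¹ = x * (y * x⁻¹ * y⁻¹) := by group
    rw [h3]
    exact mul_mem hx h2
  · have h2 := hT'.norm x (hT.le hx) y hy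
    exact mul_mem h2 (inv_mem hy)

theorem mem_cent_cj {g : GL ι F} {N : Subgroup (GL ι F)} {x : Matrix ι ι F} :
    x ∈ cent (cj g N) ↔ Basic.conj g⁻¹ x ∈ cent N := by
  rw [mem_cent, mem_cent]
  constructor
  · intro h y hy
    have h1 := h _ (mul_mem_cj (g := g) hy)
    have h2 := congrArg (Basic.conj g⁻¹) h1
    rw [Basic.conj_mul, Basic.conj_mul, ← conj_coe, conj_inv_conj] at h2
    exact h2
  · intro h y hy
    have h1 := h _ (mem_cj.mp hy)
    have h2 := congrArg (Basic.conj g) h1
    rw [Basic.conj_mul, Basic.conj_mul, conj_conj_inv] at h2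
    have h3 : Basic.conj g ((g⁻¹ * y * g : GL ι F) : Matrix ι ι F) = (y : Matrix ι ι F) := by
      rw [conj_coe]
      congr 1
      group
    rwa [h3] at h2

theorem conj_one_left (x : Matrix ι ι F) : Basic.conj (1 : GL ι F) x = x := by
  simp [Basic.conj]

/-- The data of the tensor-power outcome. -/
structure WreathData (G K : Subgroup (GL ι F)) (d t : ℕ) (e : ι ≃ (Fin t → Fin d)) (P : GL ι F)
    (φ : Matrix (Fin d) (Fin d) F →ₐ[F] Matrix ι ι F) (gs : Fin t → GL ι F) : Prop where
  hd : 2 ≤ d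
  ht : 2 ≤ t
  le : G ≤ tensorWreathSubgroup d t e P
  hgs : ∀ i, gs i ∈ G
  coords : ∀ i c, Basic.conj (gs i) (φ c) * (P : Matrix ι ι F) = (P : Matrix ι ι F) * (slot i c).submatrix e e
  scal : ∀ x : Matrix ι ι F, (∀ i a, x * Basic.conj (gs i) (φ a) = Basic.conj (gs i) (φ a) * x) → ∃ c : F, x = c • 1
  inj : Function.Injective φ
  comm : ∀ a, ∀ y ∈ cent K, φ a * y = y * φ a
  bicomm : ∀ x : Matrix ι ι F, (∀ y ∈ cent K, x * y = y * x) → ∃ a, φ a = x
  K_le : K ≤ G
  K_perf : ⁅K, K⁆ = K
  K_ne : ¬ K ≤ scalars ι F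

/-- The tensor-power outcome. -/
theorem eq_or_wreathData [Fintype F] [Nonempty ι] {G L S : Subgroup (GL ι F)}
    (hD : Dich G) (hL : IsMinOver G L)
    (hLc : ¬ ⁅L, L⁆ ≤ scalars ι F) (hS : MinN L S) :
    S = L ∨ ∃ (K : Subgroup (GL ι F)) (d t : ℕ) (e : ι ≃ (Fin t → Fin d)) (P : GL ι F)
      (φ : Matrix (Fin d) (Fin d) F →ₐ[F] Matrix ι ι F) (gs : Fin t → GL ι F), WreathData G K d t e P φ gs := by
  classical
  -- the conjugates
  have hconj : ∀ g ∈ G, MinN L (cj g S) := fun g hg => hS.cj hL.norm hg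
  -- they generate `L`
  have hJ : (⨆ g : G, cj (g : GL ι F) S) = L := by
    have h1 : scalars ι F ≤ ⨆ g : G, cj (g : GL ι F) S :=
      (hconj 1 (one_mem G)).scalars_le.trans (le_iSup (fun g : G => cj (g : GL ι F) S) (1 : G))
    have h2 : (⨆ g : G, cj (g : GL ι F) S) ≤ L := iSup_le fun g => (hconj g g.2).le
    have h3 : Normalizes G (⨆ g : G, cj (g : GL ι F) S) := by
      refine Normalizes.iSup fun h hh g => ⟨⟨h * g, mul_mem hh g.2⟩, ?_⟩
      exact (cj_mul h (g : GL ι F) S).symm.le
    rcases hL.min _ h1 h2 h3 with h | h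
    · exfalso
      have h4 : S ≤ scalars ι F := by
        rw [← h]
        have := le_iSup (fun g : G => cj (g : GL ι F) S) (1 : G)
        simpa [cj_one] using this
      exact hS.ne_scalars (le_antisymm h4 hS.scalars_le)
    · exact h
  -- `S` is not abelian modulo scalars
  have hSc : ¬ ⁅S, S⁆ ≤ scalars ι F := by
    intro hc
    apply hLc
    have h1 : ∀ g ∈ G, ∀ g' ∈ G, ⁅cj g S, cj g' S⁆ ≤ scalars ι F := by
      intro g hg g' hg'
      by_cases h : cj g S = cj g' S
      · rw [← h, ← cj_commutator, ← cj_scalars g]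
        exact cj_mono hc
      · exact (hconj g hg).commutator_le (hconj g' hg') h
    have h2 : ∀ g' ∈ G, L ≤ modCent (cj g' S) := by
      intro g' hg'
      rw [← hJ]
      refine iSup_le fun g => ?_
      exact commutator_le_scalars_iff.mp (h1 g g.2 g' hg')
    rw [commutator_le_scalars_iff]
    conv_lhs => rw [← hJ]
    refine iSup_le fun g => ?_
    rw [← commutator_le_scalars_iff, Subgroup.commutator_comm, commutator_le_scalars_iff]
    exact h2 g g.2
  -- the core
  set K : Subgroup (GL ι F) := ⁅S, S⁆ with hK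
  have hKn : Normalizes L K := Normalizes.commutator hS.norm hS.norm
  have hKS : K ⊔ scalars ι F = S := by
    have h1 : K ≤ S := by
      rw [hK, Subgroup.commutator_le]
      intro x hx y hy
      rw [commutatorElement_def]
      exact mul_mem (mul_mem (mul_mem hx hy) (inv_mem hx)) (inv_mem hy)
    rcases hS.min (K ⊔ scalars ι F) le_sup_right (sup_le h1 hS.scalars_le) (Normalizes.sup hKn (normalizes_scalars L)) with h | h
    · exfalso
      exact hSc (sup_eq_right.mp h)
    · exact h
  -- `L` is absolutely irreducible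
  have hLZ : ¬ L ≤ scalars ι F := fun h => hL.ne_scalars (le_antisymm h hL.scalars_le)
  obtain ⟨hLirr, hLcs⟩ : (∀ W : Submodule F (ι → F), Inv L W → W = ⊥ ∨ W = ⊤) ∧ CentScalar L := by
    rcases hD L hL.le hL.norm with h | h
    · exact absurd h hLZ
    · exact h
  -- commutant test
  have hcentL : ∀ x : Matrix ι ι F, (∀ g ∈ G, x ∈ cent (cj g K)) → x ∈ cent L := by
    intro x hx
    rw [mem_cent_iff_le_commSub, ← hJ]
    refine iSup_le fun g => ?_
    rw [← hKS, cj_sup, cj_scalars]
    exact sup_le (mem_cent_iff_le_commSub.mp (hx g g.2)) (scalars_le_commSub x)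
  -- the other conjugates commute with `K`
  have hcommK : ∀ g ∈ G, ∀ g' ∈ G, cj g S ≠ cj g' S → ∀ x ∈ cj g K, ∀ y ∈ cj g' K,
      (x : Matrix ι ι F) * (y : Matrix ι ι F) = (y : Matrix ι ι F) * (x : Matrix ι ι F) := by
    intro g hg g' hg' hne x hx y hy
    have h1 := (hconj g hg).commutator_le (hconj g' hg') hne
    have h2 := commutator_commutator_eq_bot h1
    rw [← cj_commutator] at h2
    have h3 : y ∈ cj g' S := by
      rw [← hKS, cj_sup]
      exact Subgroup.mem_sup_left hy
    have h4 := comm_of_commutator_eq_bot h2 hx h3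
    simpa using congrArg Units.val h4
  -- semisimplicity of the centraliser
  haveI : IsSemisimpleRing ↥(cent K) := isSemisimpleRing_of_stable hLirr (stable_cent hKn)
  have hcj1 : cj (1 : GL ι F) K = K := cj_one K
  have hZ : ∀ z ∈ cent K, (∀ y ∈ cent K, z * y = y * z) → ∃ c : F, z = c • (1 : Matrix ι ι F) := by
    intro z hz hzy
    apply hLcs z
    apply hcentL
    intro g hg
    by_cases h : cj g S = S
    · have : cj g K = K := by
        rw [hK, cj_commutator, h]
      rwa [this]
    · rw [mem_cent]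
      intro y hy
      have h1 : (y : Matrix ι ι F) ∈ cent K := by
        rw [mem_cent]
        intro x hx
        have h2 := hcommK 1 (one_mem G) g hg (by rw [cj_one]; exact fun h' => h h'.symm) x
          (by rw [cj_one]; exact hx) y hy
        exact h2
      exact (hzy _ h1).symm
  obtain ⟨d, k, ψ, e, P, hfr⟩ := exists_frameData hZ
  -- the outer factor has dimension at least two
  have hd : 2 ≤ d := by
    by_contra hd
    have hd1 : d = 1 := by
      have := hfr.hd
      omega
    subst hd1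
    apply hSc
    intro x hx
    obtain ⟨a, ha⟩ := hfr.exists_outer_eq (x := (x : Matrix ι ι F)) (fun y hy => mem_cent.mp hy x hx)
    rw [mem_scalars_iff']
    refine ⟨a 0 0, ?_⟩
    rw [← ha]
    have hm : a = a 0 0 • (1 : Matrix (Fin 1) (Fin 1) F) := by
      ext i j
      rw [Fin.fin_one_eq_zero i, Fin.fin_one_eq_zero j]
      simp
    conv_lhs => rw [hm]
    rw [map_smul, map_one]
  -- the range of the transported outer algebra
  let φ : Matrix (Fin d) (Fin d) F →ₐ[F] Matrix ι ι F := outer e P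
  have hφ1 : ∀ (g : GL ι F) (a : Matrix (Fin d) (Fin d) F) (y : Matrix ι ι F), y ∈ cent (cj g K) →
      Basic.conj g (φ a) * y = y * Basic.conj g (φ a) := by
    intro g a y hy
    have h1 := hfr.outer_comm a (mem_cent_cj.mp hy)
    have h2 := congrArg (Basic.conj g) h1
    rw [Basic.conj_mul, Basic.conj_mul, conj_conj_inv] at h2
    exact h2
  have hφ2 : ∀ (g : GL ι F) (x : Matrix ι ι F), (∀ y ∈ cent (cj g K), x * y = y * x) →
      ∃ a, Basic.conj g (φ a) = x := by
    intro g x hx
    obtain ⟨a, ha⟩ := hfr.exists_outer_eq (x := Basic.conj g⁻¹ x) (fun y hy => by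
      have h1 : Basic.conj g y ∈ cent (cj g K) := by
        rw [mem_cent_cj, conj_inv_conj]
        exact hy
      have h2 := congrArg (Basic.conj g⁻¹) (hx _ h1)
      rwa [Basic.conj_mul, Basic.conj_mul, conj_inv_conj] at h2)
    refine ⟨a, ?_⟩
    change Basic.conj g (outer e P a) = x
    rw [ha, conj_conj_inv]
  have hφ3 : ∀ (g x : GL ι F), x ∈ cj g K → ∃ a, Basic.conj g (φ a) = (x : Matrix ι ι F) := by
    intro g x hx
    exact hφ2 g _ fun y hy => mem_cent.mp hy x hx
  -- indexing the conjugates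
  haveI : Finite (Subgroup (GL ι F)) := Finite.of_injective (fun H => (H : Set (GL ι F))) SetLike.coe_injective
  let T := {X : Subgroup (GL ι F) // ∃ g, g ∈ G ∧ cj g S = X}
  letI : Fintype T := Fintype.ofFinite T
  by_cases ht : Fintype.card T ≤ 1
  · -- one conjugate
    left
    haveI : Subsingleton T := Fintype.card_le_one_iff_subsingleton.mp ht
    have h1 : Normalizes G S := by
      intro g hg x hx
      have h2 : (⟨cj g S, g, hg, rfl⟩ : T) = ⟨S, 1, one_mem G, cj_one S⟩ := Subsingleton.elim _ _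
      have h3 : cj g S = S := congrArg Subtype.val h2
      rw [← h3]
      exact mul_mem_cj hx
    rcases hL.min S hS.scalars_le hS.le h1 with h | h
    · exact absurd h hS.ne_scalars
    · exact h
  right
  have ht2 : 2 ≤ Fintype.card T := by omega
  set t := Fintype.card T with htdef
  let eT : T ≃ Fin t := Fintype.equivFin T
  let gs : Fin t → GL ι F := fun i => (eT.symm i).2.choose
  have hgs : ∀ i, gs i ∈ G := fun i => (eT.symm i).2.choose_spec.1
  have hgs' : ∀ i, cj (gs i) S = (eT.symm i).1 := fun i => (eT.symm i).2.choose_spec.2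
  have hgsK : ∀ (i : Fin t) (g : GL ι F), cj g S = cj (gs i) S → cj g K = cj (gs i) K := by
    intro i g h
    rw [hK, cj_commutator, cj_commutator, h]
  have hex : ∀ g ∈ G, ∃ i, cj g S = cj (gs i) S := by
    intro g hg
    refine ⟨eT ⟨cj g S, g, hg, rfl⟩, ?_⟩
    rw [hgs', Equiv.symm_apply_apply]
  have hgsne : ∀ i j : Fin t, i ≠ j → cj (gs i) S ≠ cj (gs j) S := by
    intro i j hij h
    apply hij
    rw [hgs', hgs'] at h
    exact eT.symm.injective (Subtype.ext h)
  let ψ' : Fin t → (Matrix (Fin d) (Fin d) F →ₐ[F] Matrix ι ι F) := fun i =>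
    (conjAlg (gs i)).toAlgHom.comp φ
  have hψ' : ∀ i a, ψ' i a = Basic.conj (gs i) (φ a) := fun i a => rfl
  have hcomm : ∀ i j, i ≠ j → ∀ a b, ψ' i a * ψ' j b = ψ' j b * ψ' i a := by
    intro i j hij a b
    rw [hψ', hψ']
    refine hφ1 (gs j) b _ ?_ |>.symm
    rw [mem_cent]
    intro y hy
    refine (hφ1 (gs i) a _ ?_).symm
    rw [mem_cent]
    intro y' hy'
    exact hcommK _ (hgs i) _ (hgs j) (hgsne i j hij) y' hy' y hy
  have hscal : ∀ x : Matrix ι ι F, (∀ i a, x * ψ' i a = ψ' i a * x) → ∃ c : F, x = c • 1 := by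
    intro x hx
    apply hLcs x
    apply hcentL
    intro g hg
    obtain ⟨i, hi⟩ := hex g hg
    rw [hgsK i g hi, mem_cent]
    intro y hy
    obtain ⟨a, ha⟩ := hφ3 _ _ hy
    rw [← ha, ← hψ']
    exact (hx i a).symm
  have hm : 0 < d := by omega
  obtain ⟨e', P', hP'⟩ := exists_coords hm t ψ' hcomm hscal
  have hK1 : K ≤ S := by
    rw [← hKS]
    exact le_sup_left
  have hKperf : ⁅K, K⁆ = K := by
    refine le_antisymm ?_ ?_
    · exact Subgroup.commutator_mono hK1 hK1
    · conv_lhs => rw [hK, ← hKS]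
      exact commutator_sup_scalars_le K K
  refine ⟨K, d, t, e', P', φ, gs, hd, ht2, fun g hg => ?_, hgs, fun i c => hP' i c, fun x hx => hscal x hx,
    outer_injective hfr.hk e P, fun a y hy => ?_, fun x hx => ?_, hK1.trans (hS.le.trans hL.le), hKperf,
    fun h => hSc h⟩
  rotate_left
  · have := hφ1 1 a y (by rw [cj_one]; exact hy)
    rwa [conj_one_left] at this
  · obtain ⟨a, ha⟩ := hφ2 1 x (by rw [cj_one]; exact hx)
    rw [conj_one_left] at ha
    exact ⟨a, ha⟩
  -- the permutation
  let τ : T → T := fun X => ⟨cj g X.1, by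
    obtain ⟨g', hg', h⟩ := X.2
    exact ⟨g * g', mul_mem hg hg', by rw [cj_mul, h]⟩⟩
  let τ' : T → T := fun X => ⟨cj g⁻¹ X.1, by
    obtain ⟨g', hg', h⟩ := X.2
    exact ⟨g⁻¹ * g', mul_mem (inv_mem hg) hg', by rw [cj_mul, h]⟩⟩
  let τE : T ≃ T := ⟨τ, τ', fun X => Subtype.ext (cj_inv_cj g X.1), fun X => Subtype.ext (cj_cj_inv g X.1)⟩
  let π : Equiv.Perm (Fin t) := (eT.symm.trans τE).trans eT
  have hπ : ∀ i, cj (gs (π i)) S = cj g (cj (gs i) S) := by
    intro i
    rw [hgs', hgs']
    have : eT.symm (π i) = τE (eT.symm i) := by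
      simp [π]
    rw [this]
    rfl
  have hπK : ∀ i, cj (gs (π i)) K = cj g (cj (gs i) K) := by
    intro i
    rw [hK, cj_commutator, cj_commutator, cj_commutator, hπ]
  refine mem_tensorWreath_of_perm hm (by omega) ψ' hscal e' P' hP' g π fun i c => ?_
  obtain ⟨c', hc'⟩ := hφ2 (gs (π i)) (Basic.conj g (ψ' i c)) (by
    intro y hy
    rw [hπK, mem_cent_cj] at hy
    have h1 := hφ1 (gs i) c _ hy
    have h2 := congrArg (Basic.conj g) h1
    rwa [Basic.conj_mul, Basic.conj_mul, conj_conj_inv] at h2)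
  refine ⟨c', ?_⟩
  rw [hψ' (π i) c', hc']
  unfold Basic.conj
  rw [mul_assoc, ← Units.val_mul, inv_mul_cancel, Units.val_one, mul_one]

theorem eq_or_tensorWreath [Fintype F] [Nonempty ι] {G L S : Subgroup (GL ι F)}
    (hD : Dich G) (hL : IsMinOver G L)
    (hLc : ¬ ⁅L, L⁆ ≤ scalars ι F) (hS : MinN L S) :
    S = L ∨ ∃ (d t : ℕ) (e : ι ≃ (Fin t → Fin d)) (P : GL ι F), 2 ≤ d ∧ 2 ≤ t ∧ G ≤ tensorWreathSubgroup d t e P := by
  rcases eq_or_wreathData hD hL hLc hS with h | ⟨_, d, t, e, P, _, _, hw⟩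
  · exact Or.inl h
  · exact Or.inr ⟨d, t, e, P, hw.hd, hw.ht, hw.le⟩

end Cfsg.Agent.Lib.Classical.Asch.CaseB
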