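import Mathlib
import Cfsg.Agent.Lib.Classical.Asch.Adj
import Cfsg.Agent.Lib.Classical.Herm.PSLGraphField

/-!
# Field subalgebras closed under the adjoint
-/

set_option autoImplicit false
set_option linter.style.haveILetI false
set_option linter.unusedSectionVars false

namespace Cfsg.Agent.Lib.Classical.Asch.FormField

open scoped MatrixGroups Matrix
open Cfsg.Geo Cfsg.Agent.Lib.Classical.Asch.Basic Cfsg.Agent.Lib.Classical.Asch.Forms
open Cfsg.Agent.Lib.Classical.Asch.Adj

/-- Involutive automorphisms of a finite field extension of prime degree. -/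
theorem aut_dichotomy {F L : Type*} [Field F] [Field L] [Algebra F L] [Finite L] {r : ℕ} (hr : r.Prime)
    (hL : Module.finrank F L = r) (τ : L ≃ₐ[F] L) (hτ : ∀ x, τ (τ x) = x) :
    (∀ x, τ x = x) ∨ (r = 2 ∧ ∀ x, τ x = x → x ∈ (algebraMap F L).range) := by
  classical
  by_cases h1 : τ = 1
  · left
    intro x
    rw [h1]
    rfl
  right
  haveI : Finite F := Finite.of_injective (algebraMap F L) (algebraMap F L).injective
  haveI : FiniteDimensional F L := Module.Finite.of_finite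
  haveI : Fintype F := Fintype.ofFinite F
  have hsq : τ ^ 2 = 1 := by
    ext x
    rw [pow_two]
    exact hτ x
  have hord : orderOf τ = 2 := orderOf_eq_prime hsq h1
  have hcard : Nat.card (L ≃ₐ[F] L) = r := by
    rw [IsGalois.card_aut_eq_finrank, hL]
  have h2 : 2 ∣ r := by
    rw [← hord, ← hcard]
    exact orderOf_dvd_natCard τ
  have hr2 : r = 2 := ((Nat.prime_dvd_prime_iff_eq Nat.prime_two hr).mp h2).symm
  refine ⟨hr2, fun x hx => ?_⟩
  have h3 : x ∈ (⊥ : IntermediateField F L) := by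
    refine (IsGalois.mem_bot_iff_fixed x).mpr fun g => ?_
    by_cases hg : g = 1
    · rw [hg]
      rfl
    · have hc2 : Nat.card (L ≃ₐ[F] L) = 2 := by rw [hcard, hr2]
      obtain ⟨y, _, hy⟩ := (Nat.card_eq_two_iff' (1 : L ≃ₐ[F] L)).mp hc2
      have h4 : g = y := hy g hg
      have h5 : τ = y := hy τ h1
      rw [h4, ← h5]
      exact hx
  exact IntermediateField.mem_bot.mp h3

variable {ι : Type} [Fintype ι] [DecidableEq ι] {F : Type*} [Field F]
variable {ε : F} {f : (ι → F) → (ι → F) → F} {K : Subalgebra F (Matrix ι ι F)} {r : ℕ}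

theorem isField_of [Nonempty ι] (hK : IsFieldSubalgebra r K) : IsField ↥K :=
  { exists_pair_ne := ⟨0, 1, fun h => one_ne_zero (α := Matrix ι ι F) (congrArg Subtype.val h).symm⟩
    mul_comm := fun x y => Subtype.ext (hK.comm x.1 x.2 y.1 y.2)
    mul_inv_cancel := fun {a} ha => by
      obtain ⟨y, hy, hxy⟩ := hK.inv a.1 a.2 (fun h => ha (Subtype.ext h))
      exact ⟨⟨y, hy⟩, Subtype.ext hxy⟩ }

/-- **The adjoint on a field subalgebra**, bilinear case. -/
theorem adj_field_dichotomy [Fintype F] [Nonempty ι] (hf : ReflForm (RingEquiv.refl F) ε f) (hr : r.Prime)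
    (hK : IsFieldSubalgebra r K) (hA : AdjClosed (RingEquiv.refl F) f K) :
    (∀ k ∈ K, adj (RingEquiv.refl F) f k = k) ∨
    (r = 2 ∧ ∀ k ∈ K, adj (RingEquiv.refl F) f k = k → ∃ c : F, k = c • (1 : Matrix ι ι F)) := by
  classical
  letI instF : Field ↥K := (isField_of hK).toField
  letI instA : Algebra F ↥K := K.algebra
  haveI : Finite ↥K := inferInstance
  let τ₀ : ↥K →ₐ[F] ↥K :=
    { toFun := fun x => ⟨adj (RingEquiv.refl F) f x, hA x x.2⟩
      map_one' := Subtype.ext (hf.adj_one)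
      map_mul' := fun x y => Subtype.ext (by
        change adj _ f ((x : Matrix ι ι F) * y) = adj _ f (x : Matrix ι ι F) * adj _ f (y : Matrix ι ι F)
        rw [hf.adj_mul]
        exact hK.comm _ (hA y y.2) _ (hA x x.2))
      map_zero' := Subtype.ext hf.adj_zero
      map_add' := fun x y => Subtype.ext (hf.adj_add _ _)
      commutes' := fun c => Subtype.ext (by
        change adj _ f (algebraMap F (Matrix ι ι F) c) = algebraMap F (Matrix ι ι F) c
        rw [Algebra.algebraMap_eq_smul_one, hf.adj_smul, hf.adj_one]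
        rfl) }
  have hτ₀ : ∀ x : ↥K, ((τ₀ x : ↥K) : Matrix ι ι F) = adj (RingEquiv.refl F) f x := fun _ => rfl
  have hinv : ∀ x, τ₀ (τ₀ x) = x := fun x => Subtype.ext (by
    rw [hτ₀, hτ₀, hf.adj_adj])
  let τ : ↥K ≃ₐ[F] ↥K := AlgEquiv.ofAlgHom τ₀ τ₀ (AlgHom.ext hinv) (AlgHom.ext hinv)
  have hτ : ∀ x : ↥K, τ x = τ₀ x := fun _ => rfl
  rcases aut_dichotomy (F := F) (L := ↥K) hr hK.finrank_eq τ (fun x => by rw [hτ, hτ, hinv]) with h | ⟨h2, h⟩
  · left
    intro k hk
    have := congrArg Subtype.val (h ⟨k, hk⟩)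
    exact this
  · right
    refine ⟨h2, fun k hk hadj => ?_⟩
    obtain ⟨c, hc⟩ := h ⟨k, hk⟩ (Subtype.ext hadj)
    refine ⟨c, ?_⟩
    have h5 : ((algebraMap F ↥K c : ↥K) : Matrix ι ι F) = k := congrArg Subtype.val hc
    rw [← h5]
    exact Algebra.algebraMap_eq_smul_one c

/-- A unitary form admits no adjoint-closed field subalgebra of degree two. -/
theorem not_adjClosed_two [Fintype F] [Nonempty ι] {σ : F ≃+* F} (hf : ReflForm σ ε f) (hσ1 : σ ≠ RingEquiv.refl F)
    (hK : IsFieldSubalgebra 2 K) (hA : AdjClosed σ f K) : False := by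
  classical
  letI instF : Field ↥K := (isField_of hK).toField
  letI instA : Algebra F ↥K := K.algebra
  letI : Fintype ↥K := Fintype.ofFinite _
  let τ : ↥K ≃+* ↥K :=
    { toFun := fun x => ⟨adj σ f x, hA x x.2⟩
      invFun := fun x => ⟨adj σ f x, hA x x.2⟩
      left_inv := fun x => Subtype.ext (hf.adj_adj _)
      right_inv := fun x => Subtype.ext (hf.adj_adj _)
      map_mul' := fun x y => Subtype.ext (by
        change adj _ f ((x : Matrix ι ι F) * y) = adj _ f (x : Matrix ι ι F) * adj _ f (y : Matrix ι ι F)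
        rw [hf.adj_mul]
        exact hK.comm _ (hA y y.2) _ (hA x x.2))
      map_add' := fun x y => Subtype.ext (hf.adj_add _ _) }
  have hτ : ∀ x : ↥K, ((τ x : ↥K) : Matrix ι ι F) = adj σ f x := fun _ => rfl
  have hsc : ∀ c : F, c • (1 : Matrix ι ι F) ∈ K := fun c => K.smul_mem K.one_mem c
  have hτsc : ∀ c : F, τ ⟨c • 1, hsc c⟩ = ⟨σ c • 1, hsc _⟩ := fun c => Subtype.ext (by
    rw [hτ, hf.adj_smul, hf.adj_one])
  have hinj : ∀ a b : F, (⟨a • 1, hsc a⟩ : ↥K) = ⟨b • 1, hsc b⟩ → a = b := by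
    intro a b h
    obtain ⟨i⟩ := ‹Nonempty ι›
    have h1 := congrFun (congrFun (congrArg Subtype.val h) i) i
    simpa using h1
  apply hσ1
  ext c
  apply hinj
  rw [← hτsc]
  by_cases hτ1 : τ = 1
  · rw [hτ1]
    rfl
  -- the involution of the automorphism group
  obtain ⟨p, hpc⟩ := CharP.exists F
  obtain ⟨e, hp, hF⟩ := FiniteField.card F p
  haveI : Fact p.Prime := ⟨hp⟩
  have hcardK : Fintype.card ↥K = p ^ ((e : ℕ) * 2) := by
    rw [← Nat.card_eq_fintype_card, Module.natCard_eq_pow_finrank (K := F) (V := ↥K), hK.finrank_eq,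
      Nat.card_eq_fintype_card, hF, pow_mul]
  have hsq : τ ^ 2 = 1 := by
    refine RingEquiv.ext fun x => ?_
    rw [pow_two]
    exact τ.left_inv x
  obtain ⟨-, hF₀, hτe⟩ := Cfsg.Agent.Lib.Classical.Herm.PSLGraphField.involution_eq hcardK
    (by have := e.pos; omega) τ hτ1 hsq
  rw [hτe, Cfsg.Agent.Lib.Classical.Herm.PSLGraphField.sigE_apply]
  apply Subtype.ext
  have h2 : (e : ℕ) * 2 / 2 = e := by omega
  rw [h2]
  have h3 : (((⟨c • 1, hsc c⟩ : ↥K) ^ (p ^ (e : ℕ)) : ↥K) : Matrix ι ι F) = (c • (1 : Matrix ι ι F)) ^ (p ^ (e : ℕ)) := rfl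
  rw [h3, smul_pow, one_pow, ← hF, FiniteField.pow_card]
  rfl

end Cfsg.Agent.Lib.Classical.Asch.FormField
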