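import Mathlib
import Cfsg.Agent.Lib.Classical.Asch.FieldCount
import Cfsg.Agent.Lib.Classical.Asch.FormField

/-!
# Over the field with four elements, the normaliser of a cubic subfield lies in a subfield group

`K ≤ M₃(F)`, `|F| = 4`, `K` a field of degree three: the determinant-one part of the normaliser of `K`
preserves, up to scalars, an `F₂`-form of `F³`, namely `K₀ v` with `K₀ = {x ∈ K | x⁸ = x}`.
-/

set_option autoImplicit false
set_option linter.style.haveILetI false
set_option linter.unusedSectionVars false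

namespace Cfsg.Agent.Lib.Classical.Asch.CubicFour

open scoped MatrixGroups Matrix
open Cfsg.Geo

section Abs

variable {F L : Type*} [Field F] [Fintype F] [Field L] [Algebra F L] [Finite L]

lemma two_eq_zero (hF : Fintype.card F = 4) : (2 : F) = 0 := by
  have h := FiniteField.cast_card_eq_zero F
  rw [hF] at h
  have h2 : (2 : F) * 2 = 0 := by
    have : (2 : F) * 2 = ((4 : ℕ) : F) := by push_cast; norm_num
    rw [this]; exact h
  simpa using h2

lemma charTwoF (hF : Fintype.card F = 4) : CharP F 2 :=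
  CharTwo.of_one_ne_zero_of_two_eq_zero one_ne_zero (two_eq_zero hF)

lemma charTwoL (hF : Fintype.card F = 4) : CharP L 2 := by
  apply CharTwo.of_one_ne_zero_of_two_eq_zero one_ne_zero
  have h := two_eq_zero hF
  calc (2 : L) = algebraMap F L 2 := (map_ofNat (algebraMap F L) 2).symm
    _ = 0 := by rw [h, map_zero]

lemma pow_four (hF : Fintype.card F = 4) (a : F) : a ^ 4 = a := by
  rw [← hF]; exact FiniteField.pow_card a

lemma card_L (hF : Fintype.card F = 4) (hL : Module.finrank F L = 3) : Nat.card L = 64 := by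
  classical
  haveI : Fintype L := Fintype.ofFinite L
  rw [Nat.card_eq_fintype_card, Module.card_eq_pow_finrank (K := F) (V := L), hF, hL]
  norm_num

lemma add_eight (hF : Fintype.card F = 4) (x y : L) : (x + y) ^ 8 = x ^ 8 + y ^ 8 := by
  haveI := charTwoL (F := F) (L := L) hF
  haveI : Fact (Nat.Prime 2) := ⟨Nat.prime_two⟩
  have := add_pow_char_pow (R := L) (p := 2) (n := 3) x y
  simpa using this

/-- The fixed points of `x ↦ x⁸`: eight of them. -/
lemma ncard_eight (hF : Fintype.card F = 4) (hL : Module.finrank F L = 3) :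
    Set.ncard {x : L | x ^ 8 = x} = 8 :=
  FieldCount.ncard_pow_eq_self (L := L) (m := 8) (by rw [card_L hF hL]; norm_num)

lemma ncard_four (hF : Fintype.card F = 4) (hL : Module.finrank F L = 3) :
    Set.ncard {x : L | x ^ 4 = x} = 4 :=
  FieldCount.ncard_pow_eq_self (L := L) (m := 4) (by rw [card_L hF hL]; norm_num)

/-- Fourth-power fixed points are the scalars. -/
lemma mem_scalar_of_pow_four (hF : Fintype.card F = 4) (hL : Module.finrank F L = 3) {x : L}
    (hx : x ^ 4 = x) : ∃ a : F, x = algebraMap F L a := by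
  classical
  have hsub : (Set.range (algebraMap F L)) ⊆ {x : L | x ^ 4 = x} := by
    rintro _ ⟨a, rfl⟩
    show (algebraMap F L a) ^ 4 = _
    rw [← map_pow, pow_four hF]
  have hcard : Set.ncard (Set.range (algebraMap F L)) = 4 := by
    rw [← Set.image_univ, Set.ncard_image_of_injective _ (algebraMap F L).injective, Set.ncard_univ,
      Nat.card_eq_fintype_card, hF]
  have := Set.eq_of_subset_of_ncard_le hsub (by rw [hcard, ncard_four hF hL]) (Set.toFinite _)
  have hx' : x ∈ Set.range (algebraMap F L) := by rw [this]; exact hx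
  obtain ⟨a, rfl⟩ := hx'
  exact ⟨a, rfl⟩

/-- Scalars among the eighth-power fixed points are `0, 1`. -/
lemma eq_zero_or_one_of_scalar (hF : Fintype.card F = 4) {a : F}
    (h8 : (algebraMap F L a) ^ 8 = algebraMap F L a) : a = 0 ∨ a = 1 := by
  have h9 : a ^ 8 = a := by
    rw [← map_pow] at h8
    exact (algebraMap F L).injective h8
  have h4 := pow_four hF a
  have h2 : a ^ 2 = a := by
    have : a ^ 8 = (a ^ 4) ^ 2 := by ring
    rw [this, h4] at h9
    exact h9
  by_cases h0 : a = 0
  · exact Or.inl h0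
  · right
    have : a * (a - 1) = 0 := by linear_combination h2
    rcases mul_eq_zero.mp this with h | h
    · exact absurd h h0
    · exact sub_eq_zero.mp h

lemma eight_smul (hF : Fintype.card F = 4) (a : F) (x : L) :
    (algebraMap F L a * x) ^ 8 = algebraMap F L (a ^ 2) * x ^ 8 := by
  rw [mul_pow, ← map_pow]
  congr 2
  have : a ^ 8 = (a ^ 4) ^ 2 := by ring
  rw [this, pow_four hF]

/-- Existence of a generator of the cubic subfield over `F₂`, independent over `F`. -/
lemma exists_beta (hF : Fintype.card F = 4) (hL : Module.finrank F L = 3) :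
    ∃ β : L, β ^ 8 = β ∧ (∀ a : F, β ≠ algebraMap F L a) ∧
      ∀ a b c : F, algebraMap F L a + algebraMap F L b * β + algebraMap F L c * β ^ 2 = 0 →
        a = 0 ∧ b = 0 ∧ c = 0 := by
  classical
  have hex : ∃ β : L, β ^ 8 = β ∧ β ≠ 0 ∧ β ≠ 1 := by
    by_contra hcon
    push Not at hcon
    have hsub : {x : L | x ^ 8 = x} ⊆ {0, 1} := by
      intro x hx
      by_cases h0 : x = 0
      · exact Or.inl h0
      · exact Or.inr (hcon x hx h0)
    have h1 := Set.ncard_le_ncard hsub (Set.toFinite _)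
    rw [ncard_eight hF hL] at h1
    have h2 : Set.ncard ({0, 1} : Set L) ≤ 2 := Set.ncard_insert_le _ _ |>.trans (by simp)
    omega
  obtain ⟨β, h8, h0, h1⟩ := hex
  have hnF : ∀ a : F, β ≠ algebraMap F L a := by
    rintro a rfl
    rcases eq_zero_or_one_of_scalar hF h8 with rfl | rfl
    · simp at h0
    · simp at h1
  refine ⟨β, h8, hnF, ?_⟩
  intro a b c h
  have hfrob : algebraMap F L (a ^ 2) + algebraMap F L (b ^ 2) * β + algebraMap F L (c ^ 2) * β ^ 2 = 0 := by
    have h2 : (algebraMap F L a + algebraMap F L b * β + algebraMap F L c * β ^ 2) ^ 8 = 0 := by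
      rw [h]; simp
    rw [add_eight hF, add_eight hF, eight_smul hF, eight_smul hF] at h2
    have ha : (algebraMap F L a) ^ 8 = algebraMap F L (a ^ 2) := by
      rw [← map_pow]
      congr 1
      have : a ^ 8 = (a ^ 4) ^ 2 := by ring
      rw [this, pow_four hF]
    have hb2 : (β ^ 2) ^ 8 = β ^ 2 := by
      have : (β ^ 2) ^ 8 = (β ^ 8) ^ 2 := by ring
      rw [this, h8]
    rw [ha, h8, hb2] at h2
    exact h2
  have hlin : ∀ p q : F, algebraMap F L q * β = algebraMap F L p → q = 0 := by
    intro p q hpq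
    by_contra hq
    apply hnF (p * q⁻¹)
    have hq' : algebraMap F L q ≠ 0 := by simpa using hq
    have : β = algebraMap F L p * (algebraMap F L q)⁻¹ := by
      rw [← hpq]
      field_simp
    rw [this, map_mul, map_inv₀]
  by_cases hc : c = 0
  · subst hc
    have hb : b = 0 := by
      apply hlin (-a) b
      rw [map_neg]
      simp only [map_zero, zero_mul, add_zero] at h
      exact eq_neg_of_add_eq_zero_right h
    subst hb
    have ha : a = 0 := by
      simpa using h
    exact ⟨ha, rfl, rfl⟩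
  · exfalso
    -- `β² = pβ + q`
    have hcL : algebraMap F L c ≠ 0 := by simpa using hc
    obtain ⟨p, q, hsq⟩ : ∃ p q : F, β ^ 2 = algebraMap F L p * β + algebraMap F L q := by
      refine ⟨- b / c, - a / c, ?_⟩
      have e1 : algebraMap F L (- b / c) = - algebraMap F L b / algebraMap F L c := by
        rw [map_div₀, map_neg]
      have e2 : algebraMap F L (- a / c) = - algebraMap F L a / algebraMap F L c := by
        rw [map_div₀, map_neg]
      rw [e1, e2]
      field_simp
      linear_combination h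
    have hsq' : β ^ 2 = algebraMap F L (p ^ 2) * β + algebraMap F L (q ^ 2) := by
      have h2 : (β ^ 2) ^ 8 = (algebraMap F L p * β + algebraMap F L q) ^ 8 := by rw [← hsq]
      have hb2 : (β ^ 2) ^ 8 = β ^ 2 := by
        have : (β ^ 2) ^ 8 = (β ^ 8) ^ 2 := by ring
        rw [this, h8]
      rw [hb2, add_eight hF, eight_smul hF, h8] at h2
      rw [h2]
      congr 1
      rw [← map_pow]
      congr 1
      have : q ^ 8 = (q ^ 4) ^ 2 := by ring
      rw [this, pow_four hF]
    have hpp : p ^ 2 = p := by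
      have h3 : algebraMap F L (p ^ 2 - p) * β = algebraMap F L (q - q ^ 2) := by
        rw [map_sub, map_sub]
        linear_combination hsq - hsq'
      have := hlin _ _ h3
      exact sub_eq_zero.mp this
    have hqq : q ^ 2 = q := by
      have h3 : algebraMap F L (q ^ 2) = algebraMap F L q := by
        rw [hpp] at hsq'
        rw [hsq] at hsq'
        exact (add_left_cancel hsq').symm
      exact (algebraMap F L).injective h3
    have hp01 : p = 0 ∨ p = 1 := by
      by_cases h0 : p = 0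
      · exact Or.inl h0
      · right
        have : p * (p - 1) = 0 := by linear_combination hpp
        rcases mul_eq_zero.mp this with h | h
        · exact absurd h h0
        · exact sub_eq_zero.mp h
    have hq01 : q = 0 ∨ q = 1 := by
      by_cases h0 : q = 0
      · exact Or.inl h0
      · right
        have : q * (q - 1) = 0 := by linear_combination hqq
        rcases mul_eq_zero.mp this with h | h
        · exact absurd h h0
        · exact sub_eq_zero.mp h
    haveI := charTwoL (F := F) (L := L) hF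
    have h2L : (2 : L) = 0 := CharTwo.two_eq_zero
    rcases hp01 with rfl | rfl
    · -- `β² = q`
      rcases hq01 with rfl | rfl
      · apply h0
        simpa using hsq
      · apply h1
        have : (β - 1) ^ 2 = 0 := by
          simp only [map_zero, zero_mul, map_one, zero_add] at hsq
          linear_combination hsq + (1 - β) * h2L
        have := pow_eq_zero_iff (two_ne_zero) |>.mp this
        exact sub_eq_zero.mp this
    · rcases hq01 with rfl | rfl
      · -- `β² = β`
        simp only [map_one, one_mul, map_zero, add_zero] at hsq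
        have : β * (β - 1) = 0 := by linear_combination hsq
        rcases mul_eq_zero.mp this with h | h
        · exact h0 h
        · exact h1 (sub_eq_zero.mp h)
      · -- `β² = β + 1`
        simp only [map_one, one_mul] at hsq
        have h4 : β ^ 4 = β := by
          have : β ^ 4 = (β ^ 2) ^ 2 := by ring
          rw [this, hsq]
          linear_combination hsq + (β + 1) * h2L
        obtain ⟨a', ha'⟩ := mem_scalar_of_pow_four hF hL h4
        exact hnF a' ha'

/-- The two-valued coefficient. -/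
def bv (F : Type*) [Field F] : Bool → F
  | true => 1
  | false => 0

lemma bv_inj (F : Type*) [Field F] : Function.Injective (bv F) := by
  intro s t h
  cases s <;> cases t
  · rfl
  · exact absurd h (by simp [bv])
  · exact absurd h (by simp [bv])
  · rfl

/-- Elements of the cubic subfield are `F₂`-combinations of `1, β, β²`. -/
lemma exists_coords (hF : Fintype.card F = 4) (hL : Module.finrank F L = 3) {β : L} (h8 : β ^ 8 = β)
    (hind : ∀ a b c : F, algebraMap F L a + algebraMap F L b * β + algebraMap F L c * β ^ 2 = 0 →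
        a = 0 ∧ b = 0 ∧ c = 0) {x : L} (hx : x ^ 8 = x) :
    ∃ a b c : F, (a = 0 ∨ a = 1) ∧ (b = 0 ∨ b = 1) ∧ (c = 0 ∨ c = 1) ∧
      x = algebraMap F L a + algebraMap F L b * β + algebraMap F L c * β ^ 2 := by
  classical
  have h2 : (2 : F) = 0 := two_eq_zero hF
  let e : Bool → F := bv F
  have he : ∀ t, e t = 0 ∨ e t = 1 := by
    intro t; cases t
    · exact Or.inl rfl
    · exact Or.inr rfl
  have hei : Function.Injective e := bv_inj F
  let f : Bool × Bool × Bool → L := fun t =>
    algebraMap F L (e t.1) + algebraMap F L (e t.2.1) * β + algebraMap F L (e t.2.2) * β ^ 2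
  have hfi : Function.Injective f := by
    rintro ⟨s1, s2, s3⟩ ⟨t1, t2, t3⟩ h
    have h3 := hind (e s1 - e t1) (e s2 - e t2) (e s3 - e t3) (by
      simp only [f] at h
      rw [map_sub, map_sub, map_sub]
      linear_combination h)
    obtain ⟨h4, h5, h6⟩ := h3
    have h4' := hei (sub_eq_zero.mp h4)
    have h5' := hei (sub_eq_zero.mp h5)
    have h6' := hei (sub_eq_zero.mp h6)
    subst h4' h5' h6'
    rfl
  have hfix01 : ∀ t, (algebraMap F L (e t)) ^ 8 = algebraMap F L (e t) := by
    intro t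
    cases t
    · show (algebraMap F L 0) ^ 8 = algebraMap F L 0
      simp
    · show (algebraMap F L 1) ^ 8 = algebraMap F L 1
      simp
  have hb2 : (β ^ 2) ^ 8 = β ^ 2 := by
    have : (β ^ 2) ^ 8 = (β ^ 8) ^ 2 := by ring
    rw [this, h8]
  have hsub : Set.range f ⊆ {x : L | x ^ 8 = x} := by
    rintro _ ⟨⟨t1, t2, t3⟩, rfl⟩
    show (_ : L) ^ 8 = _
    simp only [f]
    rw [add_eight hF, add_eight hF, mul_pow, mul_pow, hfix01, hfix01, hfix01, h8, hb2]
  have hcard : Set.ncard (Set.range f) = 8 := by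
    rw [← Set.image_univ, Set.ncard_image_of_injective _ hfi, Set.ncard_univ]
    simp [Nat.card_eq_fintype_card]
  have heq := Set.eq_of_subset_of_ncard_le hsub (by rw [hcard, ncard_eight hF hL]) (Set.toFinite _)
  have hx' : x ∈ Set.range f := by rw [heq]; exact hx
  obtain ⟨⟨t1, t2, t3⟩, rfl⟩ := hx'
  exact ⟨e t1, e t2, e t3, he _, he _, he _, rfl⟩

/-- Elements of order dividing `21` split as a scalar times an element of the cubic subfield. -/
lemma split_21 (hF : Fintype.card F = 4) (hL : Module.finrank F L = 3) {u : L} (hu : u ^ 21 = 1) :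
    ∃ (a : F) (w : L), a ≠ 0 ∧ w ^ 8 = w ∧ u = algebraMap F L a * w := by
  have hu0 : u ≠ 0 := by
    rintro rfl
    simp at hu
  have h4 : (u ^ 7) ^ 4 = u ^ 7 := by
    have : (u ^ 7) ^ 4 = u ^ 21 * u ^ 7 := by ring
    rw [this, hu, one_mul]
  obtain ⟨a, ha⟩ := mem_scalar_of_pow_four hF hL h4
  refine ⟨a, u ^ 15, ?_, ?_, ?_⟩
  · rintro rfl
    rw [map_zero] at ha
    exact pow_ne_zero 7 hu0 ha
  · have : (u ^ 15) ^ 8 = (u ^ 21) ^ 5 * u ^ 15 := by ring
    rw [this, hu, one_pow, one_mul]
  · rw [← ha]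
    have : u ^ 7 * u ^ 15 = u ^ 21 * u := by ring
    rw [this, hu, one_mul]

lemma pow21_of_hom (hF : Fintype.card F = 4) (hL : Module.finrank F L = 3) (d : Lˣ →* Fˣ)
    (hd : ∃ x, d x ≠ 1) {u : Lˣ} (hu : d u = 1) : u ^ 21 = 1 := by
  classical
  haveI : Fintype L := Fintype.ofFinite L
  have hFu : Nat.card Fˣ = 3 := by
    rw [Nat.card_eq_fintype_card, Fintype.card_units, hF]
  have hLu : Nat.card Lˣ = 63 := by
    rw [Nat.card_eq_fintype_card, Fintype.card_units, ← Nat.card_eq_fintype_card, card_L hF hL]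
  have hrange : Nat.card d.range = 3 := by
    have h1 : Nat.card d.range ∣ 3 := by
      rw [← hFu]; exact Subgroup.card_subgroup_dvd_card _
    rcases (Nat.dvd_prime Nat.prime_three).mp h1 with h | h
    · exfalso
      obtain ⟨x, hx⟩ := hd
      have hbot : d.range = ⊥ := Subgroup.card_eq_one.mp h
      have : d x ∈ d.range := ⟨x, rfl⟩
      rw [hbot, Subgroup.mem_bot] at this
      exact hx this
    · exact h
  have hker : Nat.card d.ker = 21 := by
    have h1 := Subgroup.card_mul_index d.ker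
    rw [Subgroup.index_ker, hrange, hLu] at h1
    omega
  have h2 : (⟨u, hu⟩ : d.ker) ^ Nat.card d.ker = 1 := pow_card_eq_one'
  rw [hker] at h2
  have := congrArg Subtype.val h2
  simpa using this

end Abs

section Mat

variable {F : Type*} [Field F] [Fintype F]

/-- The prime field of a field of characteristic two. -/
def twoField (h2 : (2 : F) = 0) : Subfield F where
  carrier := {x | x = 0 ∨ x = 1}
  mul_mem' := by
    rintro a b (rfl | rfl) (rfl | rfl) <;> simp
  one_mem' := Or.inr rfl
  add_mem' := by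
    rintro a b (rfl | rfl) (rfl | rfl) <;> simp
    rw [← one_add_one_eq_two] at h2
    exact h2
  zero_mem' := Or.inl rfl
  neg_mem' := by
    rintro a (rfl | rfl)
    · simp
    · right
      rw [← one_add_one_eq_two] at h2
      exact neg_eq_of_add_eq_zero_left h2
  inv_mem' := by
    rintro a (rfl | rfl) <;> simp

lemma mem_twoField (h2 : (2 : F) = 0) {x : F} : x ∈ twoField h2 ↔ x = 0 ∨ x = 1 := Iff.rfl

lemma card_twoField (h2 : (2 : F) = 0) : Nat.card (twoField h2) = 2 := by
  rw [Nat.card_eq_two_iff]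
  refine ⟨⟨0, Or.inl rfl⟩, ⟨1, Or.inr rfl⟩, ?_, ?_⟩
  · intro h
    exact zero_ne_one (congrArg Subtype.val h)
  · ext x
    simp only [Set.mem_univ, Set.mem_insert_iff, Set.mem_singleton_iff, iff_true]
    rcases x.2 with h | h
    · exact Or.inl (Subtype.ext h : x = ⟨0, Or.inl rfl⟩)
    · exact Or.inr (Subtype.ext h : x = ⟨1, Or.inr rfl⟩)

lemma det_mem_twoField (h2 : (2 : F) = 0) (C : Matrix (Fin 3) (Fin 3) F)
    (hC : ∀ i j, C i j ∈ twoField h2) : C.det ∈ twoField h2 := by
  rw [Matrix.det_apply]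
  refine (twoField h2).sum_mem fun σ _ => ?_
  rw [Units.smul_def]
  exact zsmul_mem ((twoField h2).prod_mem fun i _ => hC _ _) _

/-- **The main lemma.** -/
theorem normalizer_le (hF : Fintype.card F = 4) {K : Subalgebra F (Matrix (Fin 3) (Fin 3) F)}
    (hK : IsFieldSubalgebra 3 K) :
    ∃ (F₀ : Subfield F) (P : GL (Fin 3) F), Nat.card F₀ = 2 ∧
      subalgebraNormalizer K ⊓ specialLinear (Fin 3) F ≤ subfieldSubgroup F₀ P := by
  classical
  have h2 : (2 : F) = 0 := two_eq_zero hF
  letI instF : Field ↥K := (FormField.isField_of hK).toField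
  letI instA : Algebra F ↥K := K.algebra
  haveI : Finite ↥K := inferInstance
  have hfr : Module.finrank F ↥K = 3 := hK.finrank_eq
  obtain ⟨β, h8, hnF, hind⟩ := exists_beta (L := ↥K) hF hfr
  let v : Fin 3 → F := Pi.single 0 1
  have hv : v ≠ 0 := by
    intro h
    have := congrFun h 0
    simp [v] at this
  let ev : ↥K →ₗ[F] (Fin 3 → F) :=
    { toFun := fun x => (x : Matrix (Fin 3) (Fin 3) F) *ᵥ v
      map_add' := fun x y => by
        show ((x : Matrix (Fin 3) (Fin 3) F) + (y : Matrix (Fin 3) (Fin 3) F)) *ᵥ v = _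
        rw [Matrix.add_mulVec]
      map_smul' := fun c x => by
        show (c • (x : Matrix (Fin 3) (Fin 3) F)) *ᵥ v = _
        rw [Matrix.smul_mulVec]; rfl }
  have hev : ∀ x : ↥K, ev x = (x : Matrix (Fin 3) (Fin 3) F) *ᵥ v := fun _ => rfl
  have hmulinv : ∀ x : ↥K, x ≠ 0 → (x : Matrix (Fin 3) (Fin 3) F) * ((x⁻¹ : ↥K) : Matrix (Fin 3) (Fin 3) F) = 1 := by
    intro x hx
    have := mul_inv_cancel₀ hx
    exact congrArg Subtype.val this
  have hinvmul : ∀ x : ↥K, x ≠ 0 → ((x⁻¹ : ↥K) : Matrix (Fin 3) (Fin 3) F) * (x : Matrix (Fin 3) (Fin 3) F) = 1 := by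
    intro x hx
    have := inv_mul_cancel₀ hx
    exact congrArg Subtype.val this
  have hevinj : Function.Injective ev := by
    rw [← LinearMap.ker_eq_bot, LinearMap.ker_eq_bot']
    intro x hx
    by_contra h0
    apply hv
    have h1 : ((x⁻¹ : ↥K) : Matrix (Fin 3) (Fin 3) F) *ᵥ ((x : Matrix (Fin 3) (Fin 3) F) *ᵥ v) = v := by
      rw [Matrix.mulVec_mulVec, hinvmul x h0, Matrix.one_mulVec]
    rw [← h1, ← hev, hx, Matrix.mulVec_zero]
  have hevsurj : Function.Surjective ev := by
    apply (LinearMap.injective_iff_surjective_of_finrank_eq_finrank _).mp hevinj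
    rw [hfr]; simp
  have hevmul : ∀ (x y : ↥K), ev (x * y) = (x : Matrix (Fin 3) (Fin 3) F) *ᵥ ev y := by
    intro x y
    rw [hev, hev, Matrix.mulVec_mulVec]
    rfl
  -- the basis
  let b : Fin 3 → ↥K := ![1, β, β ^ 2]
  have hb8 : ∀ i, (b i) ^ 8 = b i := by
    intro i
    fin_cases i
    · show (1 : ↥K) ^ 8 = 1
      simp
    · exact h8
    · show (β ^ 2) ^ 8 = β ^ 2
      have : (β ^ 2) ^ 8 = (β ^ 8) ^ 2 := by ring
      rw [this, h8]
  let P₀ : Matrix (Fin 3) (Fin 3) F := Matrix.of fun j i => ev (b i) j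
  have hP₀w : ∀ w : Fin 3 → F, P₀ *ᵥ w = ev (algebraMap F ↥K (w 0) + algebraMap F ↥K (w 1) * β + algebraMap F ↥K (w 2) * β ^ 2) := by
    intro w
    have e : algebraMap F ↥K (w 0) + algebraMap F ↥K (w 1) * β + algebraMap F ↥K (w 2) * β ^ 2
        = w 0 • (1 : ↥K) + w 1 • β + w 2 • β ^ 2 := by
      simp only [Algebra.smul_def, mul_one]
    rw [e, map_add, map_add, map_smul, map_smul, map_smul]
    ext j
    simp only [Matrix.mulVec, dotProduct, Fin.sum_univ_three, P₀, Matrix.of_apply, Pi.add_apply,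
      Pi.smul_apply, smul_eq_mul]
    have e0 : b 0 = 1 := rfl
    have e1 : b 1 = β := rfl
    have e2 : b 2 = β ^ 2 := rfl
    rw [e0, e1, e2]
    ring
  have hP₀ : P₀.det ≠ 0 := by
    intro hdet
    obtain ⟨w, hw, hw0⟩ := Matrix.exists_mulVec_eq_zero_iff.mpr hdet
    rw [hP₀w] at hw0
    have h1 := hevinj (hw0.trans (map_zero ev).symm)
    obtain ⟨h3, h4, h5⟩ := hind _ _ _ h1
    apply hw
    ext i
    fin_cases i
    · exact h3
    · exact h4
    · exact h5
  -- coordinates
  have hcoord : ∀ y : ↥K, y ^ 8 = y → ∃ w : Fin 3 → F, (∀ i, w i ∈ twoField h2) ∧ ev y = P₀ *ᵥ w := by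
    intro y hy
    obtain ⟨a, b', c, ha, hb', hc, hxe⟩ := exists_coords (L := ↥K) hF hfr h8 hind hy
    refine ⟨![a, b', c], ?_, ?_⟩
    · intro i
      fin_cases i
      · exact ha
      · exact hb'
      · exact hc
    · rw [hP₀w, hxe]
      rfl
  -- the determinant on `L`
  let dm : ↥K →* F :=
    { toFun := fun x => (x : Matrix (Fin 3) (Fin 3) F).det
      map_one' := by
        show ((1 : Matrix (Fin 3) (Fin 3) F)).det = 1
        simp
      map_mul' := fun x y => by
        show ((x : Matrix (Fin 3) (Fin 3) F) * (y : Matrix (Fin 3) (Fin 3) F)).det = _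
        rw [Matrix.det_mul] }
  let d : (↥K)ˣ →* Fˣ := Units.map dm
  have hdnt : ∃ x, d x ≠ 1 := by
    by_contra hcon
    push Not at hcon
    have hdet1 : ∀ x : ↥K, x ≠ 0 → (x : Matrix (Fin 3) (Fin 3) F).det = 1 := by
      intro x hx
      have := hcon (Units.mk0 x hx)
      have h3 := congrArg Units.val this
      exact h3
    let B : Matrix (Fin 3) (Fin 3) F := (β : Matrix (Fin 3) (Fin 3) F)
    have hval : ∀ t : F, (B.charpoly - 1).eval t = 0 := by
      intro t
      have hne : algebraMap F ↥K t - β ≠ 0 := by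
        intro h
        exact hnF t (sub_eq_zero.mp h).symm
      have h3 := hdet1 _ hne
      have h4 : ((algebraMap F ↥K t - β : ↥K) : Matrix (Fin 3) (Fin 3) F) = Matrix.scalar (Fin 3) t - B := by
        rfl
      rw [h4] at h3
      rw [Polynomial.eval_sub, Matrix.eval_charpoly, h3]
      simp
    have hne : B.charpoly - 1 ≠ 0 := by
      intro h
      have h3 : B.charpoly = 1 := sub_eq_zero.mp h
      have h4 := Matrix.charpoly_natDegree_eq_dim B
      rw [h3] at h4
      simp at h4
    have hdeg : (B.charpoly - 1).natDegree ≤ 3 := by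
      refine (Polynomial.natDegree_sub_le _ _).trans ?_
      rw [Matrix.charpoly_natDegree_eq_dim]
      simp
    have hroots := Polynomial.card_le_degree_of_subset_roots (p := B.charpoly - 1) (Z := Finset.univ)
      (by
        intro t _
        rw [Polynomial.mem_roots hne]
        exact hval t)
    rw [Finset.card_univ, hF] at hroots
    omega
  have hu21 : ∀ u : ↥K, u ≠ 0 → (u : Matrix (Fin 3) (Fin 3) F).det = 1 → u ^ 21 = 1 := by
    intro u hu0 hd
    have h3 := pow21_of_hom (L := ↥K) hF hfr d hdnt (u := Units.mk0 u hu0) (Units.ext hd)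
    have h4 := congrArg Units.val h3
    simpa using h4
  refine ⟨twoField h2, Matrix.GeneralLinearGroup.mkOfDetNeZero P₀ hP₀, card_twoField h2, ?_⟩
  rintro g ⟨hgN, hgS⟩
  let G : Matrix (Fin 3) (Fin 3) F := (g : Matrix (Fin 3) (Fin 3) F)
  let Gi : Matrix (Fin 3) (Fin 3) F := ((g⁻¹ : GL (Fin 3) F) : Matrix (Fin 3) (Fin 3) F)
  have hGGi : G * Gi = 1 := Units.mul_inv g
  have hGiG : Gi * G = 1 := Units.inv_mul g
  have hdetG : G.det = 1 := by
    have h3 : Matrix.GeneralLinearGroup.det g = 1 := hgS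
    have h4 := congrArg Units.val h3
    simpa using h4
  let σ : ↥K → ↥K := fun x => ⟨G * (x : Matrix (Fin 3) (Fin 3) F) * Gi, (hgN x).mp x.2⟩
  have hσc : ∀ x, (σ x : Matrix (Fin 3) (Fin 3) F) = G * (x : Matrix (Fin 3) (Fin 3) F) * Gi := fun _ => rfl
  have hσmul : ∀ x y, σ (x * y) = σ x * σ y := by
    intro x y
    apply Subtype.ext
    show G * ((x : Matrix (Fin 3) (Fin 3) F) * (y : Matrix (Fin 3) (Fin 3) F)) * Gi
      = (G * (x : Matrix (Fin 3) (Fin 3) F) * Gi) * (G * (y : Matrix (Fin 3) (Fin 3) F) * Gi)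
    calc G * ((x : Matrix (Fin 3) (Fin 3) F) * (y : Matrix (Fin 3) (Fin 3) F)) * Gi
        = G * (x : Matrix (Fin 3) (Fin 3) F) * (Gi * G) * ((y : Matrix (Fin 3) (Fin 3) F) * Gi) := by
          rw [hGiG]; simp only [mul_one, mul_assoc]
      _ = _ := by simp only [mul_assoc]
  have hσpow : ∀ (x : ↥K) (n : ℕ), (σ x) ^ (n + 1) = σ (x ^ (n + 1)) := by
    intro x n
    induction n with
    | zero => simp
    | succ n ih => rw [pow_succ, ih, ← hσmul, ← pow_succ]
  have hσ8 : ∀ x : ↥K, x ^ 8 = x → (σ x) ^ 8 = σ x := by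
    intro x hx
    rw [hσpow x 7, hx]
  have hGact : ∀ (x : ↥K) (w : Fin 3 → F), G *ᵥ ((x : Matrix (Fin 3) (Fin 3) F) *ᵥ w)
      = (σ x : Matrix (Fin 3) (Fin 3) F) *ᵥ (G *ᵥ w) := by
    intro x w
    rw [hσc, Matrix.mulVec_mulVec, Matrix.mulVec_mulVec]
    congr 1
    rw [mul_assoc _ Gi G, hGiG, mul_one]
  obtain ⟨u, hu⟩ := hevsurj (G *ᵥ v)
  have hu0 : u ≠ 0 := by
    intro h
    rw [h, map_zero] at hu
    apply hv
    have h3 : Gi *ᵥ (G *ᵥ v) = v := by rw [Matrix.mulVec_mulVec, hGiG, Matrix.one_mulVec]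
    rw [← h3, ← hu, Matrix.mulVec_zero]
  have hGev : ∀ x : ↥K, G *ᵥ ev x = ev (σ x * u) := by
    intro x
    rw [hev, hGact, ← hu, hevmul]
  have hτ : ∀ x : ↥K, (((u⁻¹ : ↥K) : Matrix (Fin 3) (Fin 3) F) * G) *ᵥ ev x = ev (σ x) := by
    intro x
    rw [← Matrix.mulVec_mulVec, hGev, ← hevmul]
    congr 1
    field_simp
  choose w hw1 hw2 using fun i => hcoord (σ (b i)) (hσ8 _ (hb8 i))
  let C : Matrix (Fin 3) (Fin 3) F := Matrix.of fun j i => w i j
  have hP₀col : ∀ (M : Matrix (Fin 3) (Fin 3) F) (j i : Fin 3), (M * P₀) j i = (M *ᵥ ev (b i)) j := by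
    intro M j i
    rfl
  have hP₀C : ∀ (W : Fin 3 → Fin 3 → F) (j i : Fin 3),
      (P₀ * Matrix.of (fun j i => W i j)) j i = (P₀ *ᵥ W i) j := by
    intro W j i
    rfl
  have hτC : (((u⁻¹ : ↥K) : Matrix (Fin 3) (Fin 3) F) * G) * P₀ = P₀ * C := by
    ext j i
    rw [hP₀col, hτ, hw2, hP₀C]
  have hdτ : (((u⁻¹ : ↥K) : Matrix (Fin 3) (Fin 3) F) * G).det = C.det := by
    have h3 := congrArg Matrix.det hτC
    rw [Matrix.det_mul _ P₀, Matrix.det_mul P₀ C, mul_comm P₀.det] at h3
    exact mul_right_cancel₀ hP₀ h3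
  have hduu : ((u⁻¹ : ↥K) : Matrix (Fin 3) (Fin 3) F).det * (u : Matrix (Fin 3) (Fin 3) F).det = 1 := by
    rw [← Matrix.det_mul, hinvmul u hu0, Matrix.det_one]
  have hui0 : ((u⁻¹ : ↥K) : Matrix (Fin 3) (Fin 3) F).det ≠ 0 := left_ne_zero_of_mul_eq_one hduu
  have hCmem : C.det ∈ twoField h2 := det_mem_twoField h2 C (fun j i => hw1 i j)
  have hC0 : C.det ≠ 0 := by
    rw [← hdτ, Matrix.det_mul, hdetG, mul_one]
    exact hui0
  have hC1 : C.det = 1 := by
    rcases hCmem with h | h
    · exact absurd h hC0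
    · exact h
  have hdu : (u : Matrix (Fin 3) (Fin 3) F).det = 1 := by
    have h3 : ((u⁻¹ : ↥K) : Matrix (Fin 3) (Fin 3) F).det = 1 := by
      have := hdτ
      rw [Matrix.det_mul, hdetG, mul_one, hC1] at this
      exact this
    rw [h3, one_mul] at hduu
    exact hduu
  obtain ⟨a, w₀, ha, hw8, hua⟩ := split_21 (L := ↥K) hF hfr (hu21 u hu0 hdu)
  choose w' hw1' hw2' using fun i => hcoord (σ (b i) * w₀) (by
    rw [mul_pow, hσ8 _ (hb8 i), hw8])
  let C' : Matrix (Fin 3) (Fin 3) F := Matrix.of fun j i => w' i j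
  have hGC : G * P₀ = a • (P₀ * C') := by
    ext j i
    rw [hP₀col, hGev, hua]
    have e : σ (b i) * (algebraMap F ↥K a * w₀) = a • (σ (b i) * w₀) := by
      rw [Algebra.smul_def]
      ring
    rw [e, map_smul, hw2']
    rw [Matrix.smul_apply, hP₀C]
    rfl
  have hC'0 : C'.det ≠ 0 := by
    intro h
    have h3 := congrArg Matrix.det hGC
    rw [Matrix.det_mul, Matrix.det_smul, Matrix.det_mul, h, mul_zero, mul_zero, hdetG, one_mul] at h3
    exact hP₀ h3
  let D : Matrix (Fin 3) (Fin 3) (twoField h2) := fun j i => ⟨C' j i, hw1' i j⟩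
  have hDmap : (twoField h2).subtype.mapMatrix D = C' := by
    ext j i
    rfl
  have hD0 : D.det ≠ 0 := by
    intro h
    apply hC'0
    rw [← hDmap, ← RingHom.map_det, h, map_zero]
  let h₁ : GL (Fin 3) (twoField h2) := Matrix.GeneralLinearGroup.mkOfDetNeZero D hD0
  let y₁ : GL (Fin 3) F := Matrix.GeneralLinearGroup.map (twoField h2).subtype h₁
  have hy₁ : (y₁ : Matrix (Fin 3) (Fin 3) F) = C' := by
    rw [← hDmap]
    rfl
  let y₂ : GL (Fin 3) F := Units.map (Matrix.scalar (Fin 3) : F →+* Matrix (Fin 3) (Fin 3) F).toMonoidHom (Units.mk0 a ha)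
  have hy₂ : (y₂ : Matrix (Fin 3) (Fin 3) F) = Matrix.scalar (Fin 3) a := rfl
  have hy : y₁ * y₂ ∈ (Matrix.GeneralLinearGroup.map (twoField h2).subtype).range ⊔ scalars (Fin 3) F :=
    Subgroup.mul_mem_sup ⟨h₁, rfl⟩ ⟨Units.mk0 a ha, rfl⟩
  refine ⟨y₁ * y₂, hy, ?_⟩
  show Matrix.GeneralLinearGroup.mkOfDetNeZero P₀ hP₀ * (y₁ * y₂) * (Matrix.GeneralLinearGroup.mkOfDetNeZero P₀ hP₀)⁻¹ = g
  rw [mul_inv_eq_iff_eq_mul]
  apply Units.ext
  show P₀ * ((y₁ : Matrix (Fin 3) (Fin 3) F) * (y₂ : Matrix (Fin 3) (Fin 3) F)) = G * P₀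
  rw [hy₁, hy₂, hGC, Matrix.scalar_apply, ← Matrix.smul_one_eq_diagonal, Matrix.mul_smul, Matrix.mul_one,
    Matrix.mul_smul]

end Mat

end Cfsg.Agent.Lib.Classical.Asch.CubicFour
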