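import Mathlib
import Cfsg.Agent.Lib.Classical.Asch.Adj

/-!
# Quadratic forms in characteristic two polarising to a given alternating form
-/

set_option autoImplicit false
set_option linter.style.haveILetI false
set_option linter.unusedSectionVars false

namespace Cfsg.Agent.Lib.Classical.Asch.FormQuad

open scoped MatrixGroups Matrix
open Cfsg.Geo Cfsg.Agent.Lib.Classical.Asch.Basic Cfsg.Agent.Lib.Classical.Asch.Forms
open Cfsg.Agent.Lib.Classical.Asch.Adj

variable {ι : Type} [Fintype ι] [DecidableEq ι] {F : Type*} [Field F]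

/-- A `2`-semilinear additive map has a linear square root. -/
theorem exists_functional [Fintype F] (h2 : (2 : F) = 0) {V : Type*} [AddCommGroup V] [Module F V] (R : V → F)
    (hadd : ∀ u v, R (u + v) = R u + R v) (hsm : ∀ (c : F) v, R (c • v) = c ^ 2 * R v) :
    ∃ ℓ : V →ₗ[F] F, ∀ v, ℓ v = 0 ↔ R v = 0 := by
  haveI : Fact (Nat.Prime 2) := ⟨Nat.prime_two⟩
  haveI : CharP F 2 := CharTwo.of_one_ne_zero_of_two_eq_zero one_ne_zero h2
  let s : F ≃+* F := (frobeniusEquiv F 2).symm
  have hs : ∀ c : F, s (c ^ 2) = c := fun c => frobeniusEquiv_symm_pow F 2 c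
  refine ⟨{ toFun := fun v => s (R v)
            map_add' := fun u v => by rw [hadd, map_add]
            map_smul' := fun c v => by
              rw [hsm, map_mul, hs]
              rfl }, fun v => ?_⟩
  change s (R v) = 0 ↔ _
  rw [map_eq_zero]

section Quad

variable {f : (ι → F) → (ι → F) → F} {Q : (ι → F) → F}

/-- A quadratic form polarising to the given non-degenerate form. -/
theorem isNondegenerateQuadraticForm_of (hf : IsBilinearForm f) (hn : IsNondegenerateForm f)
    (hs : ∀ (c : F) v, Q (c • v) = c ^ 2 * Q v) (hp : ∀ u v, Q (u + v) = Q u + Q v + f u v) :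
    IsNondegenerateQuadraticForm Q ∧ ∀ u v, QuadraticMap.polar Q u v = f u v := by
  have hpol : ∀ u v, QuadraticMap.polar Q u v = f u v := by
    intro u v
    rw [QuadraticMap.polar, hp]
    ring
  have hpol' : QuadraticMap.polar Q = f := by
    funext u v
    exact hpol u v
  refine ⟨⟨hs, ?_, ?_⟩, hpol⟩
  · rw [hpol']
    exact hf
  · rw [hpol']
    exact hn

/-- The defect of a similarity is semilinear and additive. -/
theorem defect_add (hs : ∀ (c : F) v, Q (c • v) = c ^ 2 * Q v) (hp : ∀ u v, Q (u + v) = Q u + Q v + f u v)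
    {g : Matrix ι ι F} {μ : F} (hμ : ∀ u v, f (g *ᵥ u) (g *ᵥ v) = μ * f u v) (u v : ι → F) :
    Q (g *ᵥ (u + v)) - μ * Q (u + v) = (Q (g *ᵥ u) - μ * Q u) + (Q (g *ᵥ v) - μ * Q v) := by
  rw [Matrix.mulVec_add, hp, hp, hμ]
  ring

theorem defect_smul (hs : ∀ (c : F) v, Q (c • v) = c ^ 2 * Q v) {g : Matrix ι ι F} {μ : F} (c : F) (v : ι → F) :
    Q (g *ᵥ (c • v)) - μ * Q (c • v) = c ^ 2 * (Q (g *ᵥ v) - μ * Q v) := by
  rw [Matrix.mulVec_smul, hs, hs]
  ring

/-- **Invariance from vanishing on a spanning set.** -/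
theorem le_quadSim_of_vanish [Fintype F] (h2 : (2 : F) = 0)
    (hs : ∀ (c : F) v, Q (c • v) = c ^ 2 * Q v) (hp : ∀ u v, Q (u + v) = Q u + Q v + f u v)
    {G : Subgroup (GL ι F)} (hGs : G ≤ similarityGroup f) (S : Set (ι → F)) (hspan : Submodule.span F S = ⊤)
    (hS : ∀ g ∈ G, ∀ v ∈ S, (g : Matrix ι ι F) *ᵥ v ∈ S) (hQS : ∀ v ∈ S, Q v = 0) :
    G ≤ quadSimilarityGroup Q := by
  intro g hg
  obtain ⟨μ, hμ⟩ := hGs hg
  refine ⟨μ, fun v => ?_⟩
  obtain ⟨ℓ, hℓ⟩ := exists_functional h2 (fun v => Q ((g : Matrix ι ι F) *ᵥ v) - (μ : F) * Q v)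
    (defect_add hs hp hμ) (fun c v => defect_smul hs c v)
  have h1 : ∀ v ∈ S, ℓ v = 0 := by
    intro v hv
    rw [hℓ, hQS v hv, hQS _ (hS g hg v hv), mul_zero, sub_zero]
  have h3 : ℓ v = 0 := by
    have h4 : v ∈ Submodule.span F S := by
      rw [hspan]
      trivial
    have h5 : Submodule.span F S ≤ LinearMap.ker ℓ := Submodule.span_le.mpr h1
    exact h5 h4
  have h6 := (hℓ v).mp h3
  exact sub_eq_zero.mp h6

/-- **Invariance from an irreducible normal subgroup.** -/
theorem mem_quadSim_of_normalizes [Fintype F] (h2 : (2 : F) = 0) (hcard : 2 ≤ Fintype.card ι)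
    (hs : ∀ (c : F) v, Q (c • v) = c ^ 2 * Q v) (hp : ∀ u v, Q (u + v) = Q u + Q v + f u v)
    {X : Subgroup (GL ι F)} (hX : ∀ W : Submodule F (ι → F), Inv X W → W = ⊥ ∨ W = ⊤)
    (hQX : FixesQuadForm (matrixSet X) Q) {g : GL ι F} (hg : g ∈ similarityGroup f) (hgX : ∀ x ∈ X, g * x * g⁻¹ ∈ X) :
    g ∈ quadSimilarityGroup Q := by
  obtain ⟨μ, hμ⟩ := hg
  refine ⟨μ, fun v => ?_⟩
  obtain ⟨ℓ, hℓ⟩ := exists_functional h2 (fun v => Q ((g : Matrix ι ι F) *ᵥ v) - (μ : F) * Q v)
    (defect_add hs hp hμ) (fun c v => defect_smul hs c v)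
  have hinv : Inv X (LinearMap.ker ℓ) := by
    intro x hx w hw
    rw [LinearMap.mem_ker, hℓ] at hw ⊢
    have h1 : (g : Matrix ι ι F) *ᵥ ((x : Matrix ι ι F) *ᵥ w) =
        ((g * x * g⁻¹ : GL ι F) : Matrix ι ι F) *ᵥ ((g : Matrix ι ι F) *ᵥ w) := by
      rw [Matrix.mulVec_mulVec, Matrix.mulVec_mulVec, ← Units.val_mul, ← Units.val_mul]
      congr 2
      group
    rw [h1, hQX _ ⟨_, hgX x hx, rfl⟩, hQX _ ⟨x, hx, rfl⟩]
    exact hw
  rcases hX _ hinv with h | h
  · exfalso
    have h1 := LinearMap.finrank_range_add_finrank_ker ℓ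
    rw [h, finrank_bot, add_zero, Module.finrank_fintype_fun_eq_card] at h1
    have h3 : Module.finrank F (LinearMap.range ℓ) ≤ 1 := by
      have := Submodule.finrank_le (LinearMap.range ℓ)
      rwa [Module.finrank_self] at this
    omega
  · have h3 : ℓ v = 0 := by
      have : v ∈ LinearMap.ker ℓ := by
        rw [h]
        trivial
      exact this
    exact sub_eq_zero.mp ((hℓ v).mp h3)

end Quad

section Symp

variable {f : (ι → F) → (ι → F) → F} (hf : IsSymplecticForm f)
include hf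

/-- In characteristic two the form is symmetric. -/
theorem symm_of_two (h2 : (2 : F) = 0) (u v : ι → F) : f u v = f v u := by
  have h := hf.skew u v
  have h3 : ∀ a : F, -a = a := by
    intro a
    have : a + a = 0 := by
      rw [← two_mul, h2, zero_mul]
    exact neg_eq_of_add_eq_zero_left this
  rw [h, h3]

/-- A self-adjoint field subalgebra: the alternating condition, odd case. -/
theorem selfAdj_alt_odd (h2 : (2 : F) ≠ 0) {k : Matrix ι ι F} (hk : adj (RingEquiv.refl F) f k = k) (v : ι → F) :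
    f (k *ᵥ v) v = 0 := by
  have hr := reflForm_symplectic hf
  have h1 := hr.adj_spec k v v
  rw [hk] at h1
  have h3 := hf.skew (k *ᵥ v) v
  rw [h1] at h3
  have h4 : (2 : F) * f v (k *ᵥ v) = 0 := by
    rw [two_mul]
    nth_rewrite 1 [h3]
    ring
  rw [h1]
  exact (mul_eq_zero.mp h4).resolve_left h2

/-- A self-adjoint field subalgebra: the alternating condition, even case. -/
theorem selfAdj_alt_even [Fintype F] [Nonempty ι] (h2 : (2 : F) = 0) {G : Subgroup (GL ι F)}
    (hG : ∀ W : Submodule F (ι → F), Inv G W → W = ⊥ ∨ W = ⊤) (hGs : G ≤ similarityGroup f) {r : ℕ}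
    {K : Subalgebra F (Matrix ι ι F)} (hK : Module.finrank F K = r)
    (hN : G ≤ subalgebraNormalizer K)
    (hself : ∀ k ∈ K, adj (RingEquiv.refl F) f k = k) (hr : r < Fintype.card ι) :
    ∀ k ∈ K, ∀ v, f (k *ᵥ v) v = 0 := by
  classical
  have hrf := reflForm_symplectic hf
  have hsym := symm_of_two hf h2
  have hadd : ∀ k ∈ K, ∀ u v, f (k *ᵥ (u + v)) (u + v) = f (k *ᵥ u) u + f (k *ᵥ v) v := by
    intro k hk u v
    have h1 := hrf.adj_spec k u v
    rw [hself k hk] at h1
    have h3 : f (k *ᵥ v) u = f (k *ᵥ u) v := by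
      rw [hsym, ← h1]
    rw [Matrix.mulVec_add, hrf.add_left, hrf.add_right, hrf.add_right, h3]
    have h4 : f (k *ᵥ u) v + f (k *ᵥ u) v = 0 := by
      rw [← two_mul, h2, zero_mul]
    linear_combination h4
  have hsmul : ∀ k (c : F) v, f (k *ᵥ (c • v)) (c • v) = c ^ 2 * f (k *ᵥ v) v := by
    intro k c v
    rw [Matrix.mulVec_smul, hrf.smul_left, hrf.smul_right]
    change c * (c * _) = _
    ring
  let b := Module.finBasis F K
  have hcard : Module.finrank F K = r := hK
  have hex : ∀ j : Fin (Module.finrank F K), ∃ ℓ : (ι → F) →ₗ[F] F, ∀ v, ℓ v = 0 ↔ f ((b j : Matrix ι ι F) *ᵥ v) v = 0 :=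
    fun j => exists_functional h2 _ (hadd _ (b j).2) (hsmul _)
  choose ℓ hℓ using hex
  let Ψ : (ι → F) →ₗ[F] (Fin (Module.finrank F K) → F) := LinearMap.pi ℓ
  have hW : ∀ v, v ∈ LinearMap.ker Ψ ↔ ∀ k ∈ K, f (k *ᵥ v) v = 0 := by
    intro v
    constructor
    · intro h k hk
      have h1 : ∀ j, f ((b j : Matrix ι ι F) *ᵥ v) v = 0 := fun j => (hℓ j v).mp (congrFun h j)
      have h3 : (k : Matrix ι ι F) = ∑ j, b.repr ⟨k, hk⟩ j • (b j : Matrix ι ι F) := by
        have := congrArg Subtype.val (b.sum_repr ⟨k, hk⟩)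
        push_cast at this
        exact this.symm
      rw [h3, Matrix.sum_mulVec]
      have h4 : ∀ (s : Finset (Fin (Module.finrank F K))), f (∑ j ∈ s, (b.repr ⟨k, hk⟩ j • (b j : Matrix ι ι F)) *ᵥ v) v = 0 := by
        intro s
        induction s using Finset.induction_on with
        | empty =>
          simp only [Finset.sum_empty]
          exact hrf.zero_left v
        | insert a s ha ih =>
          rw [Finset.sum_insert ha, hrf.add_left, ih, Matrix.smul_mulVec, hrf.smul_left, h1, mul_zero, add_zero]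
      exact h4 _
    · intro h
      funext j
      exact (hℓ j v).mpr (h _ (b j).2)
  have hinv : Inv G (LinearMap.ker Ψ) := by
    intro g hg v hv
    rw [hW] at hv ⊢
    intro k hk
    obtain ⟨μ, hμ⟩ := hGs hg
    have hk' : ((g⁻¹ : GL ι F) : Matrix ι ι F) * k * (g : Matrix ι ι F) ∈ K := by
      have := (hN (inv_mem hg) k).mp hk
      simpa using this
    have h1 : k *ᵥ ((g : Matrix ι ι F) *ᵥ v) =
        (g : Matrix ι ι F) *ᵥ ((((g⁻¹ : GL ι F) : Matrix ι ι F) * k * (g : Matrix ι ι F)) *ᵥ v) := by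
      rw [Matrix.mulVec_mulVec, Matrix.mulVec_mulVec, ← mul_assoc, ← mul_assoc, ← Units.val_mul, mul_inv_cancel,
        Units.val_one, one_mul]
    rw [h1, hμ, hv _ hk', mul_zero]
  rcases hG _ hinv with h | h
  · exfalso
    have h1 := LinearMap.finrank_range_add_finrank_ker Ψ
    rw [h, finrank_bot, add_zero, Module.finrank_fintype_fun_eq_card] at h1
    have h3 := Submodule.finrank_le (LinearMap.range Ψ)
    rw [Module.finrank_fintype_fun_eq_card, Fintype.card_fin] at h3
    omega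
  · intro k hk v
    have : v ∈ LinearMap.ker Ψ := by
      rw [h]
      trivial
    exact (hW v).mp this k hk

/-- The quadratic form of a totally singular pair in characteristic two. -/
theorem exists_quad_of_pair [Fintype F] (h2 : (2 : F) = 0) {G : Subgroup (GL ι F)} (hGs : G ≤ similarityGroup f) {k : ℕ}
    {D : Fin 2 → Submodule F (ι → F)} (hD : IsMDecomposition k D) (hts : ∀ i, IsTotallySingularFor f (D i))
    (hle : G ≤ decompositionStabilizer D) :
    ∃ Q : (ι → F) → F, IsNondegenerateQuadraticForm Q ∧ (∀ u v, QuadraticMap.polar Q u v = f u v) ∧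
      G ≤ quadSimilarityGroup Q := by
  classical
  have hr := reflForm_symplectic hf
  have hsym := symm_of_two hf h2
  have hcompl : IsCompl (D 0) (D 1) := by
    refine ⟨hD.indep.pairwiseDisjoint (by decide : (0 : Fin 2) ≠ 1), ?_⟩
    rw [codisjoint_iff, eq_top_iff, ← hD.iSup_eq_top]
    refine iSup_le fun i => ?_
    fin_cases i
    · exact le_sup_left
    · exact le_sup_right
  let π₀ : (ι → F) →ₗ[F] (ι → F) := (D 0).subtype ∘ₗ Submodule.projectionOnto (D 0) (D 1) hcompl
  let π₁ : (ι → F) →ₗ[F] (ι → F) := (D 1).subtype ∘ₗ Submodule.projectionOnto (D 1) (D 0) hcompl.symm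
  have h0mem : ∀ v, π₀ v ∈ D 0 := fun v => Submodule.coe_mem _
  have h1mem : ∀ v, π₁ v ∈ D 1 := fun v => Submodule.coe_mem _
  have hsum : ∀ v, π₀ v + π₁ v = v := fun v => Submodule.projection_add_projection_eq_self hcompl v
  have h00 : ∀ v ∈ D 1, π₀ v = 0 := by
    intro v hv
    have := Submodule.projectionOnto_apply_right hcompl ⟨v, hv⟩
    exact congrArg Subtype.val this
  have h11 : ∀ v ∈ D 0, π₁ v = 0 := by
    intro v hv
    have := Submodule.projectionOnto_apply_right hcompl.symm ⟨v, hv⟩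
    exact congrArg Subtype.val this
  set Q : (ι → F) → F := fun v => f (π₀ v) (π₁ v) with hQdef
  have hs : ∀ (c : F) v, Q (c • v) = c ^ 2 * Q v := by
    intro c v
    simp only [hQdef, map_smul]
    rw [hr.smul_left, hr.smul_right]
    change c * (c * _) = _
    ring
  have hp : ∀ u v, Q (u + v) = Q u + Q v + f u v := by
    intro u v
    simp only [hQdef, map_add]
    have h3 : f u v = f (π₀ u) (π₁ v) + f (π₀ v) (π₁ u) := by
      conv_lhs => rw [← hsum u, ← hsum v]
      rw [hr.add_left, hr.add_right, hr.add_right, hts 0 _ (h0mem u) _ (h0mem v), hts 1 _ (h1mem u) _ (h1mem v),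
        zero_add, add_zero, hsym (π₁ u)]
    rw [hr.add_left, hr.add_right, hr.add_right, h3]
    ring
  obtain ⟨hQ, hpol⟩ := isNondegenerateQuadraticForm_of hf.bilinear hf.nondegenerate hs hp
  refine ⟨Q, hQ, hpol, le_quadSim_of_vanish h2 hs hp hGs ((D 0 : Set (ι → F)) ∪ (D 1 : Set (ι → F))) ?_ ?_ ?_⟩
  · rw [Submodule.span_union, Submodule.span_eq, Submodule.span_eq]
    exact hcompl.sup_eq_top
  · intro g hg v hv
    obtain ⟨π, hπ⟩ := hle hg
    have hmem : ∀ i, ∀ w ∈ D i, (g : Matrix ι ι F) *ᵥ w ∈ ((D 0 : Set (ι → F)) ∪ (D 1 : Set (ι → F))) := by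
      intro i w hw
      have h3 : (g : Matrix ι ι F) *ᵥ w ∈ D (π i) := by
        rw [← hπ i]
        exact ⟨w, hw, rfl⟩
      generalize π i = j at h3
      fin_cases j
      · exact Or.inl h3
      · exact Or.inr h3
    rcases hv with hv | hv
    · exact hmem 0 v hv
    · exact hmem 1 v hv
  · rintro v (hv | hv)
    · simp only [hQdef]
      rw [h11 v hv, hr.zero_right]
    · simp only [hQdef]
      rw [h00 v hv, hr.zero_left]

/-- The quadratic form of a non self-adjoint field of degree two in characteristic two. -/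
theorem exists_quad_of_field [Fintype F] [Nonempty ι] (h2 : (2 : F) = 0) {G : Subgroup (GL ι F)}
    (hGs : G ≤ similarityGroup f) {K : Subalgebra F (Matrix ι ι F)}
    (hK : ∀ k ∈ K, adj (RingEquiv.refl F) f k ∈ K) (hcomm : ∀ x ∈ K, ∀ y ∈ K, x * y = y * x)
    (hfix : ∀ k ∈ K, adj (RingEquiv.refl F) f k = k → ∃ c : F, k = c • (1 : Matrix ι ι F))
    (hne : ¬ ∀ k ∈ K, adj (RingEquiv.refl F) f k = k) (hN : G ≤ subalgebraNormalizer K) :
    ∃ Q : (ι → F) → F, IsNondegenerateQuadraticForm Q ∧ (∀ u v, QuadraticMap.polar Q u v = f u v) ∧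
      G ≤ quadSimilarityGroup Q := by
  classical
  have hr := reflForm_symplectic hf
  have hsym := symm_of_two hf h2
  have hneg : ∀ a : F, -a = a := by
    intro a
    have : a + a = 0 := by
      rw [← two_mul, h2, zero_mul]
    exact neg_eq_of_add_eq_zero_left this
  push Not at hne
  obtain ⟨k₁, hk₁, hk₁ne⟩ := hne
  -- the trace is a non-zero scalar
  have hadjadd : ∀ x, adj (RingEquiv.refl F) f (x + adj (RingEquiv.refl F) f x) = x + adj (RingEquiv.refl F) f x := by
    intro x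
    rw [hr.adj_add, hr.adj_adj, add_comm]
  obtain ⟨c, hc⟩ := hfix _ (K.add_mem hk₁ (hK _ hk₁)) (hadjadd k₁)
  have hc0 : c ≠ 0 := by
    rintro rfl
    rw [zero_smul] at hc
    apply hk₁ne
    have h3 : adj (RingEquiv.refl F) f k₁ = - k₁ := by
      exact (eq_neg_of_add_eq_zero_right hc)
    rw [h3]
    ext i j
    simp [hneg]
  set ω : Matrix ι ι F := c⁻¹ • k₁ with hω
  have hωK : ω ∈ K := K.smul_mem hk₁ _
  have hωtr : ω + adj (RingEquiv.refl F) f ω = 1 := by
    rw [hω, hr.adj_smul]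
    change c⁻¹ • k₁ + c⁻¹ • adj (RingEquiv.refl F) f k₁ = 1
    rw [← smul_add, hc, smul_smul, inv_mul_cancel₀ hc0, one_smul]
  set Q : (ι → F) → F := fun v => f (ω *ᵥ v) v with hQdef
  have hs : ∀ (c : F) v, Q (c • v) = c ^ 2 * Q v := by
    intro c v
    simp only [hQdef]
    rw [Matrix.mulVec_smul, hr.smul_left, hr.smul_right]
    change c * (c * _) = _
    ring
  have hp : ∀ u v, Q (u + v) = Q u + Q v + f u v := by
    intro u v
    simp only [hQdef]
    rw [Matrix.mulVec_add, hr.add_left, hr.add_right, hr.add_right]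
    have h3 : f (ω *ᵥ v) u = f u (ω *ᵥ v) := hsym _ _
    have h4 : f u (ω *ᵥ v) = f (adj (RingEquiv.refl F) f ω *ᵥ u) v := by
      have := hr.adj_spec (adj (RingEquiv.refl F) f ω) u v
      rw [hr.adj_adj] at this
      exact this.symm
    have h5 : f u v = f (ω *ᵥ u) v + f (adj (RingEquiv.refl F) f ω *ᵥ u) v := by
      rw [← hr.add_left, ← Matrix.add_mulVec, hωtr, Matrix.one_mulVec]
    rw [h3, h4, h5]
    ring
  obtain ⟨hQ, hpol⟩ := isNondegenerateQuadraticForm_of hf.bilinear hf.nondegenerate hs hp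
  refine ⟨Q, hQ, hpol, fun g hg => ?_⟩
  obtain ⟨μ, hμ⟩ := hGs hg
  refine ⟨μ, fun v => ?_⟩
  simp only [hQdef]
  set ω' : Matrix ι ι F := ((g⁻¹ : GL ι F) : Matrix ι ι F) * ω * (g : Matrix ι ι F) with hω'
  have hω'K : ω' ∈ K := by
    have := (hN (inv_mem hg) ω).mp hωK
    rwa [inv_inv] at this
  have h1 : ω *ᵥ ((g : Matrix ι ι F) *ᵥ v) = (g : Matrix ι ι F) *ᵥ (ω' *ᵥ v) := by
    rw [hω', Matrix.mulVec_mulVec, Matrix.mulVec_mulVec, ← mul_assoc, ← mul_assoc, ← Units.val_mul, mul_inv_cancel,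
      Units.val_one, one_mul]
  rw [h1, hμ]
  congr 1
  -- the difference is a scalar
  have h3 : ω' + adj (RingEquiv.refl F) f ω' = 1 := by
    have h4 : ω' = conj g⁻¹ ω := by
      rw [hω']
      simp [conj]
    rw [h4, hr.adj_conj (inv_mem (hGs hg)), ← conj_add, hωtr, conj_one]
  have h5 : adj (RingEquiv.refl F) f (ω' + ω) = ω' + ω := by
    rw [hr.adj_add]
    have h6 : adj (RingEquiv.refl F) f ω' = 1 - ω' := eq_sub_of_add_eq' h3
    have h7 : adj (RingEquiv.refl F) f ω = 1 - ω := eq_sub_of_add_eq' hωtr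
    rw [h6, h7]
    have h8 : ∀ x : Matrix ι ι F, -x = x := by
      intro x
      ext i j
      simp [hneg]
    have h9 : (1 - ω' + (1 - ω) : Matrix ι ι F) = (1 + 1) + -ω' + -ω := by abel
    rw [h9, h8, h8]
    have h10 : (1 + 1 : Matrix ι ι F) = 0 := by
      have := two_smul F (1 : Matrix ι ι F)
      rw [h2, zero_smul] at this
      exact this.symm
    rw [h10, zero_add]
  obtain ⟨a, ha⟩ := hfix _ (K.add_mem hω'K hωK) h5
  have h6 : ω' = ω + a • 1 := by
    have h7 : ω' = a • 1 - ω := eq_sub_of_add_eq ha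
    rw [h7, sub_eq_add_neg, add_comm]
    congr 1
    ext i j
    simp [hneg]
  have h7 : (a • (1 : Matrix ι ι F)) *ᵥ v = a • v := by
    rw [Matrix.smul_mulVec, Matrix.one_mulVec]
  rw [h6, Matrix.add_mulVec, hr.add_left, h7, hr.smul_left, hf.alternating, mul_zero, add_zero]

end Symp

end Cfsg.Agent.Lib.Classical.Asch.FormQuad
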