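import Mathlib
import Cfsg.Agent.Lib.Classical.Asch.Adj
import Cfsg.Agent.Lib.Classical.Asch.Comm

/-!
# Commutative adjoint-closed subalgebras stable under an irreducible group of similarities
-/

set_option autoImplicit false
set_option linter.style.haveILetI false
set_option linter.unusedSectionVars false

namespace Cfsg.Agent.Lib.Classical.Asch.FormComm

open scoped MatrixGroups Matrix
open Cfsg.Geo Cfsg.Agent.Lib.Classical.Asch.Basic Cfsg.Agent.Lib.Classical.Asch.Stable
open Cfsg.Agent.Lib.Classical.Asch.Comm Cfsg.Agent.Lib.Classical.Asch.Adj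

variable {ι : Type} [Fintype ι] [DecidableEq ι] {F : Type*} [Field F]

/-- A family of orthogonal idempotents of equal rank summing to one gives a decomposition. -/
theorem isMDecomposition_of_family {t k : ℕ} (x : Fin t → Matrix ι ι F) (ht : 2 ≤ t) (hk : 0 < k)
    (hrank : ∀ i, Matrix.rank (x i) = k) (hidem : ∀ i, x i * x i = x i) (horth : ∀ i j, i ≠ j → x i * x j = 0)
    (hsum : ∑ i, x i = 1) :
    IsMDecomposition k (fun i => LinearMap.range (x i).mulVecLin) := by
  refine ⟨ht, hk, hrank, ?_, ?_⟩
  · rw [iSupIndep_def]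
    intro i
    rw [Submodule.disjoint_def]
    intro v hv hv'
    have h1 : (⨆ j, ⨆ (_ : j ≠ i), LinearMap.range (x j).mulVecLin) ≤ LinearMap.ker (x i).mulVecLin := by
      refine iSup₂_le fun j hj => ?_
      rintro _ ⟨u, rfl⟩
      simp only [LinearMap.mem_ker, Matrix.mulVecLin_apply, Matrix.mulVec_mulVec]
      rw [horth i j (Ne.symm hj), Matrix.zero_mulVec]
    have h2 : x i *ᵥ v = 0 := h1 hv'
    obtain ⟨u, rfl⟩ := hv
    simp only [Matrix.mulVecLin_apply, Matrix.mulVec_mulVec, hidem] at h2 ⊢
    exact h2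
  · rw [eq_top_iff]
    intro v _
    have h1 : v = ∑ i, x i *ᵥ v := by
      rw [← Matrix.sum_mulVec, hsum, Matrix.one_mulVec]
    rw [h1]
    exact Submodule.sum_mem _ fun i _ => Submodule.mem_iSup_of_mem i ⟨v, rfl⟩

theorem mem_decomp_of_perm {t : ℕ} (x : Fin t → Matrix ι ι F) {g : GL ι F} (π : Equiv.Perm (Fin t))
    (h : ∀ i, x (π i) = conj g (x i)) :
    g ∈ decompositionStabilizer (fun i => LinearMap.range (x i).mulVecLin) := by
  refine ⟨π, fun i => ?_⟩
  change (LinearMap.range (x i).mulVecLin).map _ = LinearMap.range (x (π i)).mulVecLin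
  rw [range_conj, h]

/-- A family with the properties above: the form properties for self-adjoint members. -/
theorem nondegenerate_of_family {σ : F ≃+* F} {ε : F} {f : (ι → F) → (ι → F) → F} (hf : ReflForm σ ε f)
    {t k : ℕ} (x : Fin t → Matrix ι ι F) (hD : IsMDecomposition k (fun i => LinearMap.range (x i).mulVecLin))
    (hidem : ∀ i, x i * x i = x i) (horth : ∀ i j, i ≠ j → x i * x j = 0)
    (hadj : ∀ i, adj σ f (x i) = x i) :
    IsNondegenerateMDecomposition f k (fun i => LinearMap.range (x i).mulVecLin) := by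
  refine ⟨hD, ?_, ?_⟩
  · rintro i _ ⟨w, rfl⟩ hw
    simp only [Matrix.mulVecLin_apply] at hw ⊢
    obtain ⟨⟨y, hy⟩, ⟨z, hz⟩⟩ := hf.nondeg _ hw
    have hxw : x i *ᵥ (x i *ᵥ w) = x i *ᵥ w := by rw [Matrix.mulVec_mulVec, hidem]
    refine ⟨⟨x i *ᵥ y, ⟨y, rfl⟩, ?_⟩, ⟨x i *ᵥ z, ⟨z, rfl⟩, ?_⟩⟩
    · rw [hf.adj_spec, hadj, hxw]
      exact hy
    · rw [← hadj i, ← hf.adj_spec, hadj, hxw]
      exact hz
  · rintro i j hij _ ⟨u, rfl⟩ _ ⟨v, rfl⟩
    simp only [Matrix.mulVecLin_apply]
    rw [hf.adj_spec, hadj, Matrix.mulVec_mulVec, horth i j hij, Matrix.zero_mulVec, hf.zero_right]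

/-- The adjoint of a primitive idempotent. -/
theorem isPrim_adj {σ : F ≃+* F} {ε : F} {f : (ι → F) → (ι → F) → F} (hf : ReflForm σ ε f)
    {E : Subalgebra F (Matrix ι ι F)} (hA : AdjClosed σ f E) (hc : ∀ x ∈ E, ∀ y ∈ E, x * y = y * x)
    {e : Matrix ι ι F} (he : IsPrim E e) : IsPrim E (adj σ f e) := by
  refine ⟨hA e he.mem, ?_, ?_, ?_⟩
  · rw [← hf.adj_mul, he.idem]
  · intro h
    apply he.ne_zero
    rw [← hf.adj_adj e, h, hf.adj_zero]
  · intro y hy hyy hye
    have h1 : adj σ f y ∈ E := hA y hy
    have h2 : adj σ f y * adj σ f y = adj σ f y := by rw [← hf.adj_mul, hyy]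
    have h3 : adj σ f y * e = adj σ f y := by
      have := congrArg (adj σ f) hye
      rw [hf.adj_mul, hf.adj_adj] at this
      rw [hc _ h1 e he.mem, this]
    rcases he.prim _ h1 h2 h3 with h4 | h4
    · left
      rw [← hf.adj_adj y, h4, hf.adj_zero]
    · right
      rw [← hf.adj_adj y, h4]

section Orbit

variable [Fintype F] [Nonempty ι] {G : Subgroup (GL ι F)}

/-- An idempotent whose conjugates are pairwise orthogonal. -/
structure OrthOrbit (G : Subgroup (GL ι F)) (y : Matrix ι ι F) : Prop where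
  idem : y * y = y
  ne_zero : y ≠ 0
  orth : ∀ g ∈ G, conj g y = y ∨ y * conj g y = 0

theorem OrthOrbit.mem_idem {y : Matrix ι ι F} (h : OrthOrbit G y) {x : Matrix ι ι F} (hx : x ∈ orbitF G y) : x * x = x := by
  obtain ⟨g, _, rfl⟩ := mem_orbitF.mp hx
  rw [← Basic.conj_mul, h.idem]

theorem OrthOrbit.mem_orth {y : Matrix ι ι F} (h : OrthOrbit G y) {x x' : Matrix ι ι F} (hx : x ∈ orbitF G y)
    (hx' : x' ∈ orbitF G y) (hne : x ≠ x') : x * x' = 0 := by
  obtain ⟨g, hg, rfl⟩ := mem_orbitF.mp hx
  obtain ⟨g', hg', rfl⟩ := mem_orbitF.mp hx'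
  have h1 : g⁻¹ * g' ∈ G := mul_mem (inv_mem hg) hg'
  rcases h.orth _ h1 with h2 | h2
  · exfalso
    apply hne
    have h3 : conj g y = conj g (conj (g⁻¹ * g') y) := by rw [h2]
    rw [h3, conj_conj]
    congr 1
    group
  · have h3 := congrArg (conj g) h2
    rw [Basic.conj_mul, conj_conj, conj_zero] at h3
    have h4 : g * (g⁻¹ * g') = g' := by group
    rwa [h4] at h3

/-- The orbit sums to one. -/
theorem OrthOrbit.sum_eq_one {y : Matrix ι ι F} (h : OrthOrbit G y)
    (hG : ∀ W : Submodule F (ι → F), Inv G W → W = ⊥ ∨ W = ⊤) : ∑ x ∈ orbitF G y, x = 1 := by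
  have hmul : ∀ x ∈ orbitF G y, (∑ z ∈ orbitF G y, z) * x = x := by
    intro x hx
    rw [Finset.sum_mul, Finset.sum_eq_single x]
    · exact h.mem_idem hx
    · intro z hz hne
      exact h.mem_orth hz hx hne
    · intro hn
      exact absurd hx hn
  set s := ∑ x ∈ orbitF G y, x with hs
  have hss : s * s = s := by
    conv_lhs => rw [hs, Finset.mul_sum]
    rw [hs]
    exact Finset.sum_congr rfl fun x hx => hmul x hx
  have hconj : ∀ g ∈ G, conj g s = s := by
    intro g hg
    have h1 : conj g s = ∑ z ∈ orbitF G y, conj g z := by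
      rw [hs, ← conjAlg_apply, map_sum]
      rfl
    rw [h1, hs]
    refine Finset.sum_nbij' (conj g) (conj g⁻¹) (fun x hx => conj_mem_orbitF hg hx)
      (fun x hx => conj_mem_orbitF (inv_mem hg) hx) (fun x _ => conj_inv_conj g x)
      (fun x _ => conj_conj_inv g x) (fun x _ => rfl)
  let W : Submodule F (ι → F) := LinearMap.range s.mulVecLin
  have hW : Inv G W := by
    rintro g hg _ ⟨v, rfl⟩
    refine ⟨(g : Matrix ι ι F) *ᵥ v, ?_⟩
    simp only [Matrix.mulVecLin_apply]
    conv_lhs => rw [← hconj g hg]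
    rw [conj_mulVec]
  have hs0 : s * y = y := hmul y (self_mem_orbitF y)
  rcases hG W hW with h' | h'
  · exfalso
    apply h.ne_zero
    ext i j
    have h1 : s *ᵥ (y *ᵥ Pi.single j 1) ∈ W := ⟨_, rfl⟩
    rw [h', Submodule.mem_bot, Matrix.mulVec_mulVec, hs0] at h1
    have := congrFun h1 i
    simpa using this
  · ext i j
    have h1 : (Pi.single j 1 : ι → F) ∈ W := by rw [h']; trivial
    obtain ⟨u, hu⟩ := h1
    simp only [Matrix.mulVecLin_apply] at hu
    have h2 : s *ᵥ (Pi.single j 1) = Pi.single j 1 := by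
      rw [← hu, Matrix.mulVec_mulVec, hss]
    have := congrFun h2 i
    simpa [Matrix.one_apply, Pi.single_apply, eq_comm] using this

/-- The decomposition of an orbit of orthogonal idempotents. -/
theorem OrthOrbit.exists_family {y : Matrix ι ι F} (h : OrthOrbit G y)
    (hG : ∀ W : Submodule F (ι → F), Inv G W → W = ⊥ ∨ W = ⊤) (ht : 2 ≤ (orbitF G y).card) :
    ∃ (t k : ℕ) (x : Fin t → Matrix ι ι F), IsMDecomposition k (fun i => LinearMap.range (x i).mulVecLin) ∧
      G ≤ decompositionStabilizer (fun i => LinearMap.range (x i).mulVecLin) ∧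
      (∀ i, x i * x i = x i) ∧ (∀ i j, i ≠ j → x i * x j = 0) ∧ (∀ i, ∃ g ∈ G, x i = conj g y) := by
  set O := orbitF G y with hO
  let enum : ↥O ≃ Fin O.card := O.equivFin
  let x : Fin O.card → Matrix ι ι F := fun i => (enum.symm i).1
  have hxmem : ∀ i, x i ∈ O := fun i => (enum.symm i).2
  have hxinj : Function.Injective x := fun i j h => enum.symm.injective (Subtype.ext h)
  have hxorth : ∀ i j, i ≠ j → x i * x j = 0 := fun i j hij =>
    h.mem_orth (hxmem i) (hxmem j) (fun h' => hij (hxinj h'))
  have hxid : ∀ i, x i * x i = x i := fun i => h.mem_idem (hxmem i)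
  have hsum : ∑ i, x i = 1 := by
    calc ∑ i, x i = ∑ z : ↥O, z.1 := Equiv.sum_comp enum.symm (fun z : ↥O => z.1)
      _ = ∑ z ∈ O, z := Finset.sum_coe_sort O (fun z => z)
      _ = 1 := h.sum_eq_one hG
  refine ⟨O.card, Matrix.rank y, x, isMDecomposition_of_family x ht ?_ ?_ hxid hxorth hsum, fun g hg => ?_, hxid, hxorth,
    fun i => ?_⟩
  · rw [Nat.pos_iff_ne_zero]
    intro h0
    apply h.ne_zero
    have h1 : LinearMap.range y.mulVecLin = ⊥ := Submodule.finrank_eq_zero.mp h0
    ext i j
    have h2 : y *ᵥ (Pi.single j 1) ∈ LinearMap.range y.mulVecLin := ⟨_, rfl⟩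
    rw [h1, Submodule.mem_bot] at h2
    have := congrFun h2 i
    simpa using this
  · intro i
    obtain ⟨g, _, hg⟩ := mem_orbitF.mp (hxmem i)
    rw [hg, rank_conj]
  · let σ₀ : Fin O.card → Fin O.card := fun i => enum ⟨conj g (x i), conj_mem_orbitF hg (hxmem i)⟩
    have hσ₀ : ∀ i, x (σ₀ i) = conj g (x i) := by
      intro i
      simp [x, σ₀]
    have hinj : Function.Injective σ₀ := by
      intro i j hij
      apply hxinj
      have := congrArg x hij
      rw [hσ₀, hσ₀] at this
      rw [← conj_inv_conj g (x i), this, conj_inv_conj]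
    exact mem_decomp_of_perm x (Equiv.ofBijective σ₀ (Finite.injective_iff_bijective.mp hinj)) hσ₀
  · obtain ⟨g, hg, hg'⟩ := mem_orbitF.mp (hxmem i)
    exact ⟨g, hg, hg'⟩

end Orbit

/-- The outcomes of a commutative adjoint-closed stable subalgebra. -/
def CommOutcome (σ : F ≃+* F) (f : (ι → F) → (ι → F) → F) (G : Subgroup (GL ι F)) : Prop :=
  (∃ (t k : ℕ) (D : Fin t → Submodule F (ι → F)), IsNondegenerateMDecomposition f k D ∧ G ≤ decompositionStabilizer D) ∨
  (∃ (k : ℕ) (D : Fin 2 → Submodule F (ι → F)), IsMDecomposition k D ∧ (∀ i, IsTotallySingularFor f (D i)) ∧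
    G ≤ decompositionStabilizer D) ∨
  (∃ (r : ℕ) (K : Subalgebra F (Matrix ι ι F)), r.Prime ∧ IsFieldSubalgebra r K ∧ AdjClosed σ f K ∧
    G ≤ subalgebraNormalizer K)

section Main

variable [Fintype F] [Nonempty ι] {G : Subgroup (GL ι F)} {σ : F ≃+* F} {ε : F} {f : (ι → F) → (ι → F) → F}

/-- **The commutative case relative to a form.** -/
theorem comm_outcome (hf : ReflForm σ ε f) (hG : ∀ W : Submodule F (ι → F), Inv G W → W = ⊥ ∨ W = ⊤)
    (hGs : G ≤ similarityGroup f) {E : Subalgebra F (Matrix ι ι F)} (hE : Stable G (E : Set (Matrix ι ι F)))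
    (hc : ∀ x ∈ E, ∀ y ∈ E, x * y = y * x) (hA : AdjClosed σ f E)
    (hn : ¬ ∀ x ∈ E, ∃ c : F, x = c • (1 : Matrix ι ι F)) : CommOutcome σ f G := by
  classical
  obtain ⟨e₀, he₀⟩ := exists_prim E hc
  have hadjG : ∀ g ∈ G, ∀ x, adj σ f (conj g x) = conj g (adj σ f x) := fun g hg x => hf.adj_conj (hGs hg) x
  by_cases ht : 2 ≤ (orbitF G e₀).card
  · -- non-trivial idempotents
    have he₁ := isPrim_adj hf hA hc he₀
    have hprimorb : ∀ g ∈ G, ∀ e : Matrix ι ι F, IsPrim E e → e * conj g e₀ ≠ 0 → e = conj g e₀ :=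
      fun g hg e he h => he.eq_of_mul_ne_zero hc (he₀.conj hE hg) h
    have hsum₀ : ∑ x ∈ orbitF G e₀, x = 1 := orbit_sum_eq_one hG hE hc he₀
    by_cases hs : adj σ f e₀ = e₀
    · -- self-adjoint primitive idempotent
      have hO : OrthOrbit G e₀ := ⟨he₀.idem, he₀.ne_zero, fun g hg => by
        by_cases h : e₀ * conj g e₀ = 0
        · exact Or.inr h
        · exact Or.inl (hprimorb g hg e₀ he₀ h).symm⟩
      obtain ⟨t, k, x, hD, hle, hid, horth, hx⟩ := hO.exists_family hG ht
      refine Or.inl ⟨t, k, _, nondegenerate_of_family hf x hD hid horth fun i => ?_, hle⟩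
      obtain ⟨g, hg, hxg⟩ := hx i
      rw [hxg, hadjG g hg, hs]
    · -- a pair
      set e₁ := adj σ f e₀ with he₁def
      have h01 : e₀ * e₁ = 0 := by
        by_contra h
        exact hs (he₀.eq_of_mul_ne_zero hc he₁ h).symm
      have h10 : e₁ * e₀ = 0 := by rw [hc e₁ he₁.mem e₀ he₀.mem, h01]
      have hadj1 : adj σ f e₁ = e₀ := hf.adj_adj e₀
      set y := e₀ + e₁ with hy
      have hyid : y * y = y := by
        rw [hy, mul_add, add_mul, add_mul, he₀.idem, he₁.idem, h01, h10, zero_add, add_zero]
      have hyadj : adj σ f y = y := by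
        rw [hy, hf.adj_add, hadj1, add_comm]
      have hy0 : y ≠ 0 := by
        intro h
        apply he₀.ne_zero
        have := congrArg (fun M => e₀ * M) h
        simp only [hy, mul_add, he₀.idem, h01, add_zero, mul_zero] at this
        exact this
      have hyconj : ∀ g ∈ G, conj g y = conj g e₀ + conj g e₁ := fun g _ => conj_add g e₀ e₁
      have he₁conj : ∀ g ∈ G, conj g e₁ = adj σ f (conj g e₀) := fun g hg => (hadjG g hg e₀).symm
      have hO : OrthOrbit G y := ⟨hyid, hy0, fun g hg => by
        rw [hyconj g hg, he₁conj g hg]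
        have hxp : IsPrim E (conj g e₀) := he₀.conj hE hg
        generalize conj g e₀ = x at hxp
        have hxp' : IsPrim E (adj σ f x) := isPrim_adj hf hA hc hxp
        by_cases h1 : e₀ * x = 0
        · by_cases h2 : e₁ * x = 0
          · by_cases h3 : e₀ * adj σ f x = 0
            · by_cases h4 : e₁ * adj σ f x = 0
              · right
                rw [hy, mul_add, add_mul, add_mul, h1, h2, h3, h4]
                simp
              · left
                have h5 : e₁ = adj σ f x := he₁.eq_of_mul_ne_zero hc hxp' h4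
                have h6 : x = e₀ := by
                  rw [← hf.adj_adj x, ← h5, hadj1]
                rw [h6, ← he₁def, hy]
            · left
              have h5 : e₀ = adj σ f x := he₀.eq_of_mul_ne_zero hc hxp' h3
              have h6 : x = e₁ := by
                rw [← hf.adj_adj x, ← h5]
              rw [h6, hadj1, hy, add_comm]
          · left
            have h5 : e₁ = x := he₁.eq_of_mul_ne_zero hc hxp h2
            rw [← h5, hadj1, hy, add_comm]
        · left
          have h5 : e₀ = x := he₀.eq_of_mul_ne_zero hc hxp h1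
          rw [← h5, ← he₁def, hy]⟩
      by_cases hy1 : y = 1
      · -- totally singular pair
        right; left
        have hrank : Matrix.rank e₁ = Matrix.rank e₀ := by
          have h1 : e₁ * ∑ x ∈ orbitF G e₀, x ≠ 0 := by
            rw [hsum₀, mul_one]
            exact he₁.ne_zero
          rw [Finset.mul_sum] at h1
          obtain ⟨x, hx, hx0⟩ := Finset.exists_ne_zero_of_sum_ne_zero h1
          obtain ⟨g, hg, rfl⟩ := mem_orbitF.mp hx
          rw [he₁.eq_of_mul_ne_zero hc (he₀.conj hE hg) hx0, rank_conj]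
        have hk : 0 < Matrix.rank e₀ := by
          rw [Nat.pos_iff_ne_zero]
          intro h0
          apply he₀.ne_zero
          have h1 : LinearMap.range e₀.mulVecLin = ⊥ := Submodule.finrank_eq_zero.mp h0
          ext i j
          have h2 : e₀ *ᵥ (Pi.single j 1) ∈ LinearMap.range e₀.mulVecLin := ⟨_, rfl⟩
          rw [h1, Submodule.mem_bot] at h2
          have := congrFun h2 i
          simpa using this
        let x : Fin 2 → Matrix ι ι F := ![e₀, e₁]
        have hx0 : x 0 = e₀ := rfl
        have hx1 : x 1 = e₁ := rfl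
        have hD := isMDecomposition_of_family x (le_refl 2) hk (by
          intro i
          fin_cases i
          · rfl
          · exact hrank) (by
          intro i
          fin_cases i
          · exact he₀.idem
          · exact he₁.idem) (by
          intro i j hij
          fin_cases i <;> fin_cases j
          · exact absurd rfl hij
          · exact h01
          · exact h10
          · exact absurd rfl hij) (by
          rw [Fin.sum_univ_two, hx0, hx1, ← hy, hy1])
        refine ⟨_, _, hD, ?_, ?_⟩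
        · have hzero : ∀ u v, f (e₀ *ᵥ u) (e₀ *ᵥ v) = 0 := by
            intro u v
            rw [hf.adj_spec, ← he₁def, Matrix.mulVec_mulVec, h10, Matrix.zero_mulVec, hf.zero_right]
          have hone : ∀ u v, f (e₁ *ᵥ u) (e₁ *ᵥ v) = 0 := by
            intro u v
            rw [hf.adj_spec, hadj1, Matrix.mulVec_mulVec, h01, Matrix.zero_mulVec, hf.zero_right]
          intro i
          fin_cases i
          · rintro _ ⟨u, rfl⟩ _ ⟨v, rfl⟩
            exact hzero u v
          · rintro _ ⟨u, rfl⟩ _ ⟨v, rfl⟩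
            exact hone u v
        · intro g hg
          have hxp : IsPrim E (conj g e₀) := he₀.conj hE hg
          have hcase : conj g e₀ = e₀ ∨ conj g e₀ = e₁ := by
            have h1 : conj g e₀ * (e₀ + e₁) ≠ 0 := by
              rw [← hy, hy1, mul_one]
              exact hxp.ne_zero
            rw [mul_add] at h1
            by_cases h2 : conj g e₀ * e₀ = 0
            · right
              rw [h2, zero_add] at h1
              exact hxp.eq_of_mul_ne_zero hc he₁ h1
            · left
              exact hxp.eq_of_mul_ne_zero hc he₀ h2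
          rcases hcase with h | h
          · refine mem_decomp_of_perm x 1 fun i => ?_
            have h2 : conj g e₁ = e₁ := by
              rw [he₁conj g hg, h]
            fin_cases i
            · exact h.symm
            · exact h2.symm
          · refine mem_decomp_of_perm x (Equiv.swap 0 1) fun i => ?_
            have h2 : conj g e₁ = e₀ := by
              rw [he₁conj g hg, h, hadj1]
            fin_cases i
            · exact h.symm
            · exact h2.symm
      · -- blocks
        left
        have ht' : 2 ≤ (orbitF G y).card := by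
          by_contra hcon
          have h1 : (orbitF G y).card = 1 := by
            have : 0 < (orbitF G y).card := Finset.card_pos.mpr ⟨y, self_mem_orbitF y⟩
            omega
          obtain ⟨a, ha⟩ := Finset.card_eq_one.mp h1
          have h2 : y ∈ orbitF G y := self_mem_orbitF y
          rw [ha, Finset.mem_singleton] at h2
          have h3 := hO.sum_eq_one hG
          rw [ha, Finset.sum_singleton, ← h2] at h3
          exact hy1 h3
        obtain ⟨t, k, x, hD, hle, hid, horth, hx⟩ := hO.exists_family hG ht'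
        refine ⟨t, k, _, nondegenerate_of_family hf x hD hid horth fun i => ?_, hle⟩
        obtain ⟨g, hg, hxg⟩ := hx i
        rw [hxg, hadjG g hg, hyadj]
  · -- a field
    have hcard : (orbitF G e₀).card = 1 := by
      have : 0 < (orbitF G e₀).card := Finset.card_pos.mpr ⟨e₀, self_mem_orbitF e₀⟩
      omega
    have he1 : e₀ = 1 := eq_one_of_card_eq_one hG hE hc he₀ hcard
    subst he1
    have hinv : ∀ x ∈ E, x ≠ 0 → ∃ y ∈ E, x * y = 1 := fun x hx h0 =>
      exists_inv_of_prim_one he₀ (fun x hx k hk => eq_zero_of_pow_eq_zero hG hE hc hx hk) hx h0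
    have hd : Module.finrank F ↥E ≠ 1 := by
      intro hd
      apply hn
      intro x hx
      have h1 : (1 : ↥E) ≠ 0 := fun h => one_ne_zero (α := Matrix ι ι F) (congrArg Subtype.val h)
      obtain ⟨c, hc'⟩ := (finrank_eq_one_iff_of_nonzero' (1 : ↥E) h1).mp hd ⟨x, hx⟩
      exact ⟨c, (congrArg Subtype.val hc').symm⟩
    right; right
    obtain ⟨r, hr, hrd⟩ := Nat.exists_prime_and_dvd hd
    obtain ⟨K, hK, hKr⟩ := exists_subfield_of_field hc hinv hrd
    refine ⟨r, K, hr, ⟨?_, ?_, hKr⟩, ?_, ?_⟩
    · intro x hx y hy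
      exact hc x ((hK x).mp hx).1 y ((hK y).mp hy).1
    · intro x hx h0
      obtain ⟨hxE, hxp⟩ := (hK x).mp hx
      obtain ⟨y, hy, hxy⟩ := hinv x hxE h0
      refine ⟨y, (hK y).mpr ⟨hy, ?_⟩, hxy⟩
      set N := Fintype.card F ^ r with hN
      have hyx : y * x = 1 := by rw [← hxy]; exact hc y hy x hxE
      have h2 : y ^ N * x = 1 := by
        calc y ^ N * x = y ^ N * x ^ N := by rw [hxp]
          _ = (y * x) ^ N := by
            rw [(show Commute y x from hc y hy x hxE).mul_pow]
          _ = 1 := by rw [hyx, one_pow]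
      calc y ^ N = y ^ N * (x * y) := by rw [hxy, mul_one]
        _ = (y ^ N * x) * y := by rw [mul_assoc]
        _ = y := by rw [h2, one_mul]
    · intro x hx
      obtain ⟨hxE, hxp⟩ := (hK x).mp hx
      refine (hK _).mpr ⟨hA x hxE, ?_⟩
      rw [← hf.adj_pow, hxp]
    · have hfw : ∀ g ∈ G, ∀ k ∈ K, conj g k ∈ K := by
        intro g hg k hk
        obtain ⟨hkE, hkp⟩ := (hK k).mp hk
        refine (hK _).mpr ⟨hE g hg k hkE, ?_⟩
        have := map_pow (conjAlg g) k (Fintype.card F ^ r)
        simp only [conjAlg_apply] at this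
        rw [← this, hkp]
      intro g hg k
      constructor
      · exact hfw g hg k
      · intro h
        have := hfw g⁻¹ (inv_mem hg) _ h
        have h3 : conj g⁻¹ (conj g k) = k := conj_inv_conj g k
        rw [← h3]
        exact this

end Main

end Cfsg.Agent.Lib.Classical.Asch.FormComm
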