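import Mathlib
import Cfsg.Agent.Lib.Classical.Asch.Adj
import Cfsg.Agent.Lib.Classical.Asch.SkolemNoether
import Cfsg.Agent.Lib.Classical.Asch.PureTensor

/-!
# Adjoint-closed full matrix subalgebras and the Gram matrices of the factors
-/

set_option autoImplicit false
set_option linter.style.haveILetI false
set_option linter.unusedSectionVars false

namespace Cfsg.Agent.Lib.Classical.Asch.FormTensor

open scoped MatrixGroups Matrix Kronecker
open Cfsg.Geo Cfsg.Agent.Lib.Classical.Asch.Basic Cfsg.Agent.Lib.Classical.Asch.Forms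
open Cfsg.Agent.Lib.Classical.Asch.Adj Cfsg.Agent.Lib.Classical.Asch.PureTensor
open Cfsg.Agent.Lib.Classical.Asch.SkolemNoether

variable {ι : Type} [Fintype ι] [DecidableEq ι] {κ : Type} [Fintype κ] [DecidableEq κ] {F : Type*} [Field F]
variable {σ : F ≃+* F} {ε : F} {f : (ι → F) → (ι → F) → F}

theorem map_mul_sigma (σ : F ≃+* F) (L M : Matrix κ κ F) : (L * M).map σ = L.map σ * M.map σ :=
  Matrix.map_mul (f := (σ : F →+* F))

theorem map_one_sigma (σ : F ≃+* F) : (1 : Matrix κ κ F).map σ = 1 :=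
  Matrix.map_one _ (map_zero σ) (map_one σ)

theorem map_add_sigma (σ : F ≃+* F) (L M : Matrix κ κ F) : (L + M).map σ = L.map σ + M.map σ := by
  ext i j
  simp

theorem map_smul_sigma (σ : F ≃+* F) (c : F) (L : Matrix κ κ F) : (c • L).map σ = σ c • L.map σ := by
  ext i j
  simp

theorem map_map_sigma (hσ : ∀ a, σ (σ a) = a) (L : Matrix κ κ F) : (L.map σ).map σ = L := by
  ext i j
  simp [hσ]

theorem map_transpose_sigma (σ : F ≃+* F) (L : Matrix κ κ F) : (Lᵀ).map σ = (L.map σ)ᵀ := rfl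

theorem sigma_mulVec (σ : F ≃+* F) (M : Matrix κ κ F) (v : κ → F) :
    (σ : F →+* F) ∘ (M *ᵥ v) = (M.map σ) *ᵥ ((σ : F →+* F) ∘ v) := by
  funext i
  simp [Matrix.mulVec, dotProduct, map_sum, map_mul]

/-- A matrix commuting with all matrices is a scalar. -/
theorem eq_smul_one_of_forall_commute {T : Matrix κ κ F} (h : ∀ y, T * y = y * T) : ∃ c : F, T = c • (1 : Matrix κ κ F) := by
  obtain ⟨c, hc⟩ := Matrix.mem_range_scalar_of_commute_single (M := T) (fun i j _ => (h _).symm)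
  refine ⟨c, ?_⟩
  rw [← hc]
  ext i j
  simp [Matrix.scalar_apply, Matrix.diagonal_apply, Matrix.one_apply]

/-- The transposed invertible matrix. -/
def glTranspose (b : GL κ F) : GL κ F where
  val := (b : Matrix κ κ F)ᵀ
  inv := ((b⁻¹ : GL κ F) : Matrix κ κ F)ᵀ
  val_inv := by
    rw [← Matrix.transpose_mul, ← Units.val_mul, inv_mul_cancel, Units.val_one, Matrix.transpose_one]
  inv_val := by
    rw [← Matrix.transpose_mul, ← Units.val_mul, mul_inv_cancel, Units.val_one, Matrix.transpose_one]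

@[simp] theorem coe_glTranspose (b : GL κ F) : ((glTranspose b : GL κ F) : Matrix κ κ F) = (b : Matrix κ κ F)ᵀ := rfl

/-- **The Gram matrix of a factor**: an adjoint-closed copy of a full matrix algebra. -/
theorem exists_factorGram [Nonempty κ] (hf : ReflForm σ ε f) (φ : Matrix κ κ F →ₐ[F] Matrix ι ι F)
    (hinj : Function.Injective φ) (hcl : ∀ a, ∃ b, adj σ f (φ a) = φ b) :
    ∃ (J : GL κ F) (τ : Matrix κ κ F → Matrix κ κ F) (ε₀ : F),
      (∀ a, adj σ f (φ a) = φ (τ a)) ∧ (∀ a, aᵀ * (J : Matrix κ κ F) = J * (τ a).map σ) ∧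
      (((J : Matrix κ κ F).map σ)ᵀ = ε₀ • (J : Matrix κ κ F)) ∧ ε₀ ≠ 0 ∧ (∀ a, τ (τ a) = a) := by
  choose τ hτ using hcl
  have hτ' : ∀ a, adj σ f (φ a) = φ (τ a) := hτ
  have τ_add : ∀ a b, τ (a + b) = τ a + τ b := fun a b => hinj (by
    rw [← hτ, map_add, hf.adj_add, hτ, hτ, map_add])
  have τ_smul : ∀ (c : F) a, τ (c • a) = σ c • τ a := fun c a => hinj (by
    rw [← hτ, map_smul, hf.adj_smul, hτ, map_smul])
  have τ_mul : ∀ a b, τ (a * b) = τ b * τ a := fun a b => hinj (by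
    rw [← hτ, map_mul, hf.adj_mul, hτ, hτ, map_mul])
  have τ_one : τ 1 = 1 := hinj (by
    rw [← hτ, map_one, hf.adj_one])
  have τ_τ : ∀ a, τ (τ a) = a := fun a => hinj (by
    rw [← hτ, ← hτ, hf.adj_adj])
  let ρ : Matrix κ κ F →ₐ[F] Matrix κ κ F :=
    { toFun := fun a => ((τ a)ᵀ).map σ
      map_one' := by
        change ((τ 1)ᵀ).map σ = 1
        rw [τ_one, Matrix.transpose_one, map_one_sigma]
      map_mul' := fun a b => by
        change ((τ (a * b))ᵀ).map σ = ((τ a)ᵀ).map σ * ((τ b)ᵀ).map σ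
        rw [τ_mul, Matrix.transpose_mul, map_mul_sigma]
      map_zero' := by
        have h0 : τ 0 = 0 := by
          have := τ_smul 0 0
          simpa using this
        change ((τ 0)ᵀ).map σ = 0
        rw [h0]
        ext i j
        simp
      map_add' := fun a b => by
        change ((τ (a + b))ᵀ).map σ = ((τ a)ᵀ).map σ + ((τ b)ᵀ).map σ
        rw [τ_add, Matrix.transpose_add, map_add_sigma]
      commutes' := fun c => by
        change ((τ (algebraMap F _ c))ᵀ).map σ = algebraMap F _ c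
        rw [Algebra.algebraMap_eq_smul_one, τ_smul, τ_one, Matrix.transpose_smul, Matrix.transpose_one,
          map_smul_sigma, map_one_sigma, hf.invol] }
  have hρ : ∀ a, ρ a = ((τ a)ᵀ).map σ := fun a => rfl
  obtain ⟨b, hb⟩ := skolem_noether ρ
  have hbb : ((b⁻¹ : GL κ F) : Matrix κ κ F) * (b : Matrix κ κ F) = 1 := by
    rw [← Units.val_mul, inv_mul_cancel, Units.val_one]
  have hbb' : (b : Matrix κ κ F) * ((b⁻¹ : GL κ F) : Matrix κ κ F) = 1 := by
    rw [← Units.val_mul, mul_inv_cancel, Units.val_one]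
  have hint : ∀ a, aᵀ * ((glTranspose b : GL κ F) : Matrix κ κ F) =
      ((glTranspose b : GL κ F) : Matrix κ κ F) * (τ a).map σ := by
    intro a
    rw [coe_glTranspose]
    have h1 : ((τ a).map σ) = ((((τ a)ᵀ).map σ))ᵀ := rfl
    have h2 : ((τ a).map σ) = ((b⁻¹ : GL κ F) : Matrix κ κ F)ᵀ * aᵀ * (b : Matrix κ κ F)ᵀ := by
      rw [h1, ← hρ, hb, Matrix.transpose_mul, Matrix.transpose_mul, mul_assoc]
    have h3 : (b : Matrix κ κ F)ᵀ * ((b⁻¹ : GL κ F) : Matrix κ κ F)ᵀ = 1 := by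
      rw [← Matrix.transpose_mul, hbb, Matrix.transpose_one]
    rw [h2, ← mul_assoc, ← mul_assoc, h3, one_mul]
  set J := glTranspose b with hJ
  have hJJ : ((J⁻¹ : GL κ F) : Matrix κ κ F) * (J : Matrix κ κ F) = 1 := by
    rw [← Units.val_mul, inv_mul_cancel, Units.val_one]
  have hJJ' : (J : Matrix κ κ F) * ((J⁻¹ : GL κ F) : Matrix κ κ F) = 1 := by
    rw [← Units.val_mul, mul_inv_cancel, Units.val_one]
  -- the hermitian relation
  set Js : Matrix κ κ F := ((J : Matrix κ κ F).map σ)ᵀ with hJs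
  have h1 : ∀ a, Js * a.map σ = (τ a)ᵀ * Js := by
    intro a
    have h2 := congrArg (fun M => (M.map σ)ᵀ) (hint a)
    simp only [map_mul_sigma, Matrix.transpose_mul, map_map_sigma hf.invol] at h2
    exact h2
  have h2 : ∀ a, ((J⁻¹ : GL κ F) : Matrix κ κ F) * (τ a)ᵀ = a.map σ * ((J⁻¹ : GL κ F) : Matrix κ κ F) := by
    intro a
    have h3 := hint (τ a)
    rw [τ_τ] at h3
    calc ((J⁻¹ : GL κ F) : Matrix κ κ F) * (τ a)ᵀ
        = ((J⁻¹ : GL κ F) : Matrix κ κ F) * ((τ a)ᵀ * ((J : Matrix κ κ F) * ((J⁻¹ : GL κ F) : Matrix κ κ F))) := by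
          rw [hJJ', mul_one]
      _ = ((J⁻¹ : GL κ F) : Matrix κ κ F) * ((J : Matrix κ κ F) * a.map σ) * ((J⁻¹ : GL κ F) : Matrix κ κ F) := by
          rw [← mul_assoc (τ a)ᵀ, h3]
          simp only [mul_assoc]
      _ = _ := by rw [← mul_assoc ((J⁻¹ : GL κ F) : Matrix κ κ F), hJJ, one_mul]
  have hcomm : ∀ y : Matrix κ κ F, (Js * ((J⁻¹ : GL κ F) : Matrix κ κ F)) * y = y * (Js * ((J⁻¹ : GL κ F) : Matrix κ κ F)) := by
    intro y
    have hy : y = (τ (τ yᵀ))ᵀ := by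
      rw [τ_τ, Matrix.transpose_transpose]
    rw [hy]
    rw [mul_assoc, h2, ← mul_assoc, h1, mul_assoc]
  obtain ⟨c, hc⟩ := eq_smul_one_of_forall_commute hcomm
  have hJc : Js = c • (J : Matrix κ κ F) := by
    have := congrArg (fun M => M * (J : Matrix κ κ F)) hc
    simp only [mul_assoc, hJJ, mul_one, Matrix.smul_mul, one_mul] at this
    exact this
  refine ⟨J, τ, c, hτ', hint, hJc, ?_, τ_τ⟩
  rintro rfl
  rw [zero_smul] at hJc
  have h3 : (J : Matrix κ κ F).map σ = 0 := by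
    have := congrArg Matrix.transpose hJc
    simpa [hJs] using this
  obtain ⟨i⟩ := ‹Nonempty κ›
  have h4 := hJJ'
  have h5 : (J : Matrix κ κ F) = 0 := by
    ext a b
    have := congrFun (congrFun h3 a) b
    simpa using this
  rw [h5, zero_mul] at h4
  have := congrFun (congrFun h4 i) i
  simp at this

/-- **Proportionality of forms**. -/
theorem exists_eq_smul_sesqM [Nonempty ι] (hf : ReflForm σ ε f) {A : Matrix ι ι F} (hA : IsUnit A) (P : GL ι F)
    {J' : Type*} (ψ ψ' s s' : J' → Matrix ι ι F)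
    (hψ : ∀ j, ψ j * (P : Matrix ι ι F) = P * s j) (hψ' : ∀ j, ψ' j * (P : Matrix ι ι F) = P * s' j)
    (hadj : ∀ j, adj σ f (ψ j) = ψ' j)
    (h2 : ∀ j, (s j)ᵀ * A = A * (s' j).map σ)
    (h3 : ∀ x : Matrix ι ι F, (∀ j, x * ψ j = ψ j * x) → ∃ c : F, x = c • 1) :
    ∃ c : F, c ≠ 0 ∧ ∀ u v, f ((P : Matrix ι ι F) *ᵥ u) ((P : Matrix ι ι F) *ᵥ v) = c * sesqM (σ : F →+* F) A u v := by
  classical
  have hsesq : IsSesq (σ : F →+* F) (fun u v => f ((P : Matrix ι ι F) *ᵥ u) ((P : Matrix ι ι F) *ᵥ v)) := by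
    refine ⟨fun x y v => ?_, fun c x v => ?_, fun v x y => ?_, fun c v x => ?_⟩
    · simp only [Matrix.mulVec_add, hf.add_left]
    · simp only [Matrix.mulVec_smul, hf.smul_left]
    · simp only [Matrix.mulVec_add, hf.add_right]
    · simp only [Matrix.mulVec_smul, hf.smul_right]
      rfl
  set fP : (ι → F) → (ι → F) → F := fun u v => f ((P : Matrix ι ι F) *ᵥ u) ((P : Matrix ι ι F) *ᵥ v) with hfP
  set G := gram fP with hG
  have hPP : (P : Matrix ι ι F) * ((P⁻¹ : GL ι F) : Matrix ι ι F) = 1 := by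
    rw [← Units.val_mul, mul_inv_cancel, Units.val_one]
  have hPP' : ((P⁻¹ : GL ι F) : Matrix ι ι F) * (P : Matrix ι ι F) = 1 := by
    rw [← Units.val_mul, inv_mul_cancel, Units.val_one]
  -- the matrix relation
  have h1 : ∀ j, (s j)ᵀ * G = G * (s' j).map σ := by
    intro j
    have h4 : ∀ u v, sesqM (σ : F →+* F) G ((s j) *ᵥ u) v = sesqM (σ : F →+* F) G u ((s' j) *ᵥ v) := by
      intro u v
      rw [← hsesq.eq_sesqM, ← hsesq.eq_sesqM]
      simp only [hfP]
      rw [Matrix.mulVec_mulVec, Matrix.mulVec_mulVec, ← hψ, ← hψ', ← Matrix.mulVec_mulVec, ← Matrix.mulVec_mulVec,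
        hf.adj_spec, hadj]
    refine eq_of_sesqM_eq (σ := (σ : F →+* F)) σ.surjective fun u v => ?_
    have e1 : sesqM (σ : F →+* F) ((s j)ᵀ * G) u v = sesqM (σ : F →+* F) G ((s j) *ᵥ u) v := by
      simp only [sesqM]
      rw [← Matrix.mulVec_mulVec, Matrix.dotProduct_mulVec u, Matrix.vecMul_transpose]
    have e2 : sesqM (σ : F →+* F) (G * (s' j).map σ) u v = sesqM (σ : F →+* F) G u ((s' j) *ᵥ v) := by
      simp only [sesqM]
      rw [sigma_mulVec, Matrix.mulVec_mulVec]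
    rw [e1, e2, h4]
  -- the commuting matrix
  have hAdet : IsUnit A.det := (Matrix.isUnit_iff_isUnit_det _).mp hA
  have hAA : A * A⁻¹ = 1 := Matrix.mul_nonsing_inv _ hAdet
  have hAA' : A⁻¹ * A = 1 := Matrix.nonsing_inv_mul _ hAdet
  set T : Matrix ι ι F := G * A⁻¹ with hT
  have hTs : ∀ j, (s j)ᵀ * T = T * (s j)ᵀ := by
    intro j
    have h4 : (s' j).map σ * A⁻¹ = A⁻¹ * (s j)ᵀ := by
      calc (s' j).map σ * A⁻¹ = (A⁻¹ * A) * (s' j).map σ * A⁻¹ := by rw [hAA', one_mul]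
        _ = A⁻¹ * (A * (s' j).map σ) * A⁻¹ := by simp only [mul_assoc]
        _ = A⁻¹ * ((s j)ᵀ * A) * A⁻¹ := by rw [h2]
        _ = A⁻¹ * (s j)ᵀ * (A * A⁻¹) := by simp only [mul_assoc]
        _ = _ := by rw [hAA, mul_one]
    rw [hT, ← mul_assoc, h1, mul_assoc, h4, mul_assoc]
  have hTt : ∀ j, Tᵀ * s j = s j * Tᵀ := by
    intro j
    have := congrArg Matrix.transpose (hTs j)
    simpa [Matrix.transpose_mul] using this
  have hx : ∀ j, ((P : Matrix ι ι F) * Tᵀ * ((P⁻¹ : GL ι F) : Matrix ι ι F)) * ψ j =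
      ψ j * ((P : Matrix ι ι F) * Tᵀ * ((P⁻¹ : GL ι F) : Matrix ι ι F)) := by
    intro j
    have h4 : ψ j = (P : Matrix ι ι F) * s j * ((P⁻¹ : GL ι F) : Matrix ι ι F) := by
      rw [← hψ, mul_assoc, hPP, mul_one]
    rw [h4]
    calc _ = (P : Matrix ι ι F) * Tᵀ * (((P⁻¹ : GL ι F) : Matrix ι ι F) * (P : Matrix ι ι F)) * s j *
          ((P⁻¹ : GL ι F) : Matrix ι ι F) := by simp only [mul_assoc]
      _ = (P : Matrix ι ι F) * (Tᵀ * s j) * ((P⁻¹ : GL ι F) : Matrix ι ι F) := by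
          rw [hPP', mul_one]; simp only [mul_assoc]
      _ = (P : Matrix ι ι F) * (s j * Tᵀ) * ((P⁻¹ : GL ι F) : Matrix ι ι F) := by rw [hTt]
      _ = (P : Matrix ι ι F) * s j * (((P⁻¹ : GL ι F) : Matrix ι ι F) * (P : Matrix ι ι F)) * Tᵀ *
          ((P⁻¹ : GL ι F) : Matrix ι ι F) := by
          rw [hPP', mul_one]; simp only [mul_assoc]
      _ = _ := by simp only [mul_assoc]
  obtain ⟨c, hc⟩ := h3 _ hx
  have hTc : Tᵀ = c • 1 := by
    have h4 := congrArg (fun M => ((P⁻¹ : GL ι F) : Matrix ι ι F) * M * (P : Matrix ι ι F)) hc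
    calc Tᵀ = (((P⁻¹ : GL ι F) : Matrix ι ι F) * (P : Matrix ι ι F)) * Tᵀ *
          (((P⁻¹ : GL ι F) : Matrix ι ι F) * (P : Matrix ι ι F)) := by rw [hPP', one_mul, mul_one]
      _ = ((P⁻¹ : GL ι F) : Matrix ι ι F) * ((P : Matrix ι ι F) * Tᵀ * ((P⁻¹ : GL ι F) : Matrix ι ι F)) * (P : Matrix ι ι F) := by
          simp only [mul_assoc]
      _ = _ := by rw [h4]; simp [hPP']
  have hTc' : T = c • 1 := by
    have := congrArg Matrix.transpose hTc
    simpa using this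
  have hGc : G = c • A := by
    have := congrArg (fun M => M * A) hTc'
    simp only [hT, mul_assoc, hAA', mul_one, Matrix.smul_mul, one_mul] at this
    exact this
  have hfPeq : ∀ u v, fP u v = c * sesqM (σ : F →+* F) A u v := by
    intro u v
    rw [hsesq.eq_sesqM, ← hG, hGc]
    simp [sesqM, Matrix.smul_mulVec, dotProduct_smul]
  refine ⟨c, ?_, hfPeq⟩
  rintro rfl
  obtain ⟨i⟩ := ‹Nonempty ι›
  have hv : (Pi.single i 1 : ι → F) ≠ 0 := by
    intro h
    have := congrFun h i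
    simp at this
  obtain ⟨⟨x, hx⟩, -⟩ := hf.nondeg _ hv
  apply hx
  have h4 := hfPeq (((P⁻¹ : GL ι F) : Matrix ι ι F) *ᵥ x) (((P⁻¹ : GL ι F) : Matrix ι ι F) *ᵥ (Pi.single i 1))
  simp only [hfP, mulVec_inv_mulVec, zero_mul] at h4
  exact h4

/-- The symmetry of `sesqM`. -/
theorem sigma_sesqM {A : Matrix ι ι F} {δ : F} (hδ : (A.map σ)ᵀ = δ • A) (hσ : ∀ a, σ (σ a) = a) (u v : ι → F) :
    σ (sesqM (σ : F →+* F) A v u) = δ * sesqM (σ : F →+* F) A u v := by
  have h1 : σ (sesqM (σ : F →+* F) A v u) = ((σ : F →+* F) ∘ v) ⬝ᵥ ((A.map σ) *ᵥ u) := by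
    have hu : (σ : F →+* F) ∘ ((σ : F →+* F) ∘ u) = u := by
      funext i
      simp [hσ]
    simp only [sesqM]
    have h2 := sigma_mulVec σ A ((σ : F →+* F) ∘ u)
    rw [hu] at h2
    rw [← h2]
    simp [dotProduct, map_sum, map_mul]
  rw [h1, Matrix.dotProduct_mulVec, ← Matrix.mulVec_transpose, dotProduct_comm]
  rw [hδ]
  simp [sesqM, Matrix.smul_mulVec, dotProduct_smul]

/-- The sign relation. -/
theorem sign_relation [Nonempty ι] (hf : ReflForm σ ε f) {A : Matrix ι ι F} (hA : IsUnit A) {δ : F}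
    (hδ : (A.map σ)ᵀ = δ • A) {P : GL ι F} {c : F}
    (hc : ∀ u v, f ((P : Matrix ι ι F) *ᵥ u) ((P : Matrix ι ι F) *ᵥ v) = c * sesqM (σ : F →+* F) A u v) :
    c = ε * σ c * δ := by
  classical
  obtain ⟨i⟩ := ‹Nonempty ι›
  have hex : ∃ a b, A a b ≠ 0 := by
    by_contra hcon
    push Not at hcon
    have h0 : A = 0 := by
      ext a b
      exact hcon a b
    have h1 := (Matrix.isUnit_iff_isUnit_det _).mp hA
    rw [h0, Matrix.det_zero] at h1
    exact not_isUnit_zero h1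
  obtain ⟨a, b, hab⟩ := hex
  have h1 : sesqM (σ : F →+* F) A (Pi.single a 1) (Pi.single b 1) = A a b := by
    have h7 : (σ : F →+* F) ∘ (Pi.single b 1 : ι → F) = Pi.single b 1 := by
      funext i
      by_cases h : i = b
      · subst h
        simp
      · simp [h]
    simp only [sesqM]
    rw [h7, Matrix.mulVec_single_one]
    simp
  have h2 := hc (Pi.single a 1) (Pi.single b 1)
  rw [hf.herm, hc, map_mul, sigma_sesqM hδ hf.invol, h1] at h2
  have h3 : (c - ε * σ c * δ) * A a b = 0 := by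
    rw [sub_mul, ← h2]
    ring
  exact sub_eq_zero.mp ((mul_eq_zero.mp h3).resolve_right hab)

end Cfsg.Agent.Lib.Classical.Asch.FormTensor
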