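import Mathlib
import Cfsg.Agent.Lib.Classical.Asch.FormTensor
import Cfsg.Agent.Lib.Classical.Asch.FormComm
import Cfsg.Agent.Lib.Classical.Asch.Dichotomy
import Cfsg.Agent.Lib.Classical.Asch.Clifford
import Cfsg.Agent.Lib.Classical.Asch.CaseB

/-!
# The dichotomy relative to a form
-/

set_option autoImplicit false
set_option linter.style.haveILetI false
set_option linter.unusedSectionVars false

namespace Cfsg.Agent.Lib.Classical.Asch.FormDich

open scoped MatrixGroups Matrix Kronecker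
open Cfsg.Geo Cfsg.Agent.Lib.Classical.Asch.Basic Cfsg.Agent.Lib.Classical.Asch.Forms
open Cfsg.Agent.Lib.Classical.Asch.Adj Cfsg.Agent.Lib.Classical.Asch.PureTensor
open Cfsg.Agent.Lib.Classical.Asch.FormTensor Cfsg.Agent.Lib.Classical.Asch.FormComm
open Cfsg.Agent.Lib.Classical.Asch.Dichotomy Cfsg.Agent.Lib.Classical.Asch.Frame
open Cfsg.Agent.Lib.Classical.Asch.Stable Cfsg.Agent.Lib.Classical.Asch.Clifford
open Cfsg.Agent.Lib.Classical.Asch.CaseB

variable {ι : Type} [Fintype ι] [DecidableEq ι] {F : Type*} [Field F]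
variable {σ : F ≃+* F} {ε : F} {f : (ι → F) → (ι → F) → F}

/-- The Kronecker product of two invertible matrices transported to `ι`. -/
theorem isUnit_kron_submatrix {d k : ℕ} (e : ι ≃ Fin d × Fin k) (J₁ : GL (Fin d) F) (J₂ : GL (Fin k) F) :
    IsUnit (((J₁ : Matrix (Fin d) (Fin d) F) ⊗ₖ (J₂ : Matrix (Fin k) (Fin k) F)).submatrix e e) := by
  refine IsUnit.of_mul_eq_one (((((J₁⁻¹ : GL _ F) : Matrix (Fin d) (Fin d) F) ⊗ₖ ((J₂⁻¹ : GL _ F) : Matrix (Fin k) (Fin k) F))).submatrix e e) ?_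
  rw [Matrix.submatrix_mul_equiv, ← Matrix.mul_kronecker_mul, ← Units.val_mul, ← Units.val_mul, mul_inv_cancel,
    mul_inv_cancel, Units.val_one, Units.val_one, Matrix.one_kronecker_one, Matrix.submatrix_one_equiv]

theorem transpose_kron {m n : Type} (a : Matrix m m F) (b : Matrix n n F) : (a ⊗ₖ b)ᵀ = aᵀ ⊗ₖ bᵀ := by
  ext i j
  simp

theorem map_kron {m n : Type} (a : Matrix m m F) (b : Matrix n n F) : (a ⊗ₖ b).map σ = a.map σ ⊗ₖ b.map σ := by
  ext i j
  simp

/-- All the data of the tensor decomposition of a form. -/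
structure TensorData (σ : F ≃+* F) (ε : F) (f : (ι → F) → (ι → F) → F) (G : Subgroup (GL ι F)) (d k : ℕ)
    (e : ι ≃ Fin d × Fin k) (P : GL ι F) (J₁ : GL (Fin d) F) (J₂ : GL (Fin k) F) (ε₁ ε₂ c : F) : Prop where
  hd : 2 ≤ d
  hk : 2 ≤ k
  le : G ≤ tensorProductSubgroup d k e P
  herm₁ : ((J₁ : Matrix (Fin d) (Fin d) F).map σ)ᵀ = ε₁ • (J₁ : Matrix (Fin d) (Fin d) F)
  herm₂ : ((J₂ : Matrix (Fin k) (Fin k) F).map σ)ᵀ = ε₂ • (J₂ : Matrix (Fin k) (Fin k) F)
  ne₁ : ε₁ ≠ 0
  ne₂ : ε₂ ≠ 0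
  hc : c ≠ 0
  eq : ∀ u v, f ((P : Matrix ι ι F) *ᵥ u) ((P : Matrix ι ι F) *ᵥ v) =
    c * sesqM (σ : F →+* F) (((J₁ : Matrix (Fin d) (Fin d) F) ⊗ₖ (J₂ : Matrix (Fin k) (Fin k) F)).submatrix e e) u v
  sign : c = ε * σ c * (ε₁ * ε₂)

/-- The tensor outcome from a frame for an adjoint-closed subalgebra. -/
theorem tensorData_of_frame [Fintype F] [Nonempty ι] (hf : ReflForm σ ε f) {G : Subgroup (GL ι F)}
    {C : Subalgebra F (Matrix ι ι F)} (hCa : AdjClosed σ f C)
    (hCs : Stable G (C : Set (Matrix ι ι F))) {d k : ℕ} {ψ : Matrix (Fin k) (Fin k) F →ₐ[F] Matrix ι ι F}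
    {e : ι ≃ Fin d × Fin k} {P : GL ι F} (hfr : FrameData C d k ψ e P) (hd : 2 ≤ d) (hk : 2 ≤ k) :
    ∃ (J₁ : GL (Fin d) F) (J₂ : GL (Fin k) F) (ε₁ ε₂ c : F), TensorData σ ε f G d k e P J₁ J₂ ε₁ ε₂ c := by
  classical
  haveI : Nonempty (Fin d) := ⟨⟨0, by omega⟩⟩
  haveI : Nonempty (Fin k) := ⟨⟨0, by omega⟩⟩
  have hPinv : ∀ x y : Matrix ι ι F, (P : Matrix ι ι F) * x = (P : Matrix ι ι F) * y → x = y := by
    intro x y h
    have := congrArg (fun M => ((P⁻¹ : GL ι F) : Matrix ι ι F) * M) h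
    simpa [← mul_assoc, ← Units.val_mul] using this
  have hψinj : Function.Injective ψ := by
    intro m m' h
    have h1 := hfr.frame m
    rw [h, hfr.frame m'] at h1
    have h2 := hPinv _ _ h1
    ext i j
    have h3 := congrFun (congrFun h2 (e.symm (⟨0, by omega⟩, i))) (e.symm (⟨0, by omega⟩, j))
    simpa using h3.symm
  have hcl₂ : ∀ m, ∃ m', adj σ f (ψ m) = ψ m' := by
    intro m
    obtain ⟨m', hm'⟩ := (hfr.mem_iff _).mp (hCa _ ((hfr.mem_iff _).mpr ⟨m, rfl⟩))
    exact ⟨m', hm'.symm⟩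
  have hcl₁ : ∀ a, ∃ b, adj σ f (outer e P a) = outer e P b := by
    intro a
    obtain ⟨b, hb⟩ := hfr.exists_outer_eq (x := adj σ f (outer e P a)) (fun y hy => by
      have h1 := hfr.outer_comm a (hCa y hy)
      have h2 := congrArg (adj σ f) h1
      rw [hf.adj_mul, hf.adj_mul, hf.adj_adj] at h2
      exact h2.symm)
    exact ⟨b, hb.symm⟩
  obtain ⟨J₁, τ₁, ε₁, h1a, h1b, h1c, h1d, -⟩ := exists_factorGram hf (outer e P) (outer_injective hfr.hk e P) hcl₁
  obtain ⟨J₂, τ₂, ε₂, h2a, h2b, h2c, h2d, -⟩ := exists_factorGram hf ψ hψinj hcl₂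
  set A : Matrix ι ι F := ((J₁ : Matrix (Fin d) (Fin d) F) ⊗ₖ (J₂ : Matrix (Fin k) (Fin k) F)).submatrix e e with hA
  have hAu : IsUnit A := isUnit_kron_submatrix e J₁ J₂
  let J' := Matrix (Fin d) (Fin d) F ⊕ Matrix (Fin k) (Fin k) F
  let ψ₁ : J' → Matrix ι ι F := Sum.elim (outer e P) ψ
  let ψ₂ : J' → Matrix ι ι F := Sum.elim (fun a => outer e P (τ₁ a)) (fun m => ψ (τ₂ m))
  let s₁ : J' → Matrix ι ι F := Sum.elim (fun a => (a ⊗ₖ (1 : Matrix (Fin k) (Fin k) F)).submatrix e e)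
    (fun m => ((1 : Matrix (Fin d) (Fin d) F) ⊗ₖ m).submatrix e e)
  let s₂ : J' → Matrix ι ι F := Sum.elim (fun a => (τ₁ a ⊗ₖ (1 : Matrix (Fin k) (Fin k) F)).submatrix e e)
    (fun m => ((1 : Matrix (Fin d) (Fin d) F) ⊗ₖ τ₂ m).submatrix e e)
  obtain ⟨c, hc, heq⟩ := exists_eq_smul_sesqM hf hAu P ψ₁ ψ₂ s₁ s₂
    (by rintro (a | m); exacts [outer_mul e P a, hfr.frame m])
    (by rintro (a | m); exacts [outer_mul e P _, hfr.frame _])
    (by rintro (a | m); exacts [h1a a, h2a m])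
    (by
      rintro (a | m)
      · change ((a ⊗ₖ (1 : Matrix (Fin k) (Fin k) F)).submatrix e e)ᵀ * A =
          A * ((τ₁ a ⊗ₖ (1 : Matrix (Fin k) (Fin k) F)).submatrix e e).map σ
        rw [hA, Matrix.transpose_submatrix, Matrix.submatrix_mul_equiv, ← Matrix.submatrix_map,
          Matrix.submatrix_mul_equiv, transpose_kron, map_kron, ← Matrix.mul_kronecker_mul,
          ← Matrix.mul_kronecker_mul, h1b, Matrix.transpose_one, map_one_sigma, one_mul, mul_one]
      · change (((1 : Matrix (Fin d) (Fin d) F) ⊗ₖ m).submatrix e e)ᵀ * A =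
          A * (((1 : Matrix (Fin d) (Fin d) F) ⊗ₖ τ₂ m).submatrix e e).map σ
        rw [hA, Matrix.transpose_submatrix, Matrix.submatrix_mul_equiv, ← Matrix.submatrix_map,
          Matrix.submatrix_mul_equiv, transpose_kron, map_kron, ← Matrix.mul_kronecker_mul,
          ← Matrix.mul_kronecker_mul, h2b, Matrix.transpose_one, map_one_sigma, one_mul, mul_one])
    (by
      intro x hx
      obtain ⟨a, rfl⟩ := hfr.exists_outer_eq (x := x) (fun y hy => by
        obtain ⟨m, rfl⟩ := (hfr.mem_iff y).mp hy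
        exact hx (Sum.inr m))
      have hcent : ∀ b, a * b = b * a := by
        intro b
        have h1 := hx (Sum.inl b)
        change outer e P a * outer e P b = outer e P b * outer e P a at h1
        rw [← map_mul, ← map_mul] at h1
        exact outer_injective hfr.hk e P h1
      obtain ⟨c, rfl⟩ := eq_smul_one_of_forall_commute hcent
      exact ⟨c, by rw [map_smul, map_one]⟩)
  refine ⟨J₁, J₂, ε₁, ε₂, c, hd, hk, fun g hg => ?_, h1c, h2c, h1d, h2d, hc, heq, ?_⟩
  · refine mem_tensorProductSubgroup hfr.hk ψ e P hfr.frame fun m => ?_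
    have h1 : ψ m ∈ C := (hfr.mem_iff _).mpr ⟨m, rfl⟩
    obtain ⟨m', hm'⟩ := (hfr.mem_iff _).mp (hCs g hg _ h1)
    refine ⟨m', ?_⟩
    rw [hm']
    unfold Basic.conj
    rw [mul_assoc, ← Units.val_mul, inv_mul_cancel, Units.val_one, mul_one]
  · refine sign_relation hf hAu ?_ heq
    ext i j
    have h1 := congrFun (congrFun h1c (e i).1) (e j).1
    have h2 := congrFun (congrFun h2c (e i).2) (e j).2
    simp only [Matrix.transpose_apply, Matrix.map_apply, Matrix.smul_apply, smul_eq_mul] at h1 h2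
    simp only [hA, Matrix.transpose_apply, Matrix.map_apply, Matrix.submatrix_apply, Matrix.kroneckerMap_apply,
      map_mul, Matrix.smul_apply, smul_eq_mul, h1, h2]
    ring

/-- **The dichotomy relative to a form.** -/
theorem form_dichotomy [Fintype F] [Nonempty ι] (hf : ReflForm σ ε f) {G N : Subgroup (GL ι F)}
    (hG : ∀ W : Submodule F (ι → F), Inv G W → W = ⊥ ∨ W = ⊤) (hGs : G ≤ similarityGroup f)
    (hNG : N ≤ G) (hN : Normalizes G N) :
    CommOutcome σ f G ∨
    (∃ (d k : ℕ) (e : ι ≃ Fin d × Fin k) (P : GL ι F) (J₁ : GL (Fin d) F) (J₂ : GL (Fin k) F) (ε₁ ε₂ c : F),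
      TensorData σ ε f G d k e P J₁ J₂ ε₁ ε₂ c) ∨
    N ≤ scalars ι F ∨ ((∀ W : Submodule F (ι → F), Inv N W → W = ⊥ ∨ W = ⊤) ∧ CentScalar N) := by
  have hC : Stable G (cent N : Set (Matrix ι ι F)) := stable_cent hN
  have hCa : AdjClosed σ f (cent N) := adjClosed_cent hf (hNG.trans hGs)
  have hE := stable_centerOf hC
  have hEa : AdjClosed σ f (centerOf (cent N)) := adjClosed_centerOf hf hCa fun x => mem_centerOf
  have hcomm : ∀ x ∈ centerOf (cent N), ∀ y ∈ centerOf (cent N), x * y = y * x := by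
    intro x hx y hy
    exact (mem_centerOf.mp hx).2 y (mem_centerOf.mp hy).1
  by_cases hn : ∀ x ∈ centerOf (cent N), ∃ c : F, x = c • (1 : Matrix ι ι F)
  · haveI : IsSemisimpleRing ↥(cent N) := isSemisimpleRing_of_stable hG hC
    have hZ : ∀ z ∈ cent N, (∀ y ∈ cent N, z * y = y * z) → ∃ c : F, z = c • (1 : Matrix ι ι F) :=
      fun z hz hzy => hn z (mem_centerOf.mpr ⟨hz, hzy⟩)
    obtain ⟨d, k, ψ, e, P, hfr⟩ := exists_frameData hZ
    by_cases hd : 2 ≤ d
    · by_cases hk : 2 ≤ k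
      · right; left
        obtain ⟨J₁, J₂, ε₁, ε₂, c, h⟩ := tensorData_of_frame hf hCa hC hfr hd hk
        exact ⟨d, k, e, P, J₁, J₂, ε₁, ε₂, c, h⟩
      · -- `k = 1`: the centraliser is scalar
        right; right; right
        have hk1 : k = 1 := by
          have := hfr.hk
          omega
        subst hk1
        have hcs : CentScalar N := by
          intro x hx
          obtain ⟨m, rfl⟩ := (hfr.mem_iff x).mp hx
          refine ⟨m 0 0, ?_⟩
          have hm : m = m 0 0 • (1 : Matrix (Fin 1) (Fin 1) F) := by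
            ext i j
            rw [Fin.fin_one_eq_zero i, Fin.fin_one_eq_zero j]
            simp
          conv_lhs => rw [hm]
          rw [map_smul, map_one]
        exact ⟨clifford_irreducible hG hN hcs, hcs⟩
    · -- `d = 1`: the subgroup is scalar
      right; right; left
      have hd1 : d = 1 := by
        have := hfr.hd
        omega
      subst hd1
      intro x hx
      obtain ⟨a, ha⟩ := hfr.exists_outer_eq (x := (x : Matrix ι ι F)) (fun y hy =>
        (mem_cent.mp hy x hx))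
      rw [mem_scalars_iff']
      refine ⟨a 0 0, ?_⟩
      rw [← ha]
      have hm : a = a 0 0 • (1 : Matrix (Fin 1) (Fin 1) F) := by
        ext i j
        rw [Fin.fin_one_eq_zero i, Fin.fin_one_eq_zero j]
        simp
      conv_lhs => rw [hm]
      rw [map_smul, map_one]
  · left
    exact comm_outcome hf hG hGs hE hcomm hEa hn

/-- Hence either a geometric outcome relative to the form, or the dichotomy. -/
theorem geom_or_dich [Fintype F] [Nonempty ι] (hf : ReflForm σ ε f) {G : Subgroup (GL ι F)}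
    (hG : ∀ W : Submodule F (ι → F), Inv G W → W = ⊥ ∨ W = ⊤) (hGs : G ≤ similarityGroup f) :
    CommOutcome σ f G ∨
    (∃ (d k : ℕ) (e : ι ≃ Fin d × Fin k) (P : GL ι F) (J₁ : GL (Fin d) F) (J₂ : GL (Fin k) F) (ε₁ ε₂ c : F),
      TensorData σ ε f G d k e P J₁ J₂ ε₁ ε₂ c) ∨ Dich G := by
  by_cases hD : Dich G
  · exact Or.inr (Or.inr hD)
  · unfold Dich at hD
    push Not at hD
    obtain ⟨N, h1, h2, h3, h4⟩ := hD
    rcases form_dichotomy hf hG hGs h1 h2 with h | h | h | h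
    · exact Or.inl h
    · exact Or.inr (Or.inl h)
    · exact absurd h h3
    · exact absurd h.2 (h4 h.1)

/-- All the data of the tensor-power decomposition of a form. -/
structure WreathForm (σ : F ≃+* F) (ε : F) (f : (ι → F) → (ι → F) → F) (G : Subgroup (GL ι F)) (d t : ℕ)
    (e : ι ≃ (Fin t → Fin d)) (P : GL ι F) (J₀ : GL (Fin d) F) (ε₀ c : F) : Prop where
  hd : 2 ≤ d
  ht : 2 ≤ t
  le : G ≤ tensorWreathSubgroup d t e P
  herm : ((J₀ : Matrix (Fin d) (Fin d) F).map σ)ᵀ = ε₀ • (J₀ : Matrix (Fin d) (Fin d) F)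
  ne : ε₀ ≠ 0
  hc : c ≠ 0
  eq : ∀ u v, f ((P : Matrix ι ι F) *ᵥ u) ((P : Matrix ι ι F) *ᵥ v) =
    c * sesqM (σ : F →+* F) ((pureMat fun _ : Fin t => (J₀ : Matrix (Fin d) (Fin d) F)).submatrix e e) u v
  sign : c = ε * σ c * ε₀ ^ t

theorem isUnit_pure_submatrix {d t : ℕ} (e : ι ≃ (Fin t → Fin d)) (J : GL (Fin d) F) :
    IsUnit ((pureMat fun _ : Fin t => (J : Matrix (Fin d) (Fin d) F)).submatrix e e) := by
  refine IsUnit.of_mul_eq_one ((pureMat fun _ : Fin t => ((J⁻¹ : GL _ F) : Matrix (Fin d) (Fin d) F)).submatrix e e) ?_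
  rw [Matrix.submatrix_mul_equiv, pureMat_mul]
  simp only [← Units.val_mul, mul_inv_cancel, Units.val_one]
  rw [pureMat_one, Matrix.submatrix_one_equiv]

theorem map_pureMat {d t : ℕ} (gs : Fin t → Matrix (Fin d) (Fin d) F) :
    (pureMat gs).map σ = pureMat fun i => (gs i).map σ := by
  ext x y
  simp [map_prod]

theorem slot_transpose {d t : ℕ} (i : Fin t) (c : Matrix (Fin d) (Fin d) F) : (slot i c)ᵀ = slot i cᵀ := by
  unfold slot
  rw [pureMat_transpose]
  congr 1
  funext j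
  by_cases h : j = i
  · subst h
    simp
  · simp [Function.update_of_ne h]

theorem slot_map {d t : ℕ} (i : Fin t) (c : Matrix (Fin d) (Fin d) F) : (slot i c).map σ = slot i (c.map σ) := by
  unfold slot
  rw [map_pureMat]
  congr 1
  funext j
  by_cases h : j = i
  · subst h
    simp
  · simp [Function.update_of_ne h, map_one_sigma]

theorem slot_mul_pure {d t : ℕ} (i : Fin t) (c J : Matrix (Fin d) (Fin d) F) :
    slot i c * pureMat (fun _ : Fin t => J) = pureMat (Function.update (fun _ => J) i (c * J)) := by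
  unfold slot
  rw [pureMat_mul]
  congr 1
  funext j
  by_cases h : j = i
  · subst h
    simp
  · simp [Function.update_of_ne h]

theorem pure_mul_slot {d t : ℕ} (i : Fin t) (c J : Matrix (Fin d) (Fin d) F) :
    pureMat (fun _ : Fin t => J) * slot i c = pureMat (Function.update (fun _ => J) i (J * c)) := by
  unfold slot
  rw [pureMat_mul]
  congr 1
  funext j
  by_cases h : j = i
  · subst h
    simp
  · simp [Function.update_of_ne h]

/-- The double centraliser of a subgroup of similarities is adjoint-closed. -/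
theorem WreathData.exists_adj [Fintype F] [Nonempty ι] (hf : ReflForm σ ε f) {G K : Subgroup (GL ι F)} {d t : ℕ}
    {e : ι ≃ (Fin t → Fin d)} {P : GL ι F} {φ : Matrix (Fin d) (Fin d) F →ₐ[F] Matrix ι ι F} {gs : Fin t → GL ι F}
    (hW : WreathData G K d t e P φ gs) (hGs : G ≤ similarityGroup f) (a : Matrix (Fin d) (Fin d) F) :
    ∃ b, adj σ f (φ a) = φ b := by
  have hCa : AdjClosed σ f (cent K) := adjClosed_cent hf (hW.K_le.trans hGs)
  obtain ⟨b, hb⟩ := hW.bicomm (adj σ f (φ a)) (fun y hy => by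
    have h1 := hW.comm a _ (hCa y hy)
    have h2 := congrArg (adj σ f) h1
    rw [hf.adj_mul, hf.adj_mul, hf.adj_adj] at h2
    exact h2.symm)
  exact ⟨b, hb.symm⟩

/-- The form of the tensor-power outcome. -/
theorem WreathData.exists_form [Fintype F] [Nonempty ι] (hf : ReflForm σ ε f) {G K : Subgroup (GL ι F)} {d t : ℕ}
    {e : ι ≃ (Fin t → Fin d)} {P : GL ι F} {φ : Matrix (Fin d) (Fin d) F →ₐ[F] Matrix ι ι F} {gs : Fin t → GL ι F}
    (hW : WreathData G K d t e P φ gs) (hGs : G ≤ similarityGroup f) :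
    ∃ (J₀ : GL (Fin d) F) (ε₀ c : F), WreathForm σ ε f G d t e P J₀ ε₀ c ∧
      ∃ X : Subgroup (GL (Fin d) F), ⁅X, X⁆ = X ∧ X ≠ ⊥ ∧ ∀ a ∈ X, ∃ μ : F, μ ≠ 0 ∧
        (a : Matrix (Fin d) (Fin d) F)ᵀ * (J₀ : Matrix (Fin d) (Fin d) F) * (a : Matrix (Fin d) (Fin d) F).map σ = μ • (J₀ : Matrix (Fin d) (Fin d) F) := by
  classical
  haveI : Nonempty (Fin d) := ⟨⟨0, by have := hW.hd; omega⟩⟩
  obtain ⟨J₀, τ, ε₀, h1, h2, h3, h4, -⟩ := exists_factorGram hf φ hW.inj (WreathData.exists_adj hf hW hGs)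
  set A : Matrix ι ι F := (pureMat fun _ : Fin t => (J₀ : Matrix (Fin d) (Fin d) F)).submatrix e e with hA
  have hAu : IsUnit A := isUnit_pure_submatrix e J₀
  obtain ⟨c, hc, heq⟩ := exists_eq_smul_sesqM (J' := Fin t × Matrix (Fin d) (Fin d) F) hf hAu P
    (fun j => Basic.conj (gs j.1) (φ j.2)) (fun j => Basic.conj (gs j.1) (φ (τ j.2)))
    (fun j => (slot j.1 j.2).submatrix e e) (fun j => (slot j.1 (τ j.2)).submatrix e e)
    (fun j => hW.coords j.1 j.2) (fun j => hW.coords j.1 _)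
    (fun j => by
      change adj σ f (Basic.conj (gs j.1) (φ j.2)) = _
      rw [hf.adj_conj (hGs (hW.hgs j.1)), h1])
    (fun j => by
      rw [hA, Matrix.transpose_submatrix, Matrix.submatrix_mul_equiv, ← Matrix.submatrix_map,
        Matrix.submatrix_mul_equiv, slot_transpose, slot_map, slot_mul_pure, pure_mul_slot, h2])
    (fun x hx => hW.scal x fun i a => hx (i, a))
  refine ⟨J₀, ε₀, c, ⟨hW.hd, hW.ht, hW.le, h3, h4, hc, heq, sign_relation hf hAu ?_ heq⟩, ?_⟩
  · ext i j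
    simp only [hA, Matrix.transpose_apply, Matrix.map_apply, Matrix.submatrix_apply, pureMat_apply, map_prod,
      Matrix.smul_apply, smul_eq_mul]
    have h5 : ∀ a b, σ ((J₀ : Matrix (Fin d) (Fin d) F) b a) = ε₀ * (J₀ : Matrix (Fin d) (Fin d) F) a b := by
      intro a b
      have := congrFun (congrFun h3 a) b
      simpa using this
    simp only [h5, Finset.prod_mul_distrib, Finset.prod_const, Finset.card_univ, Fintype.card_fin]
  · -- the perfect group
    let Φ : GL (Fin d) F →* GL ι F := Units.map (φ : Matrix (Fin d) (Fin d) F →* Matrix ι ι F)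
    have hΦ : ∀ a : GL (Fin d) F, (Φ a : Matrix ι ι F) = φ a := fun a => rfl
    have hΦinj : Function.Injective Φ := by
      intro a b h
      apply Units.ext
      apply hW.inj
      rw [← hΦ, ← hΦ, h]
    have hKrange : K ≤ Φ.range := by
      intro x hx
      have hK : ∀ z ∈ K, ∃ a, φ a = (z : Matrix ι ι F) := fun z hz =>
        hW.bicomm _ fun y hy => mem_cent.mp hy z hz
      obtain ⟨a, ha⟩ := hK x hx
      obtain ⟨b, hb⟩ := hK x⁻¹ (inv_mem hx)
      have hab : a * b = 1 := by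
        apply hW.inj
        rw [map_mul, ha, hb, ← Units.val_mul, mul_inv_cancel, Units.val_one, map_one]
      have hba : b * a = 1 := by
        apply hW.inj
        rw [map_mul, ha, hb, ← Units.val_mul, inv_mul_cancel, Units.val_one, map_one]
      exact ⟨⟨a, b, hab, hba⟩, Units.ext ha⟩
    let X : Subgroup (GL (Fin d) F) := K.comap Φ
    have hXmap : X.map Φ = K := by
      rw [Subgroup.map_comap_eq, inf_eq_right.mpr hKrange]
    refine ⟨X, ?_, ?_, ?_⟩
    · apply Subgroup.map_injective hΦinj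
      rw [Subgroup.map_commutator, hXmap, hW.K_perf]
    · intro h
      apply hW.K_ne
      rw [← hXmap, h, Subgroup.map_bot]
      exact bot_le
    · intro a ha
      have hmem : Φ a ∈ K := ha
      obtain ⟨μ, hμ⟩ := hGs (hW.K_le hmem)
      refine ⟨μ, μ.ne_zero, ?_⟩
      have h5 := hf.adj_of_similarity hμ
      have h6 : ((Φ a)⁻¹ : GL ι F) = Φ a⁻¹ := (map_inv Φ a).symm
      rw [hΦ, h6, hΦ, h1, ← map_smul] at h5
      have h7 := hW.inj h5
      have h8 := h2 (a : Matrix (Fin d) (Fin d) F)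
      rw [h7, map_smul_sigma, hf.invol, Matrix.mul_smul] at h8
      rw [h8, Matrix.smul_mul, mul_assoc, ← map_mul_sigma, ← Units.val_mul, inv_mul_cancel, Units.val_one, map_one_sigma,
        mul_one]

end Cfsg.Agent.Lib.Classical.Asch.FormDich
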