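import Mathlib
import Cfsg.Agent.Lib.Classical.Asch.MinNormal
import Cfsg.Agent.Lib.Classical.Asch.Subfield
import Cfsg.Agent.Lib.Classical.Asch.Forms

/-!
# Aschbacher's theorem: the residual core
-/

set_option autoImplicit false
set_option linter.style.haveILetI false
set_option linter.unusedSectionVars false

namespace Cfsg.Agent.Lib.Classical.Asch.Residual

open scoped MatrixGroups Matrix commutatorElement
open Cfsg.Geo Cfsg.Agent.Lib.Classical.Asch.Basic
open Cfsg.Agent.Lib.Classical.Asch.Dichotomy Cfsg.Agent.Lib.Classical.Asch.MinNormal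
open Cfsg.Agent.Lib.Classical.Asch.Subfield

variable {ι : Type} [Fintype ι] [DecidableEq ι] {F : Type*} [Field F]

theorem commutator_le_self (A : Subgroup (GL ι F)) : ⁅A, A⁆ ≤ A := by
  rw [Subgroup.commutator_le]
  intro x hx y hy
  rw [commutatorElement_def]
  exact mul_mem (mul_mem (mul_mem hx hy) (inv_mem hx)) (inv_mem hy)

/-- Normalised by `P` implies normalised by `P ⊔ Z`. -/
theorem normalizes_sup_scalars {P A : Subgroup (GL ι F)} (h : Normalizes P A) : Normalizes (P ⊔ scalars ι F) A := by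
  intro l hl x hx
  obtain ⟨p, hp, z, hz, rfl⟩ := Subgroup.mem_sup_of_normal_right.mp hl
  have h1 : p * z * x * (p * z)⁻¹ = p * x * p⁻¹ := by
    have e1 : z * x = x * z := scalar_comm hz x
    calc p * z * x * (p * z)⁻¹ = p * (z * x) * z⁻¹ * p⁻¹ := by group
      _ = _ := by rw [e1]; group
  rw [h1]
  exact h p hp x hx

/-- Simplicity of the quotient from the minimality of `L = P ⊔ Z`. -/
theorem isSimpleGroup_quot {P : Subgroup (GL ι F)} (hP : ¬ P ≤ scalars ι F)
    (hsimple : ∀ M : Subgroup (GL ι F), scalars ι F ≤ M → M ≤ P ⊔ scalars ι F → Normalizes (P ⊔ scalars ι F) M →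
      M = scalars ι F ∨ M = P ⊔ scalars ι F) :
    IsSimpleGroup (P ⧸ (scalars ι F).subgroupOf P) := by
  let π := QuotientGroup.mk' ((scalars ι F).subgroupOf P)
  have hπ : ∀ p : P, π p = 1 ↔ (p : GL ι F) ∈ scalars ι F := by
    intro p
    rw [← MonoidHom.mem_ker, QuotientGroup.ker_mk', Subgroup.mem_subgroupOf]
  have hsurj : Function.Surjective π := QuotientGroup.mk'_surjective _
  haveI : Nontrivial (P ⧸ (scalars ι F).subgroupOf P) := by
    obtain ⟨x, hxP, hxZ⟩ := Set.not_subset.mp hP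
    refine ⟨⟨π ⟨x, hxP⟩, 1, fun h => hxZ ((hπ ⟨x, hxP⟩).mp h)⟩⟩
  refine ⟨fun N hN => ?_⟩
  let T₀ : Subgroup P := N.comap π
  let T : Subgroup (GL ι F) := T₀.map P.subtype ⊔ scalars ι F
  have hT₀ : T₀.Normal := Subgroup.Normal.comap hN π
  have hn : Normalizes P (T₀.map P.subtype) := by
    rintro g hg _ ⟨x, hx, rfl⟩
    exact ⟨_, hT₀.conj_mem x hx ⟨g, hg⟩, rfl⟩
  have hTle : T ≤ P ⊔ scalars ι F := by
    refine sup_le ?_ le_sup_right
    rintro _ ⟨x, _, rfl⟩
    exact Subgroup.mem_sup_left x.2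
  rcases hsimple T le_sup_right hTle
      (Normalizes.sup (normalizes_sup_scalars hn) (normalizes_scalars _)) with h | h
  · left
    rw [eq_bot_iff]
    intro q hq
    obtain ⟨p, rfl⟩ := hsurj q
    rw [Subgroup.mem_bot, hπ, ← h]
    exact Subgroup.mem_sup_left ⟨p, hq, rfl⟩
  · right
    rw [eq_top_iff]
    intro q _
    obtain ⟨p, rfl⟩ := hsurj q
    have h1 : (p : GL ι F) ∈ T := by
      rw [h]
      exact Subgroup.mem_sup_left p.2
    obtain ⟨t, ht, z, hz, hpz⟩ := Subgroup.mem_sup_of_normal_right.mp h1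
    obtain ⟨t₀, ht₀, rfl⟩ := ht
    have hzP : z ∈ P := by
      have : z = (t₀ : GL ι F)⁻¹ * p := by
        rw [← hpz]
        simp
      rw [this]
      exact mul_mem (inv_mem t₀.2) p.2
    have h2 : p = t₀ * ⟨z, hzP⟩ := Subtype.ext (by simpa using hpz.symm)
    rw [h2, map_mul, (hπ ⟨z, hzP⟩).mpr hz, mul_one]
    exact ht₀

theorem not_comm_quot {P : Subgroup (GL ι F)} (hP : ⁅P, P⁆ = P) (hPZ : ¬ P ≤ scalars ι F) :
    ¬ IsMulCommutative (P ⧸ (scalars ι F).subgroupOf P) := by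
  intro hc
  apply hPZ
  rw [← hP, Subgroup.commutator_le]
  intro x hx y hy
  let π := QuotientGroup.mk' ((scalars ι F).subgroupOf P)
  have hπ : ∀ p : P, π p = 1 ↔ (p : GL ι F) ∈ scalars ι F := by
    intro p
    rw [← MonoidHom.mem_ker, QuotientGroup.ker_mk', Subgroup.mem_subgroupOf]
  have h1 := hc.is_comm.comm (π ⟨x, hx⟩) (π ⟨y, hy⟩)
  have h2 : π (⟨x, hx⟩ * ⟨y, hy⟩ * (⟨x, hx⟩ : P)⁻¹ * (⟨y, hy⟩ : P)⁻¹) = 1 := by
    rw [map_mul, map_mul, map_mul, h1]
    simp
  exact (hπ _).mp h2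

/-- The core of the residual class. -/
theorem residual_core [Fintype F] [Nonempty ι] {H G L : Subgroup (GL ι F)} (hGH : G = H ⊔ scalars ι F)
    (hD : Dich G) (hL : IsMinOver G L)
    (hLc : ¬ ⁅L, L⁆ ≤ scalars ι F)
    (hsimple : ∀ M : Subgroup (GL ι F), scalars ι F ≤ M → M ≤ L → Normalizes L M → M = scalars ι F ∨ M = L) :
    (∃ (F₀ : Subfield F) (r : ℕ) (B : GL ι F), r.Prime ∧ Fintype.card F = Nat.card F₀ ^ r ∧
      G ≤ subfieldSubgroup F₀ B⁻¹ ∧ ⁅L, L⁆ ≤ H ∧ CentScalar ⁅L, L⁆ ∧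
      (∀ W : Submodule F (ι → F), Inv ⁅L, L⁆ W → W = ⊥ ∨ W = ⊤) ∧
      ∀ x ∈ ⁅L, L⁆, ∀ i j, ((B : Matrix ι ι F) * (x : Matrix ι ι F) * ((B⁻¹ : GL ι F) : Matrix ι ι F)) i j ∈ F₀) ∨
    IsResidualCore H ⁅L, L⁆ := by
  set P : Subgroup (GL ι F) := ⁅L, L⁆ with hPdef
  have hPn : Normalizes G P := Normalizes.commutator hL.norm hL.norm
  have hPL : P ≤ L := commutator_le_self L
  have hPZ : P ⊔ scalars ι F = L := by
    rcases hL.min _ le_sup_right (sup_le hPL hL.scalars_le) (Normalizes.sup hPn (normalizes_scalars G)) with h | h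
    · exact absurd (sup_eq_right.mp h) hLc
    · exact h
  have hperf : ⁅P, P⁆ = P := by
    refine le_antisymm (commutator_le_self P) ?_
    conv_lhs => rw [hPdef, ← hPZ]
    exact commutator_sup_scalars_le P P
  have hPH : P ≤ H := by
    have h1 : P ≤ ⁅G, G⁆ := Subgroup.commutator_mono hL.le hL.le
    have h2 : ⁅G, G⁆ ≤ ⁅H, H⁆ := by
      rw [hGH]
      exact commutator_sup_scalars_le H H
    exact h1.trans (h2.trans (commutator_le_self H))
  obtain ⟨hirr, hcs⟩ : (∀ W : Submodule F (ι → F), Inv P W → W = ⊥ ∨ W = ⊤) ∧ CentScalar P := by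
    rcases hD P (hPL.trans hL.le) hPn with h | h
    · exact absurd h hLc
    · exact h
  by_cases hsub : ∃ F₀ : Subfield F, F₀ ≠ ⊤ ∧ RealisableOver F₀ (matrixSet P)
  · left
    obtain ⟨F₀, hF₀, B, hB⟩ := hsub
    obtain ⟨F₁, s, hle, hs, hcard⟩ := exists_prime_index_subfield F₀ hF₀
    refine ⟨F₁, s, B, hs, hcard, fun g hg => ?_, hPH, hcs, hirr, fun x hx i j => hle (hB _ ⟨x, hx, rfl⟩ i j)⟩
    exact mem_subfieldSubgroup_of_normalizes F₁ hcard hcs B
      (fun x hx i j => hle (hB _ ⟨x, hx, rfl⟩ i j)) (hPn g hg)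
  · right
    have hHG : H ≤ G := by
      rw [hGH]
      exact le_sup_left
    exact
      { le := hPH
        normal := fun h hh => hPn h (hHG hh)
        perfect := hperf
        simple := isSimpleGroup_quot hLc (by rw [hPZ]; exact hsimple)
        nonabelian := not_comm_quot hperf hLc
        centralizer_scalar := by
          intro h _ hc
          have h1 : Subgroup.zpowers h ≤ modCent P := by
            rw [Subgroup.zpowers_le, mem_modCent]
            exact hc
          rw [← commutator_le_scalars_iff, Subgroup.commutator_comm] at h1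
          have h2 := commutator_commutator_eq_bot h1
          rw [hperf] at h2
          have h3 : (h : Matrix ι ι F) ∈ cent P := by
            rw [coe_mem_cent_iff]
            intro g hg
            exact comm_of_commutator_eq_bot h2 hg (Subgroup.mem_zpowers h)
          exact (mem_scalars_iff' h).mpr (hcs _ h3)
        absIrred := actsAbsolutelyIrreducibly_iff.mpr ⟨actsIrreducibly_iff.mpr hirr, hcs⟩
        no_subfield := fun F₀ hF₀ hr => hsub ⟨F₀, hF₀, hr⟩ }

end Cfsg.Agent.Lib.Classical.Asch.Residual
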