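import Mathlib
import Cfsg.Agent.Lib.Classical.Asch.Gram
import Cfsg.Agent.Lib.Classical.Asch.PureTensor

/-!
# Tensor powers of dimension two factors preserve a form
-/

set_option autoImplicit false
set_option linter.style.haveILetI false
set_option linter.unusedSectionVars false

namespace Cfsg.Agent.Lib.Classical.Asch.TensorTwo

open scoped MatrixGroups Matrix Kronecker
open Cfsg.Geo Cfsg.Agent.Lib.Classical.Asch.Basic Cfsg.Agent.Lib.Classical.Asch.Gram
open Cfsg.Agent.Lib.Classical.Asch.PureTensor

variable {F : Type*} [Field F] {t : ℕ}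

/-- The standard alternating matrix. -/
def omega (F : Type*) [Field F] : Matrix (Fin 2) (Fin 2) F := !![0, 1; -1, 0]

theorem omega_mul_neg : omega F * (-omega F) = 1 := by
  ext i j
  fin_cases i <;> fin_cases j <;> simp [omega, Matrix.mul_apply, Fin.sum_univ_two]

theorem neg_mul_omega : (-omega F) * omega F = 1 := by
  ext i j
  fin_cases i <;> fin_cases j <;> simp [omega, Matrix.mul_apply, Fin.sum_univ_two]

/-- `omega` in `GL`. -/
def omegaGL (F : Type*) [Field F] : GL (Fin 2) F := ⟨omega F, -omega F, omega_mul_neg, neg_mul_omega⟩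

theorem transpose_mul_omega_mul (g : Matrix (Fin 2) (Fin 2) F) : gᵀ * omega F * g = g.det • omega F := by
  ext i j
  rw [Matrix.det_fin_two]
  fin_cases i <;> fin_cases j <;>
    simp [omega, Matrix.mul_apply, Fin.sum_univ_two] <;> ring

theorem omega_transpose : (omega F)ᵀ = (-1 : F) • omega F := by
  ext i j
  fin_cases i <;> fin_cases j <;> simp [omega]

theorem omega_self (a : Fin 2) : omega F a a = 0 := by
  fin_cases a <;> simp [omega]

/-- The tensor power of `omega`. -/
def Gamma (t : ℕ) (F : Type*) [Field F] : GL (Fin t → Fin 2) F := pureGL fun _ => omegaGL F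

theorem coe_Gamma : ((Gamma t F : GL _ F) : Matrix (Fin t → Fin 2) (Fin t → Fin 2) F) = pureMat fun _ => omega F := rfl

theorem Gamma_transpose :
    ((Gamma t F : GL _ F) : Matrix (Fin t → Fin 2) (Fin t → Fin 2) F)ᵀ =
      (-1 : F) ^ t • ((Gamma t F : GL _ F) : Matrix (Fin t → Fin 2) (Fin t → Fin 2) F) := by
  rw [coe_Gamma, pureMat_transpose, omega_transpose, pureMat_smul]
  simp

theorem Gamma_diag (ht : 0 < t) (x : Fin t → Fin 2) :
    ((Gamma t F : GL _ F) : Matrix (Fin t → Fin 2) (Fin t → Fin 2) F) x x = 0 := by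
  rw [coe_Gamma, pureMat_apply]
  exact Finset.prod_eq_zero (Finset.mem_univ (⟨0, ht⟩ : Fin t)) (omega_self _)

theorem bil_smul {ι : Type} [Fintype ι] [DecidableEq ι] (c : F) (A : Matrix ι ι F) (u v : ι → F) :
    bil (c • A) u v = c * bil A u v := by
  simp [bil, Matrix.smul_mulVec, dotProduct_smul]

theorem permMat_transpose (σ : Equiv.Perm (Fin t)) :
    (permMat σ : Matrix (Fin t → Fin 2) (Fin t → Fin 2) F)ᵀ = permMat σ⁻¹ := by
  ext x y
  rw [Matrix.transpose_apply, permMat_apply, permMat_apply]
  have : x = y ∘ σ ↔ y = x ∘ (σ⁻¹ : Equiv.Perm (Fin t)) := by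
    constructor
    · rintro rfl
      funext j
      simp
    · rintro rfl
      funext j
      simp
  simp only [this]

/-- The standard tensor wreath group consists of similarities of the tensor power of `omega`. -/
theorem standard_le_similarity :
    tensorWreathStandard 2 t F ≤ similarityGroup (bil ((Gamma t F : GL _ F) : Matrix (Fin t → Fin 2) (Fin t → Fin 2) F)) := by
  unfold tensorWreathStandard
  rw [Subgroup.closure_le]
  rintro g (⟨gs, hgs⟩ | ⟨σ, hσ⟩)
  · have hg : (g : Matrix (Fin t → Fin 2) (Fin t → Fin 2) F) = pureMat fun i => (gs i : Matrix (Fin 2) (Fin 2) F) := by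
      ext x y
      exact hgs x y
    refine ⟨∏ i, Matrix.GeneralLinearGroup.det (gs i), fun u v => ?_⟩
    rw [bil_mulVec, hg, pureMat_transpose, coe_Gamma, pureMat_mul, pureMat_mul]
    simp only [transpose_mul_omega_mul]
    rw [pureMat_smul, bil_smul]
    congr 1
    rw [Units.coe_prod]
    rfl
  · have hg : (g : Matrix (Fin t → Fin 2) (Fin t → Fin 2) F) = permMat σ := by
      ext x y
      exact hσ x y
    refine ⟨1, fun u v => ?_⟩
    rw [bil_mulVec, hg, permMat_transpose, Units.val_one, one_mul]
    congr 1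
    ext x y
    rw [mul_permMat_apply, permMat_mul_apply, coe_Gamma, pureMat_apply, pureMat_apply]
    exact Equiv.prod_comp (σ⁻¹ : Equiv.Perm (Fin t)) (fun i => omega F (x i) (y i))

theorem two_ne_zero_of_odd [Fintype F] (h : Odd (Fintype.card F)) : (2 : F) ≠ 0 := by
  intro h2
  haveI : CharP F 2 := CharTwo.of_one_ne_zero_of_two_eq_zero one_ne_zero h2
  have h3 : ringChar F = 2 := ringChar.eq F 2
  have h4 := FiniteField.even_card_iff_char_two.mp h3
  rw [Nat.odd_iff] at h
  omega

/-- For `m = 2` every tensor-wreath subgroup preserves a form up to scalars. -/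
theorem tensorWreath_two_le_form {ι : Type} [Fintype ι] [DecidableEq ι] [Fintype F] {t : ℕ} (ht : 2 ≤ t)
    (e : ι ≃ (Fin t → Fin 2)) (P : GL ι F) :
    (∃ f : (ι → F) → (ι → F) → F, IsSymplecticForm f ∧ tensorWreathSubgroup 2 t e P ≤ similarityGroup f) ∨
    (∃ Q : (ι → F) → F, IsNondegenerateQuadraticForm Q ∧ Odd (Fintype.card F) ∧
      tensorWreathSubgroup 2 t e P ≤ quadSimilarityGroup Q) := by
  have hd := Gamma_diag (F := F) (t := t) (by omega)
  have hT := Gamma_transpose (F := F) (t := t)
  have hsymp : ∀ h : ((Gamma t F : GL _ F) : Matrix (Fin t → Fin 2) (Fin t → Fin 2) F)ᵀ =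
      -((Gamma t F : GL _ F) : Matrix (Fin t → Fin 2) (Fin t → Fin 2) F),
      ∃ f : (ι → F) → (ι → F) → F, IsSymplecticForm f ∧ tensorWreathSubgroup 2 t e P ≤ similarityGroup f :=
    fun h => ⟨_, pull_symplectic (coordL e P) (bil_symplectic (Gamma t F) h hd),
      map_le_similarity e P standard_le_similarity⟩
  by_cases hodd : Odd t
  · left
    apply hsymp
    rw [hT, hodd.neg_one_pow, neg_smul, one_smul]
  · have heven : Even t := Nat.not_odd_iff_even.mp hodd
    rw [heven.neg_one_pow, one_smul] at hT
    by_cases hq : Odd (Fintype.card F)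
    · right
      refine ⟨_, pullQ_nondegenerate (coordL e P) (quad_nondegenerate (Gamma t F) hT (two_ne_zero_of_odd hq)), hq,
        map_le_quadSimilarity e P ?_⟩
      intro g hg
      obtain ⟨c, hc⟩ := standard_le_similarity hg
      exact ⟨c, fun v => hc v v⟩
    · left
      apply hsymp
      rw [hT]
      have h3 : ringChar F = 2 := FiniteField.even_card_iff_char_two.mpr (by
        rw [Nat.odd_iff] at hq
        omega)
      have h2 : (2 : F) = 0 := by
        have := ringChar.Nat.cast_ringChar (R := F)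
        rw [h3] at this
        exact_mod_cast this
      ext x y
      rw [Matrix.neg_apply]
      refine eq_neg_of_add_eq_zero_left ?_
      rw [← two_mul, h2, zero_mul]

end Cfsg.Agent.Lib.Classical.Asch.TensorTwo
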