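import Mathlib
import Cfsg.Agent.Lib.Classical.Asch.CaseA
import Cfsg.Agent.Lib.Classical.Asch.CaseB
import Cfsg.Agent.Lib.Classical.Asch.Residual
import Cfsg.Agent.Lib.Classical.Asch.TensorTwo

/-!
# Aschbacher's theorem: the raw form and the linear form

`raw`: a subgroup `H` of `GL ι F` (of dimension at least two) modulo scalars is reducible, or in a raw geometric subgroup, or in a
tensor-power stabiliser, or normalises a symplectic-type group, or has a residual core or lies in a subfield subgroup.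
-/

set_option autoImplicit false
set_option linter.style.haveILetI false
set_option linter.unusedSectionVars false

namespace Cfsg.Agent.Lib.Classical.Asch.Main

open scoped MatrixGroups Matrix Kronecker
open Cfsg.Geo Cfsg.Agent.Lib.Classical.Asch.Basic
open Cfsg.Agent.Lib.Classical.Asch.Dichotomy Cfsg.Agent.Lib.Classical.Asch.MinNormal
open Cfsg.Agent.Lib.Classical.Asch.SympType Cfsg.Agent.Lib.Classical.Asch.CaseA
open Cfsg.Agent.Lib.Classical.Asch.CaseB Cfsg.Agent.Lib.Classical.Asch.Residual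

variable {ι : Type} [Fintype ι] [DecidableEq ι] {F : Type*} [Field F]

/-- Scalars are reducible in dimension at least two. -/
theorem exists_inv_of_eq_scalars [Nonempty ι] (h2 : 2 ≤ Fintype.card ι) {G : Subgroup (GL ι F)}
    (hG : G = scalars ι F) : ∃ W : Submodule F (ι → F), W ≠ ⊥ ∧ W ≠ ⊤ ∧ Inv G W := by
  obtain ⟨i₀⟩ := ‹Nonempty ι›
  refine ⟨Submodule.span F {Pi.single i₀ 1}, ?_, ?_, ?_⟩
  · intro h
    rw [Submodule.span_singleton_eq_bot] at h
    have := congrFun h i₀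
    simp at this
  · intro h
    have h1 := finrank_span_singleton (K := F) (v := (Pi.single i₀ 1 : ι → F)) (by
      intro h'
      have := congrFun h' i₀
      simp at this)
    rw [h, finrank_top, Module.finrank_fintype_fun_eq_card] at h1
    omega
  · intro g hg v hv
    rw [hG] at hg
    obtain ⟨c, hc⟩ := (mem_scalars_iff' g).mp hg
    rw [hc, Matrix.smul_mulVec, Matrix.one_mulVec]
    exact Submodule.smul_mem _ _ hv

/-- **Aschbacher's theorem**, the part after the dichotomy. -/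
theorem raw_of_dich [Fintype F] [Nonempty ι] (h2 : 2 ≤ Fintype.card ι) {H : Subgroup (GL ι F)}
    (hG : ∀ W : Submodule F (ι → F), Inv (H ⊔ scalars ι F) W → W = ⊥ ∨ W = ⊤) (hD : Dich (H ⊔ scalars ι F)) :
    (∃ (K : Subgroup (GL ι F)) (d t : ℕ) (e : ι ≃ (Fin t → Fin d)) (P : GL ι F)
      (φ : Matrix (Fin d) (Fin d) F →ₐ[F] Matrix ι ι F) (gs : Fin t → GL ι F),
      WreathData (H ⊔ scalars ι F) K d t e P φ gs) ∨
    (∃ R r s, SympData (H ⊔ scalars ι F) R r s ∧ ∀ x ∈ scalars ι F, x ^ s = 1 → x ∈ R) ∨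
    (∃ (F₀ : Subfield F) (r : ℕ) (B : GL ι F) (X : Subgroup (GL ι F)), r.Prime ∧ Fintype.card F = Nat.card F₀ ^ r ∧
      H ⊔ scalars ι F ≤ subfieldSubgroup F₀ B⁻¹ ∧ X ≤ H ∧ CentScalar X ∧
      (∀ W : Submodule F (ι → F), Inv X W → W = ⊥ ∨ W = ⊤) ∧
      ∀ x ∈ X, ∀ i j, ((B : Matrix ι ι F) * (x : Matrix ι ι F) * ((B⁻¹ : GL ι F) : Matrix ι ι F)) i j ∈ F₀) ∨
    (∃ P, IsResidualCore H P ∧ Normalizes (H ⊔ scalars ι F) P) := by
  classical
  set G := H ⊔ scalars ι F with hGdef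
  have hZ : scalars ι F ≤ G := le_sup_right
  have hne : G ≠ scalars ι F := by
    intro h
    obtain ⟨W, h1, h2', h3⟩ := exists_inv_of_eq_scalars h2 h
    rcases hG W h3 with h4 | h4
    · exact h1 h4
    · exact h2' h4
  obtain ⟨L, hL⟩ := exists_isMinOver hZ hne
  by_cases hLc : ⁅L, L⁆ ≤ scalars ι F
  · obtain ⟨R, r, s, D, hs, _⟩ := exists_sympData hD hL hLc
    exact Or.inr (Or.inl ⟨R, r, s, D, hs⟩)
  · obtain ⟨S, h1, h2', h3, h4, h5⟩ := exists_minimal_normal hL.scalars_le hL.ne_scalars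
    have hS : MinN L S := ⟨h1, h2', h3, h4, h5⟩
    rcases eq_or_wreathData hD hL hLc hS with hSL | hw
    · subst hSL
      rcases residual_core hGdef hD hL hLc h5 with ⟨F₀, r, B, a1, a2, a3, a4, a5, a6, a7⟩ | hcore
      · exact Or.inr (Or.inr (Or.inl ⟨F₀, r, B, _, a1, a2, a3, a4, a5, a6, a7⟩))
      · exact Or.inr (Or.inr (Or.inr ⟨_, hcore, Normalizes.commutator hL.norm hL.norm⟩))
    · exact Or.inl hw

/-- **Aschbacher's theorem**, raw form. -/
theorem raw [Fintype F] [Nonempty ι] (h2 : 2 ≤ Fintype.card ι) (H : Subgroup (GL ι F)) :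
    (∃ W : Submodule F (ι → F), W ≠ ⊥ ∧ W ≠ ⊤ ∧ Inv (H ⊔ scalars ι F) W) ∨
    RawGeom (H ⊔ scalars ι F) ∨
    ((∀ W : Submodule F (ι → F), Inv (H ⊔ scalars ι F) W → W = ⊥ ∨ W = ⊤) ∧ ¬ RawGeom (H ⊔ scalars ι F) ∧
      ((∃ (d t : ℕ) (e : ι ≃ (Fin t → Fin d)) (P : GL ι F), 2 ≤ d ∧ 2 ≤ t ∧
        H ⊔ scalars ι F ≤ tensorWreathSubgroup d t e P) ∨
      (∃ R r s, SympData (H ⊔ scalars ι F) R r s ∧ ∀ x ∈ scalars ι F, x ^ s = 1 → x ∈ R) ∨
      (∃ (F₀ : Subfield F) (r : ℕ) (B : GL ι F), r.Prime ∧ Fintype.card F = Nat.card F₀ ^ r ∧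
        H ⊔ scalars ι F ≤ subfieldSubgroup F₀ B) ∨
      (∃ P, IsResidualCore H P ∧ Normalizes (H ⊔ scalars ι F) P))) := by
  classical
  set G := H ⊔ scalars ι F with hGdef
  by_cases hred : ∃ W : Submodule F (ι → F), W ≠ ⊥ ∧ W ≠ ⊤ ∧ Inv G W
  · exact Or.inl hred
  push Not at hred
  have hG : ∀ W : Submodule F (ι → F), Inv G W → W = ⊥ ∨ W = ⊤ := by
    intro W hW
    by_contra hcon
    push Not at hcon
    exact hred W hcon.1 hcon.2 hW
  by_cases hraw : RawGeom G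
  · exact Or.inr (Or.inl hraw)
  refine Or.inr (Or.inr ⟨hG, hraw, ?_⟩)
  rcases raw_of_dich h2 hG (dich_of_not_raw hG hraw) with
    ⟨_, d, t, e, P, _, _, hw⟩ | hs | ⟨F₀, r, B, _, a1, a2, a3, -⟩ | hc
  · exact Or.inl ⟨d, t, e, P, hw.hd, hw.ht, hw.le⟩
  · exact Or.inr (Or.inl hs)
  · exact Or.inr (Or.inr (Or.inl ⟨F₀, r, B⁻¹, a1, a2, a3⟩))
  · exact Or.inr (Or.inr (Or.inr hc))

theorem conj_conj_inv_eq (P y : GL ι F) : P⁻¹ * (MulAut.conj P).toMonoidHom y * P = y := by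
  simp [MulAut.conj_apply, mul_assoc]

/-- Membership in the tensor product subgroup. -/
theorem mem_tensorProductSubgroup_iff {d k : ℕ} {e : ι ≃ Fin d × Fin k} {P x : GL ι F} :
    x ∈ tensorProductSubgroup d k e P ↔ ∃ (a : GL (Fin d) F) (b : GL (Fin k) F), ∀ i j,
      ((P⁻¹ * x * P : GL ι F) : Matrix ι ι F) i j =
        (a : Matrix (Fin d) (Fin d) F) (e i).1 (e j).1 * (b : Matrix (Fin k) (Fin k) F) (e i).2 (e j).2 := by
  constructor
  · rintro ⟨_, ⟨k', ⟨a, b, hk'⟩, rfl⟩, rfl⟩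
    refine ⟨a, b, fun i j => ?_⟩
    rw [conj_conj_inv_eq]
    have h1 : ((glReindex e.symm).toMonoidHom k' : GL ι F).val = (k'.val).submatrix e e := by
      rfl
    rw [h1, Matrix.submatrix_apply, hk']
    rfl
  · rintro ⟨a, b, h⟩
    refine ⟨(glReindex e.symm).toMonoidHom ((glReindex e.symm).symm (P⁻¹ * x * P)), ⟨_, ⟨a, b, ?_⟩, rfl⟩, ?_⟩
    · ext f f'
      have h1 : (((glReindex e.symm).symm (P⁻¹ * x * P) : GL (Fin d × Fin k) F) : Matrix _ _ F) =
          ((P⁻¹ * x * P : GL ι F) : Matrix ι ι F).submatrix e.symm e.symm := rfl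
      rw [h1, Matrix.submatrix_apply, h]
      simp
    · change P * (glReindex e.symm ((glReindex e.symm).symm (P⁻¹ * x * P))) * P⁻¹ = x
      rw [MulEquiv.apply_symm_apply]
      group

/-- Swapping the tensor factors. -/
theorem tensorProductSubgroup_le_swap {d k : ℕ} (e : ι ≃ Fin d × Fin k) (P : GL ι F) :
    tensorProductSubgroup d k e P ≤ tensorProductSubgroup k d (e.trans (Equiv.prodComm _ _)) P := by
  intro x hx
  obtain ⟨a, b, h⟩ := mem_tensorProductSubgroup_iff.mp hx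
  refine mem_tensorProductSubgroup_iff.mpr ⟨b, a, fun i j => ?_⟩
  rw [h, mul_comm]
  rfl

/-- Equal factors: the tensor product subgroup lies in the tensor wreath subgroup. -/
theorem tensorProductSubgroup_le_wreath {d : ℕ} (e : ι ≃ Fin d × Fin d) (P : GL ι F) :
    tensorProductSubgroup d d e P ≤ tensorWreathSubgroup d 2 (e.trans (finTwoArrowEquiv (Fin d)).symm) P := by
  intro x hx
  obtain ⟨a, b, h⟩ := mem_tensorProductSubgroup_iff.mp hx
  set e' : ι ≃ (Fin 2 → Fin d) := e.trans (finTwoArrowEquiv (Fin d)).symm with he'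
  refine ⟨(glReindex e'.symm).toMonoidHom ((glReindex e'.symm).symm (P⁻¹ * x * P)), ⟨_, ?_, rfl⟩, ?_⟩
  · refine Subgroup.subset_closure (Or.inl ⟨![a, b], fun f f' => ?_⟩)
    have h1 : (((glReindex e'.symm).symm (P⁻¹ * x * P) : GL (Fin 2 → Fin d) F) : Matrix _ _ F) =
        ((P⁻¹ * x * P : GL ι F) : Matrix ι ι F).submatrix e'.symm e'.symm := rfl
    rw [h1, Matrix.submatrix_apply, h, Fin.prod_univ_two]
    have h2 : ∀ f : Fin 2 → Fin d, e (e'.symm f) = (f 0, f 1) := by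
      intro f
      simp [he']
    rw [h2, h2]
    simp
  · change P * (glReindex e'.symm ((glReindex e'.symm).symm (P⁻¹ * x * P))) * P⁻¹ = x
    rw [MulEquiv.apply_symm_apply]
    group

section Linear

open Cfsg.Agent.Lib.Classical.Asch.Forms Cfsg.Agent.Lib.Classical.Asch.TensorTwo

/-- **Aschbacher's theorem** for the linear groups, in dimension at least three. -/
theorem linear_main {F : Type*} [Field F] [Fintype F] (n : ℕ) (hn : 3 ≤ n) (H : Subgroup (GL (Fin n) F)) :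
    (∃ M : Subgroup (GL (Fin n) F), InLinearClass n F M ∧ H ≤ M) ∨ InLinearResidualClass H := by
  classical
  haveI : Nonempty (Fin n) := ⟨⟨0, by omega⟩⟩
  have hcard : Fintype.card (Fin n) = n := Fintype.card_fin n
  have hHG : H ≤ H ⊔ scalars (Fin n) F := le_sup_left
  -- the forms
  have cSymp : ∀ f : (Fin n → F) → (Fin n → F) → F, IsSymplecticForm f → H ⊔ scalars (Fin n) F ≤ similarityGroup f →
      ∃ M : Subgroup (GL (Fin n) F), InLinearClass n F M ∧ H ≤ M := by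
    intro f hf hle
    have he : Even n := by
      have := even_card_of_symplectic hf
      rwa [hcard] at this
    have h4 : 4 ≤ n := by
      obtain ⟨k, hk⟩ := he
      omega
    exact ⟨similarityGroup f, Or.inr (Or.inr (Or.inr (Or.inr (Or.inr (Or.inr (Or.inr (Or.inr (Or.inr
      (Or.inl ⟨f, hf, he, h4, rfl⟩))))))))), hHG.trans hle⟩
  have cUnit : ∀ (σ : F ≃+* F) (f : (Fin n → F) → (Fin n → F) → F), IsUnitaryForm σ f →
      H ⊔ scalars (Fin n) F ≤ similarityGroup f → ∃ M : Subgroup (GL (Fin n) F), InLinearClass n F M ∧ H ≤ M := by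
    intro σ f hf hle
    exact ⟨similarityGroup f, Or.inr (Or.inr (Or.inr (Or.inr (Or.inr (Or.inr (Or.inr (Or.inr (Or.inr (Or.inr
      (Or.inl ⟨σ, f, hf, hn, rfl⟩)))))))))), hHG.trans hle⟩
  have cQuad : ∀ Q : (Fin n → F) → F, IsNondegenerateQuadraticForm Q → Odd (Fintype.card F) →
      H ⊔ scalars (Fin n) F ≤ quadSimilarityGroup Q → ∃ M : Subgroup (GL (Fin n) F), InLinearClass n F M ∧ H ≤ M := by
    intro Q hQ ho hle
    exact ⟨quadSimilarityGroup Q, Or.inr (Or.inr (Or.inr (Or.inr (Or.inr (Or.inr (Or.inr (Or.inr (Or.inr (Or.inr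
      (Or.inr ⟨Q, hQ, ho, hn, rfl⟩)))))))))), hHG.trans hle⟩
  have cSub : ∀ (F₀ : Subfield F) (r : ℕ) (B : GL (Fin n) F), r.Prime → Fintype.card F = Nat.card F₀ ^ r →
      H ⊔ scalars (Fin n) F ≤ subfieldSubgroup F₀ B → ∃ M : Subgroup (GL (Fin n) F), InLinearClass n F M ∧ H ≤ M := by
    intro F₀ r B hr hc hle
    exact ⟨subfieldSubgroup F₀ B, Or.inr (Or.inr (Or.inr (Or.inr (Or.inr (Or.inr
      (Or.inl ⟨F₀, r, B, hr, hc, rfl⟩)))))), hHG.trans hle⟩
  have cWreath : ∀ (d t : ℕ) (e : Fin n ≃ (Fin t → Fin d)) (P : GL (Fin n) F), 2 ≤ d → 2 ≤ t →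
      H ⊔ scalars (Fin n) F ≤ tensorWreathSubgroup d t e P →
      ∃ M : Subgroup (GL (Fin n) F), InLinearClass n F M ∧ H ≤ M := by
    intro d t e P hd ht hle
    by_cases h3 : 3 ≤ d
    · exact ⟨tensorWreathSubgroup d t e P, Or.inr (Or.inr (Or.inr (Or.inr (Or.inr (Or.inr (Or.inr (Or.inr
        (Or.inl ⟨d, t, e, P, h3, ht, rfl⟩)))))))), hHG.trans hle⟩
    · have hd2 : d = 2 := by omega
      subst hd2
      rcases tensorWreath_two_le_form ht e P with ⟨f, hf, hl⟩ | ⟨Q, hQ, ho, hl⟩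
      · exact cSymp f hf (hle.trans hl)
      · exact cQuad Q hQ ho (hle.trans hl)
  rcases raw (by rw [hcard]; omega) H with ⟨W, h1, h2, h3⟩ | hraw | ⟨hG, hnr, hw | ⟨R, r, s, D, hscal⟩ | hsub | ⟨P, hcore, hPn⟩⟩
  · exact Or.inl ⟨subspaceStabilizer W, Or.inl ⟨W, h1, h2, rfl⟩, hHG.trans (le_subspaceStabilizer h3)⟩
  · left
    rcases hraw with ⟨t, m, D, hD, hle⟩ | ⟨r, K, hr, hK, hle⟩ | ⟨d, k, e, P, hd, hk, hle⟩
    · exact ⟨decompositionStabilizer D, Or.inr (Or.inr (Or.inr (Or.inl ⟨t, m, D, hD, rfl⟩))), hHG.trans hle⟩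
    · exact ⟨subalgebraNormalizer K, Or.inr (Or.inr (Or.inr (Or.inr (Or.inl ⟨r, K, hr, hK, rfl⟩)))), hHG.trans hle⟩
    · rcases lt_trichotomy d k with hlt | heq | hgt
      · exact ⟨tensorProductSubgroup d k e P, Or.inr (Or.inr (Or.inr (Or.inr (Or.inr
          (Or.inl ⟨d, k, e, P, hd, hlt, rfl⟩))))), hHG.trans hle⟩
      · subst heq
        exact cWreath d 2 _ P hd le_rfl (hle.trans (tensorProductSubgroup_le_wreath e P))
      · exact ⟨tensorProductSubgroup k d (e.trans (Equiv.prodComm _ _)) P, Or.inr (Or.inr (Or.inr (Or.inr (Or.inr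
          (Or.inl ⟨k, d, _, P, hk, hgt, rfl⟩))))), hHG.trans (hle.trans (tensorProductSubgroup_le_swap e P))⟩
  · obtain ⟨d, t, e, P, hd, ht, hle⟩ := hw
    exact Or.inl (cWreath d t e P hd ht hle)
  · left
    rcases caseA D hscal (dich_of_not_raw hG hnr) (by rw [hcard]; exact hn) with ⟨h1, h2⟩ | ⟨F₀, r', B, hr, hc, hle⟩ | ⟨σ, f, hf, hle⟩ |
      ⟨f, hf, hle⟩ | ⟨Q, hQ, ho, hle⟩
    · exact ⟨subgroupNormalizer R, Or.inr (Or.inr (Or.inr (Or.inr (Or.inr (Or.inr (Or.inr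
        (Or.inl ⟨r, R, h1, rfl⟩))))))), hHG.trans h2⟩
    · exact cSub F₀ r' B hr hc hle
    · exact cUnit σ f hf hle
    · exact cSymp f hf hle
    · exact cQuad Q hQ ho hle
  · obtain ⟨F₀, r, B, hr, hc, hle⟩ := hsub
    exact Or.inl (cSub F₀ r B hr hc hle)
  · have hcs : CentScalar P := (actsAbsolutelyIrreducibly_iff.mp hcore.absIrred).2
    by_cases hf : ∃ f : (Fin n → F) → (Fin n → F) → F, IsSymplecticForm f ∧ FixesForm (matrixSet P) f
    · obtain ⟨f, hf, hinv⟩ := hf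
      exact Or.inl (cSymp f hf fun g hg => mem_similarityGroup_symplectic hcs hf hinv (hPn g hg))
    by_cases hu : ∃ (σ : F ≃+* F) (f : (Fin n → F) → (Fin n → F) → F), IsUnitaryForm σ f ∧ FixesForm (matrixSet P) f
    · obtain ⟨σ, f, hf, hinv⟩ := hu
      exact Or.inl (cUnit σ f hf fun g hg => mem_similarityGroup_unitary hcs hf hinv (hPn g hg))
    by_cases hq : ∃ Q : (Fin n → F) → F, IsNondegenerateQuadraticForm Q ∧ FixesQuadForm (matrixSet P) Q
    · obtain ⟨Q, hQ, hinv⟩ := hq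
      by_cases ho : Odd (Fintype.card F)
      · exact Or.inl (cQuad Q hQ ho fun g hg => mem_quadSimilarityGroup hcs hQ ho hinv (hPn g hg))
      · exact absurd ⟨_, polar_symplectic hQ ho, fixes_polar hinv⟩ hf
    · exact Or.inr ⟨P, hcore, hq, hf, hu⟩

end Linear

end Cfsg.Agent.Lib.Classical.Asch.Main
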