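import Mathlib
import Cfsg.Agent.Lib.Classical.Asch.FormDich
import Cfsg.Agent.Lib.Classical.Asch.Main
import Cfsg.Agent.Lib.Classical.Asch.Gram

/-!
# Tensor data for a form: factors of similarities; explicit tensor form structures
-/

set_option autoImplicit false
set_option linter.style.haveILetI false
set_option linter.unusedSectionVars false

namespace Cfsg.Agent.Lib.Classical.Asch.FormSim

open scoped MatrixGroups Matrix Kronecker
open Cfsg.Geo Cfsg.Agent.Lib.Classical.Asch.Basic Cfsg.Agent.Lib.Classical.Asch.Forms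
open Cfsg.Agent.Lib.Classical.Asch.Adj Cfsg.Agent.Lib.Classical.Asch.FormDich
open Cfsg.Agent.Lib.Classical.Asch.FormTensor
open Cfsg.Agent.Lib.Classical.Asch.PureTensor Cfsg.Agent.Lib.Classical.Asch.Gram

variable {ι : Type} [Fintype ι] [DecidableEq ι] {F : Type*} [Field F]
variable {σ : F ≃+* F} {ε : F} {f : (ι → F) → (ι → F) → F}

/-- Proportional Kronecker products have proportional factors. -/
theorem kron_prop {α β : Type*} {X₁ Y₁ : Matrix α α F} {X₂ Y₂ : Matrix β β F} {μ : F} (hμ : μ ≠ 0)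
    (hY₁ : Y₁ ≠ 0) (hY₂ : Y₂ ≠ 0) (h : ∀ a c b d, X₁ a c * X₂ b d = μ * (Y₁ a c * Y₂ b d)) :
    ∃ μ₁ μ₂ : F, μ₁ ≠ 0 ∧ μ₂ ≠ 0 ∧ X₁ = μ₁ • Y₁ ∧ X₂ = μ₂ • Y₂ := by
  obtain ⟨a₀, c₀, ha⟩ : ∃ a c, Y₁ a c ≠ 0 := by
    by_contra hcon
    push Not at hcon
    exact hY₁ (by ext a c; exact hcon a c)
  obtain ⟨b₀, d₀, hb⟩ : ∃ b d, Y₂ b d ≠ 0 := by
    by_contra hcon
    push Not at hcon
    exact hY₂ (by ext a c; exact hcon a c)
  have h0 := h a₀ c₀ b₀ d₀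
  have h1 : X₁ a₀ c₀ * X₂ b₀ d₀ ≠ 0 := by
    rw [h0]
    exact mul_ne_zero hμ (mul_ne_zero ha hb)
  have hX₁ : X₁ a₀ c₀ ≠ 0 := left_ne_zero_of_mul h1
  have hX₂ : X₂ b₀ d₀ ≠ 0 := right_ne_zero_of_mul h1
  refine ⟨X₁ a₀ c₀ / Y₁ a₀ c₀, X₂ b₀ d₀ / Y₂ b₀ d₀, div_ne_zero hX₁ ha, div_ne_zero hX₂ hb, ?_, ?_⟩
  · ext a c
    have h2 := h a c b₀ d₀
    simp only [Matrix.smul_apply, smul_eq_mul]
    field_simp
    have h3 : μ * (Y₁ a₀ c₀ * Y₂ b₀ d₀) = X₁ a₀ c₀ * X₂ b₀ d₀ := h0.symm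
    have h4 : X₁ a c * X₂ b₀ d₀ * (Y₁ a₀ c₀ * Y₂ b₀ d₀) = (X₁ a₀ c₀ * X₂ b₀ d₀) * (Y₁ a c * Y₂ b₀ d₀) := by
      rw [h2, ← h3]
      ring
    have h5 : X₂ b₀ d₀ * Y₂ b₀ d₀ ≠ 0 := mul_ne_zero hX₂ hb
    apply mul_left_cancel₀ h5
    linear_combination h4
  · ext b d
    have h2 := h a₀ c₀ b d
    simp only [Matrix.smul_apply, smul_eq_mul]
    field_simp
    have h3 : μ * (Y₁ a₀ c₀ * Y₂ b₀ d₀) = X₁ a₀ c₀ * X₂ b₀ d₀ := h0.symm
    have h4 : X₁ a₀ c₀ * X₂ b d * (Y₁ a₀ c₀ * Y₂ b₀ d₀) = (X₁ a₀ c₀ * X₂ b₀ d₀) * (Y₁ a₀ c₀ * Y₂ b d) := by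
      rw [h2, ← h3]
      ring
    have h5 : X₁ a₀ c₀ * Y₁ a₀ c₀ ≠ 0 := mul_ne_zero hX₁ ha
    apply mul_left_cancel₀ h5
    linear_combination h4

theorem gl_ne_zero {α : Type*} [Fintype α] [DecidableEq α] [Nonempty α] (J : GL α F) : (J : Matrix α α F) ≠ 0 := by
  intro h
  have h1 := J.val_inv
  rw [h, zero_mul] at h1
  exact zero_ne_one h1

/-- The swap of a tensor datum. -/
theorem TensorData.swap {G : Subgroup (GL ι F)} {d k : ℕ} {e : ι ≃ Fin d × Fin k} {P : GL ι F} {J₁ : GL (Fin d) F}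
    {J₂ : GL (Fin k) F} {ε₁ ε₂ c : F} (h : TensorData σ ε f G d k e P J₁ J₂ ε₁ ε₂ c) :
    TensorData σ ε f G k d (e.trans (Equiv.prodComm _ _)) P J₂ J₁ ε₂ ε₁ c where
  hd := h.hk
  hk := h.hd
  le := h.le.trans (Main.tensorProductSubgroup_le_swap e P)
  herm₁ := h.herm₂
  herm₂ := h.herm₁
  ne₁ := h.ne₂
  ne₂ := h.ne₁
  hc := h.hc
  eq u v := by
    rw [h.eq]
    congr 2
    ext i j
    simp [mul_comm]
  sign := by
    rw [mul_comm ε₂ ε₁]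
    exact h.sign

/-- A similarity in a tensor datum factors as a tensor product of similarities. -/
theorem TensorData.sim_factors [Nonempty ι] {G : Subgroup (GL ι F)} {d k : ℕ} {e : ι ≃ Fin d × Fin k} {P : GL ι F}
    {J₁ : GL (Fin d) F} {J₂ : GL (Fin k) F} {ε₁ ε₂ c : F} (h : TensorData σ ε f G d k e P J₁ J₂ ε₁ ε₂ c)
    (hGs : G ≤ similarityGroup f) {g : GL ι F} (hg : g ∈ G) :
    ∃ (a : GL (Fin d) F) (b : GL (Fin k) F) (μ₁ μ₂ : F), μ₁ ≠ 0 ∧ μ₂ ≠ 0 ∧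
      (∀ i j, ((P⁻¹ * g * P : GL ι F) : Matrix ι ι F) i j =
        (a : Matrix (Fin d) (Fin d) F) (e i).1 (e j).1 * (b : Matrix (Fin k) (Fin k) F) (e i).2 (e j).2) ∧
      (a : Matrix (Fin d) (Fin d) F)ᵀ * (J₁ : Matrix (Fin d) (Fin d) F) * (a : Matrix (Fin d) (Fin d) F).map σ =
        μ₁ • (J₁ : Matrix (Fin d) (Fin d) F) ∧
      (b : Matrix (Fin k) (Fin k) F)ᵀ * (J₂ : Matrix (Fin k) (Fin k) F) * (b : Matrix (Fin k) (Fin k) F).map σ =
        μ₂ • (J₂ : Matrix (Fin k) (Fin k) F) := by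
  classical
  obtain ⟨a, b, hab⟩ := Main.mem_tensorProductSubgroup_iff.mp (h.le hg)
  obtain ⟨μ, hμ⟩ := hGs hg
  haveI : Nonempty (Fin d) := ⟨⟨0, by have := h.hd; omega⟩⟩
  haveI : Nonempty (Fin k) := ⟨⟨0, by have := h.hk; omega⟩⟩
  obtain ⟨x, hx⟩ : ∃ x, x = P⁻¹ * g * P := ⟨_, rfl⟩
  set A : Matrix ι ι F := ((J₁ : Matrix (Fin d) (Fin d) F) ⊗ₖ (J₂ : Matrix (Fin k) (Fin k) F)).submatrix e e with hA
  have hgP : ∀ w : ι → F, (g : Matrix ι ι F) *ᵥ ((P : Matrix ι ι F) *ᵥ w) = (P : Matrix ι ι F) *ᵥ ((x : Matrix ι ι F) *ᵥ w) := by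
    intro w
    rw [Matrix.mulVec_mulVec, Matrix.mulVec_mulVec, ← Units.val_mul, ← Units.val_mul, hx]
    congr 2
    group
  have hrel : (x : Matrix ι ι F)ᵀ * A * (x : Matrix ι ι F).map σ = (μ : F) • A := by
    apply eq_of_sesqM_eq (σ := (σ : F →+* F)) σ.surjective
    intro u v
    have h1 := hμ ((P : Matrix ι ι F) *ᵥ u) ((P : Matrix ι ι F) *ᵥ v)
    rw [hgP, hgP, h.eq, h.eq, ← hA] at h1
    have h2 : sesqM (σ : F →+* F) A ((x : Matrix ι ι F) *ᵥ u) ((x : Matrix ι ι F) *ᵥ v) = (μ : F) * sesqM (σ : F →+* F) A u v := by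
      have hc := h.hc
      apply mul_left_cancel₀ hc
      rw [h1]
      ring
    rw [sesqM_mulVec] at h2
    have h3 : (x : Matrix ι ι F).map (σ : F →+* F) = (x : Matrix ι ι F).map σ := rfl
    rw [h3] at h2
    rw [h2]
    simp [sesqM, Matrix.smul_mulVec, smul_dotProduct]
  have hx2 : (x : Matrix ι ι F) = ((a : Matrix (Fin d) (Fin d) F) ⊗ₖ (b : Matrix (Fin k) (Fin k) F)).submatrix e e := by
    ext i j
    rw [hx, hab]
    rfl
  have hkron : ∀ α γ β δ, ((a : Matrix (Fin d) (Fin d) F)ᵀ * (J₁ : Matrix (Fin d) (Fin d) F) * (a : Matrix (Fin d) (Fin d) F).map σ) α γ *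
      ((b : Matrix (Fin k) (Fin k) F)ᵀ * (J₂ : Matrix (Fin k) (Fin k) F) * (b : Matrix (Fin k) (Fin k) F).map σ) β δ =
      (μ : F) * ((J₁ : Matrix (Fin d) (Fin d) F) α γ * (J₂ : Matrix (Fin k) (Fin k) F) β δ) := by
    intro α γ β δ
    have h1 := congrFun (congrFun hrel (e.symm (α, β))) (e.symm (γ, δ))
    rw [hx2, hA, Matrix.transpose_submatrix, ← Matrix.submatrix_map, Matrix.submatrix_mul_equiv, Matrix.submatrix_mul_equiv,
      transpose_kron, map_kron, ← Matrix.mul_kronecker_mul, ← Matrix.mul_kronecker_mul] at h1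
    simpa using h1
  obtain ⟨μ₁, μ₂, h1, h2, h3, h4⟩ := kron_prop μ.ne_zero (gl_ne_zero J₁) (gl_ne_zero J₂) hkron
  exact ⟨a, b, μ₁, μ₂, h1, h2, hab, h3, h4⟩

/-- The sign relation. -/
theorem refl_sign_facts {J : Matrix ι ι F} [Nonempty ι] (hJ0 : J ≠ 0) {ε₁ : F}
    (h : (J.map (RingEquiv.refl F))ᵀ = ε₁ • J) : Jᵀ = ε₁ • J ∧ ε₁ * ε₁ = 1 := by
  have h1 : Jᵀ = ε₁ • J := by
    rw [← h]
    ext i j
    simp
  refine ⟨h1, ?_⟩
  have h2 : J = (ε₁ * ε₁) • J := by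
    conv_lhs => rw [← Matrix.transpose_transpose J, h1, Matrix.transpose_smul, h1, smul_smul]
  obtain ⟨i, j, hij⟩ : ∃ i j, J i j ≠ 0 := by
    by_contra hcon
    push Not at hcon
    exact hJ0 (by ext a c; exact hcon a c)
  have h3 := congrFun (congrFun h2 i) j
  simp only [Matrix.smul_apply, smul_eq_mul] at h3
  have h4 : (ε₁ * ε₁ - 1) * J i j = 0 := by
    rw [sub_mul, ← h3]
    ring
  exact sub_eq_zero.mp ((mul_eq_zero.mp h4).resolve_right hij)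

/-- The form of a reindexed matrix. -/
theorem sesqM_submatrix {κ : Type} [Fintype κ] [DecidableEq κ] (τ : F →+* F) (e : ι ≃ κ) (A : Matrix κ κ F) (x y : κ → F) :
    sesqM τ (A.submatrix e e) (x ∘ e) (y ∘ e) = formOfGram τ A x y := by
  unfold sesqM formOfGram
  simp only [dotProduct, Matrix.mulVec, Matrix.submatrix_apply, Function.comp_apply, Finset.mul_sum]
  rw [← Equiv.sum_comp e]
  refine Finset.sum_congr rfl fun i _ => ?_
  rw [← Equiv.sum_comp e]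
  refine Finset.sum_congr rfl fun j _ => ?_
  ring

theorem gramMatrix_bil {κ : Type} [Fintype κ] [DecidableEq κ] (A : Matrix κ κ F) : gramMatrix (bil A) = A := by
  ext i j
  simp [gramMatrix, bil]

/-- The bilinear form of an invertible symmetric matrix. -/
theorem bil_symmetric {κ : Type} [Fintype κ] [DecidableEq κ] (A : GL κ F) (hA : (A : Matrix κ κ F)ᵀ = A) :
    IsSymmetricForm (bil (A : Matrix κ κ F)) where
  bilinear := bil_isBilinear _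
  symm u v := by
    rw [bil_swap, hA]
  nondegenerate := bil_nondegenerate A

theorem isTensorFormStructure_of [Nonempty ι] {d k : ℕ} {e : ι ≃ Fin d × Fin k} {P : GL ι F} {A₁ : Matrix (Fin d) (Fin d) F}
    {A₂ : Matrix (Fin k) (Fin k) F} {c : F} (hc : c ≠ 0) (τ : F →+* F)
    (h : ∀ u v, f ((P : Matrix ι ι F) *ᵥ u) ((P : Matrix ι ι F) *ᵥ v) = c * sesqM τ ((A₁ ⊗ₖ A₂).submatrix e e) u v)
    {f₁ : (Fin d → F) → (Fin d → F) → F} {f₂ : (Fin k → F) → (Fin k → F) → F}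
    (h₁ : gramMatrix f₁ = A₁) (h₂ : gramMatrix f₂ = A₂) :
    IsTensorFormStructure τ f f₁ f₂ e P := by
  refine ⟨c, hc, fun x y => ?_⟩
  rw [h, sesqM_submatrix, h₁, h₂]

theorem isTensorPowerFormStructure_of [Nonempty ι] {d t : ℕ} {e : ι ≃ (Fin t → Fin d)} {P : GL ι F} {A₀ : Matrix (Fin d) (Fin d) F}
    {c : F} (hc : c ≠ 0) (τ : F →+* F)
    (h : ∀ u v, f ((P : Matrix ι ι F) *ᵥ u) ((P : Matrix ι ι F) *ᵥ v) =
      c * sesqM τ ((pureMat fun _ : Fin t => A₀).submatrix e e) u v)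
    {f₁ : (Fin d → F) → (Fin d → F) → F} (h₁ : gramMatrix f₁ = A₀) :
    IsTensorPowerFormStructure τ f f₁ e P := by
  refine ⟨c, hc, fun x y => ?_⟩
  rw [h, sesqM_submatrix, h₁]
  rfl

/-- The form with `σ` the identity. -/
theorem sesqM_refl (A : Matrix ι ι F) (u v : ι → F) : sesqM ((RingEquiv.refl F : F ≃+* F) : F →+* F) A u v = bil A u v := rfl

end Cfsg.Agent.Lib.Classical.Asch.FormSim
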