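import Mathlib
import Cfsg.Agent.Lib.Classical.Asch.SympStruct
import Cfsg.Agent.Lib.Linalg.Bridge
import Cfsg.Agent.Lib.Classical.Lin.Transvections
import Cfsg.Agent.Lib.Classical.Geo.Basic
import Cfsg.Agent.Lib.Classical.Asch.Main

/-!
# The special linear group lies in no member of the geometric classes
-/

set_option autoImplicit false
set_option linter.style.haveILetI false
set_option linter.unusedSectionVars false

namespace Cfsg.Agent.Lib.Classical.Asch.NotSL

open scoped MatrixGroups Matrix commutatorElement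
open Cfsg.Geo Cfsg.Agent.Lib.Classical.Asch.Basic Cfsg.Agent.Lib.Classical.Asch.MinNormal

variable {ι : Type} [Fintype ι] [DecidableEq ι] {F : Type*} [Field F]

theorem toGL_mem (g : Matrix.SpecialLinearGroup ι F) :
    Matrix.SpecialLinearGroup.toGL g ∈ specialLinear ι F := by
  rw [Cfsg.Agent.Lib.Classical.Geo.Basic.mem_specialLinear_iff]
  exact g.2

theorem exists_SL_vec (hn : 2 ≤ Fintype.card ι) {v v' : ι → F} (hv : v ≠ 0) (hv' : v' ≠ 0) :
    ∃ g ∈ specialLinear ι F, (g : Matrix ι ι F) *ᵥ v = v' := by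
  obtain ⟨g, hg⟩ := Cfsg.Agent.Lib.Linalg.Bridge.exists_SL_mulVec_eq hn hv hv'
  exact ⟨_, toGL_mem g, hg⟩

theorem exists_SL_pair (hn : 3 ≤ Fintype.card ι) {u x₀ x₁ : ι → F} (hu : u ≠ 0) (h₀ : ∀ a : F, a • u ≠ x₀)
    (h₁ : ∀ a : F, a • u ≠ x₁) :
    ∃ g ∈ specialLinear ι F, (g : Matrix ι ι F) *ᵥ u = u ∧ (g : Matrix ι ι F) *ᵥ x₀ = x₁ := by
  have hi₀ : LinearIndependent F ![x₀, u] := by
    rw [linearIndependent_fin2]
    exact ⟨by simpa using hu, by simpa using h₀⟩
  have hi₁ : LinearIndependent F ![x₁, u] := by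
    rw [linearIndependent_fin2]
    exact ⟨by simpa using hu, by simpa using h₁⟩
  obtain ⟨g, hg⟩ := Cfsg.Agent.Lib.Linalg.Bridge.exists_SL_of_linearIndependent hi₀ hi₁ (by simpa using by omega)
  refine ⟨_, toGL_mem g, ?_, ?_⟩
  · simpa using hg 1
  · simpa using hg 0

/-- A set of vectors preserved by `M`: generic obstruction. -/
theorem not_le_of_set (hn : 2 ≤ Fintype.card ι) {M : Subgroup (GL ι F)} (S : Set (ι → F))
    (hS : ∀ g ∈ M, ∀ w ∈ S, (g : Matrix ι ι F) *ᵥ w ∈ S) {w₀ w₁ : ι → F} (h₀ : w₀ ∈ S) (h₀' : w₀ ≠ 0)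
    (h₁ : w₁ ∉ S) (h₁' : w₁ ≠ 0) : ¬ specialLinear ι F ≤ M := by
  intro h
  obtain ⟨g, hg, hgw⟩ := exists_SL_vec hn h₀' h₁'
  apply h₁
  rw [← hgw]
  exact hS g (h hg) w₀ h₀

/-- A relation preserved by `M`: generic obstruction. -/
theorem not_le_of_rel (hn : 3 ≤ Fintype.card ι) {M : Subgroup (GL ι F)} (R : (ι → F) → (ι → F) → Prop)
    (hR : ∀ g ∈ M, ∀ x u, R x u → R ((g : Matrix ι ι F) *ᵥ x) ((g : Matrix ι ι F) *ᵥ u)) {u x₀ x₁ : ι → F} (hu : u ≠ 0)
    (h₀ : ∀ a : F, a • u ≠ x₀) (h₁ : ∀ a : F, a • u ≠ x₁) (hx₀ : R x₀ u) (hx₁ : ¬ R x₁ u) :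
    ¬ specialLinear ι F ≤ M := by
  intro h
  obtain ⟨g, hg, hgu, hgx⟩ := exists_SL_pair hn hu h₀ h₁
  apply hx₁
  have := hR g (h hg) x₀ u hx₀
  rwa [hgu, hgx] at this

theorem exists_ne_zero (hn : 2 ≤ Fintype.card ι) : ∃ u : ι → F, u ≠ 0 := by
  haveI : Nonempty ι := Fintype.card_pos_iff.mp (by omega)
  obtain ⟨i⟩ := ‹Nonempty ι›
  refine ⟨Pi.single i 1, ?_⟩
  intro h
  have := congrFun h i
  simp at this

/-- **Forms**. -/
theorem not_le_similarity (hn : 3 ≤ Fintype.card ι) {f : (ι → F) → (ι → F) → F}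
    (hadd : ∀ x y v, f (x + y) v = f x v + f y v) (hsmul : ∀ (c : F) (x v : ι → F), f (c • x) v = c * f x v)
    (hnd : IsNondegenerateForm f) : ¬ specialLinear ι F ≤ similarityGroup f := by
  obtain ⟨u, hu⟩ := exists_ne_zero (F := F) (ι := ι) (by omega)
  let φ : (ι → F) →ₗ[F] F :=
    { toFun := fun x => f x u
      map_add' := fun x y => hadd x y u
      map_smul' := fun c x => by simpa using hsmul c x u }
  obtain ⟨y, hy⟩ := (hnd u hu).1
  have hφ : φ ≠ 0 := by
    intro h
    exact hy (by simpa [φ] using congrArg (fun ψ : (ι → F) →ₗ[F] F => ψ y) h)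
  -- a kernel vector outside the line
  have hker : ∃ x₀, φ x₀ = 0 ∧ ∀ a : F, a • u ≠ x₀ := by
    by_contra hcon
    push Not at hcon
    have hle : LinearMap.ker φ ≤ Submodule.span F {u} := by
      intro x hx
      obtain ⟨a, ha⟩ := hcon x hx
      rw [← ha]
      exact Submodule.smul_mem _ _ (Submodule.mem_span_singleton_self u)
    have h1 := Submodule.finrank_mono hle
    have h2 := finrank_span_singleton (K := F) hu
    have h3 := LinearMap.finrank_range_add_finrank_ker φ
    have h4 : Module.finrank F (LinearMap.range φ) ≤ 1 := by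
      have := Submodule.finrank_le (LinearMap.range φ)
      simpa using this
    rw [Module.finrank_fintype_fun_eq_card] at h3
    omega
  obtain ⟨x₀, hx₀, hx₀'⟩ := hker
  have hrel : ∀ g ∈ similarityGroup f, ∀ x v, f x v = 0 → f ((g : Matrix ι ι F) *ᵥ x) ((g : Matrix ι ι F) *ᵥ v) = 0 := by
    intro g hg x v hxv
    obtain ⟨c, hc⟩ := hg
    rw [hc, hxv, mul_zero]
  by_cases hyl : ∀ a : F, a • u ≠ y
  · exact not_le_of_rel hn (fun x v => f x v = 0) hrel hu hx₀' hyl hx₀ hy
  · push Not at hyl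
    obtain ⟨a, ha⟩ := hyl
    refine not_le_of_rel hn (fun x v => f x v = 0) hrel (x₀ := x₀) (x₁ := y + x₀) hu hx₀' ?_ hx₀ ?_
    · intro b hb
      apply hx₀' (b - a)
      rw [sub_smul, hb, ha]
      abel
    · rw [hadd]
      have : f x₀ u = 0 := hx₀
      rw [this, add_zero]
      exact hy

theorem quadSimilarity_le {Q : (ι → F) → F} : quadSimilarityGroup Q ≤ similarityGroup (QuadraticMap.polar Q) := by
  rintro g ⟨c, hc⟩
  refine ⟨c, fun u v => ?_⟩
  unfold QuadraticMap.polar
  rw [← Matrix.mulVec_add, hc, hc, hc]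
  ring

theorem not_le_quadSimilarity (hn : 3 ≤ Fintype.card ι) {Q : (ι → F) → F} (hQ : IsNondegenerateQuadraticForm Q) :
    ¬ specialLinear ι F ≤ quadSimilarityGroup Q := fun h =>
  not_le_similarity hn hQ.polar_bilinear.add_left hQ.polar_bilinear.smul_left hQ.nondegenerate
    (h.trans quadSimilarity_le)

/-- **Subspaces**. -/
theorem not_le_subspaceStabilizer (hn : 2 ≤ Fintype.card ι) {W : Submodule F (ι → F)} (h₁ : W ≠ ⊥) (h₂ : W ≠ ⊤) :
    ¬ specialLinear ι F ≤ subspaceStabilizer W := by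
  obtain ⟨w, hw, hw0⟩ := Submodule.exists_mem_ne_zero_of_ne_bot h₁
  obtain ⟨x, hx⟩ : ∃ x, x ∉ W := by
    by_contra hc
    push Not at hc
    exact h₂ (Submodule.eq_top_iff'.mpr hc)
  refine not_le_of_set hn (W : Set (ι → F)) ?_ hw hw0 hx ?_
  · intro g hg v hv
    exact (hg v).mp hv
  · rintro rfl
    exact hx W.zero_mem

/-- **Decompositions**. -/
theorem not_le_decompositionStabilizer (hn : 2 ≤ Fintype.card ι) {t m : ℕ} {D : Fin t → Submodule F (ι → F)}
    (hD : IsMDecomposition m D) : ¬ specialLinear ι F ≤ decompositionStabilizer D := by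
  have ht := hD.two_le
  have hbot : ∀ i, D i ≠ ⊥ := by
    intro i h
    have := hD.finrank_eq i
    rw [h, finrank_bot] at this
    have := hD.pos
    omega
  let i₀ : Fin t := ⟨0, by omega⟩
  let i₁ : Fin t := ⟨1, by omega⟩
  have h01 : i₀ ≠ i₁ := by simp [i₀, i₁, Fin.ext_iff]
  obtain ⟨v₀, hv₀, hv₀0⟩ := Submodule.exists_mem_ne_zero_of_ne_bot (hbot i₀)
  obtain ⟨v₁, hv₁, hv₁0⟩ := Submodule.exists_mem_ne_zero_of_ne_bot (hbot i₁)
  have hout : ∀ j, v₀ + v₁ ∉ D j := by
    intro j hj
    -- one of the two vectors would lie in the span of the other blocks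
    have key : ∀ a b : Fin t, ∀ va vb : ι → F, va ∈ D a → vb ∈ D b → a ≠ b → va ≠ 0 → a ≠ j → va + vb ∈ D j → False := by
      intro a b va vb ha hb hab ha0 haj hsum
      have h1 := hD.indep a
      have h2 : va ∈ ⨆ k, ⨆ (_ : k ≠ a), D k := by
        have h3 : va = (va + vb) + (-vb) := by abel
        rw [h3]
        refine Submodule.add_mem _ ?_ (Submodule.neg_mem _ ?_)
        · exact Submodule.mem_iSup_of_mem j (Submodule.mem_iSup_of_mem (Ne.symm haj) hsum)
        · exact Submodule.mem_iSup_of_mem b (Submodule.mem_iSup_of_mem (Ne.symm hab) hb)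
      exact ha0 ((Submodule.disjoint_def.mp h1) va ha h2)
    by_cases hj0 : i₀ = j
    · refine key i₁ i₀ v₁ v₀ hv₁ hv₀ h01.symm hv₁0 (fun h => h01 (hj0.trans h.symm)) ?_
      rwa [add_comm]
    · exact key i₀ i₁ v₀ v₁ hv₀ hv₁ h01 hv₀0 hj0 hj
  have hne : v₀ + v₁ ≠ 0 := by
    intro h
    exact hout i₀ (by rw [h]; exact (D i₀).zero_mem)
  refine not_le_of_set hn (⋃ i, (D i : Set (ι → F))) ?_ (Set.mem_iUnion.mpr ⟨i₀, hv₀⟩) hv₀0 ?_ hne
  · intro g hg w hw
    obtain ⟨i, hi⟩ := Set.mem_iUnion.mp hw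
    obtain ⟨σ, hσ⟩ := hg
    refine Set.mem_iUnion.mpr ⟨σ i, ?_⟩
    rw [← hσ i]
    exact ⟨w, hi, rfl⟩
  · intro h
    obtain ⟨j, hj⟩ := Set.mem_iUnion.mp h
    exact hout j hj

theorem single_eq_vecMulVec (i j : ι) :
    (Matrix.single i j (1 : F) : Matrix ι ι F) = Matrix.vecMulVec (Pi.single i 1) (Pi.single j 1) := by
  ext a b
  simp [Matrix.vecMulVec_apply, Matrix.single_apply, Pi.single_apply]
  grind

theorem rank_sub_le (A B : Matrix ι ι F) : (A - B).rank ≤ A.rank + B.rank := by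
  unfold Matrix.rank
  have h : LinearMap.range (A - B).mulVecLin ≤ LinearMap.range A.mulVecLin ⊔ LinearMap.range B.mulVecLin := by
    rintro _ ⟨v, rfl⟩
    rw [Matrix.mulVecLin_apply, Matrix.sub_mulVec, sub_eq_add_neg]
    exact Submodule.add_mem_sup ⟨v, rfl⟩ (Submodule.neg_mem _ ⟨v, rfl⟩)
  exact (Submodule.finrank_mono h).trans (Submodule.finrank_add_le_finrank_add_finrank _ _)

/-- A transvection as an element of the special linear group. -/
def tvn {i j : ι} (h : i ≠ j) (c : F) : GL ι F :=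
  Matrix.SpecialLinearGroup.toGL ⟨Matrix.transvection i j c, Matrix.det_transvection_of_ne i j h c⟩

theorem tvn_mem {i j : ι} (h : i ≠ j) (c : F) : tvn h c ∈ specialLinear ι F := toGL_mem _

theorem coe_tvn {i j : ι} (h : i ≠ j) (c : F) : (tvn h c : Matrix ι ι F) = 1 + Matrix.single i j c := rfl

/-- **Fields**: a transvection normalising a field subalgebra forces it to be scalar. -/
theorem not_le_subalgebraNormalizer (hn : 3 ≤ Fintype.card ι) {r : ℕ} (hr : 2 ≤ r) {K : Subalgebra F (Matrix ι ι F)}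
    (hK : IsFieldSubalgebra r K) : ¬ specialLinear ι F ≤ subalgebraNormalizer K := by
  intro hle
  obtain ⟨i, j, hij⟩ : ∃ i j : ι, i ≠ j := by
    have : Nontrivial ι := Fintype.one_lt_card_iff_nontrivial.1 (by omega)
    exact exists_pair_ne ι
  let t : GL ι F := tvn hij 1
  have ht : t ∈ subalgebraNormalizer K := hle (tvn_mem hij 1)
  let N : Matrix ι ι F := Matrix.single i j 1
  have htN : (t : Matrix ι ι F) = 1 + N := coe_tvn hij 1
  have hNrank : N.rank ≤ 1 := by
    rw [show N = Matrix.vecMulVec (Pi.single i 1) (Pi.single j 1) from single_eq_vecMulVec i j]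
    exact Matrix.rank_vecMulVec_le _ _
  have hunit : ∀ x ∈ K, x ≠ 0 → IsUnit x := by
    intro x hx hx0
    obtain ⟨y, _, hy⟩ := hK.inv x hx hx0
    exact ⟨⟨x, y, hy, mul_eq_one_comm.mp hy⟩, rfl⟩
  have hcomm : ∀ k ∈ K, (t : Matrix ι ι F) * k = k * (t : Matrix ι ι F) := by
    intro k hk
    have h1 : (t : Matrix ι ι F) * k * ((t⁻¹ : GL ι F) : Matrix ι ι F) ∈ K := (ht k).mp hk
    set k' := (t : Matrix ι ι F) * k * ((t⁻¹ : GL ι F) : Matrix ι ι F) with hk'
    have h2 : k' * (t : Matrix ι ι F) = (t : Matrix ι ι F) * k := by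
      rw [hk', mul_assoc, ← Units.val_mul, inv_mul_cancel, Units.val_one, mul_one]
    by_cases hkk : k' = k
    · rw [← h2, hkk]
    · exfalso
      have h3 : IsUnit (k' - k) := hunit _ (K.sub_mem h1 hk) (sub_ne_zero.mpr hkk)
      have h4 : (k' - k) * (t : Matrix ι ι F) = N * k - k * N := by
        rw [sub_mul, h2, htN, add_mul, mul_add, one_mul, mul_one]
        abel
      have h5 : ((k' - k) * (t : Matrix ι ι F)).rank = Fintype.card ι :=
        Matrix.rank_of_isUnit _ (h3.mul t.isUnit)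
      rw [h4] at h5
      have h6 := rank_sub_le (N * k) (k * N)
      have h7 := Matrix.rank_mul_le_left N k
      have h8 := Matrix.rank_mul_le_right k N
      omega
  have hscal : ∀ k ∈ K, k = k j j • (1 : Matrix ι ι F) := by
    intro k hk
    have h1 : N * k = k * N := by
      have := hcomm k hk
      rw [htN, add_mul, mul_add, one_mul, mul_one] at this
      exact add_left_cancel this
    have hcol : ∀ a, k a i = (1 : Matrix ι ι F) a i * k j j := by
      intro a
      have h2 := congrFun (congrFun h1 a) j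
      rw [Matrix.mul_single_apply_same] at h2
      by_cases hai : a = i
      · subst hai
        rw [Matrix.single_mul_apply_same] at h2
        simp only [one_mul, mul_one] at h2
        rw [← h2]
        simp
      · rw [Matrix.single_mul_apply_of_ne _ _ _ _ _ hai] at h2
        simp only [mul_one] at h2
        rw [← h2, Matrix.one_apply_ne hai, zero_mul]
    set x := k - k j j • (1 : Matrix ι ι F) with hx
    have hxK : x ∈ K := K.sub_mem hk (K.smul_mem K.one_mem _)
    have hxN : x * N = 0 := by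
      ext a b
      by_cases hb : b = j
      · subst hb
        rw [Matrix.mul_single_apply_same]
        simp [hx, hcol a]
        ring
      · rw [Matrix.mul_single_apply_of_ne _ _ _ _ _ hb]
        simp
    by_cases hx0 : x = 0
    · exact sub_eq_zero.mp hx0
    · exfalso
      obtain ⟨y, hy, hxy⟩ := hK.inv x hxK hx0
      have h3 : N = 0 := by
        have hyx : y * x = 1 := mul_eq_one_comm.mp hxy
        calc N = (y * x) * N := by rw [hyx, one_mul]
          _ = y * (x * N) := mul_assoc _ _ _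
          _ = 0 := by rw [hxN, mul_zero]
      have h4 := congrFun (congrFun h3 i) j
      simp [N] at h4
  have h1 : Subalgebra.toSubmodule K ≤ Submodule.span F {(1 : Matrix ι ι F)} := by
    intro k hk
    rw [hscal k hk]
    exact Submodule.smul_mem _ _ (Submodule.mem_span_singleton_self _)
  have h2 := Submodule.finrank_mono h1
  have h3 : Module.finrank F (Submodule.span F {(1 : Matrix ι ι F)}) = 1 := by
    haveI : Nonempty ι := ⟨i⟩
    exact finrank_span_singleton one_ne_zero
  have h4 : Module.finrank F (Subalgebra.toSubmodule K) = r := hK.finrank_eq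
  omega

/-- **Tensor products**. -/
theorem not_le_tensorProductSubgroup (hn : 2 ≤ Fintype.card ι) {d k : ℕ} (hd : 2 ≤ d) (hk : 2 ≤ k)
    (e : ι ≃ Fin d × Fin k) (P : GL ι F) : ¬ specialLinear ι F ≤ tensorProductSubgroup d k e P := by
  classical
  let S : Set (ι → F) := {w | ∃ (x : Fin d → F) (y : Fin k → F), ∀ i,
    (((P⁻¹ : GL ι F) : Matrix ι ι F) *ᵥ w) i = x (e i).1 * y (e i).2}
  have hPP : ∀ w, ((P⁻¹ : GL ι F) : Matrix ι ι F) *ᵥ ((P : Matrix ι ι F) *ᵥ w) = w := inv_mulVec_mulVec P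
  let d0 : Fin d := ⟨0, by omega⟩
  let d1 : Fin d := ⟨1, by omega⟩
  let k0 : Fin k := ⟨0, by omega⟩
  let k1 : Fin k := ⟨1, by omega⟩
  have hd01 : d0 ≠ d1 := by simp [d0, d1, Fin.ext_iff]
  have hk01 : k0 ≠ k1 := by simp [k0, k1, Fin.ext_iff]
  let u₀ : ι → F := Pi.single (e.symm (d0, k0)) 1
  let u₁ : ι → F := Pi.single (e.symm (d0, k0)) 1 + Pi.single (e.symm (d1, k1)) 1
  have hu₀ : u₀ ≠ 0 := by
    intro h
    have := congrFun h (e.symm (d0, k0))
    simp [u₀] at this
  have hne : e.symm (d0, k0) ≠ e.symm (d1, k1) := by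
    intro h
    have := e.symm.injective h
    simp [Prod.ext_iff, hd01] at this
  have hu₁ : u₁ ≠ 0 := by
    intro h
    have := congrFun h (e.symm (d0, k0))
    simp [u₁, hne] at this
  have hinj : Function.Injective (fun x : ι → F => (P : Matrix ι ι F) *ᵥ x) := mulVec_injective P
  refine not_le_of_set hn S ?_ (w₀ := (P : Matrix ι ι F) *ᵥ u₀) (w₁ := (P : Matrix ι ι F) *ᵥ u₁) ?_ ?_ ?_ ?_
  · intro g hg w ⟨x, y, hxy⟩
    obtain ⟨a, b, hab⟩ := Main.mem_tensorProductSubgroup_iff.mp hg
    refine ⟨(a : Matrix _ _ F) *ᵥ x, (b : Matrix _ _ F) *ᵥ y, fun i => ?_⟩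
    have h1 : ((P⁻¹ : GL ι F) : Matrix ι ι F) *ᵥ ((g : Matrix ι ι F) *ᵥ w) =
        ((P⁻¹ * g * P : GL ι F) : Matrix ι ι F) *ᵥ (((P⁻¹ : GL ι F) : Matrix ι ι F) *ᵥ w) := by
      rw [Matrix.mulVec_mulVec, Matrix.mulVec_mulVec]
      congr 1
      simp only [Units.val_mul, mul_assoc]
      rw [← Units.val_mul P, mul_inv_cancel, Units.val_one, mul_one]
    rw [h1]
    have h2 : (((P⁻¹ * g * P : GL ι F) : Matrix ι ι F) *ᵥ (((P⁻¹ : GL ι F) : Matrix ι ι F) *ᵥ w)) i =
        ∑ j, ((P⁻¹ * g * P : GL ι F) : Matrix ι ι F) i j * (((P⁻¹ : GL ι F) : Matrix ι ι F) *ᵥ w) j := rfl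
    rw [h2]
    simp only [hab, hxy]
    have h3 := Equiv.sum_comp e (fun p : Fin d × Fin k =>
      ((a : Matrix (Fin d) (Fin d) F) (e i).1 p.1 * (b : Matrix (Fin k) (Fin k) F) (e i).2 p.2) * (x p.1 * y p.2))
    rw [h3, Fintype.sum_prod_type]
    simp only [Matrix.mulVec, dotProduct]
    rw [Finset.sum_mul_sum]
    apply Finset.sum_congr rfl
    intro c _
    apply Finset.sum_congr rfl
    intro c' _
    ring
  · refine ⟨Pi.single d0 1, Pi.single k0 1, fun i => ?_⟩
    rw [hPP]
    by_cases hi : i = e.symm (d0, k0)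
    · subst hi
      simp [u₀]
    · have h2 : ¬ ((e i).1 = d0 ∧ (e i).2 = k0) := by
        rintro ⟨h3, h4⟩
        apply hi
        apply e.injective
        simp [Prod.ext_iff, h3, h4]
      simp only [u₀, Pi.single_apply, hi, if_false]
      by_cases h3 : (e i).1 = d0
      · have h4 : (e i).2 ≠ k0 := fun h4 => h2 ⟨h3, h4⟩
        simp [h4]
      · simp [h3]
  · intro h
    exact hu₀ (hinj (by simpa using h))
  · rintro ⟨x, y, hxy⟩
    have h00 := hxy (e.symm (d0, k0))
    have h11 := hxy (e.symm (d1, k1))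
    have h01 := hxy (e.symm (d0, k1))
    rw [hPP] at h00 h11 h01
    simp only [Equiv.apply_symm_apply] at h00 h11 h01
    have hne2 : e.symm (d0, k1) ≠ e.symm (d0, k0) := by
      intro h
      have := e.symm.injective h
      simp [Prod.ext_iff, hk01.symm] at this
    have hne3 : e.symm (d0, k1) ≠ e.symm (d1, k1) := by
      intro h
      have := e.symm.injective h
      simp [Prod.ext_iff, hd01] at this
    have v00 : u₁ (e.symm (d0, k0)) = 1 := by simp [u₁, hne]
    have v11 : u₁ (e.symm (d1, k1)) = 1 := by simp [u₁, hne.symm]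
    have v01 : u₁ (e.symm (d0, k1)) = 0 := by simp [u₁, hne2, hne3]
    rw [v00] at h00
    rw [v11] at h11
    rw [v01] at h01
    have hx0 : x d0 ≠ 0 := by
      intro h
      rw [h, zero_mul] at h00
      exact one_ne_zero h00
    have hy1 : y k1 ≠ 0 := by
      intro h
      rw [h, mul_zero] at h11
      exact one_ne_zero h11
    exact mul_ne_zero hx0 hy1 h01.symm
  · intro h
    exact hu₁ (hinj (by simpa using h))

/-- The pure tensors in the coordinates of a tensor power. -/
def Pure0 (F : Type*) [Field F] (t m : ℕ) : Set ((Fin t → Fin m) → F) :=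
  {w | ∃ xs : Fin t → Fin m → F, ∀ f, w f = ∏ i, xs i (f i)}

theorem standard_preserves_pure [Finite F] {t m : ℕ} {y : GL (Fin t → Fin m) F} (hy : y ∈ tensorWreathStandard m t F) :
    ∀ w ∈ Pure0 F t m, (y : Matrix (Fin t → Fin m) (Fin t → Fin m) F) *ᵥ w ∈ Pure0 F t m := by
  classical
  unfold tensorWreathStandard at hy
  induction hy using Subgroup.closure_induction with
  | mem y hy =>
    rintro w ⟨xs, hxs⟩
    rcases hy with ⟨gs, hgs⟩ | ⟨σ, hσ⟩
    · refine ⟨fun i => (gs i : Matrix (Fin m) (Fin m) F) *ᵥ xs i, fun f => ?_⟩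
      have h1 : ∀ i, ((gs i : Matrix (Fin m) (Fin m) F) *ᵥ xs i) (f i) =
          ∑ a, (gs i : Matrix (Fin m) (Fin m) F) (f i) a * xs i a := fun i => rfl
      simp only [h1]
      rw [Finset.prod_univ_sum, Fintype.piFinset_univ]
      change ∑ f', (y : Matrix (Fin t → Fin m) (Fin t → Fin m) F) f f' * w f' = _
      refine Finset.sum_congr rfl fun f' _ => ?_
      rw [hgs, hxs, Finset.prod_mul_distrib]
    · refine ⟨fun j => xs (σ.symm j), fun f => ?_⟩
      change ∑ f', (y : Matrix (Fin t → Fin m) (Fin t → Fin m) F) f f' * w f' = _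
      simp only [hσ]
      rw [Finset.sum_eq_single (f ∘ σ)]
      · rw [if_pos rfl, one_mul, hxs, ← Equiv.prod_comp σ (fun j => xs (σ.symm j) (f j))]
        simp
      · intro f' _ hf'
        rw [if_neg hf', zero_mul]
      · intro h
        exact absurd (Finset.mem_univ _) h
  | one =>
    intro w hw
    simpa using hw
  | mul a b _ _ ha hb =>
    intro w hw
    rw [Units.val_mul, ← Matrix.mulVec_mulVec]
    exact ha _ (hb w hw)
  | inv a _ ha =>
    intro w hw
    -- a finite injective self-map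
    let φ : Pure0 F t m → Pure0 F t m := fun v => ⟨_, ha v.1 v.2⟩
    have hinj : Function.Injective φ := by
      intro u v h
      exact Subtype.ext (mulVec_injective a (congrArg Subtype.val h))
    obtain ⟨v, hv⟩ := Finite.surjective_of_injective hinj ⟨w, hw⟩
    have h1 : (a : Matrix _ _ F) *ᵥ v.1 = w := congrArg Subtype.val hv
    rw [← h1, inv_mulVec_mulVec]
    exact v.2

/-- **Tensor powers**. -/
theorem not_le_tensorWreathSubgroup [Finite F] (hn : 2 ≤ Fintype.card ι) {m t : ℕ} (hm : 2 ≤ m) (ht : 2 ≤ t)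
    (e : ι ≃ (Fin t → Fin m)) (P : GL ι F) : ¬ specialLinear ι F ≤ tensorWreathSubgroup m t e P := by
  classical
  let S : Set (ι → F) := {w | (fun f => (((P⁻¹ : GL ι F) : Matrix ι ι F) *ᵥ w) (e.symm f)) ∈ Pure0 F t m}
  have hPP : ∀ w, ((P⁻¹ : GL ι F) : Matrix ι ι F) *ᵥ ((P : Matrix ι ι F) *ᵥ w) = w := inv_mulVec_mulVec P
  have hinj : Function.Injective (fun x : ι → F => (P : Matrix ι ι F) *ᵥ x) := mulVec_injective P
  let c0 : Fin t → Fin m := fun _ => ⟨0, by omega⟩
  let c1 : Fin t → Fin m := fun _ => ⟨1, by omega⟩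
  let i₀ : Fin t := ⟨0, by omega⟩
  let i₁ : Fin t := ⟨1, by omega⟩
  have hi01 : i₀ ≠ i₁ := by simp [i₀, i₁, Fin.ext_iff]
  have h01 : c0 ≠ c1 := by
    intro h
    have := congrFun h i₀
    simp [c0, c1, Fin.ext_iff] at this
  let u₀ : ι → F := Pi.single (e.symm c0) 1
  let u₁ : ι → F := Pi.single (e.symm c0) 1 + Pi.single (e.symm c1) 1
  have hne : e.symm c0 ≠ e.symm c1 := fun h => h01 (e.symm.injective h)
  have hu₀ : u₀ ≠ 0 := by
    intro h
    have := congrFun h (e.symm c0)
    simp [u₀] at this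
  have hu₁ : u₁ ≠ 0 := by
    intro h
    have := congrFun h (e.symm c0)
    simp [u₁, hne] at this
  refine not_le_of_set hn S ?_ (w₀ := (P : Matrix ι ι F) *ᵥ u₀) (w₁ := (P : Matrix ι ι F) *ᵥ u₁) ?_ ?_ ?_ ?_
  · rintro g ⟨_, ⟨y, hy, rfl⟩, rfl⟩ w hw
    have h0 := standard_preserves_pure hy _ hw
    change (fun f => (((P⁻¹ : GL ι F) : Matrix ι ι F) *ᵥ ((MulAut.conj P (glReindex e.symm y) : GL ι F) : Matrix ι ι F) *ᵥ w)
      (e.symm f)) ∈ Pure0 F t m
    convert h0 using 1
    funext f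
    have h1 : ((P⁻¹ : GL ι F) : Matrix ι ι F) *ᵥ ((MulAut.conj P (glReindex e.symm y) : GL ι F) : Matrix ι ι F) *ᵥ w =
        ((glReindex e.symm y : GL ι F) : Matrix ι ι F) *ᵥ (((P⁻¹ : GL ι F) : Matrix ι ι F) *ᵥ w) := by
      rw [Matrix.mulVec_mulVec, Matrix.mulVec_mulVec]
      congr 1
      rw [← Units.val_mul, ← Units.val_mul]
      congr 1
      simp [MulAut.conj_apply, mul_assoc]
    rw [h1]
    change ∑ j, (y : Matrix (Fin t → Fin m) (Fin t → Fin m) F) (e (e.symm f)) (e j) *
      (((P⁻¹ : GL ι F) : Matrix ι ι F) *ᵥ w) j = _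
    rw [Equiv.apply_symm_apply, ← Equiv.sum_comp e.symm]
    simp only [Equiv.apply_symm_apply]
    rfl
  · refine ⟨fun _ => Pi.single ⟨0, by omega⟩ 1, fun f => ?_⟩
    change (((P⁻¹ : GL ι F) : Matrix ι ι F) *ᵥ ((P : Matrix ι ι F) *ᵥ u₀)) (e.symm f) = _
    rw [hPP]
    by_cases hf : f = c0
    · subst hf
      simp [u₀, c0]
    · have h1 : e.symm f ≠ e.symm c0 := fun h => hf (e.symm.injective h)
      obtain ⟨i, hi⟩ : ∃ i, f i ≠ c0 i := by
        by_contra hc
        push Not at hc
        exact hf (funext hc)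
      have h2 : ∏ i, (Pi.single (⟨0, by omega⟩ : Fin m) (1 : F) : Fin m → F) (f i) = 0 :=
        Finset.prod_eq_zero (Finset.mem_univ i) (by simp [Pi.single_apply]; exact hi)
      rw [h2]
      simp [u₀, h1]
  · intro h
    exact hu₀ (hinj (by simpa using h))
  · rintro ⟨xs, hxs⟩
    simp only [hPP] at hxs
    let mix : Fin t → Fin m := Function.update c0 i₀ ⟨1, by omega⟩
    have hmix0 : mix ≠ c0 := by
      intro h
      have := congrFun h i₀
      simp [mix, c0, Fin.ext_iff] at this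
    have hmix1 : mix ≠ c1 := by
      intro h
      have := congrFun h i₁
      simp [mix, c0, c1, Fin.ext_iff] at this
    have v0 : u₁ (e.symm c0) = 1 := by simp [u₁, hne]
    have v1 : u₁ (e.symm c1) = 1 := by simp [u₁, hne.symm]
    have vm : u₁ (e.symm mix) = 0 := by
      have h1 : e.symm mix ≠ e.symm c0 := fun h => hmix0 (e.symm.injective h)
      have h2 : e.symm mix ≠ e.symm c1 := fun h => hmix1 (e.symm.injective h)
      simp [u₁, h1, h2]
    have h0 := hxs c0
    have h1 := hxs c1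
    have hm' := hxs mix
    rw [v0] at h0
    rw [v1] at h1
    rw [vm] at hm'
    have hn0 : ∀ i, xs i (c0 i) ≠ 0 := by
      intro i h
      rw [Finset.prod_eq_zero (Finset.mem_univ i) h] at h0
      exact one_ne_zero h0
    have hn1 : ∀ i, xs i (c1 i) ≠ 0 := by
      intro i h
      rw [Finset.prod_eq_zero (Finset.mem_univ i) h] at h1
      exact one_ne_zero h1
    have hnm : ∀ i, xs i (mix i) ≠ 0 := by
      intro i
      by_cases hi : i = i₀
      · subst hi
        simpa [mix, c1] using hn1 i₀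
      · simpa [mix, Function.update_of_ne hi] using hn0 i
    exact (Finset.prod_ne_zero_iff.mpr fun i _ => hnm i) hm'.symm
  · intro h
    exact hu₁ (hinj (by simpa using h))

/-- **Subfields**. -/
theorem not_le_subfieldSubgroup (hn : 2 ≤ Fintype.card ι) {F₀ : Subfield F} (hF₀ : F₀ ≠ ⊤) (P : GL ι F) :
    ¬ specialLinear ι F ≤ subfieldSubgroup F₀ P := by
  classical
  obtain ⟨α, hα⟩ : ∃ α : F, α ∉ F₀ := by
    by_contra hc
    push Not at hc
    exact hF₀ (eq_top_iff.mpr fun x _ => hc x)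
  obtain ⟨i, j, hij⟩ : ∃ i j : ι, i ≠ j := by
    have : Nontrivial ι := Fintype.one_lt_card_iff_nontrivial.1 (by omega)
    exact exists_pair_ne ι
  let S : Set (ι → F) := {w | ∃ (c : F) (v : ι → F), (∀ k, v k ∈ F₀) ∧ ((P⁻¹ : GL ι F) : Matrix ι ι F) *ᵥ w = c • v}
  have hPP : ∀ w, ((P⁻¹ : GL ι F) : Matrix ι ι F) *ᵥ ((P : Matrix ι ι F) *ᵥ w) = w := inv_mulVec_mulVec P
  have hinj : Function.Injective (fun x : ι → F => (P : Matrix ι ι F) *ᵥ x) := mulVec_injective P
  let u₀ : ι → F := Pi.single i 1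
  let u₁ : ι → F := Pi.single i 1 + α • Pi.single j 1
  have hu₀ : u₀ ≠ 0 := by
    intro h
    have := congrFun h i
    simp [u₀] at this
  have hu₁ : u₁ ≠ 0 := by
    intro h
    have := congrFun h i
    simp [u₁, hij] at this
  refine not_le_of_set hn S ?_ (w₀ := (P : Matrix ι ι F) *ᵥ u₀) (w₁ := (P : Matrix ι ι F) *ᵥ u₁) ?_ ?_ ?_ ?_
  · rintro g ⟨y, hy, rfl⟩ w ⟨c, v, hv, hw⟩
    obtain ⟨g₀, ⟨h₀, rfl⟩, z, hz, rfl⟩ := Subgroup.mem_sup_of_normal_right.mp hy
    obtain ⟨d, hd⟩ := (mem_scalars_iff' z).mp hz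
    refine ⟨d * c, (Matrix.GeneralLinearGroup.map (F₀.subtype : F₀ →+* F) h₀ : GL ι F).val *ᵥ v, fun k => ?_, ?_⟩
    · change ∑ l, (Matrix.GeneralLinearGroup.map (F₀.subtype : F₀ →+* F) h₀ : GL ι F).val k l * v l ∈ F₀
      refine sum_mem fun l _ => mul_mem ?_ (hv l)
      change ((h₀ : Matrix ι ι F₀) k l : F) ∈ F₀
      exact Subtype.coe_prop _
    · have h1 : ((P⁻¹ : GL ι F) : Matrix ι ι F) *ᵥ
          ((MulAut.conj P).toMonoidHom (Matrix.GeneralLinearGroup.map (F₀.subtype : F₀ →+* F) h₀ * z) : GL ι F).val *ᵥ w =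
          ((Matrix.GeneralLinearGroup.map (F₀.subtype : F₀ →+* F) h₀ * z : GL ι F) : Matrix ι ι F) *ᵥ
            (((P⁻¹ : GL ι F) : Matrix ι ι F) *ᵥ w) := by
        rw [Matrix.mulVec_mulVec, Matrix.mulVec_mulVec]
        congr 1
        rw [← Units.val_mul, ← Units.val_mul]
        congr 1
        simp [MulAut.conj_apply, mul_assoc]
      rw [h1, hw, Units.val_mul, hd]
      rw [Matrix.mulVec_smul, Matrix.mul_smul, mul_one, Matrix.smul_mulVec, smul_smul, mul_comm c d]
  · exact ⟨1, Pi.single i 1, fun k => by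
      by_cases hk : k = i
      · subst hk
        simp
      · simp [hk], by rw [hPP, one_smul]⟩
  · intro h
    exact hu₀ (hinj (by simpa using h))
  · rintro ⟨c, v, hv, hw⟩
    rw [hPP] at hw
    have h1 := congrFun hw i
    have h2 := congrFun hw j
    simp [u₁, hij, hij.symm] at h1 h2
    have hvi : v i ≠ 0 := by
      intro h
      rw [h, mul_zero] at h1
      exact one_ne_zero h1
    have hc : c ≠ 0 := by
      rintro rfl
      rw [zero_mul] at h1
      exact one_ne_zero h1
    apply hα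
    have h3 : α = v j / v i := by
      field_simp
      rw [h2]
      have : c * v i * v j = v j * (c * v i) := by ring
      rw [← h1] at this
      linear_combination (-(v j)) * h1
    rw [h3]
    exact F₀.div_mem (hv j) (hv i)
  · intro h
    exact hu₁ (hinj (by simpa using h))

theorem range_toGL : (Matrix.SpecialLinearGroup.toGL (n := ι) (R := F)).range = specialLinear ι F := by
  ext g
  constructor
  · rintro ⟨s, rfl⟩
    exact toGL_mem s
  · intro hg
    have hdet := (Cfsg.Agent.Lib.Classical.Geo.Basic.mem_specialLinear_iff g).mp hg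
    exact ⟨⟨g, hdet⟩, Units.ext rfl⟩

theorem commutator_specialLinear (hn : 3 ≤ Fintype.card ι) :
    ⁅specialLinear ι F, specialLinear ι F⁆ = specialLinear ι F := by
  have h := Cfsg.Agent.Lib.Classical.Lin.Transvections.commutator_eq_top (ι := ι) (F := F) hn
  rw [commutator_def] at h
  have h1 := congrArg (Subgroup.map (Matrix.SpecialLinearGroup.toGL (n := ι) (R := F))) h
  rw [Subgroup.map_commutator, ← MonoidHom.range_eq_map, range_toGL] at h1
  exact h1

theorem specialLinear_normal : (specialLinear ι F).Normal := by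
  unfold specialLinear
  exact MonoidHom.normal_ker _

/-- Commuting with the special linear group means being scalar. -/
theorem centScalar_specialLinear : CentScalar (specialLinear ι F) := by
  intro x hx
  have h1 : x ∈ Set.range (Matrix.scalar ι : F →+* Matrix ι ι F) := by
    refine Matrix.mem_range_scalar_of_commute_single fun i j hij => ?_
    have h2 := (mem_cent.mp hx) (tvn hij 1) (tvn_mem hij 1)
    rw [coe_tvn, add_mul, mul_add, one_mul, mul_one] at h2
    exact add_left_cancel h2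
  obtain ⟨c, rfl⟩ := h1
  exact ⟨c, by simp [Matrix.smul_one_eq_diagonal]⟩

theorem specialLinear_not_le_scalars (hn : 2 ≤ Fintype.card ι) : ¬ specialLinear ι F ≤ scalars ι F := by
  intro h
  obtain ⟨i, j, hij⟩ : ∃ i j : ι, i ≠ j := by
    have : Nontrivial ι := Fintype.one_lt_card_iff_nontrivial.1 (by omega)
    exact exists_pair_ne ι
  obtain ⟨c, hc⟩ := (mem_scalars_iff' _).mp (h (tvn_mem hij (1 : F)))
  rw [coe_tvn] at hc
  have := congrFun (congrFun hc i) j
  simp [Matrix.one_apply_ne hij] at this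

/-- **Normal subgroups of the special linear group**. -/
theorem normal_le_scalars_or_top (hn : 3 ≤ Fintype.card ι) {N : Subgroup (GL ι F)} (hN : N ≤ specialLinear ι F)
    (hnorm : Cfsg.Agent.Lib.Classical.Asch.Basic.Normalizes (specialLinear ι F) N) :
    N ≤ scalars ι F ∨ specialLinear ι F ≤ N ⊔ scalars ι F := by
  haveI := Cfsg.Agent.Lib.Classical.Lin.Transvections.psl_isSimpleGroup (ι := ι) (F := F) hn
  let φ := Matrix.SpecialLinearGroup.toGL (n := ι) (R := F)
  let N' : Subgroup (Matrix.SpecialLinearGroup ι F) := N.comap φ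
  have hN' : N'.Normal := by
    refine ⟨fun n hn s => ?_⟩
    change φ (s * n * s⁻¹) ∈ N
    rw [map_mul, map_mul, map_inv]
    exact hnorm (φ s) (toGL_mem s) (φ n) hn
  let π := QuotientGroup.mk' (Subgroup.center (Matrix.SpecialLinearGroup ι F))
  have hπ : Function.Surjective π := QuotientGroup.mk'_surjective _
  have hM : (N'.map π).Normal := Subgroup.Normal.map hN' π hπ
  have hcen : ∀ s : Matrix.SpecialLinearGroup ι F, s ∈ Subgroup.center (Matrix.SpecialLinearGroup ι F) →
      φ s ∈ scalars ι F := by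
    intro s hs
    obtain ⟨r, _, hr⟩ := Matrix.SpecialLinearGroup.mem_center_iff.mp hs
    refine (mem_scalars_iff' _).mpr ⟨r, ?_⟩
    change (s : Matrix ι ι F) = _
    rw [← hr]
    simp [Matrix.smul_one_eq_diagonal]
  rcases IsSimpleGroup.eq_bot_or_eq_top_of_normal _ hM with h | h
  · left
    intro x hx
    have hxdet := (Cfsg.Agent.Lib.Classical.Geo.Basic.mem_specialLinear_iff x).mp (hN hx)
    let s : Matrix.SpecialLinearGroup ι F := ⟨x, hxdet⟩
    have hs : s ∈ N' := by
      change φ s ∈ N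
      have : φ s = x := Units.ext rfl
      rwa [this]
    have h1 : π s ∈ N'.map π := ⟨s, hs, rfl⟩
    rw [h, Subgroup.mem_bot] at h1
    have h2 : s ∈ Subgroup.center (Matrix.SpecialLinearGroup ι F) := by
      rwa [← MonoidHom.mem_ker, QuotientGroup.ker_mk'] at h1
    have h3 := hcen s h2
    have : φ s = x := Units.ext rfl
    rwa [this] at h3
  · right
    intro x hx
    have hxdet := (Cfsg.Agent.Lib.Classical.Geo.Basic.mem_specialLinear_iff x).mp hx
    let s : Matrix.SpecialLinearGroup ι F := ⟨x, hxdet⟩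
    have hsx : φ s = x := Units.ext rfl
    have h1 : π s ∈ N'.map π := by
      rw [h]
      exact Subgroup.mem_top _
    obtain ⟨n, hn', hns⟩ := h1
    have h2 : n⁻¹ * s ∈ Subgroup.center (Matrix.SpecialLinearGroup ι F) := by
      have h3 : π (n⁻¹ * s) = 1 := by
        rw [map_mul, map_inv, hns, inv_mul_cancel]
      rwa [← MonoidHom.mem_ker, QuotientGroup.ker_mk'] at h3
    have h4 := hcen _ h2
    have h5 : x = φ n * φ (n⁻¹ * s) := by
      rw [← map_mul, mul_inv_cancel_left, hsx]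
    rw [h5]
    exact mul_mem (Subgroup.mem_sup_left hn') (Subgroup.mem_sup_right h4)

/-- **Class 6**: the special linear group does not normalise a non-scalar group which is abelian modulo scalars. -/
theorem not_le_subgroupNormalizer (hn : 3 ≤ Fintype.card ι) {R : Subgroup (GL ι F)} (hRZ : ¬ R ≤ scalars ι F)
    (hcomm : ∀ x ∈ R, ∀ y ∈ R, x * y * x⁻¹ * y⁻¹ ∈ scalars ι F) : ¬ specialLinear ι F ≤ subgroupNormalizer R := by
  intro hle
  have hconj : ∀ g ∈ specialLinear ι F, ∀ x ∈ R, g * x * g⁻¹ ∈ R := fun g hg x hx =>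
    (Subgroup.mem_normalizer_iff.mp (hle hg) x).mp hx
  let N : Subgroup (GL ι F) := R ⊓ specialLinear ι F
  have hNS : N ≤ specialLinear ι F := inf_le_right
  have hnorm : Cfsg.Agent.Lib.Classical.Asch.Basic.Normalizes (specialLinear ι F) N := by
    intro g hg x hx
    exact Subgroup.mem_inf.mpr ⟨hconj g hg x hx.1, (specialLinear ι F).mul_mem ((specialLinear ι F).mul_mem hg hx.2) ((specialLinear ι F).inv_mem hg)⟩
  rcases normal_le_scalars_or_top hn hNS hnorm with h | h
  · -- `⁅S, R⁆ ≤ Z`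
    have h1 : ⁅specialLinear ι F, R⁆ ≤ scalars ι F := by
      rw [Subgroup.commutator_le]
      intro g hg x hx
      apply h
      refine Subgroup.mem_inf.mpr ⟨?_, ?_⟩
      · rw [commutatorElement_def]
        exact R.mul_mem (hconj g hg x hx) (R.inv_mem hx)
      · have := specialLinear_normal.conj_mem g⁻¹ ((specialLinear ι F).inv_mem hg) x
        have h2 : ⁅g, x⁆ = g * (x * g⁻¹ * x⁻¹) := by
          rw [commutatorElement_def]
          group
        rw [h2]
        exact (specialLinear ι F).mul_mem hg this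
    have h2 := commutator_commutator_eq_bot h1
    rw [commutator_specialLinear hn] at h2
    apply hRZ
    intro x hx
    refine (mem_scalars_iff' _).mpr (centScalar_specialLinear _ (coe_mem_cent_iff.mpr fun g hg => ?_))
    exact comm_of_commutator_eq_bot h2 hg hx
  · -- `S ≤ N Z` is abelian modulo scalars
    apply specialLinear_not_le_scalars (F := F) (ι := ι) (by omega)
    rw [← commutator_specialLinear hn]
    refine (Subgroup.commutator_mono h h).trans ((commutator_sup_scalars_le N N).trans ?_)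
    rw [Subgroup.commutator_le]
    intro x hx y hy
    exact hcomm x hx.1 y hy.1

end Cfsg.Agent.Lib.Classical.Asch.NotSL
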