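import Mathlib
import Cfsg.Agent.Lib.Classical.Asch.FormSim
import Cfsg.Agent.Lib.Classical.Asch.FormQuad
import Cfsg.Agent.Lib.Classical.Asch.NotSL

/-!
# Characteristic two: a quadratic form from a tensor structure
-/

set_option autoImplicit false
set_option linter.style.haveILetI false
set_option linter.unusedSectionVars false

namespace Cfsg.Agent.Lib.Classical.Asch.FormEven

open scoped MatrixGroups Matrix Kronecker
open Cfsg.Geo Cfsg.Agent.Lib.Classical.Asch.Basic Cfsg.Agent.Lib.Classical.Asch.Forms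
open Cfsg.Agent.Lib.Classical.Asch.Adj Cfsg.Agent.Lib.Classical.Asch.FormDich
open Cfsg.Agent.Lib.Classical.Asch.FormTensor Cfsg.Agent.Lib.Classical.Asch.FormSim
open Cfsg.Agent.Lib.Classical.Asch.FormQuad
open Cfsg.Agent.Lib.Classical.Asch.PureTensor Cfsg.Agent.Lib.Classical.Asch.Gram

variable {ι : Type} [Fintype ι] [DecidableEq ι] {F : Type*} [Field F]
variable {f : (ι → F) → (ι → F) → F}

/-- The quadratic form attached to a symmetric matrix vanishing on the blocks of a partition of the index set. -/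
def quadOf {d : ℕ} (A : Matrix ι ι F) (π : ι → Fin d) (x : ι → F) : F :=
  ∑ i, ∑ j, if π i < π j then A i j * x i * x j else 0

theorem quadOf_smul {d : ℕ} (A : Matrix ι ι F) (π : ι → Fin d) (c : F) (x : ι → F) :
    quadOf A π (c • x) = c ^ 2 * quadOf A π x := by
  unfold quadOf
  rw [Finset.mul_sum]
  refine Finset.sum_congr rfl fun i _ => ?_
  rw [Finset.mul_sum]
  refine Finset.sum_congr rfl fun j _ => ?_
  split_ifs
  · simp only [Pi.smul_apply, smul_eq_mul]
    ring
  · simp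

theorem quadOf_add {d : ℕ} {A : Matrix ι ι F} {π : ι → Fin d} (hA : ∀ i j, A i j = A j i)
    (hz : ∀ i j, π i = π j → A i j = 0) (x y : ι → F) :
    quadOf A π (x + y) = quadOf A π x + quadOf A π y + bil A x y := by
  have h1 : bil A x y = ∑ i, ∑ j, ((if π i < π j then A i j * x i * y j else 0) + (if π j < π i then A i j * x i * y j else 0)) := by
    unfold bil
    simp only [dotProduct, Matrix.mulVec, Finset.mul_sum]
    refine Finset.sum_congr rfl fun i _ => Finset.sum_congr rfl fun j _ => ?_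
    rcases lt_trichotomy (π i) (π j) with h | h | h
    · rw [if_pos h, if_neg (not_lt.mpr h.le), add_zero]
      ring
    · rw [if_neg (by simp [h]), if_neg (by simp [h]), add_zero, hz i j h]
      ring
    · rw [if_neg (not_lt.mpr h.le), if_pos h, zero_add]
      ring
  have h2 : ∑ i, ∑ j, (if π j < π i then A i j * x i * y j else 0) = ∑ i, ∑ j, (if π i < π j then A i j * y i * x j else 0) := by
    rw [Finset.sum_comm]
    refine Finset.sum_congr rfl fun i _ => Finset.sum_congr rfl fun j _ => ?_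
    split_ifs
    · rw [hA]
      ring
    · rfl
  rw [h1]
  simp only [Finset.sum_add_distrib]
  rw [h2]
  unfold quadOf
  simp only [← Finset.sum_add_distrib]
  refine Finset.sum_congr rfl fun i _ => Finset.sum_congr rfl fun j _ => ?_
  split_ifs
  · simp only [Pi.add_apply]
    ring
  · simp

/-- A quadratic form from coordinates in which the form is a partitioned symmetric matrix. -/
theorem exists_quad_of_frame [Fintype F] (h2 : (2 : F) = 0) (hf : IsSymplecticForm f) {G : Subgroup (GL ι F)}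
    (hGs : G ≤ similarityGroup f) {P : GL ι F} {d : ℕ} {A : Matrix ι ι F} {π : ι → Fin d} {c : F}
    (hA : ∀ i j, A i j = A j i) (hz : ∀ i j, π i = π j → A i j = 0)
    (heq : ∀ u v, f ((P : Matrix ι ι F) *ᵥ u) ((P : Matrix ι ι F) *ᵥ v) = c * bil A u v)
    (S₀ : Set (ι → F)) (hspan : Submodule.span F S₀ = ⊤)
    (hinv : ∀ g ∈ G, ∀ v ∈ S₀, ((P⁻¹ * g * P : GL ι F) : Matrix ι ι F) *ᵥ v ∈ S₀)
    (hvan : ∀ v ∈ S₀, quadOf A π v = 0) :
    ∃ Q : (ι → F) → F, IsNondegenerateQuadraticForm Q ∧ (∀ u v, QuadraticMap.polar Q u v = f u v) ∧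
      G ≤ quadSimilarityGroup Q := by
  classical
  let Q : (ι → F) → F := fun w => c * quadOf A π (((P⁻¹ : GL ι F) : Matrix ι ι F) *ᵥ w)
  have hs : ∀ (a : F) v, Q (a • v) = a ^ 2 * Q v := by
    intro a v
    simp only [Q, Matrix.mulVec_smul, quadOf_smul]
    ring
  have hp : ∀ u v, Q (u + v) = Q u + Q v + f u v := by
    intro u v
    have h1 : f u v = c * bil A (((P⁻¹ : GL ι F) : Matrix ι ι F) *ᵥ u) (((P⁻¹ : GL ι F) : Matrix ι ι F) *ᵥ v) := by
      rw [← heq, mulVec_inv_mulVec, mulVec_inv_mulVec]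
    simp only [Q]
    rw [Matrix.mulVec_add, quadOf_add hA hz, h1]
    ring
  obtain ⟨hQ, hpol⟩ := isNondegenerateQuadraticForm_of hf.bilinear hf.nondegenerate hs hp
  refine ⟨Q, hQ, hpol, le_quadSim_of_vanish h2 hs hp hGs ((fun v => (P : Matrix ι ι F) *ᵥ v) '' S₀) ?_ ?_ ?_⟩
  · have h1 : ((fun v => (P : Matrix ι ι F) *ᵥ v) '' S₀) = (Matrix.toLin' (P : Matrix ι ι F)) '' S₀ := rfl
    rw [h1, Submodule.span_image, hspan, Submodule.map_top, LinearMap.range_eq_top]
    intro w
    exact ⟨((P⁻¹ : GL ι F) : Matrix ι ι F) *ᵥ w, by rw [Matrix.toLin'_apply, mulVec_inv_mulVec]⟩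
  · rintro g hg _ ⟨v, hv, rfl⟩
    refine ⟨_, hinv g hg v hv, ?_⟩
    simp only
    rw [Matrix.mulVec_mulVec, Matrix.mulVec_mulVec, ← Units.val_mul, ← Units.val_mul]
    congr 2
    group
  · rintro _ ⟨v, hv, rfl⟩
    simp only [Q]
    rw [inv_mulVec_mulVec, hvan v hv, mul_zero]

/-- An alternating matrix in characteristic two. -/
theorem bil_self_of_two (h2 : (2 : F) = 0) {κ : Type} [Fintype κ] [DecidableEq κ] {A : Matrix κ κ F} (hA : Aᵀ = A)
    (hd : ∀ i, A i i = 0) (v : κ → F) : bil A v v = 0 := by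
  refine bil_self_eq_zero ?_ hd v
  rw [hA]
  ext i j
  have : A i j + A i j = 0 := by
    rw [← two_mul, h2, zero_mul]
  simpa [eq_neg_iff_add_eq_zero] using this

/-- The action of a Kronecker product on a product vector. -/
theorem kron_mulVec_prod {d k : ℕ} (e : ι ≃ Fin d × Fin k) (a : Matrix (Fin d) (Fin d) F) (b : Matrix (Fin k) (Fin k) F)
    (u : Fin d → F) (v : Fin k → F) (X : Matrix ι ι F) (hX : ∀ i j, X i j = a (e i).1 (e j).1 * b (e i).2 (e j).2) :
    X *ᵥ (fun i => u (e i).1 * v (e i).2) = fun i => (a *ᵥ u) (e i).1 * (b *ᵥ v) (e i).2 := by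
  funext i
  simp only [Matrix.mulVec, dotProduct, hX]
  rw [← Equiv.sum_comp e.symm, Fintype.sum_prod_type, Finset.sum_mul_sum]
  refine Finset.sum_congr rfl fun α _ => Finset.sum_congr rfl fun β _ => ?_
  simp only [Equiv.apply_symm_apply]
  ring

/-- The span of product vectors. -/
theorem span_prod_vectors {d k : ℕ} (e : ι ≃ Fin d × Fin k) :
    Submodule.span F {w : ι → F | ∃ (u : Fin d → F) (v : Fin k → F), w = fun i => u (e i).1 * v (e i).2} = ⊤ := by
  classical
  rw [eq_top_iff]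
  intro w _
  rw [sum_single_eq w]
  refine Submodule.sum_mem _ fun i _ => Submodule.smul_mem _ _ (Submodule.subset_span ?_)
  refine ⟨Pi.single (e i).1 1, Pi.single (e i).2 1, ?_⟩
  funext j
  by_cases h : j = i
  · subst h
    simp
  · rw [Pi.single_eq_of_ne h]
    have h1 : e j ≠ e i := fun h' => h (e.injective h')
    by_cases h2 : (e j).1 = (e i).1
    · have h3 : (e j).2 ≠ (e i).2 := fun h' => h1 (Prod.ext h2 h')
      rw [Pi.single_eq_of_ne h3, mul_zero]
    · rw [Pi.single_eq_of_ne h2, zero_mul]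

/-- The quadratic form on a tensor product of two alternating forms. -/
theorem TensorData.exists_quad [Fintype F] [Nonempty ι] (h2 : (2 : F) = 0) (hf : IsSymplecticForm f) {ε : F} {G : Subgroup (GL ι F)}
    {d k : ℕ} {e : ι ≃ Fin d × Fin k} {P : GL ι F} {J₁ : GL (Fin d) F} {J₂ : GL (Fin k) F} {ε₁ ε₂ c : F}
    (T : TensorData (RingEquiv.refl F) ε f G d k e P J₁ J₂ ε₁ ε₂ c) (hGs : G ≤ similarityGroup f)
    (hS₁ : (J₁ : Matrix (Fin d) (Fin d) F)ᵀ = J₁) (hS₂ : (J₂ : Matrix (Fin k) (Fin k) F)ᵀ = J₂)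
    (hd₁ : ∀ α, (J₁ : Matrix (Fin d) (Fin d) F) α α = 0) (hd₂ : ∀ β, (J₂ : Matrix (Fin k) (Fin k) F) β β = 0) :
    ∃ Q : (ι → F) → F, IsNondegenerateQuadraticForm Q ∧ (∀ u v, QuadraticMap.polar Q u v = f u v) ∧
      G ≤ quadSimilarityGroup Q := by
  classical
  set A : Matrix ι ι F := ((J₁ : Matrix (Fin d) (Fin d) F) ⊗ₖ (J₂ : Matrix (Fin k) (Fin k) F)).submatrix e e with hAdef
  have hAij : ∀ i j, A i j = (J₁ : Matrix (Fin d) (Fin d) F) (e i).1 (e j).1 * (J₂ : Matrix (Fin k) (Fin k) F) (e i).2 (e j).2 := fun i j => rfl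
  have hs₁ : ∀ α γ, (J₁ : Matrix (Fin d) (Fin d) F) α γ = (J₁ : Matrix (Fin d) (Fin d) F) γ α := fun α γ => by
    conv_lhs => rw [← hS₁]
    rfl
  have hs₂ : ∀ α γ, (J₂ : Matrix (Fin k) (Fin k) F) α γ = (J₂ : Matrix (Fin k) (Fin k) F) γ α := fun α γ => by
    conv_lhs => rw [← hS₂]
    rfl
  refine exists_quad_of_frame h2 hf hGs (π := fun i => (e i).1) (A := A) (hA := ?_) (hz := ?_) (heq := T.eq)
    {w : ι → F | ∃ (u : Fin d → F) (v : Fin k → F), w = fun i => u (e i).1 * v (e i).2} (span_prod_vectors e) ?_ ?_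
  · intro i j
    rw [hAij, hAij, hs₁, hs₂]
  · intro i j h
    have h' : (e i).1 = (e j).1 := h
    rw [hAij, h', hd₁, zero_mul]
  · rintro g hg _ ⟨u, v, rfl⟩
    obtain ⟨a, b, hab⟩ := Main.mem_tensorProductSubgroup_iff.mp (T.le hg)
    exact ⟨_, _, kron_mulVec_prod e _ _ u v _ hab⟩
  · rintro _ ⟨u, v, rfl⟩
    unfold quadOf
    rw [← Equiv.sum_comp e.symm, Fintype.sum_prod_type]
    have hv : bil (J₂ : Matrix (Fin k) (Fin k) F) v v = 0 := bil_self_of_two h2 hS₂ hd₂ v
    have hv' : ∑ β, ∑ δ, (J₂ : Matrix (Fin k) (Fin k) F) β δ * v β * v δ = 0 := by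
      rw [← hv]
      unfold bil
      simp only [dotProduct, Matrix.mulVec, Finset.mul_sum]
      refine Finset.sum_congr rfl fun β _ => Finset.sum_congr rfl fun δ _ => ?_
      ring
    have key : ∀ α β, ∑ j, (if (e (e.symm (α, β))).1 < (e j).1 then A (e.symm (α, β)) j * (u (e (e.symm (α, β))).1 * v (e (e.symm (α, β))).2) *
        (u (e j).1 * v (e j).2) else 0) = ∑ γ, ∑ δ, (if α < γ then (J₁ : Matrix (Fin d) (Fin d) F) α γ * u α * u γ else 0) *
          ((J₂ : Matrix (Fin k) (Fin k) F) β δ * v β * v δ) := by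
      intro α β
      rw [← Equiv.sum_comp e.symm, Fintype.sum_prod_type]
      refine Finset.sum_congr rfl fun γ _ => Finset.sum_congr rfl fun δ _ => ?_
      simp only [hAij, Equiv.apply_symm_apply]
      split_ifs
      · ring
      · simp
    simp only [key]
    have h3 : ∀ α, ∑ β, ∑ γ, ∑ δ, (if α < γ then (J₁ : Matrix (Fin d) (Fin d) F) α γ * u α * u γ else 0) *
        ((J₂ : Matrix (Fin k) (Fin k) F) β δ * v β * v δ) = 0 := by
      intro α
      rw [Finset.sum_comm]
      refine Finset.sum_eq_zero fun γ _ => ?_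
      simp only [← Finset.mul_sum]
      rw [hv', mul_zero]
    exact Finset.sum_eq_zero fun α _ => h3 α

/-- A non-alternating symmetric factor in characteristic two gives an invariant subspace. -/
theorem TensorData.not_irr [Fintype F] [Nonempty ι] (h2 : (2 : F) = 0) {ε : F} {G : Subgroup (GL ι F)}
    {d k : ℕ} {e : ι ≃ Fin d × Fin k} {P : GL ι F} {J₁ : GL (Fin d) F} {J₂ : GL (Fin k) F} {ε₁ ε₂ c : F}
    (T : TensorData (RingEquiv.refl F) ε f G d k e P J₁ J₂ ε₁ ε₂ c) (hGs : G ≤ similarityGroup f)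
    (hS₁ : (J₁ : Matrix (Fin d) (Fin d) F)ᵀ = J₁)
    {α₀ : Fin d} (hα₀ : (J₁ : Matrix (Fin d) (Fin d) F) α₀ α₀ ≠ 0)
    (hG : ∀ W : Submodule F (ι → F), Inv G W → W = ⊥ ∨ W = ⊤) : False := by
  classical
  have hd := T.hd
  have hk := T.hk
  let β₀ : Fin k := ⟨0, by omega⟩
  set R : (Fin d → F) → F := fun u => bil (J₁ : Matrix (Fin d) (Fin d) F) u u with hR
  have hRadd : ∀ u v, R (u + v) = R u + R v := by
    intro u v
    simp only [hR]
    have hb := bil_isBilinear (J₁ : Matrix (Fin d) (Fin d) F)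
    rw [hb.add_left, hb.add_right, hb.add_right]
    have h1 : bil (J₁ : Matrix (Fin d) (Fin d) F) v u = bil (J₁ : Matrix (Fin d) (Fin d) F) u v := by
      rw [bil_swap, hS₁]
    rw [h1]
    have h3 : bil (J₁ : Matrix (Fin d) (Fin d) F) u v + bil (J₁ : Matrix (Fin d) (Fin d) F) u v = 0 := by
      rw [← two_mul, h2, zero_mul]
    linear_combination h3
  have hRsm : ∀ (a : F) u, R (a • u) = a ^ 2 * R u := by
    intro a u
    simp only [hR]
    have hb := bil_isBilinear (J₁ : Matrix (Fin d) (Fin d) F)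
    rw [hb.smul_left, hb.smul_right]
    ring
  have hR0 : R 0 = 0 := by
    have := hRsm 0 0
    simpa using this
  have hRsum : ∀ {κ : Type} (s : Finset κ) (w : κ → Fin d → F), R (∑ i ∈ s, w i) = ∑ i ∈ s, R (w i) := by
    intro κ s w
    induction s using Finset.induction_on with
    | empty => simpa using hR0
    | insert a s ha ih => rw [Finset.sum_insert ha, Finset.sum_insert ha, hRadd, ih]
  let col : (ι → F) → Fin k → Fin d → F := fun w β α => (((P⁻¹ : GL ι F) : Matrix ι ι F) *ᵥ w) (e.symm (α, β))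
  have hcadd : ∀ u v β, col (u + v) β = col u β + col v β := by
    intro u v β
    funext α
    simp [col, Matrix.mulVec_add]
  have hcsm : ∀ (a : F) u β, col (a • u) β = a • col u β := by
    intro a u β
    funext α
    simp [col, Matrix.mulVec_smul]
  let W : Submodule F (ι → F) :=
    { carrier := {w | ∀ β, R (col w β) = 0}
      add_mem' := fun {u v} hu hv β => by
        rw [hcadd, hRadd, hu β, hv β, add_zero]
      zero_mem' := fun β => by
        have : col 0 β = 0 := by
          funext α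
          simp [col]
        rw [this, hR0]
      smul_mem' := fun a u hu β => by
        rw [hcsm, hRsm, hu β, mul_zero] }
  have hW : ∀ w, w ∈ W ↔ ∀ β, R (col w β) = 0 := fun w => Iff.rfl
  -- the vector with prescribed coordinates
  let vec : (Fin d → F) → Fin k → ι → F := fun u β' =>
    (P : Matrix ι ι F) *ᵥ (fun i => u (e i).1 * (Pi.single β' 1 : Fin k → F) (e i).2)
  have hcvec : ∀ u β' β, col (vec u β') β = (Pi.single β' 1 : Fin k → F) β • u := by
    intro u β' β
    funext α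
    simp only [col, vec, inv_mulVec_mulVec, Equiv.apply_symm_apply, Pi.smul_apply, smul_eq_mul]
    ring
  have hne0 : W ≠ ⊥ := by
    obtain ⟨ℓ, hℓ⟩ := exists_functional h2 R hRadd hRsm
    obtain ⟨u, hu⟩ : ∃ u, u ≠ 0 ∧ ℓ u = 0 := by
      have h3 : LinearMap.ker ℓ ≠ ⊥ := by
        intro h
        have h4 := LinearMap.finrank_range_add_finrank_ker ℓ
        rw [h, finrank_bot, add_zero, Module.finrank_fintype_fun_eq_card, Fintype.card_fin] at h4
        have h5 := Submodule.finrank_le (LinearMap.range ℓ)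
        rw [Module.finrank_self] at h5
        omega
      obtain ⟨u, hu, hu0⟩ := (Submodule.ne_bot_iff _).mp h3
      exact ⟨u, ⟨hu0, hu⟩⟩
    intro h
    have h3 : vec u β₀ ∈ W := by
      rw [hW]
      intro β
      rw [hcvec, hRsm, (hℓ u).mp hu.2, mul_zero]
    rw [h, Submodule.mem_bot] at h3
    have h4 := hcvec u β₀ β₀
    rw [h3] at h4
    simp only [Pi.single_eq_same, one_smul] at h4
    apply hu.1
    rw [← h4]
    funext α
    simp [col]
  have hneT : W ≠ ⊤ := by
    intro h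
    have h3 : vec (Pi.single α₀ 1) β₀ ∈ W := by
      rw [h]
      trivial
    have h4 := (hW _).mp h3 β₀
    rw [hcvec, hRsm] at h4
    simp only [Pi.single_eq_same, one_pow, one_mul] at h4
    apply hα₀
    rw [← h4]
    simp [hR, bil, Matrix.mulVec, dotProduct, Pi.single_apply]
  have hinv : Inv G W := by
    intro g hg w hw
    obtain ⟨a, b, μ₁, μ₂, hμ₁, hμ₂, hab, ha, -⟩ := TensorData.sim_factors T hGs hg
    have ha' : (a : Matrix (Fin d) (Fin d) F)ᵀ * (J₁ : Matrix (Fin d) (Fin d) F) * (a : Matrix (Fin d) (Fin d) F) =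
        μ₁ • (J₁ : Matrix (Fin d) (Fin d) F) := by
      simpa using ha
    have hRa : ∀ u, R ((a : Matrix (Fin d) (Fin d) F) *ᵥ u) = μ₁ * R u := by
      intro u
      simp only [hR]
      rw [bil_mulVec, ha']
      simp [bil, Matrix.smul_mulVec]
    rw [hW]
    intro β
    -- the column of the image
    have hcol : col ((g : Matrix ι ι F) *ᵥ w) β = ∑ δ, (b : Matrix (Fin k) (Fin k) F) β δ • ((a : Matrix (Fin d) (Fin d) F) *ᵥ col w δ) := by
      funext α
      have h1 : ((P⁻¹ : GL ι F) : Matrix ι ι F) *ᵥ ((g : Matrix ι ι F) *ᵥ w) =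
          ((P⁻¹ * g * P : GL ι F) : Matrix ι ι F) *ᵥ (((P⁻¹ : GL ι F) : Matrix ι ι F) *ᵥ w) := by
        rw [Matrix.mulVec_mulVec, Matrix.mulVec_mulVec, ← Units.val_mul, ← Units.val_mul]
        congr 2
        group
      simp only [col]
      rw [h1, Finset.sum_apply]
      simp only [Matrix.mulVec, dotProduct, hab, Pi.smul_apply, smul_eq_mul, Equiv.apply_symm_apply]
      rw [← Equiv.sum_comp e.symm, Fintype.sum_prod_type, Finset.sum_comm]
      refine Finset.sum_congr rfl fun δ _ => ?_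
      rw [Finset.mul_sum]
      refine Finset.sum_congr rfl fun γ _ => ?_
      simp only [Equiv.apply_symm_apply]
      ring
    rw [hcol, hRsum]
    refine Finset.sum_eq_zero fun δ _ => ?_
    rw [hRsm, hRa, (hW w).mp hw δ]
    ring
  rcases hG W hinv with h | h
  · exact hne0 h
  · exact hneT h

/-- In characteristic two, a tensor decomposition of an alternating form with irreducible group gives a quadratic form. -/
theorem TensorData.even_outcome [Fintype F] [Nonempty ι] (h2 : (2 : F) = 0) (hf : IsSymplecticForm f) {ε : F} {G : Subgroup (GL ι F)}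
    {d k : ℕ} {e : ι ≃ Fin d × Fin k} {P : GL ι F} {J₁ : GL (Fin d) F} {J₂ : GL (Fin k) F} {ε₁ ε₂ c : F}
    (T : TensorData (RingEquiv.refl F) ε f G d k e P J₁ J₂ ε₁ ε₂ c) (hGs : G ≤ similarityGroup f)
    (hS₁ : (J₁ : Matrix (Fin d) (Fin d) F)ᵀ = J₁) (hS₂ : (J₂ : Matrix (Fin k) (Fin k) F)ᵀ = J₂)
    (hG : ∀ W : Submodule F (ι → F), Inv G W → W = ⊥ ∨ W = ⊤) :
    ∃ Q : (ι → F) → F, IsNondegenerateQuadraticForm Q ∧ (∀ u v, QuadraticMap.polar Q u v = f u v) ∧
      G ≤ quadSimilarityGroup Q := by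
  classical
  by_cases hd₁ : ∀ α, (J₁ : Matrix (Fin d) (Fin d) F) α α = 0
  · by_cases hd₂ : ∀ β, (J₂ : Matrix (Fin k) (Fin k) F) β β = 0
    · exact TensorData.exists_quad h2 hf T hGs hS₁ hS₂ hd₁ hd₂
    · push Not at hd₂
      obtain ⟨β₀, hβ₀⟩ := hd₂
      exact (TensorData.not_irr h2 (TensorData.swap T) hGs hS₂ hβ₀ hG).elim
  · push Not at hd₁
    obtain ⟨α₀, hα₀⟩ := hd₁
    exact (TensorData.not_irr h2 T hGs hS₁ hα₀ hG).elim

/-- A sum over pairs of functions of a product. -/
theorem sum_sum_prod {t d : ℕ} (Y : Fin t → Fin d → Fin d → F) :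
    ∑ a : Fin t → Fin d, ∑ b : Fin t → Fin d, ∏ l, Y l (a l) (b l) = ∏ l, ∑ α, ∑ γ, Y l α γ := by
  classical
  have h1 : ∀ a : Fin t → Fin d, ∑ b : Fin t → Fin d, ∏ l, Y l (a l) (b l) = ∏ l, ∑ γ, Y l (a l) γ := by
    intro a
    rw [Finset.prod_univ_sum, Fintype.piFinset_univ]
  simp only [h1]
  rw [Finset.prod_univ_sum (fun _ => Finset.univ) (fun l α => ∑ γ, Y l α γ), Fintype.piFinset_univ]

/-- The quadratic form on a tensor power of an alternating form. -/
theorem WreathForm.exists_quad [Fintype F] [Nonempty ι] (h2 : (2 : F) = 0) (hf : IsSymplecticForm f) {ε : F} {G : Subgroup (GL ι F)}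
    {d t : ℕ} {e : ι ≃ (Fin t → Fin d)} {P : GL ι F} {J₀ : GL (Fin d) F} {ε₀ c : F}
    (T : WreathForm (RingEquiv.refl F) ε f G d t e P J₀ ε₀ c) (hGs : G ≤ similarityGroup f)
    (hS : (J₀ : Matrix (Fin d) (Fin d) F)ᵀ = J₀) (hd₀ : ∀ α, (J₀ : Matrix (Fin d) (Fin d) F) α α = 0) :
    ∃ Q : (ι → F) → F, IsNondegenerateQuadraticForm Q ∧ (∀ u v, QuadraticMap.polar Q u v = f u v) ∧
      G ≤ quadSimilarityGroup Q := by
  classical
  have ht := T.ht
  let i₀ : Fin t := ⟨0, by omega⟩
  let i₁ : Fin t := ⟨1, by omega⟩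
  have hi : i₁ ≠ i₀ := by simp [i₀, i₁, Fin.ext_iff]
  set A : Matrix ι ι F := (pureMat fun _ : Fin t => (J₀ : Matrix (Fin d) (Fin d) F)).submatrix e e with hAdef
  have hAij : ∀ i j, A i j = ∏ l, (J₀ : Matrix (Fin d) (Fin d) F) (e i l) (e j l) := fun i j => rfl
  have hs : ∀ α γ, (J₀ : Matrix (Fin d) (Fin d) F) α γ = (J₀ : Matrix (Fin d) (Fin d) F) γ α := fun α γ => by
    conv_lhs => rw [← hS]
    rfl
  refine exists_quad_of_frame h2 hf hGs (π := fun i => e i i₀) (A := A) (hA := ?_) (hz := ?_) (heq := T.eq)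
    {w : ι → F | (fun a => w (e.symm a)) ∈ NotSL.Pure0 F t d} ?_ ?_ ?_
  · intro i j
    rw [hAij, hAij]
    exact Finset.prod_congr rfl fun l _ => hs _ _
  · intro i j h
    have h' : e i i₀ = e j i₀ := h
    rw [hAij]
    refine Finset.prod_eq_zero (Finset.mem_univ i₀) ?_
    rw [h', hd₀]
  · rw [eq_top_iff]
    intro w _
    rw [sum_single_eq w]
    refine Submodule.sum_mem _ fun i _ => Submodule.smul_mem _ _ (Submodule.subset_span ?_)
    refine ⟨fun l => Pi.single (e i l) 1, fun a => ?_⟩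
    by_cases h : a = e i
    · subst h
      simp
    · have h3 : e.symm a ≠ i := fun h' => h (by rw [← h']; simp)
      beta_reduce
      rw [Pi.single_eq_of_ne h3]
      obtain ⟨l, hl⟩ := Function.ne_iff.mp h
      exact (Finset.prod_eq_zero (Finset.mem_univ l) (Pi.single_eq_of_ne hl _)).symm
  · rintro g hg w hw
    obtain ⟨_, ⟨y, hy, rfl⟩, rfl⟩ := T.le hg
    have h0 := NotSL.standard_preserves_pure hy _ hw
    change (fun a => (((P⁻¹ * (MulAut.conj P (glReindex e.symm y)) * P : GL ι F) : Matrix ι ι F) *ᵥ w) (e.symm a)) ∈ NotSL.Pure0 F t d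
    have h1 : (P⁻¹ * (MulAut.conj P (glReindex e.symm y)) * P : GL ι F) = glReindex e.symm y := by
      simp [MulAut.conj_apply]
      group
    rw [h1]
    convert h0 using 1
    funext a
    simp only [Matrix.mulVec, dotProduct]
    rw [← Equiv.sum_comp e.symm]
    refine Finset.sum_congr rfl fun b _ => ?_
    have h3 : ((glReindex e.symm y : GL ι F) : Matrix ι ι F) (e.symm a) (e.symm b) = (y : Matrix _ _ F) a b := by
      change (y : Matrix _ _ F) (e (e.symm a)) (e (e.symm b)) = _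
      simp
    rw [h3]
  · rintro w ⟨xs, hxs⟩
    have hw : ∀ i, w i = ∏ l, xs l (e i l) := by
      intro i
      have := hxs (e i)
      simpa using this
    have hb : ∑ α, ∑ γ, (J₀ : Matrix (Fin d) (Fin d) F) α γ * xs i₁ α * xs i₁ γ = 0 := by
      rw [← bil_self_of_two h2 hS hd₀ (xs i₁)]
      unfold bil
      simp only [dotProduct, Matrix.mulVec, Finset.mul_sum]
      refine Finset.sum_congr rfl fun β _ => Finset.sum_congr rfl fun δ _ => ?_
      ring
    let Y : Fin t → Fin d → Fin d → F := fun l α γ =>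
      (if l = i₀ then (if α < γ then 1 else 0) else 1) * ((J₀ : Matrix (Fin d) (Fin d) F) α γ * xs l α * xs l γ)
    have hterm : ∀ a b : Fin t → Fin d, (if a i₀ < b i₀ then (∏ l, (J₀ : Matrix (Fin d) (Fin d) F) (a l) (b l)) * (∏ l, xs l (a l)) * (∏ l, xs l (b l)) else 0) =
        ∏ l, Y l (a l) (b l) := by
      intro a b
      have h6 : ∏ l, (if l = i₀ then (if a l < b l then (1 : F) else 0) else 1) = if a i₀ < b i₀ then 1 else 0 := by
        rw [Finset.prod_ite_eq' Finset.univ i₀ (fun l => if a l < b l then (1 : F) else 0)]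
        simp
      simp only [Y]
      rw [Finset.prod_mul_distrib, h6, Finset.prod_mul_distrib, Finset.prod_mul_distrib]
      split_ifs <;> simp
    unfold quadOf
    rw [← Equiv.sum_comp e.symm]
    have h5 : ∀ a : Fin t → Fin d, ∑ j, (if e (e.symm a) i₀ < e j i₀ then A (e.symm a) j * w (e.symm a) * w j else 0) =
        ∑ b : Fin t → Fin d, ∏ l, Y l (a l) (b l) := by
      intro a
      rw [← Equiv.sum_comp e.symm]
      refine Finset.sum_congr rfl fun b _ => ?_
      rw [← hterm, hAij, hw, hw]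
      simp only [Equiv.apply_symm_apply]
    simp only [h5]
    rw [sum_sum_prod]
    refine Finset.prod_eq_zero (Finset.mem_univ i₁) ?_
    simp only [Y, if_neg hi, one_mul]
    exact hb

end Cfsg.Agent.Lib.Classical.Asch.FormEven
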