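import Mathlib
import Cfsg.Agent.Lib.Classical.Asch.Adj

/-!
# Orthogonal complements for a reflexive form, and invariant subspaces
-/

set_option autoImplicit false
set_option linter.style.haveILetI false
set_option linter.unusedSectionVars false

namespace Cfsg.Agent.Lib.Classical.Asch.FormPerp

open scoped MatrixGroups Matrix
open Cfsg.Geo Cfsg.Agent.Lib.Classical.Asch.Basic Cfsg.Agent.Lib.Classical.Asch.Forms
open Cfsg.Agent.Lib.Classical.Asch.Adj

variable {ι : Type} [Fintype ι] [DecidableEq ι] {F : Type*} [Field F]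
variable {σ : F ≃+* F} {ε : F} {f : (ι → F) → (ι → F) → F}

/-- The orthogonal complement. -/
def perpF (hf : ReflForm σ ε f) (W : Submodule F (ι → F)) : Submodule F (ι → F) where
  carrier := {x | ∀ u ∈ W, f u x = 0}
  add_mem' := fun hx hy u hu => by rw [hf.add_right, hx u hu, hy u hu, add_zero]
  zero_mem' := fun u _ => hf.zero_right u
  smul_mem' := fun c x hx u hu => by rw [hf.smul_right, hx u hu, mul_zero]

theorem mem_perpF {hf : ReflForm σ ε f} {W : Submodule F (ι → F)} {x : ι → F} :
    x ∈ perpF hf W ↔ ∀ u ∈ W, f u x = 0 := Iff.rfl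

theorem mem_perpF_left {hf : ReflForm σ ε f} {W : Submodule F (ι → F)} {x : ι → F} :
    x ∈ perpF hf W ↔ ∀ u ∈ W, f x u = 0 := by
  rw [mem_perpF]
  constructor
  · intro h u hu
    rw [hf.herm, h u hu, map_zero, mul_zero]
  · intro h u hu
    rw [hf.herm, h u hu, map_zero, mul_zero]

/-- The dimension of the orthogonal complement. -/
theorem finrank_perpF (hf : ReflForm σ ε f) (W : Submodule F (ι → F)) :
    Module.finrank F W + Module.finrank F (perpF hf W) = Fintype.card ι := by
  classical
  let b := Module.finBasis F W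
  set k := Module.finrank F W with hk
  let Φ : (ι → F) →ₗ[F] (Fin k → F) :=
    { toFun := fun x j => f x (b j)
      map_add' := fun x y => by
        funext j
        simp only [hf.add_left, Pi.add_apply]
      map_smul' := fun c x => by
        funext j
        simp only [hf.smul_left, Pi.smul_apply, smul_eq_mul, RingHom.id_apply] }
  have hΦ : ∀ x j, Φ x j = f x (b j) := fun _ _ => rfl
  have hsum : ∀ (x : ι → F) (u : W), f x (u : ι → F) = ∑ j, σ (b.repr u j) * f x (b j) := by
    intro x u
    have h1 : (u : ι → F) = ∑ j, b.repr u j • ((b j : W) : ι → F) := by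
      have := congrArg Subtype.val (b.sum_repr u)
      push_cast at this
      exact this.symm
    rw [h1, hf.isSesq.sum_right]
    refine Finset.sum_congr rfl fun j _ => ?_
    exact hf.smul_right _ x _
  have hker : LinearMap.ker Φ = perpF hf W := by
    ext x
    rw [LinearMap.mem_ker, mem_perpF_left]
    constructor
    · intro h u hu
      rw [hsum x ⟨u, hu⟩]
      refine Finset.sum_eq_zero fun j _ => ?_
      have : f x (b j) = 0 := congrFun h j
      rw [this, mul_zero]
    · intro h
      funext j
      exact h _ (b j).2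
  have hrange : LinearMap.range Φ = ⊤ := by
    by_contra hne
    obtain ⟨ℓ, hℓ0, hℓ⟩ := Submodule.exists_le_ker_of_lt_top _ (lt_top_iff_ne_top.mpr hne)
    apply hℓ0
    set c : Fin k → F := fun j => ℓ (Pi.single j 1) with hc
    have hℓc : ∀ y : Fin k → F, ℓ y = ∑ j, c j * y j := by
      intro y
      have h1 : y = ∑ j, y j • (Pi.single j 1 : Fin k → F) := sum_single_eq y
      conv_lhs => rw [h1]
      rw [map_sum]
      refine Finset.sum_congr rfl fun j _ => ?_
      rw [map_smul, smul_eq_mul, mul_comm]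
    have h2 : ∀ x, f x (∑ j, σ (c j) • ((b j : W) : ι → F)) = 0 := by
      intro x
      rw [hf.isSesq.sum_right]
      have h3 : ℓ (Φ x) = 0 := hℓ ⟨x, rfl⟩
      rw [hℓc] at h3
      rw [← h3]
      refine Finset.sum_congr rfl fun j _ => ?_
      have := hf.smul_right (σ (c j)) x ((b j : W) : ι → F)
      rw [hf.invol] at this
      exact this
    have h3 : (∑ j, σ (c j) • ((b j : W) : ι → F)) = 0 := by
      by_contra hne0
      obtain ⟨⟨x, hx⟩, -⟩ := hf.nondeg _ hne0
      exact hx (h2 x)
    have h4 : ∑ j, σ (c j) • b j = 0 := by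
      apply Subtype.ext
      simpa using h3
    have h5 := (Fintype.linearIndependent_iff.mp b.linearIndependent) _ h4
    have h6 : ∀ j, c j = 0 := by
      intro j
      have := h5 j
      rwa [map_eq_zero] at this
    ext y
    rw [LinearMap.zero_comp, LinearMap.comp_apply, hℓc]
    simp [h6]
  have h1 := LinearMap.finrank_range_add_finrank_ker Φ
  rw [hrange, hker, finrank_top, Module.finrank_fintype_fun_eq_card, Module.finrank_fintype_fun_eq_card, Fintype.card_fin] at h1
  exact h1

theorem perpF_perpF (hf : ReflForm σ ε f) (W : Submodule F (ι → F)) : perpF hf (perpF hf W) = W := by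
  symm
  apply Submodule.eq_of_le_of_finrank_eq
  · intro x hx u hu
    exact mem_perpF_left.mp hu x hx
  · have h1 := finrank_perpF hf W
    have h2 := finrank_perpF hf (perpF hf W)
    omega

/-- The orthogonal complement of an invariant subspace is invariant. -/
theorem inv_perpF (hf : ReflForm σ ε f) {G : Subgroup (GL ι F)} (hGs : G ≤ similarityGroup f)
    {W : Submodule F (ι → F)} (hW : Inv G W) : Inv G (perpF hf W) := by
  intro g hg x hx u hu
  obtain ⟨c, hc⟩ := hGs hg
  have h1 := hW g⁻¹ (inv_mem hg) u hu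
  have h2 := hc (((g⁻¹ : GL ι F) : Matrix ι ι F) *ᵥ u) x
  rw [mulVec_inv_mulVec, hx _ h1, mul_zero] at h2
  exact h2

theorem isTotallySingular_rad (hf : ReflForm σ ε f) (W : Submodule F (ι → F)) :
    IsTotallySingularFor f (W ⊓ perpF hf W) :=
  fun u hu v hv => hv.2 u hu.1

theorem inv_inf {G : Subgroup (GL ι F)} {W W' : Submodule F (ι → F)} (h : Inv G W) (h' : Inv G W') :
    Inv G (W ⊓ W') :=
  fun g hg v hv => ⟨h g hg v hv.1, h' g hg v hv.2⟩

section Nondeg

variable (hf : ReflForm σ ε f) {W : Submodule F (ι → F)} (hW : W ⊓ perpF hf W = ⊥)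
include hW

theorem isNondegenerateOn_of_rad : IsNondegenerateOn f W := by
  intro w hw hw0
  have h1 : ∃ x ∈ W, f x w ≠ 0 := by
    by_contra hcon
    push Not at hcon
    have : w ∈ W ⊓ perpF hf W := ⟨hw, hcon⟩
    rw [hW] at this
    exact hw0 this
  refine ⟨h1, ?_⟩
  obtain ⟨x, hx, hxw⟩ := h1
  refine ⟨x, hx, ?_⟩
  intro h
  apply hxw
  rw [hf.herm, h, map_zero, mul_zero]

theorem isCompl_perpF : IsCompl W (perpF hf W) := by
  refine ⟨?_, ?_⟩
  · rw [disjoint_iff]
    exact hW
  · rw [codisjoint_iff]
    apply Submodule.eq_top_of_finrank_eq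
    have h1 := Submodule.finrank_sup_add_finrank_inf_eq W (perpF hf W)
    rw [hW, finrank_bot, add_zero] at h1
    rw [h1, finrank_perpF hf W, Module.finrank_fintype_fun_eq_card]

theorem isNondegenerateOn_perpF : IsNondegenerateOn f (perpF hf W) := by
  intro w hw hw0
  obtain ⟨⟨x, hx⟩, -⟩ := hf.nondeg w hw0
  have htop := (isCompl_perpF hf hW).sup_eq_top
  have hxmem : x ∈ W ⊔ perpF hf W := by
    rw [htop]
    trivial
  obtain ⟨u, hu, u', hu', rfl⟩ := Submodule.mem_sup.mp hxmem
  rw [hf.add_left, hw u hu, zero_add] at hx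
  refine ⟨⟨u', hu', hx⟩, u', hu', ?_⟩
  intro h
  apply hx
  rw [hf.herm, h, map_zero, mul_zero]

/-- The decomposition of an invariant non-degenerate subspace of half the dimension and its orthogonal complement. -/
theorem isNondegenerateMDecomposition_pair {k : ℕ} (hk : 0 < k) (h1 : Module.finrank F W = k)
    (h2 : Module.finrank F (perpF hf W) = k) :
    IsNondegenerateMDecomposition f k ![W, perpF hf W] := by
  have hcompl := isCompl_perpF hf hW
  refine ⟨⟨le_rfl, hk, ?_, ?_, ?_⟩, ?_, ?_⟩
  · intro i
    fin_cases i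
    · exact h1
    · exact h2
  · refine (iSupIndep_pair (i := (0 : Fin 2)) (j := 1) (by decide) (by
      intro i
      fin_cases i <;> simp)).mpr ?_
    exact hcompl.disjoint
  · rw [eq_top_iff, ← hcompl.sup_eq_top]
    exact sup_le (le_iSup (fun i => ![W, perpF hf W] i) (0 : Fin 2)) (le_iSup (fun i => ![W, perpF hf W] i) (1 : Fin 2))
  · intro i
    fin_cases i
    · exact isNondegenerateOn_of_rad hf hW
    · exact isNondegenerateOn_perpF hf hW
  · intro i j hij
    fin_cases i <;> fin_cases j <;> first | exact absurd rfl hij | skip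
    · exact fun u hu v hv => hv u hu
    · exact fun u hu v hv => (mem_perpF_left (hf := hf) (W := W)).mp hu v hv

end Nondeg

theorem le_decompositionStabilizer_of_forall {t : ℕ} {G : Subgroup (GL ι F)} {D : Fin t → Submodule F (ι → F)}
    (h : ∀ i, Inv G (D i)) : G ≤ decompositionStabilizer D := by
  intro g hg
  refine ⟨1, fun i => ?_⟩
  ext v
  constructor
  · rintro ⟨w, hw, rfl⟩
    exact h i g hg w hw
  · intro hv
    refine ⟨((g⁻¹ : GL ι F) : Matrix ι ι F) *ᵥ v, h i _ (inv_mem hg) v hv, ?_⟩
    simp [mulVec_inv_mulVec]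

/-- **The outcomes of an invariant subspace** for a reflexive form. -/
theorem reducible_outcome (hf : ReflForm σ ε f) {G : Subgroup (GL ι F)} (hGs : G ≤ similarityGroup f)
    {W : Submodule F (ι → F)} (h0 : W ≠ ⊥) (h1 : W ≠ ⊤) (hW : Inv G W) :
    (∃ W' : Submodule F (ι → F), W' ≠ ⊥ ∧ IsTotallySingularFor f W' ∧ Inv G W') ∨
    (∃ W' : Submodule F (ι → F), W' ≠ ⊥ ∧ W' ≠ ⊤ ∧ IsNondegenerateOn f W' ∧ 2 * Module.finrank F W' < Fintype.card ι ∧ Inv G W') ∨
    (∃ (k : ℕ) (D : Fin 2 → Submodule F (ι → F)), 2 * k = Fintype.card ι ∧ IsNondegenerateMDecomposition f k D ∧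
      G ≤ decompositionStabilizer D) := by
  by_cases hrad : W ⊓ perpF hf W = ⊥
  · have hdim := finrank_perpF hf W
    have hW0 : 0 < Module.finrank F W := Module.finrank_pos_iff.mpr (Submodule.nontrivial_iff_ne_bot.mpr h0)
    have hWt : Module.finrank F W < Fintype.card ι := by
      have h2 := Submodule.finrank_lt h1
      rwa [Module.finrank_fintype_fun_eq_card] at h2
    have hP0 : perpF hf W ≠ ⊥ := by
      intro h
      rw [h, finrank_bot] at hdim
      omega
    have hPt : perpF hf W ≠ ⊤ := by
      intro h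
      rw [h, finrank_top, Module.finrank_fintype_fun_eq_card] at hdim
      omega
    rcases lt_trichotomy (2 * Module.finrank F W) (Fintype.card ι) with hlt | heq | hgt
    · exact Or.inr (Or.inl ⟨W, h0, h1, isNondegenerateOn_of_rad hf hrad, hlt, hW⟩)
    · refine Or.inr (Or.inr ⟨_, ![W, perpF hf W], heq,
        isNondegenerateMDecomposition_pair hf hrad hW0 rfl (by omega), ?_⟩)
      refine le_decompositionStabilizer_of_forall fun i => ?_
      fin_cases i
      · exact hW
      · exact inv_perpF hf hGs hW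
    · exact Or.inr (Or.inl ⟨perpF hf W, hP0, hPt, isNondegenerateOn_perpF hf hrad, by omega, inv_perpF hf hGs hW⟩)
  · exact Or.inl ⟨_, hrad, isTotallySingular_rad hf W, inv_inf hW (inv_perpF hf hGs hW)⟩

end Cfsg.Agent.Lib.Classical.Asch.FormPerp
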