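import Mathlib
import Cfsg.Agent.Lib.Classical.Asch.Adj
import Cfsg.Agent.Lib.Classical.Asch.Subfield
import Cfsg.Agent.Lib.Classical.Asch.SympType
import Cfsg.Agent.Lib.Classical.Asch.FormTensor
import Cfsg.Agent.Lib.Classical.Herm.GLDescent
import Cfsg.Agent.S0755

/-!
# Descent of forms to subfields; realisation from two invariant forms
-/

set_option autoImplicit false
set_option linter.style.haveILetI false
set_option linter.unusedSectionVars false

namespace Cfsg.Agent.Lib.Classical.Asch.FormDescent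

open scoped MatrixGroups Matrix
open Cfsg.Geo Cfsg.Agent.Lib.Classical.Asch.Basic Cfsg.Agent.Lib.Classical.Asch.Forms
open Cfsg.Agent.Lib.Classical.Asch.Adj Cfsg.Agent.Lib.Classical.Asch.Subfield
open Cfsg.Agent.Lib.Classical.Asch.SympType Cfsg.Agent.Lib.Classical.Asch.FormTensor
open Cfsg.Agent.Lib.Classical.Asch.MinNormal

variable {ι : Type} [Fintype ι] [DecidableEq ι] {F : Type*} [Field F]
variable {σ : F ≃+* F} {ε : F} {f : (ι → F) → (ι → F) → F}

/-- The Gram matrix in the basis given by the columns of `P`. -/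
noncomputable def gramP (f : (ι → F) → (ι → F) → F) (P : GL ι F) : Matrix ι ι F :=
  gram (fun u v => f ((P : Matrix ι ι F) *ᵥ u) ((P : Matrix ι ι F) *ᵥ v))

theorem ReflForm.isSesqP (hf : ReflForm σ ε f) (P : GL ι F) :
    IsSesq (σ : F →+* F) (fun u v => f ((P : Matrix ι ι F) *ᵥ u) ((P : Matrix ι ι F) *ᵥ v)) :=
  IsSesq.comp_mulVec hf.isSesq _

theorem eq_sesqM_gramP (hf : ReflForm σ ε f) (P : GL ι F) (u v : ι → F) :
    f ((P : Matrix ι ι F) *ᵥ u) ((P : Matrix ι ι F) *ᵥ v) = sesqM (σ : F →+* F) (gramP f P) u v :=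
  (ReflForm.isSesqP hf P).eq_sesqM u v

theorem sigma_mem_subfield [Fintype F] (F₀ : Subfield F) {s : ℕ} (hs : Fintype.card F = Nat.card F₀ ^ s) (σ : F ≃+* F)
    {x : F} (hx : x ∈ F₀) : σ x ∈ F₀ := by
  rw [mem_subfield_iff F₀ hs] at hx ⊢
  rw [← map_pow, hx]

/-- **Descent of the form**. -/
theorem exists_rational [Fintype F] [Nonempty ι] (hf : ReflForm σ ε f) {X : Subgroup (GL ι F)} (hX : CentScalar X)
    (hXf : FixesForm (matrixSet X) f) (F₀ : Subfield F) {s : ℕ} (hs : Fintype.card F = Nat.card F₀ ^ s) (B : GL ι F)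
    (hB : ∀ x ∈ X, ∀ i j, ((B : Matrix ι ι F) * (x : Matrix ι ι F) * ((B⁻¹ : GL ι F) : Matrix ι ι F)) i j ∈ F₀) :
    ∃ ζ : F, ζ ≠ 0 ∧ ∀ i j, ζ * gramP f B⁻¹ i j ∈ F₀ := by
  classical
  haveI : Fintype F₀ := Fintype.ofFinite F₀
  set Q := Nat.card F₀ with hQdef
  let τ : F →+* F := (FiniteField.frobeniusAlgHom F₀ F).toRingHom
  have hτ : ∀ a, τ a = a ^ Q := by
    intro a
    rw [hQdef, Nat.card_eq_fintype_card]
    rfl
  set P : GL ι F := B⁻¹ with hP
  set G := gramP f P with hG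
  have hGeq : ∀ u v, f ((P : Matrix ι ι F) *ᵥ u) ((P : Matrix ι ι F) *ᵥ v) = sesqM (σ : F →+* F) G u v :=
    eq_sesqM_gramP hf P
  set G' : Matrix ι ι F := G.map τ with hG'
  have hBP : ∀ v : ι → F, (B : Matrix ι ι F) *ᵥ ((P : Matrix ι ι F) *ᵥ v) = v := by
    intro v
    rw [hP, mulVec_inv_mulVec]
  have hPB : ∀ v : ι → F, (P : Matrix ι ι F) *ᵥ ((B : Matrix ι ι F) *ᵥ v) = v := by
    intro v
    rw [hP, inv_mulVec_mulVec]
  have hinv : ∀ x ∈ X, ((B : Matrix ι ι F) * (x : Matrix ι ι F) * (P : Matrix ι ι F))ᵀ * G *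
      ((B : Matrix ι ι F) * (x : Matrix ι ι F) * (P : Matrix ι ι F)).map σ = G := by
    intro x hx
    refine eq_of_sesqM_eq (σ := (σ : F →+* F)) σ.surjective fun a b => ?_
    have h1 := sesqM_mulVec (σ : F →+* F) G ((B : Matrix ι ι F) * (x : Matrix ι ι F) * (P : Matrix ι ι F)) a b
    have h2 : ((B : Matrix ι ι F) * (x : Matrix ι ι F) * (P : Matrix ι ι F)).map (σ : F →+* F) =
      ((B : Matrix ι ι F) * (x : Matrix ι ι F) * (P : Matrix ι ι F)).map σ := rfl
    rw [h2] at h1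
    rw [← h1, ← hGeq, ← hGeq]
    have h3 : ∀ w : ι → F, (P : Matrix ι ι F) *ᵥ (((B : Matrix ι ι F) * (x : Matrix ι ι F) * (P : Matrix ι ι F)) *ᵥ w) =
        (x : Matrix ι ι F) *ᵥ ((P : Matrix ι ι F) *ᵥ w) := by
      intro w
      rw [← Matrix.mulVec_mulVec, ← Matrix.mulVec_mulVec, hPB]
    rw [h3, h3]
    exact hXf _ ⟨x, hx, rfl⟩ _ _
  have hτσ : ∀ a, τ (σ a) = σ (τ a) := by
    intro a
    rw [hτ, hτ, map_pow]
  -- the conjugate form
  let f' : (ι → F) → (ι → F) → F := fun u v =>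
    sesqM (σ : F →+* F) G' ((B : Matrix ι ι F) *ᵥ u) ((B : Matrix ι ι F) *ᵥ v)
  have hf'sesq : IsSesq (σ : F →+* F) f' := IsSesq.comp_mulVec (sesqM_isSesq _ G') _
  have hf'fix : FixesForm (matrixSet X) f' := by
    rintro _ ⟨x, hx, rfl⟩ u v
    have hfixed : ((B : Matrix ι ι F) * (x : Matrix ι ι F) * (P : Matrix ι ι F)).map τ =
        (B : Matrix ι ι F) * (x : Matrix ι ι F) * (P : Matrix ι ι F) := by
      ext i j
      rw [Matrix.map_apply, hτ]
      exact (mem_subfield_iff F₀ hs _).mp (hB x hx i j)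
    set y : Matrix ι ι F := (B : Matrix ι ι F) * (x : Matrix ι ι F) * (P : Matrix ι ι F) with hy
    have h1 : yᵀ * G' * y.map σ = G' := by
      have h2 := congrArg (fun M : Matrix ι ι F => M.map τ) (hinv x hx)
      have h3 : (yᵀ * G * y.map σ).map τ = (y.map τ)ᵀ * G.map τ * (y.map σ).map τ := by
        rw [Matrix.map_mul, Matrix.map_mul]
        rfl
      have h4 : (y.map σ).map τ = y.map σ := by
        ext i j
        have h5 := congrFun (congrFun hfixed i) j
        simp only [Matrix.map_apply] at h5 ⊢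
        rw [hτσ, h5]
      rw [h3, hfixed, h4] at h2
      exact h2
    have h5 : ∀ w : ι → F, (B : Matrix ι ι F) *ᵥ ((x : Matrix ι ι F) *ᵥ w) = y *ᵥ ((B : Matrix ι ι F) *ᵥ w) := by
      intro w
      rw [hy, ← Matrix.mulVec_mulVec, ← Matrix.mulVec_mulVec, hPB, Matrix.mulVec_mulVec]
    simp only [f', h5]
    have h6 := sesqM_mulVec (σ : F →+* F) G' y ((B : Matrix ι ι F) *ᵥ u) ((B : Matrix ι ι F) *ᵥ v)
    have h7 : y.map (σ : F →+* F) = y.map σ := rfl
    rw [h7, h1] at h6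
    exact h6
  obtain ⟨c, hc⟩ := form_unique (σ := (σ : F →+* F)) σ.surjective hX hf.isSesq hf'sesq hf.nondeg hXf hf'fix
  have hG'c : G' = c • G := by
    refine eq_of_sesqM_eq (σ := (σ : F →+* F)) σ.surjective fun a b => ?_
    have h1 := hc ((P : Matrix ι ι F) *ᵥ a) ((P : Matrix ι ι F) *ᵥ b)
    simp only [f', hBP] at h1
    rw [h1, hGeq]
    simp [sesqM, Matrix.smul_mulVec, dotProduct_smul]
  -- a non-zero entry
  obtain ⟨i₀, j₀, h₀⟩ : ∃ i j, G i j ≠ 0 := by
    by_contra hcon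
    push Not at hcon
    obtain ⟨i⟩ := ‹Nonempty ι›
    have hv : (Pi.single i 1 : ι → F) ≠ 0 := by
      intro h
      have := congrFun h i
      simp at this
    obtain ⟨⟨x, hx⟩, -⟩ := hf.nondeg _ hv
    apply hx
    have h1 := hGeq (((B : GL ι F) : Matrix ι ι F) *ᵥ x) (((B : GL ι F) : Matrix ι ι F) *ᵥ (Pi.single i 1))
    rw [hPB, hPB] at h1
    rw [h1]
    have h0 : G = 0 := by
      ext a b
      exact hcon a b
    rw [h0]
    simp [sesqM]
  refine ⟨(G i₀ j₀)⁻¹, inv_ne_zero h₀, fun i j => ?_⟩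
  rw [mem_subfield_iff F₀ hs, ← hQdef]
  have hent : ∀ a b, (G a b) ^ Q = c * G a b := by
    intro a b
    have := congrFun (congrFun hG'c a) b
    simp only [hG', Matrix.map_apply, hτ, Matrix.smul_apply, smul_eq_mul] at this
    exact this
  rw [mul_pow, hent, inv_pow, hent, mul_inv_rev]
  have hc0 : c ≠ 0 := by
    intro h
    have := hent i₀ j₀
    rw [h, zero_mul] at this
    exact h₀ (pow_eq_zero_iff (by
      have : 0 < Q := Nat.card_pos
      omega) |>.mp this)
  field_simp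

/-- The rationality of the form from the rationality of its Gram matrix. -/
theorem isFormRationalStructure_of [Fintype F] (hf : ReflForm σ ε f) (F₀ : Subfield F) {s : ℕ}
    (hs : Fintype.card F = Nat.card F₀ ^ s) {ζ : F} (P : GL ι F) (h : ∀ i j, ζ * gramP f P i j ∈ F₀) :
    IsFormRationalStructure f F₀ ζ P := by
  intro u v hu hv
  rw [eq_sesqM_gramP hf]
  simp only [sesqM, dotProduct, Matrix.mulVec, Finset.mul_sum]
  refine F₀.sum_mem fun i _ => F₀.sum_mem fun j _ => ?_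
  have h1 : ζ * (u i * (gramP f P i j * ((σ : F →+* F) ∘ v) j)) = u i * ((ζ * gramP f P i j) * σ (v j)) := by
    simp only [Function.comp_apply]
    change _ * (_ * (_ * σ (v j))) = _
    ring
  rw [h1]
  exact F₀.mul_mem (hu i) (F₀.mul_mem (h i j) (sigma_mem_subfield F₀ hs σ (hv j)))

/-- The entrywise automorphism on `GL`. -/
noncomputable def mapS (σ : F ≃+* F) : GL ι F →* GL ι F := Matrix.GeneralLinearGroup.map (σ : F →+* F)

theorem coe_mapS (σ : F ≃+* F) (g : GL ι F) : ((mapS σ g : GL ι F) : Matrix ι ι F) = (g : Matrix ι ι F).map σ := rfl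

theorem mapS_mapS (hσ : ∀ a, σ (σ a) = a) (g : GL ι F) : mapS σ (mapS σ g) = g := by
  apply Units.ext
  ext i j
  simp [coe_mapS, hσ]

/-- Hilbert 90 for `GL` and an involution of the field. -/
theorem exists_hilbert90 [Fintype F] (hσ : ∀ a, σ (σ a) = a) (hσ1 : σ ≠ RingEquiv.refl F) (T : GL ι F)
    (hT : T * mapS σ T = 1) : ∃ h : GL ι F, T * mapS σ h = h := by
  classical
  open Cfsg.Agent.Lib.Classical.Herm.GLDescent Cfsg.Agent.Lib.Linalg.AutPSLStd in
  let eι : ι ≃ Fin (Fintype.card ι) := Fintype.equivFin ι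
  let g : GL (Fin (Fintype.card ι)) F := glReindex eι T
  have hg : ∀ a : GL ι F, ((glReindex eι a : GL (Fin (Fintype.card ι)) F) : Matrix _ _ F) =
      (a : Matrix ι ι F).submatrix eι.symm eι.symm := fun a => rfl
  have hcomm : ∀ a : GL ι F, glReindex eι (mapS σ a) = mapG σ (glReindex eι a) := by
    intro a
    apply Units.ext
    ext i j
    rfl
  have hsq : σ ^ 2 = 1 := by
    ext a
    rw [pow_two]
    exact hσ a
  have hne : σ ≠ 1 := hσ1
  have hord : orderOf σ = 2 := orderOf_eq_prime hsq hne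
  have hgg : g * mapG σ g = 1 := by
    rw [← hcomm, ← map_mul, hT, map_one]
  obtain ⟨h, hh⟩ := exists_gl_of_iterate σ g (by
    intro x
    rw [hord]
    change Tg g σ (Tg g σ x) = x
    rw [Tg_comp, hgg, ← pow_two, hsq]
    change (1 : Matrix _ _ F) *ᵥ (fun i => x i) = x
    rw [Matrix.one_mulVec])
  refine ⟨(glReindex eι).symm h, ?_⟩
  apply (glReindex eι).injective
  rw [map_mul, hcomm, MulEquiv.apply_symm_apply]
  exact hh

/-- **Realisation from two invariant forms.** -/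
theorem realize_of_two_forms [Fintype F] [Nonempty ι] {X : Subgroup (GL ι F)} (hX : CentScalar X)
    (hσ : ∀ a, σ (σ a) = a) (hσ1 : σ ≠ RingEquiv.refl F) {b u : (ι → F) → (ι → F) → F}
    (hb : IsSesq (RingHom.id F) b) (hbn : IsNondegenerateForm b) (hbX : FixesForm (matrixSet X) b)
    (hu : IsSesq (σ : F →+* F) u) (hun : IsNondegenerateForm u) (huX : FixesForm (matrixSet X) u) :
    ∃ B : GL ι F, ∀ x ∈ X, ∀ i j,
      σ (((B : Matrix ι ι F) * (x : Matrix ι ι F) * ((B⁻¹ : GL ι F) : Matrix ι ι F)) i j) =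
        ((B : Matrix ι ι F) * (x : Matrix ι ι F) * ((B⁻¹ : GL ι F) : Matrix ι ι F)) i j := by
  classical
  obtain ⟨A, hA⟩ := isUnit_gram (σ := RingHom.id F) Function.surjective_id hb hbn
  obtain ⟨C, hC⟩ := isUnit_gram (σ := (σ : F →+* F)) σ.surjective hu hun
  have hinvb : ∀ x ∈ X, (x : Matrix ι ι F)ᵀ * (A : Matrix ι ι F) * (x : Matrix ι ι F) = A := by
    intro x hx
    have h1 : (x : Matrix ι ι F)ᵀ * (A : Matrix ι ι F) * (x : Matrix ι ι F).map (RingHom.id F) = A := by
      apply eq_of_sesqM_eq (σ := RingHom.id F) Function.surjective_id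
      intro a c
      rw [← sesqM_mulVec, hA, ← hb.eq_sesqM, ← hb.eq_sesqM]
      exact hbX _ ⟨x, hx, rfl⟩ a c
    simpa using h1
  have hinvu : ∀ x ∈ X, (x : Matrix ι ι F)ᵀ * (C : Matrix ι ι F) * (x : Matrix ι ι F).map σ = C := by
    intro x hx
    apply eq_of_sesqM_eq (σ := (σ : F →+* F)) σ.surjective
    intro a c
    have h1 := sesqM_mulVec (σ : F →+* F) (C : Matrix ι ι F) (x : Matrix ι ι F) a c
    have h2 : (x : Matrix ι ι F).map (σ : F →+* F) = (x : Matrix ι ι F).map σ := rfl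
    rw [h2] at h1
    rw [← h1, hC, ← hu.eq_sesqM, ← hu.eq_sesqM]
    exact huX _ ⟨x, hx, rfl⟩ a c
  obtain ⟨T, hTdef⟩ : ∃ T : GL ι F, T = A⁻¹ * C := ⟨_, rfl⟩
  -- the intertwining relation
  have hxT : ∀ x ∈ X, x * T = T * mapS σ x := by
    intro x hx
    have h1 : (glTranspose x) * A * x = A := by
      apply Units.ext
      exact hinvb x hx
    have h2 : (glTranspose x) * C * mapS σ x = C := by
      apply Units.ext
      exact hinvu x hx
    have h3 : x * A⁻¹ * glTranspose x = A⁻¹ := by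
      have h5 : (glTranspose x) * A = A * x⁻¹ := by
        rw [eq_mul_inv_iff_mul_eq]
        exact h1
      calc x * A⁻¹ * glTranspose x = x * (A⁻¹ * (glTranspose x * A)) * A⁻¹ := by group
        _ = A⁻¹ := by rw [h5]; group
    have h4 : C * mapS σ x = (glTranspose x)⁻¹ * C := by
      rw [eq_inv_mul_iff_mul_eq, ← mul_assoc]
      exact h2
    calc x * T = x * A⁻¹ * C := by rw [hTdef]; group
      _ = (x * A⁻¹ * glTranspose x) * ((glTranspose x)⁻¹ * C) := by group
      _ = A⁻¹ * (C * mapS σ x) := by rw [h3, h4]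
      _ = T * mapS σ x := by rw [hTdef]; group
  have hTσ : T * mapS σ T ∈ scalars ι F := by
    rw [mem_scalars_iff']
    apply hX
    rw [coe_mem_cent_iff]
    intro x hx
    have h1 := hxT x hx
    have h2 := congrArg (mapS σ) h1
    rw [map_mul, map_mul, mapS_mapS hσ] at h2
    calc x * (T * mapS σ T) = (x * T) * mapS σ T := by group
      _ = T * (mapS σ x * mapS σ T) := by rw [h1]; group
      _ = T * (mapS σ T * x) := by rw [h2]
      _ = _ := by group
  obtain ⟨c, hc⟩ := mem_scalars_iff_scal.mp hTσ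
  have hcval : ((T * mapS σ T : GL ι F) : Matrix ι ι F) = (c : F) • 1 := by
    rw [← hc]
    exact coe_scal c
  have hcfix : σ (c : F) = c := by
    have h1 : mapS σ T * T = T * mapS σ T := by
      have h2 : T * (mapS σ T * T) = T * (T * mapS σ T) := by
        rw [← mul_assoc]
        exact scalar_comm hTσ T
      exact mul_left_cancel h2
    have h3 : mapS σ (T * mapS σ T) = T * mapS σ T := by
      rw [map_mul, mapS_mapS hσ, h1]
    have h4 := congrArg (fun g : GL ι F => (g : Matrix ι ι F)) h3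
    simp only [coe_mapS] at h4
    rw [hcval] at h4
    obtain ⟨i⟩ := ‹Nonempty ι›
    have h5 := congrFun (congrFun h4 i) i
    simpa using h5
  have hσ1' : (σ : F →+* F) ≠ RingHom.id F := by
    intro h
    apply hσ1
    ext a
    exact congrArg (fun φ : F →+* F => φ a) h
  obtain ⟨l, hl⟩ := Cfsg.Agent.S0755.exists_mul_sigma_eq (σ : F →+* F) hσ1' hσ (c : F) c.ne_zero hcfix
  have hl0 : l ≠ 0 := by
    rintro rfl
    rw [zero_mul] at hl
    exact c.ne_zero hl.symm
  obtain ⟨T', hT'⟩ : ∃ T' : GL ι F, T' = scal ι F (Units.mk0 l hl0)⁻¹ * T := ⟨_, rfl⟩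
  have hT'x : ∀ x ∈ X, x * T' = T' * mapS σ x := by
    intro x hx
    rw [hT']
    calc x * (scal ι F (Units.mk0 l hl0)⁻¹ * T) = (x * scal ι F (Units.mk0 l hl0)⁻¹) * T := by group
      _ = scal ι F (Units.mk0 l hl0)⁻¹ * (x * T) := by
          rw [← scalar_comm (SympType.scal_mem _) x]; group
      _ = _ := by rw [hxT x hx]; group
  have hT'T' : T' * mapS σ T' = 1 := by
    apply Units.ext
    have h1 : (T' : Matrix ι ι F) = l⁻¹ • (T : Matrix ι ι F) := by
      rw [hT', Units.val_mul, coe_scal, Matrix.smul_mul, one_mul]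
      simp
    rw [Units.val_mul, coe_mapS, h1, FormTensor.map_smul_sigma, Matrix.smul_mul, Matrix.mul_smul, smul_smul]
    have h2 : (T : Matrix ι ι F) * (T : Matrix ι ι F).map σ = (c : F) • 1 := hcval
    rw [h2, smul_smul, Units.val_one]
    have h3 : l⁻¹ * σ l⁻¹ * (c : F) = 1 := by
      rw [← hl, map_inv₀]
      have hsl : σ l ≠ 0 := by
        rw [Ne, map_eq_zero]
        exact hl0
      change l⁻¹ * (σ l)⁻¹ * (l * σ l) = 1
      field_simp
    rw [h3, one_smul]
  obtain ⟨h, hh⟩ := exists_hilbert90 hσ hσ1 T' hT'T'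
  refine ⟨h⁻¹, fun x hx i j => ?_⟩
  have hfixed : mapS σ (h⁻¹ * x * h⁻¹⁻¹) = h⁻¹ * x * h⁻¹⁻¹ := by
    have h1 : mapS σ h = T'⁻¹ * h := by
      rw [eq_inv_mul_iff_mul_eq]
      exact hh
    have h2 : mapS σ x = T'⁻¹ * x * T' := by
      have := hT'x x hx
      rw [mul_assoc, this]
      group
    rw [inv_inv, map_mul, map_mul, map_inv, h1, h2]
    group
  exact congrArg (fun g : GL ι F => (g : Matrix ι ι F) i j) hfixed

end Cfsg.Agent.Lib.Classical.Asch.FormDescent
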