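import Mathlib
import Cfsg.Agent.Lib.Classical.Asch.FormDescent
import Cfsg.Agent.Lib.Classical.Asch.SympStruct
import Cfsg.Agent.Lib.Classical.Asch.SkolemNoether

/-!
# Realisation over a subfield from a semilinear intertwiner
-/

set_option autoImplicit false
set_option linter.style.haveILetI false
set_option linter.unusedSectionVars false

namespace Cfsg.Agent.Lib.Classical.Asch.FormReal

open scoped MatrixGroups Matrix
open Cfsg.Geo Cfsg.Agent.Lib.Classical.Asch.Basic Cfsg.Agent.Lib.Classical.Asch.Forms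
open Cfsg.Agent.Lib.Classical.Asch.Adj Cfsg.Agent.Lib.Classical.Asch.FormDescent
open Cfsg.Agent.Lib.Classical.Asch.SympType Cfsg.Agent.Lib.Classical.Asch.SympStruct
open Cfsg.Agent.Lib.Classical.Asch.MinNormal

variable {ι : Type} [Fintype ι] [DecidableEq ι] {F : Type*} [Field F]

/-- `T σ(T) ⋯ σ^{k-1}(T)`. -/
noncomputable def normS (σ : F ≃+* F) (T : GL ι F) : ℕ → GL ι F
  | 0 => 1
  | k + 1 => T * mapS σ (normS σ T k)

theorem mapS_pow_succ (σ : F ≃+* F) (k : ℕ) (x : GL ι F) : mapS σ (mapS (σ ^ k) x) = mapS (σ ^ (k + 1)) x := by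
  apply Units.ext
  ext i j
  simp [coe_mapS, pow_succ']

theorem mapS_one (x : GL ι F) : mapS (1 : F ≃+* F) x = x := by
  apply Units.ext
  ext i j
  simp [coe_mapS]

theorem normS_succ' (σ : F ≃+* F) (T : GL ι F) (k : ℕ) :
    normS σ T (k + 1) = normS σ T k * mapS (σ ^ k) T := by
  induction k with
  | zero =>
    simp [normS, pow_zero, mapS_one]
  | succ k ih =>
    calc normS σ T (k + 1 + 1) = T * mapS σ (normS σ T (k + 1)) := rfl
      _ = T * mapS σ (normS σ T k * mapS (σ ^ k) T) := by rw [ih]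
      _ = T * (mapS σ (normS σ T k) * mapS (σ ^ (k + 1)) T) := by rw [map_mul, mapS_pow_succ]
      _ = (T * mapS σ (normS σ T k)) * mapS (σ ^ (k + 1)) T := by rw [mul_assoc]
      _ = _ := rfl

/-- The intertwining relation for the norm. -/
theorem conj_normS {σ : F ≃+* F} {T : GL ι F} {X : Subgroup (GL ι F)} (hT : ∀ x ∈ X, x * T = T * mapS σ x) {x : GL ι F}
    (hx : x ∈ X) (k : ℕ) : x * normS σ T k = normS σ T k * mapS (σ ^ k) x := by
  induction k with
  | zero => simp [normS, mapS_one]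
  | succ k ih =>
    rw [normS, ← mul_assoc, hT x hx, mul_assoc, ← map_mul, ih, map_mul, mapS_pow_succ, ← mul_assoc]

theorem normS_smul [Fintype F] (σ : F ≃+* F) (T : GL ι F) (u : Fˣ) (k : ℕ) :
    ((normS σ (scal ι F u * T) k : GL ι F) : Matrix ι ι F) =
      Cfsg.Agent.Lib.Classical.Herm.Descent.Nk σ (u : F) k • ((normS σ T k : GL ι F) : Matrix ι ι F) := by
  induction k with
  | zero =>
    simp [normS, Cfsg.Agent.Lib.Classical.Herm.Descent.Nk_zero]
  | succ k ih =>
    change ((scal ι F u * T * mapS σ (normS σ (scal ι F u * T) k) : GL ι F) : Matrix ι ι F) =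
      _ • ((T * mapS σ (normS σ T k) : GL ι F) : Matrix ι ι F)
    rw [Units.val_mul, Units.val_mul, Units.val_mul, coe_mapS, coe_mapS, ih, coe_scal,
      Cfsg.Agent.Lib.Classical.Herm.Descent.Nk_succ, FormTensor.map_smul_sigma, Matrix.smul_mul, one_mul,
      Matrix.smul_mul, Matrix.mul_smul, smul_smul]

/-- **Descent from a semilinear intertwiner.** -/
theorem realize_of_intertwiner [Fintype F] [Nonempty ι] {X : Subgroup (GL ι F)} (hX : CentScalar X) (σ : F ≃+* F)
    (T : GL ι F) (hT : ∀ x ∈ X, x * T = T * mapS σ x) :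
    ∃ B : GL ι F, ∀ x ∈ X, ∀ i j, σ (((B : Matrix ι ι F) * (x : Matrix ι ι F) * ((B⁻¹ : GL ι F) : Matrix ι ι F)) i j) =
      ((B : Matrix ι ι F) * (x : Matrix ι ι F) * ((B⁻¹ : GL ι F) : Matrix ι ι F)) i j := by
  classical
  open Cfsg.Agent.Lib.Classical.Herm.GLDescent Cfsg.Agent.Lib.Classical.Herm.Descent
    Cfsg.Agent.Lib.Linalg.AutPSLStd in
  have hfin : IsOfFinOrder σ := by
    haveI : Finite (F ≃+* F) := Cfsg.Agent.Lib.Classical.Herm.Descent.finite_ringAut
    exact isOfFinOrder_of_finite σ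
  set o := orderOf σ with ho
  have hσo : σ ^ o = 1 := pow_orderOf_eq_one σ
  -- the norm is scalar
  have hN : normS σ T o ∈ scalars ι F := by
    rw [mem_scalars_iff']
    apply hX
    rw [coe_mem_cent_iff]
    intro x hx
    have := conj_normS hT hx o
    rw [hσo, mapS_one] at this
    exact this
  obtain ⟨ν, hν⟩ := mem_scalars_iff_scal.mp hN
  have hνval : ((normS σ T o : GL ι F) : Matrix ι ι F) = (ν : F) • 1 := by
    rw [← hν]
    exact coe_scal ν
  have hσν : σ (ν : F) = ν := by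
    have h1 : T * mapS σ (normS σ T o) = normS σ T o * T := by
      have h2 := normS_succ' σ T o
      rw [hσo, mapS_one, normS] at h2
      exact h2
    have h3 : normS σ T o * T = T * normS σ T o := scalar_comm hN T
    rw [h3] at h1
    have h4 := mul_left_cancel h1
    have h5 := congrArg (fun g : GL ι F => (g : Matrix ι ι F)) h4
    simp only [coe_mapS] at h5
    rw [hνval] at h5
    obtain ⟨i⟩ := ‹Nonempty ι›
    have h6 := congrFun (congrFun h5 i) i
    simpa using h6
  obtain ⟨μ, hμ0, hμ⟩ := exists_norm_units σ ν.ne_zero hσν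
  obtain ⟨T', hT'⟩ : ∃ T' : GL ι F, T' = scal ι F (Units.mk0 μ hμ0)⁻¹ * T := ⟨_, rfl⟩
  have hT'x : ∀ x ∈ X, x * T' = T' * mapS σ x := by
    intro x hx
    rw [hT']
    calc x * (scal ι F (Units.mk0 μ hμ0)⁻¹ * T) = (x * scal ι F (Units.mk0 μ hμ0)⁻¹) * T := by group
      _ = scal ι F (Units.mk0 μ hμ0)⁻¹ * (x * T) := by
          rw [← scalar_comm (SympType.scal_mem _) x]; group
      _ = _ := by rw [hT x hx]; group
  have hnorm : normS σ T' o = 1 := by
    apply Units.ext
    rw [hT', normS_smul, hνval, Units.val_one, smul_smul]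
    have h1 : Nk σ (((Units.mk0 μ hμ0)⁻¹ : Fˣ) : F) o * (ν : F) = 1 := by
      rw [← hμ, ← Nk_mul]
      have h2 : (((Units.mk0 μ hμ0)⁻¹ : Fˣ) : F) * μ = 1 := by
        simp [hμ0]
      rw [h2]
      simp [Nk]
    rw [h1, one_smul]
  let eι : ι ≃ Fin (Fintype.card ι) := Fintype.equivFin ι
  have hcomm : ∀ a : GL ι F, glReindex eι (mapS σ a) = mapG σ (glReindex eι a) := by
    intro a
    apply Units.ext
    ext i j
    rfl
  obtain ⟨g, hg⟩ : ∃ g, g = glReindex eι T' := ⟨_, rfl⟩
  have hnormG : ∀ k, normGL g σ k = glReindex eι (normS σ T' k) := by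
    intro k
    induction k with
    | zero =>
      simp [normGL, normS]
    | succ k ih =>
      rw [normGL, normS, map_mul, hcomm, ih, hg]
  obtain ⟨h, hh⟩ := exists_gl_of_iterate σ g (by
    intro x
    rw [iterate_Tg, ← ho, hσo, hnormG, hnorm, map_one]
    change (1 : Matrix _ _ F) *ᵥ (fun i => x i) = x
    rw [Matrix.one_mulVec])
  obtain ⟨h', hh'⟩ : ∃ h', h' = (glReindex eι).symm h := ⟨_, rfl⟩
  have hh2 : T' * mapS σ h' = h' := by
    apply (glReindex eι).injective
    rw [map_mul, hcomm, hh', MulEquiv.apply_symm_apply, ← hg]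
    exact hh
  refine ⟨h'⁻¹, fun x hx i j => ?_⟩
  have hfix : mapS σ (h'⁻¹ * x * h') = h'⁻¹ * x * h' := by
    have h5 : T' = h' * (mapS σ h')⁻¹ := by
      rw [eq_mul_inv_iff_mul_eq]
      exact hh2
    have h6 := hT'x x hx
    rw [map_mul, map_mul, map_inv]
    rw [h5] at h6
    calc (mapS σ h')⁻¹ * mapS σ x * mapS σ h' = h'⁻¹ * (h' * (mapS σ h')⁻¹ * mapS σ x) * mapS σ h' := by group
      _ = h'⁻¹ * (x * (h' * (mapS σ h')⁻¹)) * mapS σ h' := by rw [h6]
      _ = _ := by group
  have h7 := congrArg (fun g : GL ι F => (g : Matrix ι ι F)) hfix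
  simp only [coe_mapS] at h7
  have h8 := congrFun (congrFun h7 i) j
  simp only [inv_inv]
  rw [Units.val_mul, Units.val_mul] at h8
  simpa using h8

section Symp

variable [Fintype F] [Nonempty ι] {G R : Subgroup (GL ι F)} {r s : ℕ}

/-- A field automorphism fixing the scalars of `R` is induced by a conjugation on `R`. -/
theorem SympData.exists_intertwiner (D : SympData G R r s) (σ : F ≃+* F)
    (hσ : ∀ x ∈ R, ∀ c : F, (x : Matrix ι ι F) = c • 1 → σ c = c) :
    ∃ T : GL ι F, ∀ x ∈ R, x * T = T * mapS σ x := by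
  classical
  let J := R ⧸ Subgroup.center R
  letI : Fintype J := Fintype.ofFinite J
  let x : J → GL ι F := fun j => ((Quotient.out j : R) : GL ι F)
  have hx : ∀ j, x j ∈ R := fun j => (Quotient.out j : R).2
  have hmk : ∀ j : J, (QuotientGroup.mk (Quotient.out j) : J) = j := fun j => QuotientGroup.out_eq' j
  have hne : ∀ j j', j ≠ j' → (x j)⁻¹ * x j' ∉ scalars ι F := by
    intro j j' hj h
    apply hj
    rw [← hmk j, ← hmk j']
    refine QuotientGroup.eq.mpr ?_
    rw [SympData.mem_center_iff D]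
    exact h
  have hli := SympData.linearIndependent_reps D x hx hne
  -- every element of `R` is a scalar multiple of a representative
  have hrep : ∀ y ∈ R, ∃ j : J, ∃ c : F, (y : Matrix ι ι F) = c • (x j : Matrix ι ι F) ∧ σ c = c := by
    intro y hy
    let j : J := QuotientGroup.mk (⟨y, hy⟩ : R)
    have h1 : (Quotient.out j : R)⁻¹ * ⟨y, hy⟩ ∈ Subgroup.center R :=
      QuotientGroup.eq.mp ((hmk j).trans rfl)
    rw [SympData.mem_center_iff D] at h1
    obtain ⟨c, hc⟩ := (mem_scalars_iff' _).mp h1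
    refine ⟨j, c, ?_, hσ _ (mul_mem (inv_mem (hx j)) hy) c hc⟩
    have h3 : y = x j * ((((Quotient.out j : R)⁻¹ * ⟨y, hy⟩ : R)) : GL ι F) := by
      simp [x]
    conv_lhs => rw [h3]
    rw [Units.val_mul, hc]
    simp
  have hspan : ⊤ ≤ Submodule.span F (Set.range fun j => (x j : Matrix ι ι F)) := by
    rw [← burnside D.irr D.cs, Submodule.span_le]
    rintro _ ⟨y, hy, rfl⟩
    obtain ⟨j, c, h2, -⟩ := hrep y hy
    change (y : Matrix ι ι F) ∈ _
    rw [h2]
    exact Submodule.smul_mem _ _ (Submodule.subset_span ⟨j, rfl⟩)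
  let b := Module.Basis.mk hli hspan
  have hb : ∀ j, b j = (x j : Matrix ι ι F) := fun j => by simp [b]
  let τ : Matrix ι ι F →ₗ[F] Matrix ι ι F := b.constr F (fun j => (x j : Matrix ι ι F).map σ)
  have hτb : ∀ j, τ (x j : Matrix ι ι F) = (x j : Matrix ι ι F).map σ := by
    intro j
    have h := b.constr_basis F (fun j => (x j : Matrix ι ι F).map σ) j
    rw [hb j] at h
    exact h
  have hτR : ∀ y ∈ R, τ (y : Matrix ι ι F) = (y : Matrix ι ι F).map σ := by
    intro y hy
    obtain ⟨j, c, h2, h3⟩ := hrep y hy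
    rw [h2, map_smul, hτb, FormTensor.map_smul_sigma, h3]
  have hτone : τ 1 = 1 := by
    have h1 := hτR 1 (one_mem R)
    simpa using h1
  have hτmul : ∀ a b' : Matrix ι ι F, τ (a * b') = τ a * τ b' := by
    have hspanR := burnside D.irr D.cs
    intro a b'
    have ha : a ∈ Submodule.span F (matrixSet R) := by rw [hspanR]; trivial
    have hb' : b' ∈ Submodule.span F (matrixSet R) := by rw [hspanR]; trivial
    induction ha using Submodule.span_induction with
    | mem a ha =>
      obtain ⟨y, hy, rfl⟩ := ha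
      induction hb' using Submodule.span_induction with
      | mem b' hb' =>
        obtain ⟨z, hz, rfl⟩ := hb'
        rw [← Units.val_mul, hτR _ (mul_mem hy hz), hτR _ hy, hτR _ hz, Units.val_mul]
        exact FormTensor.map_mul_sigma _ _ _
      | zero => simp
      | add u v _ _ hu hv => rw [mul_add, map_add, map_add, mul_add, hu, hv]
      | smul c u _ hu => rw [Matrix.mul_smul, map_smul, map_smul, Matrix.mul_smul, hu]
    | zero => simp
    | add u v _ _ hu hv => rw [add_mul, map_add, map_add, add_mul, hu, hv]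
    | smul c u _ hu => rw [Matrix.smul_mul, map_smul, map_smul, Matrix.smul_mul, hu]
  let τA : Matrix ι ι F →ₐ[F] Matrix ι ι F := AlgHom.ofLinearMap τ hτone hτmul
  obtain ⟨B, hB⟩ := Cfsg.Agent.Lib.Classical.Asch.SkolemNoether.skolem_noether τA
  refine ⟨B⁻¹, fun y hy => ?_⟩
  apply Units.ext
  have h1 : (y : Matrix ι ι F).map σ = (B : Matrix ι ι F) * y * ((B⁻¹ : GL ι F) : Matrix ι ι F) := by
    rw [← hτR y hy]
    exact hB _
  rw [Units.val_mul, Units.val_mul, coe_mapS, h1]
  simp only [← mul_assoc, ← Units.val_mul]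
  simp

/-- Realisation of `R` over a subfield containing its scalars. -/
theorem SympData.realize_subfield (D : SympData G R r s) (F₀ : Subfield F) {t : ℕ}
    (hcard : Fintype.card F = Nat.card F₀ ^ t) (hZ : ∀ x ∈ R, ∀ c : F, (x : Matrix ι ι F) = c • 1 → c ∈ F₀) :
    ∃ B : GL ι F, ∀ x ∈ R, ∀ i j, ((B : Matrix ι ι F) * (x : Matrix ι ι F) * ((B⁻¹ : GL ι F) : Matrix ι ι F)) i j ∈ F₀ := by
  classical
  haveI : Fintype F₀ := Fintype.ofFinite F₀
  let σ : F ≃+* F := (FiniteField.frobeniusAlgEquivOfAlgebraic F₀ F).toRingEquiv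
  have hσ : ∀ a, σ a = a ^ Nat.card F₀ := by
    intro a
    rw [Nat.card_eq_fintype_card]
    rfl
  have hfix : ∀ a, σ a = a ↔ a ∈ F₀ := by
    intro a
    rw [hσ]
    exact (Cfsg.Agent.Lib.Classical.Asch.Subfield.mem_subfield_iff F₀ hcard a).symm
  obtain ⟨T, hT⟩ := SympData.exists_intertwiner D σ (fun x hx c hc => (hfix c).mpr (hZ x hx c hc))
  obtain ⟨B, hB⟩ := realize_of_intertwiner D.cs σ T hT
  exact ⟨B, fun x hx i j => (hfix _).mp (hB x hx i j)⟩

end Symp

end Cfsg.Agent.Lib.Classical.Asch.FormReal
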