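import Mathlib
import Cfsg.Agent.Lib.Classical.Asch.FormReal

/-!
# Symplectic-type groups fixing a form

The isometries inside a symplectic-type subgroup form again a symplectic-type subgroup.  For a bilinear form, the prime is
two, the centre has order two; for an alternating form, the group is of minus type.
-/

set_option autoImplicit false
set_option linter.style.haveILetI false
set_option linter.unusedSectionVars false

namespace Cfsg.Agent.Lib.Classical.Asch.FormSympType

open scoped MatrixGroups Matrix
open Module
open Cfsg.Geo Cfsg.Agent.Lib.Classical.Asch.Basic Cfsg.Agent.Lib.Classical.Asch.Forms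
open Cfsg.Agent.Lib.Classical.Asch.Adj Cfsg.Agent.Lib.Classical.Asch.FormDescent
open Cfsg.Agent.Lib.Classical.Asch.SympType Cfsg.Agent.Lib.Classical.Asch.SympStruct
open Cfsg.Agent.Lib.Classical.Asch.MinNormal Cfsg.Agent.Lib.Classical.Asch.Dichotomy

universe u

section Abstract

variable {F : Type*} [Field F]

/-- Commuting isometric involutions of a non-degenerate alternating form: the span has dimension at most half the
dimension of the space. -/
theorem two_finrank_span_le (h2 : (2 : F) ≠ 0) (n : ℕ) : ∀ (V : Type u) [AddCommGroup V] [Module F V] [FiniteDimensional F V]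
    (_ : finrank F V = n) (B : V →ₗ[F] V →ₗ[F] F) (_ : ∀ v, B v v = 0) (_ : ∀ v, v ≠ 0 → ∃ x, B v x ≠ 0)
    (S : Set (Module.End F V)) (_ : ∀ a ∈ S, ∀ b ∈ S, a * b = b * a) (_ : ∀ a ∈ S, a * a = 1)
    (_ : ∀ a ∈ S, ∀ u v, B (a u) (a v) = B u v) (_ : 0 < n),
    2 * finrank F (Submodule.span F S) ≤ n := by
  induction n using Nat.strong_induction_on with
  | _ n ih =>
    intro V _ _ _ hn B halt hnd S hcomm hinv hiso hpos
    haveI : Nontrivial V := Module.nontrivial_of_finrank_pos (R := F) (by omega)
    -- two dimensions at least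
    have hn2 : 2 ≤ n := by
      by_contra hlt
      have h1 : finrank F V = 1 := by omega
      obtain ⟨v, hv⟩ := exists_ne (0 : V)
      obtain ⟨x, hx⟩ := hnd v hv
      obtain ⟨c, rfl⟩ := (finrank_eq_one_iff_of_nonzero' v hv).mp h1 x
      apply hx
      rw [map_smul, halt, smul_zero]
    by_cases hsc : ∀ a ∈ S, ∃ c : F, a = c • (1 : Module.End F V)
    · have hle : Submodule.span F S ≤ Submodule.span F {(1 : Module.End F V)} := by
        rw [Submodule.span_le]
        intro a ha
        obtain ⟨c, rfl⟩ := hsc a ha
        exact Submodule.smul_mem _ _ (Submodule.subset_span rfl)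
      have h1 := Submodule.finrank_mono hle
      have h2' := finrank_span_le_card (R := F) ({(1 : Module.End F V)} : Set (Module.End F V))
      simp only [Set.toFinset_singleton, Finset.card_singleton] at h2'
      omega
    · push Not at hsc
      obtain ⟨s, hs, hsne⟩ := hsc
      have hss : s * s = 1 := hinv s hs
      have hs1 : s ≠ 1 := fun h => hsne 1 (by simp [h])
      have hsm1 : s ≠ -1 := fun h => hsne (-1) (by simp [h])
      let P : Submodule F V := LinearMap.ker (s - 1)
      let M : Submodule F V := LinearMap.ker (s + 1)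
      have hP : ∀ v, v ∈ P ↔ s v = v := by
        intro v
        simp [P, sub_eq_zero]
      have hM : ∀ v, v ∈ M ↔ s v = -v := by
        intro v
        simp [M, add_eq_zero_iff_eq_neg]
      have hss' : ∀ v, s (s v) = v := fun v => by
        have := congrArg (fun φ : Module.End F V => φ v) hss
        simpa using this
      have hhalf : (2 : F)⁻¹ * 2 = 1 := inv_mul_cancel₀ h2
      -- decomposition
      have hcompl : IsCompl P M := by
        constructor
        · rw [Submodule.disjoint_def]
          intro v hv hv'
          have h1 := (hP v).mp hv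
          have h3 := (hM v).mp hv'
          have h4 : (2 : F) • v = 0 := by
            rw [two_smul]
            nth_rewrite 1 [← h1]
            rw [h3]
            simp
          exact (smul_eq_zero.mp h4).resolve_left h2
        · rw [codisjoint_iff, eq_top_iff]
          intro v _
          have hv : v = (2 : F)⁻¹ • (v + s v) + (2 : F)⁻¹ • (v - s v) := by
            rw [← smul_add]
            have : v + s v + (v - s v) = (2 : F) • v := by
              rw [two_smul]
              abel
            rw [this, smul_smul, hhalf, one_smul]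
          rw [hv]
          refine Submodule.add_mem_sup ?_ ?_
          · rw [hP, map_smul, map_add, hss', add_comm]
          · rw [hM, map_smul, map_sub, hss', smul_sub, smul_sub, neg_sub]
      have hP0 : P ≠ ⊥ := by
        intro h
        apply hsm1
        ext v
        have h1 : s (s v + v) = s v + v := by
          rw [map_add, hss', add_comm]
        have h3 : s v + v ∈ P := (hP _).mpr h1
        rw [h, Submodule.mem_bot] at h3
        simpa [eq_neg_iff_add_eq_zero] using h3
      have hM0 : M ≠ ⊥ := by
        intro h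
        apply hs1
        ext v
        have h1 : s (s v - v) = -(s v - v) := by
          rw [map_sub, hss', neg_sub]
        have h3 : s v - v ∈ M := (hM _).mpr h1
        rw [h, Submodule.mem_bot] at h3
        simpa [sub_eq_zero] using h3
      have hPM : ∀ u ∈ P, ∀ v ∈ M, B u v = 0 := by
        intro u hu v hv
        have h1 := hiso s hs u v
        rw [(hP u).mp hu, (hM v).mp hv, map_neg] at h1
        have h3 : (2 : F) * B u v = 0 := by
          rw [two_mul]
          nth_rewrite 1 [← h1]
          ring
        exact (mul_eq_zero.mp h3).resolve_left h2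
      have hMP : ∀ u ∈ M, ∀ v ∈ P, B u v = 0 := by
        intro u hu v hv
        have h1 := hiso s hs u v
        rw [(hM u).mp hu, (hP v).mp hv, map_neg, LinearMap.neg_apply] at h1
        have h3 : (2 : F) * B u v = 0 := by
          rw [two_mul]
          nth_rewrite 1 [← h1]
          ring
        exact (mul_eq_zero.mp h3).resolve_left h2
      have hcS : ∀ a ∈ S, ∀ v, s (a v) = a (s v) := by
        intro a ha v
        have := congrArg (fun φ : Module.End F V => φ v) (hcomm s hs a ha)
        simpa using this
      have hSP : ∀ a ∈ Submodule.span F S, ∀ v ∈ P, a v ∈ P := by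
        intro a ha
        induction ha using Submodule.span_induction with
        | mem a ha =>
          intro v hv
          rw [hP, hcS a ha, (hP v).mp hv]
        | zero =>
          intro v _
          simp
        | add a b _ _ h1 h3 =>
          intro v hv
          exact P.add_mem (h1 v hv) (h3 v hv)
        | smul c a _ h1 =>
          intro v hv
          exact P.smul_mem c (h1 v hv)
      have hSM : ∀ a ∈ Submodule.span F S, ∀ v ∈ M, a v ∈ M := by
        intro a ha
        induction ha using Submodule.span_induction with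
        | mem a ha =>
          intro v hv
          rw [hM, hcS a ha, (hM v).mp hv, map_neg]
        | zero =>
          intro v _
          simp
        | add a b _ _ h1 h3 =>
          intro v hv
          exact M.add_mem (h1 v hv) (h3 v hv)
        | smul c a _ h1 =>
          intro v hv
          exact M.smul_mem c (h1 v hv)
      -- the restriction maps
      have key : ∀ (Q Q' : Submodule F V) (hc : IsCompl Q Q'), Q ≠ ⊥ → Q' ≠ ⊥ → (∀ u ∈ Q, ∀ v ∈ Q', B u v = 0) →
          (∀ a ∈ Submodule.span F S, ∀ v ∈ Q, a v ∈ Q) →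
          ∃ ρ : Module.End F V →ₗ[F] Module.End F Q, (∀ a ∈ Submodule.span F S, ∀ v : Q, ((ρ a v : Q) : V) = a v) ∧
            2 * finrank F ((Submodule.span F S).map ρ) ≤ finrank F Q := by
        intro Q Q' hc hQ0 hQ'0 hQQ' hSQ
        let π := Submodule.projectionOnto Q Q' hc
        let ρ : Module.End F V →ₗ[F] Module.End F Q :=
          { toFun := fun a => π ∘ₗ a ∘ₗ Q.subtype
            map_add' := fun a b => by
              ext v
              simp
            map_smul' := fun c a => by
              ext v
              simp }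
        have hρ : ∀ a ∈ Submodule.span F S, ∀ v : Q, ((ρ a v : Q) : V) = a v := by
          intro a ha v
          change ((π (a v) : Q) : V) = a v
          have := Submodule.projectionOnto_apply_of_mem_left hc (hSQ a ha v v.2)
          simp only [π]
          rw [this]
        refine ⟨ρ, hρ, ?_⟩
        have hlt : finrank F Q < n := by
          have h1 := Submodule.finrank_add_eq_of_isCompl hc
          have h3 : 0 < finrank F Q' := finrank_pos_iff.mpr (Submodule.nontrivial_iff_ne_bot.mpr hQ'0)
          omega
        have hpos' : 0 < finrank F Q := finrank_pos_iff.mpr (Submodule.nontrivial_iff_ne_bot.mpr hQ0)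
        have hsub : ∀ a ∈ S, a ∈ Submodule.span F S := fun a ha => Submodule.subset_span ha
        have h5 := ih (finrank F Q) hlt Q rfl (B.domRestrict₁₂ Q Q) (fun v => halt v) (by
          intro v hv
          have hv' : (v : V) ≠ 0 := fun h => hv (Subtype.ext h)
          obtain ⟨x, hx⟩ := hnd v hv'
          obtain ⟨x₁, hx₁, x₂, hx₂, rfl⟩ : ∃ x₁ ∈ Q, ∃ x₂ ∈ Q', x₁ + x₂ = x := by
            have h6 : x ∈ Q ⊔ Q' := by
              rw [hc.sup_eq_top]
              trivial
            exact Submodule.mem_sup.mp h6
          rw [map_add, hQQ' v v.2 x₂ hx₂, add_zero] at hx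
          exact ⟨⟨x₁, hx₁⟩, hx⟩) (ρ '' S) (by
          rintro _ ⟨a, ha, rfl⟩ _ ⟨b, hb, rfl⟩
          ext v
          have h6 : ∀ (a b : Module.End F V), a ∈ S → b ∈ S →
              (((ρ a * ρ b) v : Q) : V) = a (b v) := by
            intro a b ha hb
            rw [Module.End.mul_apply, hρ a (hsub a ha), hρ b (hsub b hb)]
          rw [h6 a b ha hb, h6 b a hb ha]
          have := congrArg (fun φ : Module.End F V => φ (v : V)) (hcomm a ha b hb)
          simpa using this) (by
          rintro _ ⟨a, ha, rfl⟩
          ext v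
          rw [Module.End.mul_apply, hρ a (hsub a ha), hρ a (hsub a ha)]
          have := congrArg (fun φ : Module.End F V => φ (v : V)) (hinv a ha)
          simpa using this) (by
          rintro _ ⟨a, ha, rfl⟩ u v
          change B ((ρ a u : Q) : V) ((ρ a v : Q) : V) = B u v
          rw [hρ a (hsub a ha), hρ a (hsub a ha)]
          exact hiso a ha u v) hpos'
        rw [Submodule.map_span]
        exact h5
      obtain ⟨ρP, hρP, hP2⟩ := key P M hcompl hP0 hM0 hPM hSP
      obtain ⟨ρM, hρM, hM2⟩ := key M P hcompl.symm hM0 hP0 hMP hSM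
      let T := Submodule.span F S
      let L : T →ₗ[F] (T.map ρP) × (T.map ρM) := (ρP.submoduleMap T).prod (ρM.submoduleMap T)
      have hL : Function.Injective L := by
        refine (injective_iff_map_eq_zero L).mpr ?_
        intro a ha
        have h1 : ρP a = 0 := congrArg (fun x => ((x.1 : T.map ρP) : Module.End F P)) ha
        have h3 : ρM a = 0 := congrArg (fun x => ((x.2 : T.map ρM) : Module.End F M)) ha
        apply Subtype.ext
        ext v
        obtain ⟨x₁, hx₁, x₂, hx₂, rfl⟩ : ∃ x₁ ∈ P, ∃ x₂ ∈ M, x₁ + x₂ = v := by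
          have h6 : v ∈ P ⊔ M := by
            rw [hcompl.sup_eq_top]
            trivial
          exact Submodule.mem_sup.mp h6
        have h4 := hρP a a.2 ⟨x₁, hx₁⟩
        have h5 := hρM a a.2 ⟨x₂, hx₂⟩
        rw [h1] at h4
        rw [h3] at h5
        simp only [LinearMap.zero_apply, Submodule.coe_zero] at h4 h5
        simp only [ZeroMemClass.coe_zero, LinearMap.zero_apply, map_add, ← h4, ← h5, add_zero]
      have h6 := LinearMap.finrank_le_finrank_of_injective hL
      haveI : Module.Free F (T.map ρP) := @Module.Free.of_divisionRing F (T.map ρP) _ (Submodule.addCommGroup _) (Submodule.module _)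
      haveI : Module.Free F (T.map ρM) := @Module.Free.of_divisionRing F (T.map ρM) _ (Submodule.addCommGroup _) (Submodule.module _)
      rw [Module.finrank_prod] at h6
      have h7 := Submodule.finrank_add_eq_of_isCompl hcompl
      have h8 : finrank F T ≤ finrank F (T.map ρP) + finrank F (T.map ρM) := h6
      have h10 : 2 * finrank F (T.map ρP) ≤ finrank F P := hP2
      have h11 : 2 * finrank F (T.map ρM) ≤ finrank F M := hM2
      change 2 * finrank F T ≤ n
      omega


end Abstract

variable {ι : Type} [Fintype ι] [DecidableEq ι] {F : Type*} [Field F]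
variable {σ : F ≃+* F} {ε : F} {f : (ι → F) → (ι → F) → F}

/-- The isometry group of a form. -/
def isomG (f : (ι → F) → (ι → F) → F) : Subgroup (GL ι F) where
  carrier := {g | ∀ u v, f ((g : Matrix ι ι F) *ᵥ u) ((g : Matrix ι ι F) *ᵥ v) = f u v}
  mul_mem' {a b} ha hb u v := by
    rw [Units.val_mul, ← Matrix.mulVec_mulVec, ← Matrix.mulVec_mulVec, ha, hb]
  one_mem' u v := by simp
  inv_mem' {a} ha u v := by
    have h := ha (((a⁻¹ : GL ι F) : Matrix ι ι F) *ᵥ u) (((a⁻¹ : GL ι F) : Matrix ι ι F) *ᵥ v)
    rw [mulVec_inv_mulVec, mulVec_inv_mulVec] at h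
    exact h.symm

theorem mem_isomG {g : GL ι F} : g ∈ isomG f ↔ ∀ u v, f ((g : Matrix ι ι F) *ᵥ u) ((g : Matrix ι ι F) *ᵥ v) = f u v :=
  Iff.rfl

theorem isomG_le_similarity : isomG f ≤ similarityGroup f := fun _ hg => ⟨1, fun u v => by rw [hg u v]; simp⟩

/-- The multiplier is unique. -/
theorem mult_unique [Nonempty ι] (hf : ReflForm σ ε f) {c d : F} (h : ∀ u v, c * f u v = d * f u v) : c = d := by
  obtain ⟨i⟩ := ‹Nonempty ι›
  have hv : (Pi.single i 1 : ι → F) ≠ 0 := by
    intro h
    have := congrFun h i
    simp at this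
  obtain ⟨⟨x, hx⟩, -⟩ := hf.nondeg _ hv
  exact mul_right_cancel₀ hx (h _ _)

/-- The multiplier. -/
noncomputable def multFn (g : similarityGroup f) : Fˣ := Classical.choose g.2

theorem multFn_spec (g : similarityGroup f) (u v : ι → F) :
    f (((g : GL ι F) : Matrix ι ι F) *ᵥ u) (((g : GL ι F) : Matrix ι ι F) *ᵥ v) = (multFn g : F) * f u v :=
  Classical.choose_spec g.2 u v

/-- The multiplier homomorphism. -/
noncomputable def multG [Nonempty ι] (hf : ReflForm σ ε f) : similarityGroup f →* Fˣ :=
  MonoidHom.mk' multFn (fun a b => by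
    apply Units.ext
    apply mult_unique hf
    intro u v
    have h1 := multFn_spec (a * b) u v
    have h2 := multFn_spec a (((b : GL ι F) : Matrix ι ι F) *ᵥ u) (((b : GL ι F) : Matrix ι ι F) *ᵥ v)
    have h3 := multFn_spec b u v
    rw [Matrix.mulVec_mulVec, Matrix.mulVec_mulVec, h3] at h2
    have h4 : (((a * b : similarityGroup f) : GL ι F) : Matrix ι ι F) = ((a : GL ι F) : Matrix ι ι F) * ((b : GL ι F) : Matrix ι ι F) := rfl
    rw [h4, h2] at h1
    rw [Units.val_mul, ← h1, mul_assoc])

theorem multG_spec [Nonempty ι] (hf : ReflForm σ ε f) (g : similarityGroup f) (u v : ι → F) :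
    f (((g : GL ι F) : Matrix ι ι F) *ᵥ u) (((g : GL ι F) : Matrix ι ι F) *ᵥ v) = (multG hf g : F) * f u v :=
  multFn_spec g u v

theorem multG_eq_one_iff [Nonempty ι] (hf : ReflForm σ ε f) (g : similarityGroup f) :
    multG hf g = 1 ↔ (g : GL ι F) ∈ isomG f := by
  constructor
  · intro h u v
    rw [multG_spec hf, h, Units.val_one, one_mul]
  · intro h
    apply Units.ext
    apply mult_unique hf
    intro u v
    rw [← multG_spec hf, h u v, Units.val_one, one_mul]

/-- Conjugation by a similarity preserves the isometry group. -/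
theorem conj_mem_isomG {g x : GL ι F} (hg : g ∈ similarityGroup f) (hx : x ∈ isomG f) : g * x * g⁻¹ ∈ isomG f := by
  obtain ⟨c, hc⟩ := hg
  intro u v
  have h1 := hx (((g⁻¹ : GL ι F) : Matrix ι ι F) *ᵥ u) (((g⁻¹ : GL ι F) : Matrix ι ι F) *ᵥ v)
  have h2 := hc (((g⁻¹ : GL ι F) : Matrix ι ι F) *ᵥ u) (((g⁻¹ : GL ι F) : Matrix ι ι F) *ᵥ v)
  have h3 := hc ((x : Matrix ι ι F) *ᵥ ((g⁻¹ : GL ι F) : Matrix ι ι F) *ᵥ u) ((x : Matrix ι ι F) *ᵥ ((g⁻¹ : GL ι F) : Matrix ι ι F) *ᵥ v)
  rw [mulVec_inv_mulVec, mulVec_inv_mulVec] at h2
  rw [Units.val_mul, Units.val_mul, ← Matrix.mulVec_mulVec, ← Matrix.mulVec_mulVec, ← Matrix.mulVec_mulVec,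
    ← Matrix.mulVec_mulVec, h3, h1, h2]

section Symp

variable [Fintype F] [Nonempty ι] {G R : Subgroup (GL ι F)} {r s : ℕ}

/-- The isometries inside a symplectic-type group. -/
theorem SympData.isomData (hf : ReflForm σ ε f) (D : SympData G R r s) (hGs : G ≤ similarityGroup f) (hD : Dich G) :
    SympData G (R ⊓ isomG f) r s := by
  have hRs : R ≤ similarityGroup f := D.le.trans hGs
  have hnorm : Normalizes G (R ⊓ isomG f) := fun g hg x hx =>
    ⟨D.norm g hg x hx.1, conj_mem_isomG (hGs hg) hx.2⟩
  have hle : R ⊓ isomG f ≤ G := inf_le_left.trans D.le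
  have hnotZ : ¬ R ⊓ isomG f ≤ scalars ι F := by
    intro hZ
    apply SympData.not_comm D
    let φ : R →* Fˣ := (multG hf).comp (Subgroup.inclusion hRs)
    have hker : φ.ker ≤ Subgroup.center R := by
      intro x hx
      rw [MonoidHom.mem_ker] at hx
      have h1 : (x : GL ι F) ∈ isomG f := (multG_eq_one_iff hf (Subgroup.inclusion hRs x)).mp hx
      have h2 : (x : GL ι F) ∈ scalars ι F := hZ ⟨x.2, h1⟩
      exact (SympData.mem_center_iff D x).mpr h2
    intro a ha b hb
    have h3 := commutative_of_cyclic_center_quotient φ hker ⟨a, ha⟩ ⟨b, hb⟩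
    exact congrArg Subtype.val h3
  obtain ⟨hirr, hcs⟩ := (hD _ hle hnorm).resolve_left hnotZ
  exact
    { prime := D.prime
      hs := D.hs
      hchar := D.hchar
      norm := hnorm
      irr := hirr
      cs := hcs
      notZ := hnotZ
      pow_s := fun x hx => D.pow_s x hx.1
      le := hle
      comm := fun x hx y hy => D.comm x hx.1 y hy.1
      comm_pow := fun x hx y hy => D.comm_pow x hx.1 y hy.1 }

/-- A scalar isometry of a bilinear form squares to one. -/
theorem scal_sq_of_isom (hf : ReflForm (RingEquiv.refl F) ε f) {u : Fˣ} (h : scal ι F u ∈ isomG f) : (u : F) * u = 1 := by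
  apply mult_unique hf
  intro a b
  have h1 := h a b
  rw [coe_scal, Matrix.smul_mulVec, Matrix.smul_mulVec, Matrix.one_mulVec, Matrix.one_mulVec, hf.smul_left,
    hf.smul_right] at h1
  change (u : F) * ((u : F) * f a b) = f a b at h1
  rw [one_mul, mul_assoc, h1]

/-- For a bilinear form: the prime is two, the characteristic is not two. -/
theorem SympData.refl_facts (hf : ReflForm (RingEquiv.refl F) ε f) (D : SympData G R r s) (hR : R ≤ isomG f) :
    r = 2 ∧ s = 4 ∧ (2 : F) ≠ 0 ∧ scal ι F (-1) ∈ R ∧
      ∀ x ∈ R, x ∈ scalars ι F → x = 1 ∨ x = scal ι F (-1) := by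
  classical
  obtain ⟨x, hx, hxZ⟩ := Set.not_subset.mp D.notZ
  obtain ⟨y, hy, u, hu, h⟩ := SympData.exists_noncomm D hx hxZ
  have hmem : scal ι F u ∈ R := by
    rw [← h]
    exact mul_mem (mul_mem (mul_mem hy hx) (inv_mem hy)) (inv_mem hx)
  have hsq := scal_sq_of_isom hf (hR hmem)
  have hu1 : (u : F) ≠ 1 := fun h => hu (Units.ext h)
  have hum : (u : F) = -1 := by
    have h1 : ((u : F) - 1) * ((u : F) + 1) = 0 := by
      ring_nf
      rw [sq, hsq]
      ring
    rcases mul_eq_zero.mp h1 with h2 | h2
    · exact absurd (sub_eq_zero.mp h2) hu1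
    · exact eq_neg_of_add_eq_zero_left h2
  have hu' : u = -1 := Units.ext (by simpa using hum)
  have h2 : (2 : F) ≠ 0 := by
    intro h0
    apply hu1
    rw [hum]
    linear_combination (-1 : F) * h0
  have hr2 : r = 2 := by
    have h3 : u ^ r = 1 := by
      apply scal_injective (ι := ι)
      rw [map_pow, ← h, D.comm_pow y hy x hx, map_one]
    have h4 : u ≠ 1 := hu
    rcases D.prime.eq_two_or_odd' with h5 | h5
    · exact h5
    · exfalso
      rw [hu', h5.neg_one_pow] at h3
      apply h4
      rw [hu']
      have h6 : (-1 : Fˣ) = 1 := h3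
      exact h6
  subst hr2
  refine ⟨rfl, by rw [D.hs]; decide, h2, by rw [← hu']; exact hmem, ?_⟩
  intro z hzR hzZ
  obtain ⟨v, rfl⟩ := mem_scalars_iff_scal.mp hzZ
  have hv := scal_sq_of_isom hf (hR hzR)
  have h1 : ((v : F) - 1) * ((v : F) + 1) = 0 := by
    ring_nf
    rw [sq, hv]
    ring
  rcases mul_eq_zero.mp h1 with h3 | h3
  · left
    have : v = 1 := Units.ext (sub_eq_zero.mp h3)
    rw [this, map_one]
  · right
    have : v = -1 := Units.ext (by simpa using eq_neg_of_add_eq_zero_left h3)
    rw [this]

/-- The centre has order two. -/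
theorem SympData.card_center_refl (hf : ReflForm (RingEquiv.refl F) ε f) (D : SympData G R r s) (hR : R ≤ isomG f) :
    Nat.card (Subgroup.center R) = 2 := by
  obtain ⟨-, -, h2, hmem, huniq⟩ := SympData.refl_facts hf D hR
  have hne : scal ι F (-1) ≠ 1 := by
    intro h
    have h1 : (-1 : Fˣ) = 1 := scal_injective (ι := ι) (by rw [h, map_one])
    have h3 := congrArg Units.val h1
    simp only [Units.val_neg, Units.val_one] at h3
    apply h2
    linear_combination (-1 : F) * h3
  have hmemZ : (⟨scal ι F (-1), hmem⟩ : R) ∈ Subgroup.center R :=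
    (SympData.mem_center_iff D _).mpr (SympType.scal_mem _)
  rw [Nat.card_eq_two_iff' (1 : Subgroup.center R)]
  refine ⟨⟨⟨scal ι F (-1), hmem⟩, hmemZ⟩, fun h => hne ?_, ?_⟩
  · exact congrArg (fun x : Subgroup.center R => ((x : R) : GL ι F)) h
  · rintro ⟨⟨x, hx⟩, hxZ⟩ hne'
    have h3 := (SympData.mem_center_iff D _).mp hxZ
    rcases huniq x hx h3 with h4 | h4
    · exfalso
      apply hne'
      apply Subtype.ext
      apply Subtype.ext
      exact h4
    · apply Subtype.ext
      apply Subtype.ext
      exact h4

/-- The symplectic-type group is of minus type when it fixes an alternating form. -/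
theorem SympData.isOfMinusType (hf : IsSymplecticForm f) (D : SympData G R r s) (hR : R ≤ isomG f) {k : ℕ}
    (hk : Fintype.card ι = 2 ^ k) : IsOfMinusType k R := by
  classical
  obtain ⟨-, -, h2, hmem, huniq⟩ := SympData.refl_facts (reflForm_symplectic hf) D hR
  intro A hcomm hinv
  -- the bilinear form
  let B : (ι → F) →ₗ[F] (ι → F) →ₗ[F] F :=
    LinearMap.mk₂ F f hf.bilinear.add_left hf.bilinear.smul_left hf.bilinear.add_right hf.bilinear.smul_right
  let e : A → GL ι F := fun a => ((a : R) : GL ι F)
  have heR : ∀ a, e a ∈ R := fun a => (a : R).2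
  have hmulL : ∀ M N : Matrix ι ι F, (Matrix.toLin' M : Module.End F (ι → F)) * Matrix.toLin' N = Matrix.toLin' (M * N) :=
    fun M N => (Matrix.toLin'_mul M N).symm
  let S : Set (Module.End F (ι → F)) := Set.range fun a : A => Matrix.toLin' (e a : Matrix ι ι F)
  have hS := two_finrank_span_le h2 (2 ^ k) (ι → F) (by simp [hk]) B hf.alternating
    (fun v hv => (hf.nondegenerate v hv).2) S (by
      rintro _ ⟨a, rfl⟩ _ ⟨b, rfl⟩
      beta_reduce
      rw [hmulL, hmulL]
      have h3 : a * b = b * a := hcomm.is_comm.comm a b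
      have h4 : e a * e b = e b * e a := congrArg (fun x : A => ((x : R) : GL ι F)) h3
      have h5 := congrArg (fun x : GL ι F => (x : Matrix ι ι F)) h4
      simp only [Units.val_mul] at h5
      rw [h5]) (by
      rintro _ ⟨a, rfl⟩
      beta_reduce
      rw [hmulL]
      have h3 : (a : R) * (a : R) = 1 := hinv _ a.2
      have h4 : e a * e a = 1 := congrArg (fun x : R => (x : GL ι F)) h3
      have h5 := congrArg (fun x : GL ι F => (x : Matrix ι ι F)) h4
      simp only [Units.val_mul, Units.val_one] at h5
      rw [h5, Matrix.toLin'_one]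
      rfl) (by
      rintro _ ⟨a, rfl⟩ u v
      exact hR (heR a) u v) (by positivity)
  -- the quotient by the scalars
  let K : Subgroup A := (scalars ι F).comap ((R.subtype).comp (A.subtype))
  let J := A ⧸ K
  letI : Fintype J := Fintype.ofFinite J
  let x : J → GL ι F := fun j => e (Quotient.out j)
  have hmk : ∀ j : J, (QuotientGroup.mk (Quotient.out j) : J) = j := fun j => QuotientGroup.out_eq' j
  have hne : ∀ j j', j ≠ j' → (x j)⁻¹ * x j' ∉ scalars ι F := by
    intro j j' hj h
    apply hj
    rw [← hmk j, ← hmk j']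
    refine QuotientGroup.eq.mpr ?_
    exact h
  have hli := SympData.linearIndependent_reps D x (fun j => heR _) hne
  have hli2 : LinearIndependent F (fun j => Matrix.toLin' (x j : Matrix ι ι F)) := by
    have := hli.map' (Matrix.toLin' : Matrix ι ι F ≃ₗ[F] _).toLinearMap (LinearEquiv.ker _)
    exact this
  have hcardJ : Fintype.card J ≤ finrank F (Submodule.span F S) := by
    have h3 := finrank_span_eq_card hli2
    rw [← h3]
    refine Submodule.finrank_mono (Submodule.span_mono ?_)
    rintro _ ⟨j, rfl⟩
    exact ⟨Quotient.out j, rfl⟩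
  have hK : Nat.card K ≤ 2 := by
    have h3 : Nat.card K ≤ Nat.card (Fin 2) := by
      refine Nat.card_le_card_of_injective (fun z : K => if ((z : A) : R) = (1 : R) then (0 : Fin 2) else 1) ?_
      intro a b hab
      have hb : ∀ z : K, (((z : A) : R) : GL ι F) = 1 ∨ (((z : A) : R) : GL ι F) = scal ι F (-1) := fun z =>
        huniq _ (z : A).1.2 z.2
      have hval : ∀ a b : K, (((a : A) : R) : GL ι F) = (((b : A) : R) : GL ι F) → a = b := fun a b h =>
        Subtype.ext (Subtype.ext (Subtype.ext h))
      have hone : ∀ z : K, ((z : A) : R) = (1 : R) ↔ (((z : A) : R) : GL ι F) = 1 := fun z =>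
        ⟨fun h => congrArg Subtype.val h, fun h => Subtype.ext h⟩
      by_cases ha : ((a : A) : R) = (1 : R) <;> by_cases hb' : ((b : A) : R) = (1 : R)
      · apply hval
        rw [(hone a).mp ha, (hone b).mp hb']
      · simp [ha, hb'] at hab
      · simp [ha, hb'] at hab
      · apply hval
        rw [(hb a).resolve_left (fun h => ha ((hone a).mpr h)), (hb b).resolve_left (fun h => hb' ((hone b).mpr h))]
    simpa using h3
  have hcardA : Nat.card A = Nat.card J * Nat.card K := Subgroup.card_eq_card_quotient_mul_card_subgroup K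
  rw [Nat.card_eq_fintype_card (α := J)] at hcardA
  have h5 : Nat.card A ≤ 2 * Fintype.card J := by
    rw [hcardA, mul_comm]
    exact Nat.mul_le_mul_right _ hK
  rw [pow_succ]
  have : 0 < 2 ^ k := by positivity
  omega

end Symp

end Cfsg.Agent.Lib.Classical.Asch.FormSympType
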