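import Mathlib
import Cfsg.Agent.Lib.Classical.Asch.FormSim

/-!
# A two-dimensional symmetric tensor factor

If `f = J₁ ⊗ J₂` with `J₂` symmetric on `F²` (odd characteristic), the element `j = J₂⁻¹ S` (`S` alternating) generates
a stable commutative adjoint-closed subalgebra.
-/

set_option autoImplicit false
set_option linter.style.haveILetI false
set_option linter.unusedSectionVars false

namespace Cfsg.Agent.Lib.Classical.Asch.FormTwo

open scoped MatrixGroups Matrix Kronecker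
open Cfsg.Geo Cfsg.Agent.Lib.Classical.Asch.Basic Cfsg.Agent.Lib.Classical.Asch.Forms
open Cfsg.Agent.Lib.Classical.Asch.Adj Cfsg.Agent.Lib.Classical.Asch.FormDich
open Cfsg.Agent.Lib.Classical.Asch.FormTensor Cfsg.Agent.Lib.Classical.Asch.FormSim
open Cfsg.Agent.Lib.Classical.Asch.FormComm Cfsg.Agent.Lib.Classical.Asch.Gram

variable {F : Type*} [Field F]

/-- The alternating form on `F²`. -/
def omega₂ : Matrix (Fin 2) (Fin 2) F := !![0, 1; -1, 0]

theorem omega₂_transpose : (omega₂ : Matrix (Fin 2) (Fin 2) F)ᵀ = -omega₂ := by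
  ext i j
  fin_cases i <;> fin_cases j <;> simp [omega₂]

theorem transpose_omega₂_mul (b : Matrix (Fin 2) (Fin 2) F) : bᵀ * omega₂ * b = b.det • omega₂ := by
  ext i j
  fin_cases i <;> fin_cases j <;>
    simp [omega₂, Matrix.mul_apply, Fin.sum_univ_two, Matrix.det_fin_two] <;> ring

/-- The conjugation rule for `j = J⁻¹ S`. -/
theorem conj_j (J b : GL (Fin 2) F) {μ : F}
    (h₁ : (b : Matrix (Fin 2) (Fin 2) F)ᵀ * (J : Matrix (Fin 2) (Fin 2) F) * (b : Matrix (Fin 2) (Fin 2) F) =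
      μ • (J : Matrix (Fin 2) (Fin 2) F)) :
    μ • (((J⁻¹ : GL (Fin 2) F) : Matrix (Fin 2) (Fin 2) F) * omega₂ * (b : Matrix (Fin 2) (Fin 2) F)) =
      (b : Matrix (Fin 2) (Fin 2) F).det • ((b : Matrix (Fin 2) (Fin 2) F) * (((J⁻¹ : GL (Fin 2) F) : Matrix (Fin 2) (Fin 2) F) * omega₂)) := by
  set B : Matrix (Fin 2) (Fin 2) F := (b : Matrix (Fin 2) (Fin 2) F)ᵀ with hB
  have hBu : IsUnit (B * (J : Matrix (Fin 2) (Fin 2) F)) := by
    refine IsUnit.mul ?_ J.isUnit
    rw [hB]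
    exact (Matrix.isUnit_transpose _).mpr b.isUnit
  have hJJ : (J : Matrix (Fin 2) (Fin 2) F) * ((J⁻¹ : GL (Fin 2) F) : Matrix (Fin 2) (Fin 2) F) = 1 := by
    rw [← Units.val_mul, mul_inv_cancel, Units.val_one]
  apply hBu.mul_left_cancel
  have h2 := transpose_omega₂_mul (b : Matrix (Fin 2) (Fin 2) F)
  rw [Matrix.mul_smul, Matrix.mul_smul]
  have h3 : B * (J : Matrix (Fin 2) (Fin 2) F) * (((J⁻¹ : GL (Fin 2) F) : Matrix (Fin 2) (Fin 2) F) * omega₂ * (b : Matrix (Fin 2) (Fin 2) F)) =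
      (b : Matrix (Fin 2) (Fin 2) F).det • omega₂ := by
    rw [← h2, ← hB]
    calc _ = B * ((J : Matrix (Fin 2) (Fin 2) F) * ((J⁻¹ : GL (Fin 2) F) : Matrix (Fin 2) (Fin 2) F)) * omega₂ * (b : Matrix (Fin 2) (Fin 2) F) := by
          simp only [mul_assoc]
      _ = _ := by rw [hJJ, mul_one]
  have h4 : B * (J : Matrix (Fin 2) (Fin 2) F) * ((b : Matrix (Fin 2) (Fin 2) F) * (((J⁻¹ : GL (Fin 2) F) : Matrix (Fin 2) (Fin 2) F) * omega₂)) =
      μ • omega₂ := by
    calc _ = (B * (J : Matrix (Fin 2) (Fin 2) F) * (b : Matrix (Fin 2) (Fin 2) F)) * (((J⁻¹ : GL (Fin 2) F) : Matrix (Fin 2) (Fin 2) F) * omega₂) := by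
          simp only [mul_assoc]
      _ = μ • ((J : Matrix (Fin 2) (Fin 2) F) * ((J⁻¹ : GL (Fin 2) F) : Matrix (Fin 2) (Fin 2) F) * omega₂) := by
          rw [h₁, Matrix.smul_mul, mul_assoc]
      _ = _ := by rw [hJJ, one_mul]
  rw [h3, h4, smul_smul, smul_smul, mul_comm]

variable {ι : Type} [Fintype ι] [DecidableEq ι] {ε : F} {f : (ι → F) → (ι → F) → F}

theorem TensorData.comm_of_two [Fintype F] [Nonempty ι] (hf : ReflForm (RingEquiv.refl F) ε f) {G : Subgroup (GL ι F)} {d : ℕ}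
    {e : ι ≃ Fin d × Fin 2} {P : GL ι F} {J₁ : GL (Fin d) F} {J₂ : GL (Fin 2) F} {ε₁ ε₂ c : F}
    (T : TensorData (RingEquiv.refl F) ε f G d 2 e P J₁ J₂ ε₁ ε₂ c) (h2 : (2 : F) ≠ 0)
    (hJ₂ : (J₂ : Matrix (Fin 2) (Fin 2) F)ᵀ = J₂)
    (hG : ∀ W : Submodule F (ι → F), Inv G W → W = ⊥ ∨ W = ⊤) (hGs : G ≤ similarityGroup f) :
    CommOutcome (RingEquiv.refl F) f G := by
  classical
  haveI : Nonempty (Fin d) := ⟨⟨0, by have := T.hd; omega⟩⟩
  obtain ⟨j, hj⟩ : ∃ j : Matrix (Fin 2) (Fin 2) F, j = ((J₂⁻¹ : GL (Fin 2) F) : Matrix (Fin 2) (Fin 2) F) * omega₂ := ⟨_, rfl⟩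
  obtain ⟨M, hM⟩ : ∃ M : Matrix ι ι F, M = ((1 : Matrix (Fin d) (Fin d) F) ⊗ₖ j).submatrix e e := ⟨_, rfl⟩
  obtain ⟨z, hz⟩ : ∃ z : Matrix ι ι F, z = (P : Matrix ι ι F) * M * ((P⁻¹ : GL ι F) : Matrix ι ι F) := ⟨_, rfl⟩
  set E : Subalgebra F (Matrix ι ι F) := Algebra.adjoin F {z} with hE
  have hzE : z ∈ E := Algebra.subset_adjoin rfl
  -- conjugation on `z`
  have hconj : ∀ g ∈ G, ∃ l : F, Basic.conj g z = l • z := by
    intro g hg
    obtain ⟨a, b, μ₁, μ₂, hμ₁, hμ₂, hab, -, hb⟩ := TensorData.sim_factors T hGs hg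
    have hb' : (b : Matrix (Fin 2) (Fin 2) F)ᵀ * (J₂ : Matrix (Fin 2) (Fin 2) F) * (b : Matrix (Fin 2) (Fin 2) F) =
        μ₂ • (J₂ : Matrix (Fin 2) (Fin 2) F) := by
      simpa using hb
    have hrel := conj_j J₂ b hb'
    rw [← hj] at hrel
    have hdet : (b : Matrix (Fin 2) (Fin 2) F).det ≠ 0 := by
      have := (Matrix.isUnit_iff_isUnit_det _).mp b.isUnit
      exact this.ne_zero
    obtain ⟨X, hX⟩ : ∃ X : GL ι F, X = P⁻¹ * g * P := ⟨_, rfl⟩
    have hXm : (X : Matrix ι ι F) = ((a : Matrix (Fin d) (Fin d) F) ⊗ₖ (b : Matrix (Fin 2) (Fin 2) F)).submatrix e e := by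
      ext i j
      rw [hX, hab]
      rfl
    have h1 : (b : Matrix (Fin 2) (Fin 2) F).det • ((X : Matrix ι ι F) * M) = μ₂ • (M * (X : Matrix ι ι F)) := by
      rw [hXm, hM, Matrix.submatrix_mul_equiv, Matrix.submatrix_mul_equiv, ← Matrix.mul_kronecker_mul, ← Matrix.mul_kronecker_mul,
        mul_one, one_mul]
      ext i i'
      have h3 := congrFun (congrFun hrel (e i).2) (e i').2
      simp only [Matrix.smul_apply, smul_eq_mul] at h3
      simp only [Matrix.smul_apply, Matrix.submatrix_apply, Matrix.kroneckerMap_apply, smul_eq_mul]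
      linear_combination (-((a : Matrix (Fin d) (Fin d) F) (e i).1 (e i').1)) * h3
    have hgP : (g : Matrix ι ι F) * (P : Matrix ι ι F) = (P : Matrix ι ι F) * (X : Matrix ι ι F) := by
      rw [hX, ← Units.val_mul, ← Units.val_mul]
      congr 1
      group
    have hXP : (X : Matrix ι ι F) * ((P⁻¹ : GL ι F) : Matrix ι ι F) = ((P⁻¹ : GL ι F) : Matrix ι ι F) * (g : Matrix ι ι F) := by
      rw [hX, ← Units.val_mul, ← Units.val_mul]
      congr 1
      group
    have hgg : (g : Matrix ι ι F) * ((g⁻¹ : GL ι F) : Matrix ι ι F) = 1 := by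
      rw [← Units.val_mul, mul_inv_cancel, Units.val_one]
    have h2' : (X : Matrix ι ι F) * M = ((b : Matrix (Fin 2) (Fin 2) F).det⁻¹ * μ₂) • (M * (X : Matrix ι ι F)) := by
      rw [mul_smul, ← h1, smul_smul, inv_mul_cancel₀ hdet, one_smul]
    refine ⟨(b : Matrix (Fin 2) (Fin 2) F).det⁻¹ * μ₂, ?_⟩
    calc Basic.conj g z = (g : Matrix ι ι F) * (P : Matrix ι ι F) * M * ((P⁻¹ : GL ι F) : Matrix ι ι F) * ((g⁻¹ : GL ι F) : Matrix ι ι F) := by
          rw [hz]
          simp only [Basic.conj, mul_assoc]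
      _ = (P : Matrix ι ι F) * ((X : Matrix ι ι F) * M) * ((P⁻¹ : GL ι F) : Matrix ι ι F) * ((g⁻¹ : GL ι F) : Matrix ι ι F) := by
          rw [hgP]
          simp only [mul_assoc]
      _ = ((b : Matrix (Fin 2) (Fin 2) F).det⁻¹ * μ₂) • ((P : Matrix ι ι F) * M * ((X : Matrix ι ι F) * ((P⁻¹ : GL ι F) : Matrix ι ι F)) * ((g⁻¹ : GL ι F) : Matrix ι ι F)) := by
          rw [h2']
          simp only [Matrix.mul_smul, Matrix.smul_mul, mul_assoc]
      _ = ((b : Matrix (Fin 2) (Fin 2) F).det⁻¹ * μ₂) • ((P : Matrix ι ι F) * M * ((P⁻¹ : GL ι F) : Matrix ι ι F) * ((g : Matrix ι ι F) * ((g⁻¹ : GL ι F) : Matrix ι ι F))) := by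
          rw [hXP]
          simp only [mul_assoc]
      _ = _ := by
          rw [hgg, mul_one, ← hz]
  -- stability
  have hstable : Stable G (E : Set (Matrix ι ι F)) := by
    intro g hg x hx
    obtain ⟨l, hl⟩ := hconj g hg
    change x ∈ E at hx
    change Basic.conj g x ∈ E
    induction hx using Algebra.adjoin_induction with
    | mem x hx =>
      rw [Set.mem_singleton_iff] at hx
      rw [hx, hl]
      exact E.smul_mem hzE l
    | algebraMap c =>
      have : Basic.conj g (algebraMap F (Matrix ι ι F) c) = algebraMap F (Matrix ι ι F) c := by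
        rw [Algebra.algebraMap_eq_smul_one, Basic.conj_smul, Basic.conj_one]
      rw [this]
      exact E.algebraMap_mem c
    | add x y _ _ hx hy =>
      rw [Basic.conj_add]
      exact E.add_mem hx hy
    | mul x y _ _ hx hy =>
      rw [Basic.conj_mul]
      exact E.mul_mem hx hy
  have hcomm : ∀ x ∈ E, ∀ y ∈ E, x * y = y * x := by
    intro x hx y hy
    have h1 : Commute z y := Algebra.commute_of_mem_adjoin_self hy
    exact (Algebra.commute_of_mem_adjoin_singleton_of_commute hx h1.symm).symm.eq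
  -- the adjoint
  have hPP : (P : Matrix ι ι F) * ((P⁻¹ : GL ι F) : Matrix ι ι F) = 1 := by
    rw [← Units.val_mul, mul_inv_cancel, Units.val_one]
  have hJJ : (J₂ : Matrix (Fin 2) (Fin 2) F) * ((J₂⁻¹ : GL (Fin 2) F) : Matrix (Fin 2) (Fin 2) F) = 1 := by
    rw [← Units.val_mul, mul_inv_cancel, Units.val_one]
  have hJj : (J₂ : Matrix (Fin 2) (Fin 2) F) * j = omega₂ := by
    rw [hj, ← mul_assoc, hJJ, one_mul]
  have hjJ : jᵀ * (J₂ : Matrix (Fin 2) (Fin 2) F) = -omega₂ := by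
    rw [hj, Matrix.transpose_mul, omega₂_transpose]
    have h3 : ((J₂⁻¹ : GL (Fin 2) F) : Matrix (Fin 2) (Fin 2) F)ᵀ * (J₂ : Matrix (Fin 2) (Fin 2) F) = 1 := by
      conv_lhs => rw [← hJ₂]
      rw [← Matrix.transpose_mul, hJJ, Matrix.transpose_one]
    rw [mul_assoc, h3, mul_one]
  set A : Matrix ι ι F := ((J₁ : Matrix (Fin d) (Fin d) F) ⊗ₖ (J₂ : Matrix (Fin 2) (Fin 2) F)).submatrix e e with hA
  have hMA : Mᵀ * A = A * (-M) := by
    rw [hM, hA, Matrix.transpose_submatrix, Matrix.mul_neg, Matrix.submatrix_mul_equiv, Matrix.submatrix_mul_equiv, transpose_kron,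
      ← Matrix.mul_kronecker_mul, ← Matrix.mul_kronecker_mul, Matrix.transpose_one, one_mul, mul_one, hjJ, hJj]
    ext i i'
    simp
  have hadjz : adj (RingEquiv.refl F) f z = -z := by
    symm
    apply hf.eq_adj
    intro u v
    have h1 : u = (P : Matrix ι ι F) *ᵥ (((P⁻¹ : GL ι F) : Matrix ι ι F) *ᵥ u) := (mulVec_inv_mulVec P u).symm
    have h2' : v = (P : Matrix ι ι F) *ᵥ (((P⁻¹ : GL ι F) : Matrix ι ι F) *ᵥ v) := (mulVec_inv_mulVec P v).symm
    obtain ⟨u', hu'⟩ : ∃ u', u' = ((P⁻¹ : GL ι F) : Matrix ι ι F) *ᵥ u := ⟨_, rfl⟩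
    obtain ⟨v', hv'⟩ : ∃ v', v' = ((P⁻¹ : GL ι F) : Matrix ι ι F) *ᵥ v := ⟨_, rfl⟩
    rw [← hu'] at h1
    rw [← hv'] at h2'
    have hzP : ∀ w : ι → F, z *ᵥ ((P : Matrix ι ι F) *ᵥ w) = (P : Matrix ι ι F) *ᵥ (M *ᵥ w) := by
      intro w
      rw [hz, Matrix.mulVec_mulVec, Matrix.mulVec_mulVec, mul_assoc, mul_assoc,
        ← Units.val_mul, inv_mul_cancel, Units.val_one, mul_one]
    have hzn : (-z) *ᵥ ((P : Matrix ι ι F) *ᵥ v') = (P : Matrix ι ι F) *ᵥ ((-M) *ᵥ v') := by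
      rw [Matrix.neg_mulVec, Matrix.neg_mulVec, hzP, Matrix.mulVec_neg]
    rw [h1, h2', hzP, hzn, T.eq, T.eq, sesqM_refl, sesqM_refl, ← hA]
    congr 1
    unfold bil
    rw [Matrix.mulVec_mulVec, ← hMA, ← Matrix.mulVec_mulVec, Matrix.dotProduct_mulVec u' Mᵀ, Matrix.vecMul_transpose]
  have hA' : AdjClosed (RingEquiv.refl F) f E := by
    intro x hx
    change x ∈ E at hx
    induction hx using Algebra.adjoin_induction with
    | mem x hx =>
      rw [Set.mem_singleton_iff] at hx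
      rw [hx, hadjz]
      exact E.neg_mem hzE
    | algebraMap c =>
      rw [Algebra.algebraMap_eq_smul_one, hf.adj_smul, hf.adj_one]
      exact E.smul_mem E.one_mem _
    | add x y _ _ hx hy =>
      rw [hf.adj_add]
      exact E.add_mem hx hy
    | mul x y _ _ hx hy =>
      rw [hf.adj_mul]
      exact E.mul_mem hy hx
  have hn : ¬ ∀ x ∈ E, ∃ c : F, x = c • (1 : Matrix ι ι F) := by
    intro hall
    obtain ⟨l, hl⟩ := hall z hzE
    have hMl : M = l • 1 := by
      have h1 : M = ((P⁻¹ : GL ι F) : Matrix ι ι F) * z * (P : Matrix ι ι F) := by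
        rw [hz]
        calc M = (((P⁻¹ : GL ι F) : Matrix ι ι F) * (P : Matrix ι ι F)) * M * (((P⁻¹ : GL ι F) : Matrix ι ι F) * (P : Matrix ι ι F)) := by
              rw [← Units.val_mul, inv_mul_cancel, Units.val_one, one_mul, mul_one]
          _ = _ := by simp only [mul_assoc]
      rw [h1, hl, Matrix.mul_smul, Matrix.smul_mul, mul_one, ← Units.val_mul, inv_mul_cancel, Units.val_one]
    obtain ⟨α₀⟩ := ‹Nonempty (Fin d)›
    have hjl : j = l • 1 := by
      ext β δ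
      have h1 := congrFun (congrFun hMl (e.symm (α₀, β))) (e.symm (α₀, δ))
      rw [hM] at h1
      simp only [Matrix.submatrix_apply, Equiv.apply_symm_apply, Matrix.kroneckerMap_apply, Matrix.one_apply_eq, one_mul,
        Matrix.smul_apply, smul_eq_mul] at h1
      rw [h1]
      simp only [Matrix.smul_apply, smul_eq_mul]
      congr 1
      by_cases hβ : β = δ
      · subst hβ
        simp
      · rw [Matrix.one_apply_ne hβ, Matrix.one_apply_ne]
        intro h
        apply hβ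
        have := congrArg (fun i => (e i).2) h
        simpa using this
    have hS : (omega₂ : Matrix (Fin 2) (Fin 2) F) = l • (J₂ : Matrix (Fin 2) (Fin 2) F) := by
      rw [← hJj, hjl, Matrix.mul_smul, mul_one]
    have hSt : (omega₂ : Matrix (Fin 2) (Fin 2) F)ᵀ = omega₂ := by
      conv_lhs => rw [hS]
      rw [Matrix.transpose_smul, hJ₂, ← hS]
    have h3 := omega₂_transpose (F := F)
    rw [hSt] at h3
    have h4 := congrFun (congrFun h3 0) 1
    simp only [omega₂, Matrix.neg_apply, Matrix.cons_val', Matrix.cons_val_zero, Matrix.cons_val_one, Matrix.cons_val_fin_one, Matrix.of_apply] at h4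
    apply h2
    linear_combination h4
  exact comm_outcome hf hG hGs hstable hcomm hA' hn

end Cfsg.Agent.Lib.Classical.Asch.FormTwo
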