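import Mathlib
import Cfsg.Agent.Lib.Classical.Asch.NotSL

/-!
# Maximal subgroups of the special linear group: the raw list
-/

set_option autoImplicit false
set_option linter.style.haveILetI false
set_option linter.unusedSectionVars false

namespace Cfsg.Agent.Lib.Classical.Asch.MaxCases

open scoped MatrixGroups Matrix Kronecker
open Cfsg.Geo Cfsg.Agent.Lib.Classical.Asch.Basic
open Cfsg.Agent.Lib.Classical.Asch.Dichotomy Cfsg.Agent.Lib.Classical.Asch.MinNormal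
open Cfsg.Agent.Lib.Classical.Asch.SympType Cfsg.Agent.Lib.Classical.Asch.CaseA
open Cfsg.Agent.Lib.Classical.Asch.CaseB Cfsg.Agent.Lib.Classical.Asch.Residual
open Cfsg.Agent.Lib.Classical.Asch.Main Cfsg.Agent.Lib.Classical.Asch.NotSL

variable {ι : Type} [Fintype ι] [DecidableEq ι] {F : Type*} [Field F]

theorem eq_inf_of_le {H M : Subgroup (GL ι F)} (hH : IsMaximalIn (specialLinear ι F) H)
    (hle : H ≤ M) (hM : ¬ specialLinear ι F ≤ M) : H = M ⊓ specialLinear ι F := by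
  have hHS : H ≤ specialLinear ι F := hH.1.le
  rcases hH.2 (M ⊓ specialLinear ι F) (le_inf hle hHS) inf_le_right with h | h
  · exact h.symm
  · exact absurd (inf_eq_right.mp h) hM

theorem subfield_ne_top [Fintype F] {F₀ : Subfield F} {r : ℕ} (hr : r.Prime) (hc : Fintype.card F = Nat.card F₀ ^ r) :
    F₀ ≠ ⊤ := by
  rintro rfl
  have h1 : Nat.card (⊤ : Subfield F) = Fintype.card F := by
    rw [Nat.card_congr Subfield.topEquiv.toEquiv, Nat.card_eq_fintype_card]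
  rw [h1] at hc
  have h2 : 2 ≤ Fintype.card F := Fintype.one_lt_card
  have h3 : Fintype.card F ^ 1 < Fintype.card F ^ r := Nat.pow_lt_pow_right h2 hr.one_lt
  rw [pow_one] at h3
  omega

/-- The raw list of the maximal subgroups of the special linear group. -/
theorem max_cases {F : Type*} [Field F] [Fintype F] (n : ℕ) (hn : 3 ≤ n) (H : Subgroup (GL (Fin n) F))
    (hH : IsMaximalIn (specialLinear (Fin n) F) H) :
    (∃ W : Submodule F (Fin n → F), W ≠ ⊥ ∧ W ≠ ⊤ ∧ H = subspaceStabilizer W ⊓ specialLinear (Fin n) F) ∨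
    (∃ (t m : ℕ) (D : Fin t → Submodule F (Fin n → F)), IsMDecomposition m D ∧
      H = decompositionStabilizer D ⊓ specialLinear (Fin n) F) ∨
    (∃ (r : ℕ) (K : Subalgebra F (Matrix (Fin n) (Fin n) F)), r.Prime ∧ IsFieldSubalgebra r K ∧
      H = subalgebraNormalizer K ⊓ specialLinear (Fin n) F) ∨
    (∃ (d k : ℕ) (e : Fin n ≃ Fin d × Fin k) (P : GL (Fin n) F), 2 ≤ d ∧ d < k ∧
      H = tensorProductSubgroup d k e P ⊓ specialLinear (Fin n) F) ∨
    (∃ (F₀ : Subfield F) (r : ℕ) (P : GL (Fin n) F), r.Prime ∧ Fintype.card F = Nat.card F₀ ^ r ∧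
      H = subfieldSubgroup F₀ P ⊓ specialLinear (Fin n) F) ∨
    (∃ (r : ℕ) (R : Subgroup (GL (Fin n) F)) (m : ℕ), IsLinearSymplecticTypeData r R ∧ n = r ^ m ∧
      H = subgroupNormalizer R ⊓ specialLinear (Fin n) F) ∨
    (∃ (d t : ℕ) (e : Fin n ≃ (Fin t → Fin d)) (P : GL (Fin n) F), 3 ≤ d ∧ 2 ≤ t ∧
      H = tensorWreathSubgroup d t e P ⊓ specialLinear (Fin n) F) ∨
    (∃ f : (Fin n → F) → (Fin n → F) → F, IsSymplecticForm f ∧ H = similarityGroup f ⊓ specialLinear (Fin n) F) ∨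
    (∃ (σ : F ≃+* F) (f : (Fin n → F) → (Fin n → F) → F), IsUnitaryForm σ f ∧
      H = similarityGroup f ⊓ specialLinear (Fin n) F) ∨
    (∃ Q : (Fin n → F) → F, IsNondegenerateQuadraticForm Q ∧ Odd (Fintype.card F) ∧
      H = quadSimilarityGroup Q ⊓ specialLinear (Fin n) F) ∨
    InLinearResidualClass H := by
  classical
  haveI : Nonempty (Fin n) := ⟨⟨0, by omega⟩⟩
  have hcard : Fintype.card (Fin n) = n := Fintype.card_fin n
  have hc3 : 3 ≤ Fintype.card (Fin n) := by rw [hcard]; exact hn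
  have hc2 : 2 ≤ Fintype.card (Fin n) := by omega
  have hHG : H ≤ H ⊔ scalars (Fin n) F := le_sup_left
  -- the forms
  have cSymp : ∀ f : (Fin n → F) → (Fin n → F) → F, IsSymplecticForm f → H ⊔ scalars (Fin n) F ≤ similarityGroup f →
      (∃ f : (Fin n → F) → (Fin n → F) → F, IsSymplecticForm f ∧ H = similarityGroup f ⊓ specialLinear (Fin n) F) := by
    intro f hf hle
    exact ⟨f, hf, eq_inf_of_le hH (hHG.trans hle) (not_le_similarity hc3 hf.bilinear.add_left hf.bilinear.smul_left hf.nondegenerate)⟩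
  have cUnit : ∀ (σ : F ≃+* F) (f : (Fin n → F) → (Fin n → F) → F), IsUnitaryForm σ f →
      H ⊔ scalars (Fin n) F ≤ similarityGroup f →
      (∃ (σ : F ≃+* F) (f : (Fin n → F) → (Fin n → F) → F), IsUnitaryForm σ f ∧
      H = similarityGroup f ⊓ specialLinear (Fin n) F) := by
    intro σ f hf hle
    exact ⟨σ, f, hf, eq_inf_of_le hH (hHG.trans hle) (not_le_similarity hc3 hf.add_left hf.smul_left hf.nondegenerate)⟩
  have cQuad : ∀ Q : (Fin n → F) → F, IsNondegenerateQuadraticForm Q → Odd (Fintype.card F) →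
      H ⊔ scalars (Fin n) F ≤ quadSimilarityGroup Q →
      (∃ Q : (Fin n → F) → F, IsNondegenerateQuadraticForm Q ∧ Odd (Fintype.card F) ∧
      H = quadSimilarityGroup Q ⊓ specialLinear (Fin n) F) := by
    intro Q hQ ho hle
    exact ⟨Q, hQ, ho, eq_inf_of_le hH (hHG.trans hle) (not_le_quadSimilarity hc3 hQ)⟩
  have cSub : ∀ (F₀ : Subfield F) (r : ℕ) (B : GL (Fin n) F), r.Prime → Fintype.card F = Nat.card F₀ ^ r →
      H ⊔ scalars (Fin n) F ≤ subfieldSubgroup F₀ B →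
      (∃ (F₀ : Subfield F) (r : ℕ) (P : GL (Fin n) F), r.Prime ∧ Fintype.card F = Nat.card F₀ ^ r ∧
      H = subfieldSubgroup F₀ P ⊓ specialLinear (Fin n) F) := by
    intro F₀ r B hr hc hle
    exact ⟨F₀, r, B, hr, hc, eq_inf_of_le hH (hHG.trans hle) (not_le_subfieldSubgroup hc2 (subfield_ne_top hr hc) B)⟩
  -- wreath
  have cWreath : ∀ (d t : ℕ) (e : Fin n ≃ (Fin t → Fin d)) (P : GL (Fin n) F), 2 ≤ d → 2 ≤ t →
      H ⊔ scalars (Fin n) F ≤ tensorWreathSubgroup d t e P →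
      (∃ (d t : ℕ) (e : Fin n ≃ (Fin t → Fin d)) (P : GL (Fin n) F), 3 ≤ d ∧ 2 ≤ t ∧
        H = tensorWreathSubgroup d t e P ⊓ specialLinear (Fin n) F) ∨
      (∃ f : (Fin n → F) → (Fin n → F) → F, IsSymplecticForm f ∧ H = similarityGroup f ⊓ specialLinear (Fin n) F) ∨
      (∃ Q : (Fin n → F) → F, IsNondegenerateQuadraticForm Q ∧ Odd (Fintype.card F) ∧
        H = quadSimilarityGroup Q ⊓ specialLinear (Fin n) F) := by
    intro d t e P hd ht hle
    by_cases h3 : 3 ≤ d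
    · exact Or.inl ⟨d, t, e, P, h3, ht, eq_inf_of_le hH (hHG.trans hle) (not_le_tensorWreathSubgroup hc2 hd ht e P)⟩
    · have hd2 : d = 2 := by omega
      subst hd2
      rcases TensorTwo.tensorWreath_two_le_form ht e P with ⟨f, hf, hl⟩ | ⟨Q, hQ, ho, hl⟩
      · exact Or.inr (Or.inl (cSymp f hf (hle.trans hl)))
      · exact Or.inr (Or.inr (cQuad Q hQ ho (hle.trans hl)))
  rcases raw (by rw [hcard]; omega) H with ⟨W, h1, h2, h3⟩ | hraw | ⟨hG, hnr, hw | ⟨R, r, s, D, hscal⟩ | hsub | ⟨P, hcore, hPn⟩⟩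
  · exact Or.inl ⟨W, h1, h2, eq_inf_of_le hH (hHG.trans (le_subspaceStabilizer h3)) (not_le_subspaceStabilizer hc2 h1 h2)⟩
  · rcases hraw with ⟨t, m, D, hD, hle⟩ | ⟨r, K, hr, hK, hle⟩ | ⟨d, k, e, P, hd, hk, hle⟩
    · exact Or.inr (Or.inl ⟨t, m, D, hD, eq_inf_of_le hH (hHG.trans hle) (not_le_decompositionStabilizer hc2 hD)⟩)
    · exact Or.inr (Or.inr (Or.inl ⟨r, K, hr, hK, eq_inf_of_le hH (hHG.trans hle)
        (not_le_subalgebraNormalizer hc3 hr.two_le hK)⟩))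
    · rcases lt_trichotomy d k with hlt | heq | hgt
      · exact Or.inr (Or.inr (Or.inr (Or.inl ⟨d, k, e, P, hd, hlt, eq_inf_of_le hH (hHG.trans hle)
          (not_le_tensorProductSubgroup hc2 hd hk e P)⟩)))
      · subst heq
        rcases cWreath d 2 _ P hd le_rfl (hle.trans (tensorProductSubgroup_le_wreath e P)) with h | h | h
        · exact Or.inr (Or.inr (Or.inr (Or.inr (Or.inr (Or.inr (Or.inl h))))))
        · exact Or.inr (Or.inr (Or.inr (Or.inr (Or.inr (Or.inr (Or.inr (Or.inl h)))))))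
        · exact Or.inr (Or.inr (Or.inr (Or.inr (Or.inr (Or.inr (Or.inr (Or.inr (Or.inr (Or.inl h)))))))))
      · exact Or.inr (Or.inr (Or.inr (Or.inl ⟨k, d, e.trans (Equiv.prodComm _ _), P, hk, hgt,
          eq_inf_of_le hH (hHG.trans (hle.trans (tensorProductSubgroup_le_swap e P)))
          (not_le_tensorProductSubgroup hc2 hk hd _ P)⟩)))
  · obtain ⟨d, t, e, P, hd, ht, hle⟩ := hw
    rcases cWreath d t e P hd ht hle with h | h | h
    · exact Or.inr (Or.inr (Or.inr (Or.inr (Or.inr (Or.inr (Or.inl h))))))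
    · exact Or.inr (Or.inr (Or.inr (Or.inr (Or.inr (Or.inr (Or.inr (Or.inl h)))))))
    · exact Or.inr (Or.inr (Or.inr (Or.inr (Or.inr (Or.inr (Or.inr (Or.inr (Or.inr (Or.inl h)))))))))
  · rcases caseA D hscal (dich_of_not_raw hG hnr) hc3 with ⟨h1, h2⟩ | ⟨F₀, r', B, hr, hc, hle⟩ | ⟨σ, f, hf, hle⟩ |
      ⟨f, hf, hle⟩ | ⟨Q, hQ, ho, hle⟩
    · obtain ⟨m, hm, _⟩ := SympStruct.SympData.exists_card D
      exact Or.inr (Or.inr (Or.inr (Or.inr (Or.inr (Or.inl ⟨r, R, m, h1, by rw [← hm, hcard], eq_inf_of_le hH (hHG.trans h2)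
        (not_le_subgroupNormalizer hc3 D.notZ D.comm)⟩)))))
    · exact Or.inr (Or.inr (Or.inr (Or.inr (Or.inl (cSub F₀ r' B hr hc hle)))))
    · exact Or.inr (Or.inr (Or.inr (Or.inr (Or.inr (Or.inr (Or.inr (Or.inr (Or.inl (cUnit σ f hf hle)))))))))
    · exact Or.inr (Or.inr (Or.inr (Or.inr (Or.inr (Or.inr (Or.inr (Or.inl (cSymp f hf hle))))))))
    · exact Or.inr (Or.inr (Or.inr (Or.inr (Or.inr (Or.inr (Or.inr (Or.inr (Or.inr (Or.inl (cQuad Q hQ ho hle))))))))))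
  · obtain ⟨F₀, r, B, hr, hc, hle⟩ := hsub
    exact Or.inr (Or.inr (Or.inr (Or.inr (Or.inl (cSub F₀ r B hr hc hle)))))
  · have hcs : CentScalar P := (actsAbsolutelyIrreducibly_iff.mp hcore.absIrred).2
    by_cases hf : ∃ f : (Fin n → F) → (Fin n → F) → F, IsSymplecticForm f ∧ FixesForm (matrixSet P) f
    · obtain ⟨f, hf, hinv⟩ := hf
      exact Or.inr (Or.inr (Or.inr (Or.inr (Or.inr (Or.inr (Or.inr (Or.inl (cSymp f hf
        fun g hg => Forms.mem_similarityGroup_symplectic hcs hf hinv (hPn g hg)))))))))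
    by_cases hu : ∃ (σ : F ≃+* F) (f : (Fin n → F) → (Fin n → F) → F), IsUnitaryForm σ f ∧ FixesForm (matrixSet P) f
    · obtain ⟨σ, f, hf, hinv⟩ := hu
      exact Or.inr (Or.inr (Or.inr (Or.inr (Or.inr (Or.inr (Or.inr (Or.inr (Or.inl (cUnit σ f hf
        fun g hg => Forms.mem_similarityGroup_unitary hcs hf hinv (hPn g hg))))))))))
    by_cases hq : ∃ Q : (Fin n → F) → F, IsNondegenerateQuadraticForm Q ∧ FixesQuadForm (matrixSet P) Q
    · obtain ⟨Q, hQ, hinv⟩ := hq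
      by_cases ho : Odd (Fintype.card F)
      · exact Or.inr (Or.inr (Or.inr (Or.inr (Or.inr (Or.inr (Or.inr (Or.inr (Or.inr (Or.inl (cQuad Q hQ ho
          fun g hg => Forms.mem_quadSimilarityGroup hcs hQ ho hinv (hPn g hg)))))))))))
      · exact absurd ⟨_, Forms.polar_symplectic hQ ho, Forms.fixes_polar hinv⟩ hf
    · exact Or.inr (Or.inr (Or.inr (Or.inr (Or.inr (Or.inr (Or.inr (Or.inr (Or.inr (Or.inr ⟨P, hcore, hq, hf, hu⟩)))))))))

end Cfsg.Agent.Lib.Classical.Asch.MaxCases
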