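import Mathlib
import Cfsg.Agent.Lib.Classical.Asch.Block
import Cfsg.Agent.Lib.Classical.Asch.Main
import Cfsg.Agent.Lib.Classical.Asch.MaxCases

/-!
# Small-field exclusions for tensor decompositions; numerical consequences of the class data
-/

set_option autoImplicit false
set_option linter.style.haveILetI false
set_option linter.unusedSectionVars false

namespace Cfsg.Agent.Lib.Classical.Asch.Small

open scoped MatrixGroups Matrix Kronecker
open Cfsg.Geo Cfsg.Agent.Lib.Classical.Asch.Basic Cfsg.Agent.Lib.Classical.Asch.Dichotomy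
open Cfsg.Agent.Lib.Classical.Asch.Main

variable {ι : Type} [Fintype ι] [DecidableEq ι] {F : Type*} [Field F]

/-- The matrices `α + β ω`, `ω² = ω + 1`. -/
def K₀ (F : Type*) [Field F] : Subalgebra F (Matrix (Fin 2) (Fin 2) F) where
  carrier := {x | x 0 1 = x 1 0 ∧ x 1 1 = x 0 0 + x 0 1}
  mul_mem' := by
    rintro a b ⟨ha1, ha2⟩ ⟨hb1, hb2⟩
    constructor
    · simp only [Matrix.mul_apply, Fin.sum_univ_two]
      rw [ha2, hb2, ← ha1, ← hb1]
      ring
    · simp only [Matrix.mul_apply, Fin.sum_univ_two]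
      rw [ha2, hb2, ← ha1, ← hb1]
      ring
  add_mem' := by
    rintro a b ⟨ha1, ha2⟩ ⟨hb1, hb2⟩
    constructor
    · simp [ha1, hb1]
    · simp only [Matrix.add_apply]
      rw [ha2, hb2]
      ring
  algebraMap_mem' := by
    intro c
    constructor <;> simp [Algebra.algebraMap_eq_smul_one]

theorem mem_K₀ {x : Matrix (Fin 2) (Fin 2) F} : x ∈ K₀ F ↔ x 0 1 = x 1 0 ∧ x 1 1 = x 0 0 + x 0 1 := Iff.rfl

theorem K₀_comm {x y : Matrix (Fin 2) (Fin 2) F} (hx : x ∈ K₀ F) (hy : y ∈ K₀ F) : x * y = y * x := by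
  obtain ⟨ha1, ha2⟩ := hx
  obtain ⟨hb1, hb2⟩ := hy
  ext i j
  fin_cases i <;> fin_cases j <;> simp only [Matrix.mul_apply, Fin.sum_univ_two] <;> simp only [Fin.zero_eta, Fin.mk_one, Fin.isValue, ha2, hb2, ← ha1, ← hb1] <;> ring

theorem finrank_K₀ : Module.finrank F (K₀ F) = 2 := by
  let L : (K₀ F) ≃ₗ[F] (Fin 2 → F) :=
    { toFun := fun x => ![x.1 0 0, x.1 0 1]
      map_add' := by
        intro x y
        ext i
        fin_cases i <;> simp
      map_smul' := by
        intro c x
        ext i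
        fin_cases i <;> simp
      invFun := fun v => ⟨!![v 0, v 1; v 1, v 0 + v 1], by simp [mem_K₀]⟩
      left_inv := by
        rintro ⟨x, hx1, hx2⟩
        apply Subtype.ext
        ext i j
        fin_cases i <;> fin_cases j <;> simp [hx1, hx2]
      right_inv := by
        intro v
        ext i
        fin_cases i <;> simp }
  rw [L.finrank_eq]
  simp

theorem forall_two [Fintype F] (hq : Fintype.card F = 2) (a : F) : a = 0 ∨ a = 1 := by
  by_cases h : a = 0
  · exact Or.inl h
  · right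
    have := FiniteField.pow_card_sub_one_eq_one a h
    rwa [hq, pow_one] at this

theorem two_eq_zero_of_card [Fintype F] (hq : Fintype.card F = 2) : (2 : F) = 0 := by
  have := FiniteField.pow_card_sub_one_eq_one (2 : F)
  by_contra h
  rcases forall_two hq (2 : F) with h' | h'
  · exact h h'
  · have h2 : (1 : F) = 0 := by linear_combination h'
    exact one_ne_zero h2

theorem K₀_inv [Fintype F] (hq : Fintype.card F = 2) {x : Matrix (Fin 2) (Fin 2) F} (hx : x ∈ K₀ F) (h0 : x ≠ 0) :
    ∃ y ∈ K₀ F, x * y = 1 := by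
  have h2 := two_eq_zero_of_card hq
  obtain ⟨h1, h3⟩ := hx
  refine ⟨!![x 0 0 + x 0 1, x 0 1; x 0 1, x 0 0], by simp [mem_K₀]; linear_combination (-(x 0 1)) * h2, ?_⟩
  have hn : x 0 0 * x 0 0 + x 0 0 * x 0 1 + x 0 1 * x 0 1 = 1 := by
    rcases forall_two hq (x 0 0) with ha | ha <;> rcases forall_two hq (x 0 1) with hb | hb
    · exfalso
      apply h0
      ext i j
      fin_cases i <;> fin_cases j <;> simp [← h1, h3, ha, hb]
    · simp [ha, hb]
    · simp [ha, hb]
    · rw [ha, hb]
      linear_combination h2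
  ext i j
  fin_cases i <;> fin_cases j <;> simp [Matrix.mul_apply, Fin.sum_univ_two, h3, ← h1]
  · linear_combination hn
  · linear_combination (x 0 0 * x 0 1) * h2
  · linear_combination (x 0 0 * x 0 1 + x 0 1 * x 0 1) * h2
  · linear_combination hn

/-- `GL₂(2)` normalises `K₀`. -/
theorem K₀_normal [Fintype F] (hq : Fintype.card F = 2) (a : GL (Fin 2) F) {x : Matrix (Fin 2) (Fin 2) F} (hx : x ∈ K₀ F) :
    (a : Matrix (Fin 2) (Fin 2) F) * x * ((a⁻¹ : GL (Fin 2) F) : Matrix (Fin 2) (Fin 2) F) ∈ K₀ F := by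
  have h2 := two_eq_zero_of_card hq
  set A : Matrix (Fin 2) (Fin 2) F := (a : Matrix (Fin 2) (Fin 2) F) with hA
  have hdet : A.det = 1 := by
    rcases forall_two hq A.det with h | h
    · exfalso
      have h1 := Matrix.isUnits_det_units a
      rw [← hA, h] at h1
      exact not_isUnit_zero h1
    · exact h
  have hinv : ((a⁻¹ : GL (Fin 2) F) : Matrix (Fin 2) (Fin 2) F) = Matrix.adjugate A := by
    have h1 : A * Matrix.adjugate A = 1 := by
      rw [Matrix.mul_adjugate, hdet, one_smul]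
    calc ((a⁻¹ : GL (Fin 2) F) : Matrix (Fin 2) (Fin 2) F)
        = ((a⁻¹ : GL (Fin 2) F) : Matrix (Fin 2) (Fin 2) F) * (A * Matrix.adjugate A) := by rw [h1, mul_one]
      _ = (((a⁻¹ : GL (Fin 2) F) : Matrix (Fin 2) (Fin 2) F) * A) * Matrix.adjugate A := by rw [mul_assoc]
      _ = Matrix.adjugate A := by
          rw [hA, ← Units.val_mul, inv_mul_cancel, Units.val_one, one_mul]
  rw [hinv, Matrix.adjugate_fin_two]
  obtain ⟨h1, h3⟩ := hx
  rw [Matrix.det_fin_two] at hdet
  rw [mem_K₀]
  simp only [Matrix.mul_apply, Fin.sum_univ_two, Matrix.of_apply, Matrix.cons_val', Matrix.cons_val_zero, Matrix.cons_val_one, Matrix.cons_val_fin_one, h3, ← h1]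
  have h00 := forall_two hq (A 0 0)
  have h01 := forall_two hq (A 0 1)
  have h10 := forall_two hq (A 1 0)
  have h11 := forall_two hq (A 1 1)
  generalize A 0 0 = a00 at *
  generalize A 0 1 = a01 at *
  generalize A 1 0 = a10 at *
  generalize A 1 1 = a11 at *
  generalize x 0 0 = α at *
  generalize x 0 1 = β at *
  rcases h00 with rfl | rfl <;> rcases h01 with rfl | rfl <;> rcases h10 with rfl | rfl <;> rcases h11 with rfl | rfl <;> first | (exfalso; simp at hdet; done) | grind

/-- Conjugating the outer copy by a member of the tensor subgroup. -/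
theorem outer_conj_tensor {d k : ℕ} {e : ι ≃ Fin d × Fin k} {P x : GL ι F} {a : GL (Fin d) F} {b : GL (Fin k) F}
    (h : ∀ i j, ((P⁻¹ * x * P : GL ι F) : Matrix ι ι F) i j =
      (a : Matrix (Fin d) (Fin d) F) (e i).1 (e j).1 * (b : Matrix (Fin k) (Fin k) F) (e i).2 (e j).2)
    (m : Matrix (Fin d) (Fin d) F) :
    (x : Matrix ι ι F) * outer e P m * ((x⁻¹ : GL ι F) : Matrix ι ι F) =
      outer e P ((a : Matrix (Fin d) (Fin d) F) * m * ((a⁻¹ : GL (Fin d) F) : Matrix (Fin d) (Fin d) F)) := by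
  set A : Matrix (Fin d) (Fin d) F := (a : Matrix (Fin d) (Fin d) F) with hA
  set A' : Matrix (Fin d) (Fin d) F := ((a⁻¹ : GL (Fin d) F) : Matrix (Fin d) (Fin d) F) with hA'
  have hAA : A' * A = 1 := by
    rw [hA, hA', ← Units.val_mul, inv_mul_cancel, Units.val_one]
  set X : Matrix ι ι F := ((P⁻¹ * x * P : GL ι F) : Matrix ι ι F) with hX
  have hX' : X = (A ⊗ₖ (b : Matrix (Fin k) (Fin k) F)).submatrix e e := by
    ext i j
    exact h i j
  have hxP : (x : Matrix ι ι F) * (P : Matrix ι ι F) = (P : Matrix ι ι F) * X := by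
    rw [hX, ← Units.val_mul, ← Units.val_mul]
    congr 1
    group
  have hkey : X * (m ⊗ₖ (1 : Matrix (Fin k) (Fin k) F)).submatrix e e =
      ((A * m * A') ⊗ₖ (1 : Matrix (Fin k) (Fin k) F)).submatrix e e * X := by
    rw [hX', Matrix.submatrix_mul_equiv, Matrix.submatrix_mul_equiv, ← Matrix.mul_kronecker_mul,
      ← Matrix.mul_kronecker_mul, mul_assoc A m A', mul_assoc A (m * A') A, mul_assoc m A' A, hAA, mul_one, mul_one, one_mul]
  have h1 : (x : Matrix ι ι F) * outer e P m * (P : Matrix ι ι F) = outer e P (A * m * A') * (x : Matrix ι ι F) * (P : Matrix ι ι F) := by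
    rw [mul_assoc, outer_mul, ← mul_assoc, hxP, mul_assoc, hkey, ← mul_assoc, mul_assoc (outer e P (A * m * A')) _ _, hxP,
      ← mul_assoc, outer_mul]
  have h2 : (x : Matrix ι ι F) * outer e P m = outer e P (A * m * A') * (x : Matrix ι ι F) := by
    have h3 := congrArg (fun M => M * ((P⁻¹ : GL ι F) : Matrix ι ι F)) h1
    simpa only [mul_assoc, ← Units.val_mul, mul_inv_cancel, Units.val_one, mul_one] using h3
  rw [h2, mul_assoc, ← Units.val_mul, mul_inv_cancel, Units.val_one, mul_one]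

/-- **E6**: over the field with two elements a tensor decomposition with a factor of dimension two normalises a quadratic
extension field. -/
theorem tensor_two_two [Fintype F] (hq : Fintype.card F = 2) {k : ℕ} (hk : 0 < k) (e : ι ≃ Fin 2 × Fin k) (P : GL ι F) :
    ∃ K : Subalgebra F (Matrix ι ι F), IsFieldSubalgebra 2 K ∧ tensorProductSubgroup 2 k e P ≤ subalgebraNormalizer K := by
  classical
  have hinj := outer_injective (F := F) hk e P
  refine ⟨(K₀ F).map (outer e P), ⟨?_, ?_, ?_⟩, ?_⟩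
  · rintro _ ⟨a, ha, rfl⟩ _ ⟨b, hb, rfl⟩
    change outer e P a * outer e P b = outer e P b * outer e P a
    rw [← map_mul, ← map_mul, K₀_comm ha hb]
  · rintro _ ⟨a, ha, rfl⟩ hne
    have ha0 : a ≠ 0 := by
      rintro rfl
      apply hne
      change outer e P 0 = 0
      rw [map_zero]
    obtain ⟨b, hb, hab⟩ := K₀_inv hq ha ha0
    refine ⟨outer e P b, ⟨b, hb, rfl⟩, ?_⟩
    change outer e P a * outer e P b = 1
    rw [← map_mul, hab, map_one]
  · rw [← (Subalgebra.equivMapOfInjective (K₀ F) (outer e P) hinj).toLinearEquiv.finrank_eq]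
    exact finrank_K₀
  · have key : ∀ x ∈ tensorProductSubgroup 2 k e P, ∀ y ∈ (K₀ F).map (outer e P),
        (x : Matrix ι ι F) * y * ((x⁻¹ : GL ι F) : Matrix ι ι F) ∈ (K₀ F).map (outer e P) := by
      rintro x hx _ ⟨m, hm, rfl⟩
      obtain ⟨a, b, h⟩ := mem_tensorProductSubgroup_iff.mp hx
      change (x : Matrix ι ι F) * outer e P m * ((x⁻¹ : GL ι F) : Matrix ι ι F) ∈ _
      rw [outer_conj_tensor h]
      exact ⟨_, K₀_normal hq a hm, rfl⟩
    intro x hx y
    constructor
    · exact key x hx y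
    · intro hy
      have := key x⁻¹ ((tensorProductSubgroup 2 k e P).inv_mem hx) _ hy
      rw [inv_inv] at this
      have hxx : ((x⁻¹ : GL ι F) : Matrix ι ι F) * (x : Matrix ι ι F) = 1 := by
        rw [← Units.val_mul, inv_mul_cancel, Units.val_one]
      have h2 : ((x⁻¹ : GL ι F) : Matrix ι ι F) * ((x : Matrix ι ι F) * y * ((x⁻¹ : GL ι F) : Matrix ι ι F)) * (x : Matrix ι ι F) = y := by
        calc _ = (((x⁻¹ : GL ι F) : Matrix ι ι F) * (x : Matrix ι ι F)) * y * (((x⁻¹ : GL ι F) : Matrix ι ι F) * (x : Matrix ι ι F)) := by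
              simp only [mul_assoc]
          _ = y := by rw [hxx, one_mul, mul_one]
      rwa [h2] at this

open Cfsg.Agent.Lib.Classical.Asch.Stable in
/-- The degree of a field in the matrix algebra divides the dimension. -/
theorem dvd_card_of_field {r : ℕ} {K : Subalgebra F (Matrix ι ι F)} (hK : IsFieldSubalgebra r K) : r ∣ Fintype.card ι := by
  classical
  by_cases hι : Nonempty ι
  swap
  · haveI : IsEmpty ι := not_nonempty_iff.mp hι
    simp
  have hfield : IsField ↥K := by
    refine ⟨⟨0, 1, ?_⟩, ?_, ?_⟩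
    · intro h
      have h1 := congrArg Subtype.val h
      obtain ⟨i⟩ := hι
      have h2 := congrFun (congrFun h1 i) i
      simp at h2
    · rintro ⟨x, hx⟩ ⟨y, hy⟩
      exact Subtype.ext (hK.comm x hx y hy)
    · rintro ⟨x, hx⟩ h0
      obtain ⟨y, hy, hxy⟩ := hK.inv x hx (fun h => h0 (Subtype.ext h))
      exact ⟨⟨y, hy⟩, Subtype.ext hxy⟩
  letI inst : Module ↥K (ι → F) := Module.compHom _ (toEndC K)
  haveI : Module.Free ↥K (ι → F) := by
    letI : Field ↥K := hfield.toField
    exact Module.Free.of_divisionRing _ _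
  haveI : StrongRankCondition ↥K := by
    letI : Field ↥K := hfield.toField
    infer_instance
  have smul_def : ∀ (c : ↥K) (v : ι → F), c • v = c.1 *ᵥ v := fun c v => rfl
  have h1 : Module.finrank F ↥K * Module.finrank ↥K (ι → F) = Module.finrank F (ι → F) := by
    refine @Module.finrank_mul_finrank F ↥K (ι → F) _ _ _ _ _ _ ⟨fun a c v => ?_⟩ _ _ _ _
    change ((a • c.1) *ᵥ v) = a • (c.1 *ᵥ v)
    rw [Matrix.smul_mulVec]
  rw [hK.finrank_eq, Module.finrank_fintype_fun_eq_card] at h1
  exact ⟨_, h1.symm⟩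

end Cfsg.Agent.Lib.Classical.Asch.Small
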