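import Mathlib
import Cfsg.Agent.Lib.Classical.Asch.FormPerp
import Cfsg.Agent.Lib.Classical.Asch.FormField
import Cfsg.Agent.Lib.Classical.Asch.FormTwo
import Cfsg.Agent.Lib.Classical.Asch.FormEven
import Cfsg.Agent.Lib.Classical.Asch.FormSympType
import Cfsg.Agent.Lib.Classical.Asch.Small
import Cfsg.Agent.Lib.Classical.Symp.Basic
import Cfsg.Agent.Lib.Classical.Herm.Descent
import Cfsg.Agent.Lib.Char.Burnside2

/-!
# Aschbacher's theorem for the symplectic groups
-/

set_option autoImplicit false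
set_option linter.style.haveILetI false
set_option linter.unusedSectionVars false

namespace Cfsg.Agent.Lib.Classical.Asch.FormSp

open scoped MatrixGroups Matrix Kronecker
open Cfsg Cfsg.Geo Cfsg.Agent.Lib.Classical.Asch.Basic Cfsg.Agent.Lib.Classical.Asch.Forms
open Cfsg.Agent.Lib.Classical.Asch.Adj Cfsg.Agent.Lib.Classical.Asch.FormDich
open Cfsg.Agent.Lib.Classical.Asch.FormTensor Cfsg.Agent.Lib.Classical.Asch.FormSim
open Cfsg.Agent.Lib.Classical.Asch.FormComm Cfsg.Agent.Lib.Classical.Asch.Gram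
open Cfsg.Agent.Lib.Classical.Asch.FormPerp Cfsg.Agent.Lib.Classical.Asch.FormField
open Cfsg.Agent.Lib.Classical.Asch.FormTwo Cfsg.Agent.Lib.Classical.Asch.FormEven
open Cfsg.Agent.Lib.Classical.Asch.FormQuad Cfsg.Agent.Lib.Classical.Asch.FormSympType
open Cfsg.Agent.Lib.Classical.Asch.FormReal Cfsg.Agent.Lib.Classical.Asch.FormDescent
open Cfsg.Agent.Lib.Classical.Asch.SympType Cfsg.Agent.Lib.Classical.Asch.SympStruct
open Cfsg.Agent.Lib.Classical.Asch.Dichotomy Cfsg.Agent.Lib.Classical.Asch.Subfield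
open Cfsg.Agent.Lib.Classical.Asch.CaseA Cfsg.Agent.Lib.Classical.Asch.Main
open Cfsg.Agent.Lib.Classical.Asch.PureTensor

section Generic

variable {ι : Type} [Fintype ι] [DecidableEq ι] {F : Type*} [Field F]
variable {σ : F ≃+* F} {ε : F} {f : (ι → F) → (ι → F) → F}

/-- The scalars are similarities. -/
theorem scalars_le_similarity (hf : ReflForm σ ε f) : scalars ι F ≤ similarityGroup f := by
  intro g hg
  obtain ⟨u, rfl⟩ := mem_scalars_iff_scal.mp hg
  refine ⟨u * Units.map ((σ : F ≃* F) : F →* F) u, fun a b => ?_⟩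
  rw [coe_scal, Matrix.smul_mulVec, Matrix.smul_mulVec, Matrix.one_mulVec, Matrix.one_mulVec, hf.smul_left, hf.smul_right]
  simp [mul_assoc]

/-- The two pieces of a decomposition into two subspaces. -/
theorem IsMDecomposition.two_mul_eq {k : ℕ} {D : Fin 2 → Submodule F (ι → F)} (hD : IsMDecomposition k D) :
    2 * k = Fintype.card ι := by
  have hcompl : IsCompl (D 0) (D 1) := by
    refine ⟨hD.indep.pairwiseDisjoint (by decide : (0 : Fin 2) ≠ 1), ?_⟩
    rw [codisjoint_iff, eq_top_iff, ← hD.iSup_eq_top]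
    refine iSup_le fun i => ?_
    fin_cases i
    · exact le_sup_left
    · exact le_sup_right
  have h1 := Submodule.finrank_add_eq_of_isCompl hcompl
  rw [hD.finrank_eq, hD.finrank_eq, Module.finrank_fintype_fun_eq_card] at h1
  omega

/-- Solvable groups have no non-trivial perfect subgroups. -/
theorem eq_bot_of_perfect {Γ : Type*} [Group Γ] [Group.IsSolvable Γ] {X : Subgroup Γ} (h : ⁅X, X⁆ = X) : X = ⊥ := by
  obtain ⟨n, hn⟩ := Group.IsSolvable.solvable (G := Γ)
  have h1 : ∀ k, X ≤ derivedSeries Γ k := by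
    intro k
    induction k with
    | zero => exact le_top
    | succ k ih =>
      rw [derivedSeries_succ, ← h]
      exact Subgroup.commutator_mono ih ih
  exact le_bot_iff.mp (hn ▸ h1 n)

end Generic

section Outcomes

variable {ι : Type} [Fintype ι] [DecidableEq ι] {F : Type*} [Field F] [Fintype F] [Nonempty ι]
variable {f : (ι → F) → (ι → F) → F}

/-- The symplectic-type outcome for an alternating form. -/
theorem sympData_outcome (hf : IsSymplecticForm f) {G R : Subgroup (GL ι F)} {r s : ℕ} (D : SympData G R r s)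
    (hGs : G ≤ similarityGroup f) (hD : Dich G) :
    (∃ (F₀ : Subfield F) (r' : ℕ) (P : GL ι F) (ζ : F), r'.Prime ∧ Fintype.card F = Nat.card F₀ ^ r' ∧ ζ ≠ 0 ∧
      IsFormRationalStructure f F₀ ζ P ∧ G ≤ subfieldSubgroup F₀ P) ∨
    (∃ (R' : Subgroup (GL ι F)) (p k : ℕ), IsSymplecticTypeGroup 2 R' ∧ ActsAbsolutelyIrreducibly (matrixSet R') ∧
      R' ≤ similarityGroup f ∧ p.Prime ∧ Odd p ∧ Fintype.card F = p ∧ Nat.card R' = 2 ^ (1 + 2 * k) ∧
      Nat.card (Subgroup.center R') = 2 ∧ IsOfMinusType k R' ∧ G ≤ subgroupNormalizer R' ∧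
      Fintype.card ι = 2 ^ k ∧ SympData G R' 2 4 ∧ R' ≤ isomG f) := by
  classical
  have hr := reflForm_symplectic hf
  have D₀ := SympData.isomData hr D hGs hD
  have hR₀ : R ⊓ isomG f ≤ isomG f := inf_le_right
  obtain ⟨rfl, rfl, h2, hmem, huniq⟩ := SympData.refl_facts hr D₀ hR₀
  set p := ringChar F with hpdef
  haveI : CharP F p := ringChar.charP F
  obtain ⟨e', hp, hF⟩ := FiniteField.card F p
  set e : ℕ := (e' : ℕ) with he
  have he0 : 0 < e := e'.pos
  by_cases he1 : e = 1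
  · right
    obtain ⟨k, hk, hq⟩ := SympData.exists_card D₀
    have hp2 : p ≠ 2 := by
      intro h
      apply h2
      have := CharP.cast_eq_zero F p
      rw [h] at this
      exact_mod_cast this
    have hodd : Odd p := hp.odd_of_ne_two hp2
    refine ⟨R ⊓ isomG f, p, k, SympData.isSymplecticTypeGroup D₀ hD,
      actsAbsolutelyIrreducibly_iff.mpr ⟨actsIrreducibly_iff.mpr D₀.irr, D₀.cs⟩, inf_le_right.trans isomG_le_similarity,
      hp, hodd, by rw [hF, he1, pow_one], ?_, SympData.card_center_refl hr D₀ hR₀,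
      SympData.isOfMinusType hf D₀ hR₀ hk, SympData.normalizer D₀, hk, D₀, hR₀⟩
    rw [SympData.card_eq D₀, SympData.card_center_refl hr D₀ hR₀, hq, pow_add, pow_one]
  · left
    obtain ⟨F₁, hF₁card, -⟩ := exists_subfield_of_dvd p e 1 hp hF (one_dvd e)
    have hne : F₁ ≠ ⊤ := by
      rintro rfl
      have h1 : Nat.card (⊤ : Subfield F) = Fintype.card F := by
        rw [← Nat.card_eq_fintype_card]
        exact Nat.card_congr Subfield.topEquiv.toEquiv
      rw [h1, hF] at hF₁card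
      have h3 : p ^ 1 < p ^ e := Nat.pow_lt_pow_right hp.one_lt (by omega)
      omega
    obtain ⟨F₂, r', -, hr', hcard⟩ := exists_prime_index_subfield F₁ hne
    have hZ : ∀ x ∈ R ⊓ isomG f, ∀ c : F, (x : Matrix ι ι F) = c • 1 → c ∈ F₂ := by
      intro x hx c hc
      obtain ⟨i₀⟩ := ‹Nonempty ι›
      have hxZ : x ∈ scalars ι F := (mem_scalars_iff' _).mpr ⟨c, hc⟩
      have h3 := congrFun (congrFun hc i₀) i₀
      simp only [Matrix.smul_apply, Matrix.one_apply_eq, smul_eq_mul, mul_one] at h3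
      rw [← h3]
      rcases huniq x hx hxZ with h | h
      · rw [h]
        simp
      · rw [h, coe_scal]
        simp
    obtain ⟨B, hB⟩ := SympData.realize_subfield D₀ F₂ hcard hZ
    have hfix : FixesForm (matrixSet (R ⊓ isomG f)) f := by
      rintro _ ⟨x, hx, rfl⟩ u v
      exact hR₀ hx u v
    obtain ⟨ζ, hζ0, hζ⟩ := exists_rational hr D₀.cs hfix F₂ hcard B hB
    exact ⟨F₂, r', B⁻¹, ζ, hr', hcard, hζ0, isFormRationalStructure_of hr F₂ hcard B⁻¹ hζ,
      fun g hg => mem_subfieldSubgroup_of_normalizes F₂ hcard D₀.cs B hB (D₀.norm g hg)⟩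

end Outcomes

section Standard

variable {F : Type*} [Field F] [Fintype F] {m : ℕ}

theorem isSymplecticForm_sympForm : IsSymplecticForm (sympForm m F) := by
  open Cfsg.Agent.Lib.Classical.Symp.Basic in
  have hbil : IsBilinearForm (sympForm m F) :=
    { add_left := fun a b c => by simp [sympForm, add_dotProduct]
      smul_left := fun r a b => by simp [sympForm, smul_dotProduct]
      add_right := fun a b c => by simp [sympForm, Matrix.mulVec_add, dotProduct_add]
      smul_right := fun r a b => by simp [sympForm, Matrix.mulVec_smul, dotProduct_smul] }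
  have hskew : ∀ v w, sympForm m F v w = - sympForm m F w v := by
    intro v w
    have h1 := LinearMap.BilinForm.IsAlt.neg_eq (sympBilin_isAlt (m := m) (F := F)) w v
    simp only [sympBilin_apply] at h1
    exact h1.symm
  refine ⟨hbil, hskew, sympForm_self, fun v hv => ?_⟩
  obtain ⟨j, hj⟩ := Function.ne_iff.mp hv
  have h2 : ∃ x, sympForm m F v x ≠ 0 := by
    cases j with
    | inl i =>
      refine ⟨Pi.single (.inr i) 1, ?_⟩
      rw [sympForm_single_inr]
      simpa using hj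
    | inr i =>
      refine ⟨Pi.single (.inl i) 1, ?_⟩
      rw [sympForm_single_inl]
      simpa using hj
  obtain ⟨x, hx⟩ := h2
  refine ⟨⟨x, ?_⟩, ⟨x, hx⟩⟩
  rw [hskew]
  exact neg_ne_zero.mpr hx

theorem spGL_eq_isomG : spGL m F = isomG (sympForm m F) := by
  ext g
  exact Iff.rfl

/-- The output of the theorem, with extra information in the symplectic-type case. -/
def Out (H : Subgroup (GL (Fin m ⊕ Fin m) F)) : Prop :=
  (∃ W : Submodule F (Fin m ⊕ Fin m → F), W ≠ ⊥ ∧ IsTotallySingularFor (sympForm m F) W ∧ H ≤ subspaceStabilizer W) ∨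
  (∃ W : Submodule F (Fin m ⊕ Fin m → F), W ≠ ⊥ ∧ IsNondegenerateOn (sympForm m F) W ∧ Module.finrank F W < m ∧
    H ≤ subspaceStabilizer W) ∨
  (∃ (t k : ℕ) (D : Fin t → Submodule F (Fin m ⊕ Fin m → F)), IsNondegenerateMDecomposition (sympForm m F) k D ∧
    H ≤ decompositionStabilizer D) ∨
  (∃ D : Fin 2 → Submodule F (Fin m ⊕ Fin m → F), Odd (Fintype.card F) ∧ IsMDecomposition m D ∧
    (∀ i, IsTotallySingularFor (sympForm m F) (D i)) ∧ H ≤ decompositionStabilizer D) ∨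
  (∃ (F₀ : Subfield F) (r : ℕ) (P : GL (Fin m ⊕ Fin m) F) (ζ : F), r.Prime ∧ Fintype.card F = Nat.card F₀ ^ r ∧ ζ ≠ 0 ∧
    IsFormRationalStructure (sympForm m F) F₀ ζ P ∧ H ≤ subfieldSubgroup F₀ P) ∨
  (∃ (R : Subgroup (GL (Fin m ⊕ Fin m) F)) (p k : ℕ), IsSymplecticTypeGroup 2 R ∧
    ActsAbsolutelyIrreducibly (matrixSet R) ∧ R ≤ similarityGroup (sympForm m F) ∧ p.Prime ∧ Odd p ∧ Fintype.card F = p ∧
    Nat.card R = 2 ^ (1 + 2 * k) ∧ Nat.card (Subgroup.center R) = 2 ∧ IsOfMinusType k R ∧ H ≤ subgroupNormalizer R ∧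
    Fintype.card (Fin m ⊕ Fin m) = 2 ^ k ∧ (∃ G, SympData G R 2 4) ∧ R ≤ spGL m F) ∨
  (∃ Q : (Fin m ⊕ Fin m → F) → F, ¬ Odd (Fintype.card F) ∧ IsNondegenerateQuadraticForm Q ∧
    (∀ u v, QuadraticMap.polar Q u v = sympForm m F u v) ∧ H ≤ quadSimilarityGroup Q) ∨
  (∃ (r : ℕ) (K : Subalgebra F (Matrix (Fin m ⊕ Fin m) (Fin m ⊕ Fin m) F)), r.Prime ∧ IsFieldSubalgebra r K ∧
    IsSelfAdjointFor (sympForm m F) K ∧ (∀ k ∈ K, ∀ v, sympForm m F (k *ᵥ v) v = 0) ∧ H ≤ subalgebraNormalizer K) ∨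
  (∃ K : Subalgebra F (Matrix (Fin m ⊕ Fin m) (Fin m ⊕ Fin m) F), Odd (Fintype.card F) ∧ IsFieldSubalgebra 2 K ∧
    IsAdjointClosedFor (sympForm m F) K ∧ ¬ IsSelfAdjointFor (sympForm m F) K ∧ H ≤ subalgebraNormalizer K) ∨
  (∃ (n₁ n₂ : ℕ) (e : (Fin m ⊕ Fin m) ≃ Fin n₁ × Fin n₂) (P : GL (Fin m ⊕ Fin m) F)
      (f₁ : (Fin n₁ → F) → (Fin n₁ → F) → F) (f₂ : (Fin n₂ → F) → (Fin n₂ → F) → F),
      Odd (Fintype.card F) ∧ 3 ≤ n₂ ∧ IsSymplecticForm f₁ ∧ IsSymmetricForm f₂ ∧
      IsTensorFormStructure id (sympForm m F) f₁ f₂ e P ∧ H ≤ tensorProductSubgroup n₁ n₂ e P) ∨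
  (∃ (k t : ℕ) (e : (Fin m ⊕ Fin m) ≃ (Fin t → Fin k)) (P : GL (Fin m ⊕ Fin m) F) (f₁ : (Fin k → F) → (Fin k → F) → F),
      Odd (Fintype.card F) ∧ Odd t ∧ 3 ≤ t ∧ ¬ (Fintype.card F = 3 ∧ k = 2) ∧ IsSymplecticForm f₁ ∧
      IsTensorPowerFormStructure id (sympForm m F) f₁ e P ∧ H ≤ tensorWreathSubgroup k t e P)

variable {H : Subgroup (GL (Fin m ⊕ Fin m) F)}

/-- The output in the form of the statement. -/
theorem Out.toClass (hH : H ≤ spGL m F) (h : Out H) :
    ∃ M : Subgroup (GL (Fin m ⊕ Fin m) F), InSymplecticClass m F M ∧ H ≤ M := by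
  rcases h with ⟨W, h0, hts, hle⟩ | ⟨W, h0, hn, hd, hle⟩ | ⟨t, k, D, hD, hle⟩ | ⟨D, hq, hD, hts, hle⟩ |
    ⟨F₀, r, P, ζ, hr, hc, hζ, hR, hle⟩ | ⟨R, p, k, h1, h2, h3, h4, h5, h6, h7, h8, h9, hle, -, -, -⟩ |
    ⟨Q, hq, hQ, hp, hle⟩ | ⟨r, K, hr, hK, h1, h2, hle⟩ | ⟨K, hq, hK, h1, h2, hle⟩ |
    ⟨n₁, n₂, e, P, f₁, f₂, hq, h3, h1, h2, hs, hle⟩ | ⟨k, t, e, P, f₁, hq, ht, h3, hne, h1, hs, hle⟩
  · exact ⟨_, Or.inl (Or.inl ⟨W, h0, hts, rfl⟩), le_inf hle hH⟩
  · exact ⟨_, Or.inl (Or.inr (Or.inl ⟨W, h0, hn, hd, rfl⟩)), le_inf hle hH⟩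
  · exact ⟨_, Or.inl (Or.inr (Or.inr (Or.inl ⟨t, k, D, hD, rfl⟩))), le_inf hle hH⟩
  · exact ⟨_, Or.inl (Or.inr (Or.inr (Or.inr (Or.inl ⟨D, hq, hD, hts, rfl⟩)))), le_inf hle hH⟩
  · exact ⟨_, Or.inl (Or.inr (Or.inr (Or.inr (Or.inr (Or.inl ⟨F₀, r, P, ζ, hr, hc, hζ, hR, rfl⟩))))), le_inf hle hH⟩
  · exact ⟨_, Or.inl (Or.inr (Or.inr (Or.inr (Or.inr (Or.inr (Or.inl ⟨R, p, k, h1, h2, h3, h4, h5, h6, h7, h8, h9, rfl⟩)))))),
      le_inf hle hH⟩
  · exact ⟨_, Or.inl (Or.inr (Or.inr (Or.inr (Or.inr (Or.inr (Or.inr ⟨Q, hq, hQ, hp, rfl⟩)))))), le_inf hle hH⟩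
  · exact ⟨_, Or.inr (Or.inl ⟨r, K, hr, hK, h1, h2, rfl⟩), le_inf hle hH⟩
  · exact ⟨_, Or.inr (Or.inr (Or.inl ⟨K, hq, hK, h1, h2, rfl⟩)), le_inf hle hH⟩
  · exact ⟨_, Or.inr (Or.inr (Or.inr (Or.inl ⟨n₁, n₂, e, P, f₁, f₂, hq, h3, h1, h2, hs, rfl⟩))), le_inf hle hH⟩
  · exact ⟨_, Or.inr (Or.inr (Or.inr (Or.inr ⟨k, t, e, P, f₁, hq, ht, h3, hne, h1, hs, rfl⟩))), le_inf hle hH⟩

theorem out_ts {W : Submodule F (Fin m ⊕ Fin m → F)} (h0 : W ≠ ⊥)
    (hts : IsTotallySingularFor (sympForm m F) W) (hle : H ≤ subspaceStabilizer W) : Out H :=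
  Or.inl ⟨W, h0, hts, hle⟩

theorem out_nd {W : Submodule F (Fin m ⊕ Fin m → F)} (h0 : W ≠ ⊥)
    (hn : IsNondegenerateOn (sympForm m F) W) (hd : Module.finrank F W < m) (hle : H ≤ subspaceStabilizer W) : Out H :=
  Or.inr (Or.inl ⟨W, h0, hn, hd, hle⟩)

theorem out_decomp {t k : ℕ} {D : Fin t → Submodule F (Fin m ⊕ Fin m → F)}
    (hD : IsNondegenerateMDecomposition (sympForm m F) k D) (hle : H ≤ decompositionStabilizer D) : Out H :=
  Or.inr (Or.inr (Or.inl ⟨t, k, D, hD, hle⟩))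

theorem out_pair {D : Fin 2 → Submodule F (Fin m ⊕ Fin m → F)} (hq : Odd (Fintype.card F))
    (hD : IsMDecomposition m D) (hts : ∀ i, IsTotallySingularFor (sympForm m F) (D i)) (hle : H ≤ decompositionStabilizer D) :
    Out H :=
  Or.inr (Or.inr (Or.inr (Or.inl ⟨D, hq, hD, hts, hle⟩)))

theorem out_subfield {F₀ : Subfield F} {r : ℕ} {P : GL (Fin m ⊕ Fin m) F} {ζ : F} (hr : r.Prime)
    (hc : Fintype.card F = Nat.card F₀ ^ r) (hζ : ζ ≠ 0) (hR : IsFormRationalStructure (sympForm m F) F₀ ζ P)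
    (hle : H ≤ subfieldSubgroup F₀ P) : Out H :=
  Or.inr (Or.inr (Or.inr (Or.inr (Or.inl ⟨F₀, r, P, ζ, hr, hc, hζ, hR, hle⟩))))

theorem out_quad {Q : (Fin m ⊕ Fin m → F) → F} (hq : ¬ Odd (Fintype.card F))
    (hQ : IsNondegenerateQuadraticForm Q) (hp : ∀ u v, QuadraticMap.polar Q u v = sympForm m F u v)
    (hle : H ≤ quadSimilarityGroup Q) : Out H :=
  Or.inr (Or.inr (Or.inr (Or.inr (Or.inr (Or.inr (Or.inl ⟨Q, hq, hQ, hp, hle⟩))))))

theorem out_field {r : ℕ} {K : Subalgebra F (Matrix (Fin m ⊕ Fin m) (Fin m ⊕ Fin m) F)} (hr : r.Prime)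
    (hK : IsFieldSubalgebra r K) (h1 : IsSelfAdjointFor (sympForm m F) K)
    (h2 : ∀ k ∈ K, ∀ v, sympForm m F (k *ᵥ v) v = 0) (hle : H ≤ subalgebraNormalizer K) : Out H :=
  Or.inr (Or.inr (Or.inr (Or.inr (Or.inr (Or.inr (Or.inr (Or.inl ⟨r, K, hr, hK, h1, h2, hle⟩)))))))

theorem out_field2 {K : Subalgebra F (Matrix (Fin m ⊕ Fin m) (Fin m ⊕ Fin m) F)}
    (hq : Odd (Fintype.card F)) (hK : IsFieldSubalgebra 2 K) (h1 : IsAdjointClosedFor (sympForm m F) K)
    (h2 : ¬ IsSelfAdjointFor (sympForm m F) K) (hle : H ≤ subalgebraNormalizer K) : Out H :=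
  Or.inr (Or.inr (Or.inr (Or.inr (Or.inr (Or.inr (Or.inr (Or.inr (Or.inl ⟨K, hq, hK, h1, h2, hle⟩))))))))

theorem out_tensor {n₁ n₂ : ℕ} {e : (Fin m ⊕ Fin m) ≃ Fin n₁ × Fin n₂} {P : GL (Fin m ⊕ Fin m) F}
    {f₁ : (Fin n₁ → F) → (Fin n₁ → F) → F} {f₂ : (Fin n₂ → F) → (Fin n₂ → F) → F} (hq : Odd (Fintype.card F)) (h3 : 3 ≤ n₂)
    (h1 : IsSymplecticForm f₁) (h2 : IsSymmetricForm f₂) (hs : IsTensorFormStructure id (sympForm m F) f₁ f₂ e P)
    (hle : H ≤ tensorProductSubgroup n₁ n₂ e P) : Out H :=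
  Or.inr (Or.inr (Or.inr (Or.inr (Or.inr (Or.inr (Or.inr (Or.inr (Or.inr (Or.inl ⟨n₁, n₂, e, P, f₁, f₂, hq, h3, h1, h2, hs, hle⟩)))))))))

theorem out_wreath {k t : ℕ} {e : (Fin m ⊕ Fin m) ≃ (Fin t → Fin k)} {P : GL (Fin m ⊕ Fin m) F}
    {f₁ : (Fin k → F) → (Fin k → F) → F} (hq : Odd (Fintype.card F)) (ht : Odd t) (h3 : 3 ≤ t)
    (hne : ¬ (Fintype.card F = 3 ∧ k = 2)) (h1 : IsSymplecticForm f₁) (hs : IsTensorPowerFormStructure id (sympForm m F) f₁ e P)
    (hle : H ≤ tensorWreathSubgroup k t e P) : Out H :=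
  Or.inr (Or.inr (Or.inr (Or.inr (Or.inr (Or.inr (Or.inr (Or.inr (Or.inr (Or.inr ⟨k, t, e, P, f₁, hq, ht, h3, hne, h1, hs, hle⟩)))))))))

theorem nonempty_index (hm : 2 ≤ m) : Nonempty (Fin m ⊕ Fin m) := ⟨.inl ⟨0, by omega⟩⟩

theorem card_index : Fintype.card (Fin m ⊕ Fin m) = 2 * m := by
  simp [two_mul]

/-- The commutative outcome. -/
theorem out_comm (hm : 2 ≤ m) (hH : H ≤ spGL m F) (hG : ∀ W : Submodule F (Fin m ⊕ Fin m → F), Inv (H ⊔ scalars (Fin m ⊕ Fin m) F) W → W = ⊥ ∨ W = ⊤)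
    (hGs : H ⊔ scalars (Fin m ⊕ Fin m) F ≤ similarityGroup (sympForm m F))
    (hO : CommOutcome (RingEquiv.refl F) (sympForm m F) (H ⊔ scalars (Fin m ⊕ Fin m) F)) : Out H := by
  classical
  haveI := nonempty_index hm
  have hf := isSymplecticForm_sympForm (m := m) (F := F)
  have hr := reflForm_symplectic hf
  have hHG : H ≤ H ⊔ scalars (Fin m ⊕ Fin m) F := le_sup_left
  rcases hO with ⟨t, k, D, hD, hle⟩ | ⟨k, D, hD, hts, hle⟩ | ⟨r, K, hrp, hK, hA, hle⟩
  · exact out_decomp hD (hHG.trans hle)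
  · by_cases hq : Odd (Fintype.card F)
    · have hk : k = m := by
        have := IsMDecomposition.two_mul_eq hD
        rw [card_index] at this
        omega
      subst hk
      exact out_pair hq hD hts (hHG.trans hle)
    · obtain ⟨Q, hQ, hp, hleQ⟩ := exists_quad_of_pair hf (two_eq_zero_of_not_odd hq) hGs hD hts hle
      exact out_quad hq hQ hp (hHG.trans hleQ)
  · have hNorm := hHG.trans hle
    by_cases hself : ∀ k ∈ K, adj (RingEquiv.refl F) (sympForm m F) k = k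
    · have hsa : IsSelfAdjointFor (sympForm m F) K := by
        intro k hk u v
        have := hr.adj_spec k u v
        rwa [hself k hk] at this
      by_cases hq : Odd (Fintype.card F)
      · exact out_field hrp hK hsa (fun k hk v => selfAdj_alt_odd hf (two_ne_zero_of_odd hq) (hself k hk) v) hNorm
      · have hrlt : r < Fintype.card (Fin m ⊕ Fin m) := by
          have h1 := Small.dvd_card_of_field hK
          rw [card_index] at h1 ⊢
          have h2 : r ≤ 2 * m := Nat.le_of_dvd (by omega) h1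
          rcases h2.lt_or_eq with h3 | h3
          · exact h3
          · exfalso
            rw [h3] at hrp
            exact Nat.not_prime_mul (by norm_num) (by omega) hrp
        exact out_field hrp hK hsa (selfAdj_alt_even hf (two_eq_zero_of_not_odd hq) hG hGs hK.finrank_eq hle hself hrlt) hNorm
    · rcases adj_field_dichotomy hr hrp hK hA with h | ⟨rfl, hfix⟩
      · exact absurd h hself
      · by_cases hq : Odd (Fintype.card F)
        · refine out_field2 hq hK (AdjClosed.isAdjointClosedFor hr hA) ?_ hNorm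
          intro hsa
          apply hself
          intro k hk
          symm
          exact hr.eq_adj (fun u v => hsa k hk u v)
        · obtain ⟨Q, hQ, hp, hleQ⟩ := exists_quad_of_field hf (two_eq_zero_of_not_odd hq) hGs hA hK.comm hfix hself hle
          exact out_quad hq hQ hp (hHG.trans hleQ)

/-- The tensor outcome: skew first factor, symmetric second factor. -/
theorem out_tensor_core (hm : 2 ≤ m) (hH : H ≤ spGL m F)
    (hG : ∀ W : Submodule F (Fin m ⊕ Fin m → F), Inv (H ⊔ scalars (Fin m ⊕ Fin m) F) W → W = ⊥ ∨ W = ⊤)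
    (hGs : H ⊔ scalars (Fin m ⊕ Fin m) F ≤ similarityGroup (sympForm m F)) (hq : Odd (Fintype.card F)) {d k : ℕ}
    {e : (Fin m ⊕ Fin m) ≃ Fin d × Fin k} {P : GL (Fin m ⊕ Fin m) F} {J₁ : GL (Fin d) F} {J₂ : GL (Fin k) F} {ε₁ ε₂ c : F}
    (T : TensorData (RingEquiv.refl F) (-1) (sympForm m F) (H ⊔ scalars (Fin m ⊕ Fin m) F) d k e P J₁ J₂ ε₁ ε₂ c)
    (hJ₁ : (J₁ : Matrix (Fin d) (Fin d) F)ᵀ = -(J₁ : Matrix (Fin d) (Fin d) F))
    (hJ₂ : (J₂ : Matrix (Fin k) (Fin k) F)ᵀ = J₂) : Out H := by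
  classical
  haveI := nonempty_index hm
  have hf := isSymplecticForm_sympForm (m := m) (F := F)
  have hr := reflForm_symplectic hf
  have h2 := two_ne_zero_of_odd hq
  by_cases hk : k = 2
  · subst hk
    exact out_comm hm hH hG hGs (TensorData.comm_of_two hr T h2 hJ₂ hG hGs)
  · have hk3 : 3 ≤ k := by
      have := T.hk
      omega
    have hd₁ : ∀ i, (J₁ : Matrix (Fin d) (Fin d) F) i i = 0 := by
      intro i
      have h3 := congrFun (congrFun hJ₁ i) i
      simp only [Matrix.transpose_apply, Matrix.neg_apply] at h3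
      have h4 : (2 : F) * (J₁ : Matrix (Fin d) (Fin d) F) i i = 0 := by
        rw [two_mul]
        nth_rewrite 1 [h3]
        ring
      exact (mul_eq_zero.mp h4).resolve_left h2
    have hst : IsTensorFormStructure id (sympForm m F) (bil (J₁ : Matrix (Fin d) (Fin d) F)) (bil (J₂ : Matrix (Fin k) (Fin k) F)) e P :=
      isTensorFormStructure_of T.hc ((RingEquiv.refl F : F ≃+* F) : F →+* F) T.eq (gramMatrix_bil _) (gramMatrix_bil _)
    exact out_tensor hq hk3 (bil_symplectic J₁ hJ₁ hd₁) (bil_symmetric J₂ hJ₂) hst (le_sup_left.trans T.le)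

theorem eq_one_or_of_mul_self {a : F} (h : a * a = 1) : a = 1 ∨ a = -1 := by
  have h1 : (a - 1) * (a + 1) = 0 := by
    ring_nf
    rw [sq, h]
    ring
  rcases mul_eq_zero.mp h1 with h2 | h2
  · exact Or.inl (sub_eq_zero.mp h2)
  · exact Or.inr (eq_neg_of_add_eq_zero_left h2)

theorem neg_one_eq_one_of_two (h2 : (2 : F) = 0) : (-1 : F) = 1 := by
  linear_combination (-1 : F) * h2

/-- The tensor outcome. -/
theorem out_tensor_main (hm : 2 ≤ m) (hH : H ≤ spGL m F)
    (hG : ∀ W : Submodule F (Fin m ⊕ Fin m → F), Inv (H ⊔ scalars (Fin m ⊕ Fin m) F) W → W = ⊥ ∨ W = ⊤)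
    (hGs : H ⊔ scalars (Fin m ⊕ Fin m) F ≤ similarityGroup (sympForm m F)) {d k : ℕ}
    {e : (Fin m ⊕ Fin m) ≃ Fin d × Fin k} {P : GL (Fin m ⊕ Fin m) F} {J₁ : GL (Fin d) F} {J₂ : GL (Fin k) F} {ε₁ ε₂ c : F}
    (T : TensorData (RingEquiv.refl F) (-1) (sympForm m F) (H ⊔ scalars (Fin m ⊕ Fin m) F) d k e P J₁ J₂ ε₁ ε₂ c) : Out H := by
  classical
  haveI := nonempty_index hm
  have hf := isSymplecticForm_sympForm (m := m) (F := F)
  haveI : Nonempty (Fin d) := ⟨⟨0, by have := T.hd; omega⟩⟩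
  haveI : Nonempty (Fin k) := ⟨⟨0, by have := T.hk; omega⟩⟩
  obtain ⟨hJ₁, he₁⟩ := refl_sign_facts (gl_ne_zero J₁) T.herm₁
  obtain ⟨hJ₂, he₂⟩ := refl_sign_facts (gl_ne_zero J₂) T.herm₂
  have hsign : ε₁ * ε₂ = -1 := by
    have h1 := T.sign
    have h3 : c * (ε₁ * ε₂ + 1) = 0 := by
      have h4 : (RingEquiv.refl F) c = c := rfl
      rw [h4] at h1
      linear_combination h1
    have h5 := (mul_eq_zero.mp h3).resolve_left T.hc
    exact eq_neg_of_add_eq_zero_left h5
  by_cases hq : Odd (Fintype.card F)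
  · have h2 := two_ne_zero_of_odd hq
    rcases eq_one_or_of_mul_self he₁ with h1 | h1
    · have h3 : ε₂ = -1 := by
        rw [h1, one_mul] at hsign
        exact hsign
      subst h1 h3
      exact out_tensor_core hm hH hG hGs hq (TensorData.swap T) (by rw [hJ₂]; simp) (by rw [hJ₁]; simp)
    · have h3 : ε₂ = 1 := by
        rw [h1, neg_one_mul] at hsign
        exact neg_injective hsign
      subst h1 h3
      exact out_tensor_core hm hH hG hGs hq T (by rw [hJ₁]; simp) (by rw [hJ₂]; simp)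
  · have h2 := two_eq_zero_of_not_odd hq
    have hone : ∀ a : F, a * a = 1 → a = 1 := by
      intro a ha
      rcases eq_one_or_of_mul_self ha with h | h
      · exact h
      · rw [h, neg_one_eq_one_of_two h2]
    have h3 := hone _ he₁
    have h4 := hone _ he₂
    subst h3 h4
    obtain ⟨Q, hQ, hp, hleQ⟩ := TensorData.even_outcome h2 hf T hGs (by rw [hJ₁]; simp) (by rw [hJ₂]; simp) hG
    exact out_quad hq hQ hp (le_sup_left.trans hleQ)

/-- `GL₂(F₃)` is solvable. -/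
theorem isSolvable_GL_two (h3 : Fintype.card F = 3) : Group.IsSolvable (GL (Fin 2) F) := by
  classical
  have hcard : Nat.card (GL (Fin 2) F) = 2 ^ 4 * 3 ^ 1 := by
    rw [Matrix.card_GL_field, h3, Fin.prod_univ_two]
    norm_num
  exact Cfsg.Agent.Lib.Char.Burnside2.isSolvable_of_card_eq Nat.prime_two Nat.prime_three _ (GL (Fin 2) F) 4 1 rfl hcard

/-- The tensor power outcome. -/
theorem out_wreath_main (hm : 2 ≤ m) (hH : H ≤ spGL m F)
    (hGs : H ⊔ scalars (Fin m ⊕ Fin m) F ≤ similarityGroup (sympForm m F)) {d t : ℕ}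
    {e : (Fin m ⊕ Fin m) ≃ (Fin t → Fin d)} {P : GL (Fin m ⊕ Fin m) F} {J₀ : GL (Fin d) F} {ε₀ c : F}
    (T : WreathForm (RingEquiv.refl F) (-1) (sympForm m F) (H ⊔ scalars (Fin m ⊕ Fin m) F) d t e P J₀ ε₀ c)
    (hX : ∃ X : Subgroup (GL (Fin d) F), ⁅X, X⁆ = X ∧ X ≠ ⊥) : Out H := by
  classical
  haveI := nonempty_index hm
  have hf := isSymplecticForm_sympForm (m := m) (F := F)
  have ht := T.ht
  have hd := T.hd
  haveI : Nonempty (Fin d) := ⟨⟨0, by omega⟩⟩
  obtain ⟨hJ, he⟩ := refl_sign_facts (gl_ne_zero J₀) T.herm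
  have hsign : ε₀ ^ t = -1 := by
    have h1 := T.sign
    have h3 : c * (ε₀ ^ t + 1) = 0 := by
      have h4 : (RingEquiv.refl F) c = c := rfl
      rw [h4] at h1
      linear_combination h1
    have h5 := (mul_eq_zero.mp h3).resolve_left T.hc
    exact eq_neg_of_add_eq_zero_left h5
  by_cases hq : Odd (Fintype.card F)
  · have h2 := two_ne_zero_of_odd hq
    have hne1 : (1 : F) ≠ -1 := by
      intro h
      apply h2
      linear_combination h
    have h1 : ε₀ = -1 := by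
      rcases eq_one_or_of_mul_self he with h | h
      · exfalso
        rw [h, one_pow] at hsign
        exact hne1 hsign
      · exact h
    subst h1
    have hodd : Odd t := by
      by_contra hev
      rw [Nat.not_odd_iff_even] at hev
      rw [hev.neg_one_pow] at hsign
      exact hne1 hsign
    have ht3 : 3 ≤ t := by
      obtain ⟨l, hl⟩ := hodd
      omega
    have hJ' : (J₀ : Matrix (Fin d) (Fin d) F)ᵀ = -(J₀ : Matrix (Fin d) (Fin d) F) := by
      rw [hJ]
      simp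
    have hd₀ : ∀ i, (J₀ : Matrix (Fin d) (Fin d) F) i i = 0 := by
      intro i
      have h3 := congrFun (congrFun hJ' i) i
      simp only [Matrix.transpose_apply, Matrix.neg_apply] at h3
      have h4 : (2 : F) * (J₀ : Matrix (Fin d) (Fin d) F) i i = 0 := by
        rw [two_mul]
        nth_rewrite 1 [h3]
        ring
      exact (mul_eq_zero.mp h4).resolve_left h2
    have hne : ¬ (Fintype.card F = 3 ∧ d = 2) := by
      rintro ⟨h3, rfl⟩
      obtain ⟨X, hXp, hX0⟩ := hX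
      haveI := isSolvable_GL_two h3
      exact hX0 (eq_bot_of_perfect hXp)
    have hst : IsTensorPowerFormStructure id (sympForm m F) (bil (J₀ : Matrix (Fin d) (Fin d) F)) e P :=
      isTensorPowerFormStructure_of T.hc ((RingEquiv.refl F : F ≃+* F) : F →+* F) T.eq (gramMatrix_bil _)
    exact out_wreath hq hodd ht3 hne (bil_symplectic J₀ hJ' hd₀) hst (le_sup_left.trans T.le)
  · have h2 := two_eq_zero_of_not_odd hq
    have h1 : ε₀ = 1 := by
      rcases eq_one_or_of_mul_self he with h | h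
      · exact h
      · rw [h, neg_one_eq_one_of_two h2]
    subst h1
    have hJ' : (J₀ : Matrix (Fin d) (Fin d) F)ᵀ = (J₀ : Matrix (Fin d) (Fin d) F) := by
      rw [hJ]
      simp
    have hd₀ : ∀ i, (J₀ : Matrix (Fin d) (Fin d) F) i i = 0 := by
      intro α
      have h3 := hf.alternating ((P : Matrix _ _ F) *ᵥ Pi.single (e.symm (fun _ => α)) 1)
      rw [T.eq] at h3
      have h4 := (mul_eq_zero.mp h3).resolve_left T.hc
      have h5 : sesqM ((RingEquiv.refl F : F ≃+* F) : F →+* F) ((pureMat fun _ : Fin t => (J₀ : Matrix (Fin d) (Fin d) F)).submatrix e e)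
          (Pi.single (e.symm (fun _ => α)) 1) (Pi.single (e.symm (fun _ => α)) 1) = (J₀ : Matrix (Fin d) (Fin d) F) α α ^ t := by
        rw [sesqM_refl]
        simp [bil]
      rw [h5] at h4
      exact eq_zero_of_pow_eq_zero h4
    obtain ⟨Q, hQ, hp, hleQ⟩ := WreathForm.exists_quad h2 hf T hGs hJ' hd₀
    exact out_quad hq hQ hp (le_sup_left.trans hleQ)

/-- The residual core. -/
theorem out_core (hm : 2 ≤ m) (hH : H ≤ spGL m F)
    (hGs : H ⊔ scalars (Fin m ⊕ Fin m) F ≤ similarityGroup (sympForm m F))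
    {P : Subgroup (GL (Fin m ⊕ Fin m) F)} (hP : IsResidualCore H P) (hN : Normalizes (H ⊔ scalars (Fin m ⊕ Fin m) F) P) :
    Out H ∨ InSymplecticResidualClass H := by
  classical
  haveI := nonempty_index hm
  have hf := isSymplecticForm_sympForm (m := m) (F := F)
  have hr := reflForm_symplectic hf
  obtain ⟨hirr, hcs⟩ := actsAbsolutelyIrreducibly_iff.mp hP.absIrred
  have hirr' := actsIrreducibly_iff.mp hirr
  have hPf : FixesForm (matrixSet P) (sympForm m F) := by
    rintro _ ⟨x, hx, rfl⟩ u v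
    exact hH (hP.le hx) u v
  have hbil := isSesq_of_bilinear hf.bilinear
  have hcard2 : 2 ≤ Fintype.card (Fin m ⊕ Fin m) := by
    rw [card_index]
    omega
  by_cases hQ : ∃ Q : (Fin m ⊕ Fin m → F) → F, IsNondegenerateQuadraticForm Q ∧ FixesQuadForm (matrixSet P) Q
  · left
    obtain ⟨Q, hQn, hQP⟩ := hQ
    obtain ⟨c, hc⟩ := form_unique Function.surjective_id hcs hbil (isSesq_of_bilinear hQn.polar_bilinear)
      hf.nondegenerate hPf (fixes_polar hQP)
    have hc0 : c ≠ 0 := by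
      rintro rfl
      obtain ⟨i⟩ := nonempty_index (m := m) hm
      have hv : (Pi.single i 1 : Fin m ⊕ Fin m → F) ≠ 0 := by
        intro h
        have := congrFun h i
        simp at this
      obtain ⟨-, ⟨x, hx⟩⟩ := hQn.nondegenerate _ hv
      apply hx
      rw [hc, zero_mul]
    by_cases hq : Odd (Fintype.card F)
    · exfalso
      have h2 := two_ne_zero_of_odd hq
      obtain ⟨i⟩ := nonempty_index (m := m) hm
      have hv : (Pi.single i 1 : Fin m ⊕ Fin m → F) ≠ 0 := by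
        intro h
        have := congrFun h i
        simp at this
      obtain ⟨-, ⟨x, hx⟩⟩ := hf.nondegenerate _ hv
      apply hx
      have h3 := QuadraticMap.polar_comm Q (Pi.single i 1) x
      rw [hc, hc, hf.skew x] at h3
      have h4 : (2 : F) * (c * sympForm m F (Pi.single i 1) x) = 0 := by
        linear_combination h3
      exact (mul_eq_zero.mp ((mul_eq_zero.mp h4).resolve_left h2)).resolve_left hc0
    · have h2 := two_eq_zero_of_not_odd hq
      let Q' : (Fin m ⊕ Fin m → F) → F := fun v => c⁻¹ * Q v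
      have hs : ∀ (a : F) v, Q' (a • v) = a ^ 2 * Q' v := by
        intro a v
        simp only [Q', hQn.smul]
        ring
      have hp : ∀ u v, Q' (u + v) = Q' u + Q' v + sympForm m F u v := by
        intro u v
        have h3 := hc u v
        rw [QuadraticMap.polar] at h3
        simp only [Q']
        have h4 : Q (u + v) = Q u + Q v + c * sympForm m F u v := by
          linear_combination h3
        rw [h4]
        field_simp
      obtain ⟨hQ', hpol⟩ := isNondegenerateQuadraticForm_of hf.bilinear hf.nondegenerate hs hp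
      have hQ'P : FixesQuadForm (matrixSet P) Q' := by
        intro x hx v
        simp only [Q']
        rw [hQP x hx]
      have hle : H ≤ quadSimilarityGroup Q' := fun g hg =>
        mem_quadSim_of_normalizes h2 hcard2 hs hp hirr' hQ'P (hH.trans isomG_le_similarity hg)
          (fun x hx => hN g (le_sup_left (a := H) hg) x hx)
      exact out_quad hq hQ' hpol hle
  · by_cases hU : ∃ (σ : F ≃+* F) (u : (Fin m ⊕ Fin m → F) → (Fin m ⊕ Fin m → F) → F), IsUnitaryForm σ u ∧ FixesForm (matrixSet P) u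
    · left
      obtain ⟨σ, u, hu, huP⟩ := hU
      obtain ⟨B, hB⟩ := realize_of_two_forms hcs hu.involutive hu.ne_refl hbil hf.nondegenerate hPf (isSesq_of_unitary hu)
        hu.nondegenerate huP
      open Cfsg.Agent.Lib.Classical.Herm.Descent in
      have hord : orderOf σ = 2 := by
        refine orderOf_eq_prime ?_ hu.ne_refl
        ext a
        rw [pow_two]
        exact hu.involutive a
      open Cfsg.Agent.Lib.Classical.Herm.Descent in
      have hcard : Fintype.card F = Nat.card (fixF σ) ^ 2 := by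
        rw [← Nat.card_eq_fintype_card, card_eq_pow_fix σ, hord]
      open Cfsg.Agent.Lib.Classical.Herm.Descent in
      have hB' : ∀ x ∈ P, ∀ i j, ((B : Matrix (Fin m ⊕ Fin m) (Fin m ⊕ Fin m) F) * (x : Matrix (Fin m ⊕ Fin m) (Fin m ⊕ Fin m) F) * ((B⁻¹ : GL (Fin m ⊕ Fin m) F) : Matrix (Fin m ⊕ Fin m) (Fin m ⊕ Fin m) F)) i j ∈ fixF σ :=
        fun x hx i j => mem_fixF.mpr (hB x hx i j)
      obtain ⟨ζ, hζ0, hζ⟩ := exists_rational hr hcs hPf _ hcard B hB'
      exact out_subfield Nat.prime_two hcard hζ0 (isFormRationalStructure_of hr _ hcard B⁻¹ hζ)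
        (fun g hg => mem_subfieldSubgroup_of_normalizes _ hcard hcs B hB' (hN g (le_sup_left (a := H) hg)))
    · right
      exact ⟨P, hP, hQ, hU⟩

/-- **Aschbacher's theorem for the symplectic groups**, with extra information. -/
theorem sp_mainF (hm : 2 ≤ m) (hH : H ≤ spGL m F) : Out H ∨ InSymplecticResidualClass H := by
  classical
  haveI := nonempty_index hm
  have hf := isSymplecticForm_sympForm (m := m) (F := F)
  have hr := reflForm_symplectic hf
  have hGs : H ⊔ scalars (Fin m ⊕ Fin m) F ≤ similarityGroup (sympForm m F) :=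
    sup_le (hH.trans isomG_le_similarity) (scalars_le_similarity hr)
  have hHG : H ≤ H ⊔ scalars (Fin m ⊕ Fin m) F := le_sup_left
  have hcard2 : 2 ≤ Fintype.card (Fin m ⊕ Fin m) := by
    rw [card_index]
    omega
  by_cases hG : ∀ W : Submodule F (Fin m ⊕ Fin m → F), Inv (H ⊔ scalars (Fin m ⊕ Fin m) F) W → W = ⊥ ∨ W = ⊤
  · rcases geom_or_dich hr hG hGs with hO | ⟨d, k, e, P, J₁, J₂, ε₁, ε₂, c, T⟩ | hD
    · exact Or.inl (out_comm hm hH hG hGs hO)
    · exact Or.inl (out_tensor_main hm hH hG hGs T)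
    · rcases raw_of_dich hcard2 hG hD with ⟨K, d, t, e, P, φ, gs, hW⟩ | ⟨R, r, s, D, hs⟩ |
        ⟨F₀, r, B, X, hrp, hc, hle, hXH, hXc, hXi, hXr⟩ | ⟨P, hP, hN⟩
      · obtain ⟨J₀, ε₀, c, T, X, hXp, hX0, -⟩ := WreathData.exists_form hr hW hGs
        exact Or.inl (out_wreath_main hm hH hGs T ⟨X, hXp, hX0⟩)
      · rcases sympData_outcome hf D hGs hD with ⟨F₀, r', P, ζ, h1, h2, h3, h4, h5⟩ |
          ⟨R', p, k, h1, h2, h3, h4, h5, h6, h7, h8, h9, h10, h11, h12, h13⟩
        · exact Or.inl (out_subfield h1 h2 h3 h4 (hHG.trans h5))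
        · exact Or.inl (Or.inr (Or.inr (Or.inr (Or.inr (Or.inr (Or.inl ⟨R', p, k, h1, h2, h3, h4, h5, h6, h7, h8, h9, hHG.trans h10, h11,
            ⟨_, h12⟩, by rw [spGL_eq_isomG]; exact h13⟩))))))
      · left
        have hfix : FixesForm (matrixSet X) (sympForm m F) := by
          rintro _ ⟨x, hx, rfl⟩ u v
          exact hH (hXH hx) u v
        obtain ⟨ζ, hζ0, hζ⟩ := exists_rational hr hXc hfix F₀ hc B hXr
        exact out_subfield hrp hc hζ0 (isFormRationalStructure_of hr F₀ hc B⁻¹ hζ) (hHG.trans hle)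
      · exact out_core hm hH hGs hP hN
  · left
    push Not at hG
    obtain ⟨W, hW, h0, h1⟩ := hG
    rcases reducible_outcome hr hGs h0 h1 hW with ⟨W', h2, h3, h4⟩ | ⟨W', h2, -, h3, h4, h5⟩ | ⟨k, D, -, hD, hle⟩
    · exact out_ts h2 h3 (le_subspaceStabilizer (fun g hg v hv => h4 g (hHG hg) v hv))
    · rw [card_index] at h4
      exact out_nd h2 h3 (by omega) (le_subspaceStabilizer (fun g hg v hv => h5 g (hHG hg) v hv))
    · exact out_decomp hD (hHG.trans hle)

/-- **Aschbacher's theorem for the symplectic groups.** -/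
theorem sp_main (hm : 2 ≤ m) (hH : H ≤ spGL m F) :
    (∃ M : Subgroup (GL (Fin m ⊕ Fin m) F), InSymplecticClass m F M ∧ H ≤ M) ∨ InSymplecticResidualClass H :=
  (sp_mainF hm hH).imp (Out.toClass hH) id

end Standard

end Cfsg.Agent.Lib.Classical.Asch.FormSp
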