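import Mathlib
import Cfsg.Agent.Lib.Classical.Asch.FormSp
import Cfsg.Agent.Lib.Classical.Asch.FormEven
import Cfsg.Agent.Lib.Classical.Herm.PSLGraphField
import Cfsg.Agent.Lib.Classical.Herm.Basic

/-!
# Aschbacher's theorem for the unitary groups: the set-up and the subfield outcomes
-/

set_option autoImplicit false
set_option linter.style.haveILetI false
set_option linter.unusedSectionVars false

namespace Cfsg.Agent.Lib.Classical.Asch.FormSU

open scoped MatrixGroups Matrix Kronecker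
open Cfsg Cfsg.Geo Cfsg.Agent.Lib.Classical.Asch.Basic Cfsg.Agent.Lib.Classical.Asch.Forms
open Cfsg.Agent.Lib.Classical.Asch.Adj Cfsg.Agent.Lib.Classical.Asch.FormDich
open Cfsg.Agent.Lib.Classical.Asch.FormTensor Cfsg.Agent.Lib.Classical.Asch.FormSim
open Cfsg.Agent.Lib.Classical.Asch.FormComm Cfsg.Agent.Lib.Classical.Asch.Gram
open Cfsg.Agent.Lib.Classical.Asch.FormPerp Cfsg.Agent.Lib.Classical.Asch.FormField
open Cfsg.Agent.Lib.Classical.Asch.FormSympType
open Cfsg.Agent.Lib.Classical.Asch.FormReal Cfsg.Agent.Lib.Classical.Asch.FormDescent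
open Cfsg.Agent.Lib.Classical.Asch.SympType Cfsg.Agent.Lib.Classical.Asch.SympStruct
open Cfsg.Agent.Lib.Classical.Asch.Dichotomy Cfsg.Agent.Lib.Classical.Asch.Subfield
open Cfsg.Agent.Lib.Classical.Asch.CaseA Cfsg.Agent.Lib.Classical.Asch.Main
open Cfsg.Agent.Lib.Classical.Asch.PureTensor
open Cfsg.Agent.Lib.Classical.Asch.FormSp (scalars_le_similarity IsMDecomposition.two_mul_eq eq_bot_of_perfect)
open Cfsg.Agent.Lib.Classical.Herm.PSLGraphField (sigE sigE_apply exists_herm_factor sigE_ne_one sigE_sq)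
open Cfsg.Agent.Lib.Classical.Herm.Descent (fixF mem_fixF card_eq_pow_fix)

section Generic

variable {ι : Type} [Fintype ι] [DecidableEq ι] {F : Type*} [Field F]
variable {σ : F ≃+* F} {f : (ι → F) → (ι → F) → F}

/-- Hilbert's theorem 90 for an involution, inside a subfield. -/
theorem hilbert_two (F₀ : Subfield F) (hσ : ∀ a, σ (σ a) = a) {ε t : F} (h : ε * σ ε = 1) (hε : ε ∈ F₀) (ht : t ∈ F₀)
    (hσt : σ t ∈ F₀) (hne : σ t ≠ t) : ∃ a ∈ F₀, a ≠ 0 ∧ ε * σ a = a := by
  by_cases h1 : 1 + ε = 0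
  · have hε' : ε = -1 := by linear_combination h1
    refine ⟨t - σ t, F₀.sub_mem ht hσt, sub_ne_zero.mpr (Ne.symm hne), ?_⟩
    rw [map_sub, hσ, hε']
    ring
  · refine ⟨1 + ε, F₀.add_mem F₀.one_mem hε, h1, ?_⟩
    rw [map_add, map_one, mul_add, h]
    ring

/-- The Gram matrix is Hermitian. -/
theorem gramP_herm {f : (ι → F) → (ι → F) → F} (hr : ReflForm σ 1 f) (P : GL ι F) (i j : ι) :
    gramP f P i j = σ (gramP f P j i) := by
  change f _ _ = σ (f _ _)
  rw [hr.herm, one_mul]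

/-- The Gram matrix of a multiple. -/
theorem gramP_scal (hr : ReflForm σ 1 f) (u : Fˣ) (P : GL ι F) (i j : ι) :
    gramP f (scal ι F u * P) i j = (u : F) * σ u * gramP f P i j := by
  change f _ _ = _ * f _ _
  have h1 : ∀ v : ι → F, ((scal ι F u * P : GL ι F) : Matrix ι ι F) *ᵥ v = (u : F) • ((P : Matrix ι ι F) *ᵥ v) := by
    intro v
    rw [Units.val_mul, coe_scal, Matrix.smul_mul, Matrix.one_mul, Matrix.smul_mulVec]
  rw [h1, h1, hr.smul_left, hr.smul_right, mul_assoc]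

/-- The subfield subgroup does not change under scalars. -/
theorem subfieldSubgroup_scal (F₀ : Subfield F) (u : Fˣ) (P : GL ι F) :
    subfieldSubgroup F₀ (scal ι F u * P) = subfieldSubgroup F₀ P := by
  unfold subfieldSubgroup
  have hconj : (MulAut.conj (scal ι F u * P)).toMonoidHom = (MulAut.conj P).toMonoidHom := by
    ext1 x
    have hc : ∀ y : GL ι F, scal ι F u * y = y * scal ι F u := by
      intro y
      apply Units.ext
      rw [Units.val_mul, Units.val_mul, coe_scal]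
      simp
    change (scal ι F u * P) * x * (scal ι F u * P)⁻¹ = P * x * P⁻¹
    rw [hc P, mul_inv_rev]
    have h2 : P * scal ι F u * x * ((scal ι F u)⁻¹ * P⁻¹) = P * (scal ι F u * x * (scal ι F u)⁻¹) * P⁻¹ := by group
    rw [h2, hc x]
    group
  rw [hconj]

/-- The form of a symmetric matrix in characteristic two. -/
theorem bil_self_two (h2 : (2 : F) = 0) {A : Matrix ι ι F} (hA : Aᵀ = A) (w : ι → F) :
    bil A w w = ∑ i, w i ^ 2 * A i i := by
  classical
  let D : Matrix ι ι F := Matrix.diagonal fun i => A i i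
  have h1 : bil (A - D) w w = 0 := by
    refine FormEven.bil_self_of_two h2 ?_ ?_ w
    · rw [Matrix.transpose_sub, hA, Matrix.diagonal_transpose]
    · intro i
      simp [D]
  have h3 : bil (A - D) w w = bil A w w - bil D w w := by
    simp [bil, Matrix.sub_mulVec, dotProduct_sub]
  have h4 : bil D w w = ∑ i, w i ^ 2 * A i i := by
    simp only [bil, D, Matrix.mulVec_diagonal, dotProduct]
    exact Finset.sum_congr rfl fun i _ => by ring
  rw [h3, h4] at h1
  exact sub_eq_zero.mp h1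

end Generic

section Standard

variable {F : Type*} [Field F] [Fintype F] {n q : ℕ}

/-- The standard unitary form as a reflexive form. -/
theorem refl_hermForm (hF : Fintype.card F = q ^ 2) : ReflForm (sigE hF) 1 (hermForm n F q) where
  add_left := Cfsg.Agent.Lib.Classical.Herm.Basic.hermForm_add_left n
  smul_left := Cfsg.Agent.Lib.Classical.Herm.Basic.hermForm_smul_left n
  herm u v := by
    rw [one_mul, sigE_apply, Cfsg.Agent.Lib.Classical.Herm.Basic.hermForm_pow_q hF]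
  invol a := Cfsg.Agent.Lib.Classical.Herm.Basic.sigma_sigma hF a
  nondeg := by
    intro v hv
    obtain ⟨j, hj⟩ := Function.ne_iff.mp hv
    have h1 : ∀ x : Fin n → F, hermForm n F q x v = ∑ i, x i * v i ^ q := fun x => rfl
    have h2 : ∀ x : Fin n → F, hermForm n F q v x = ∑ i, v i * x i ^ q := fun x => rfl
    have hq := Cfsg.Agent.Lib.Classical.Herm.Basic.two_le_q hF
    constructor
    · refine ⟨Pi.single j 1, ?_⟩
      rw [h1, Finset.sum_eq_single j]
      · rw [Pi.single_eq_same, one_mul]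
        exact pow_ne_zero _ hj
      · intro i _ hi
        simp [hi]
      · simp
    · refine ⟨Pi.single j 1, ?_⟩
      rw [h2, Finset.sum_eq_single j]
      · simpa using hj
      · intro i _ hi
        simp [hi]
        omega
      · simp

theorem sigE_ne_refl (hF : Fintype.card F = q ^ 2) : sigE hF ≠ RingEquiv.refl F := sigE_ne_one hF

theorem fix_card (hF : Fintype.card F = q ^ 2) : Nat.card (fixF (sigE hF)) = q := by
  have hord : orderOf (sigE hF) = 2 := orderOf_eq_prime (sigE_sq hF) (sigE_ne_one hF)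
  have h1 := card_eq_pow_fix (sigE hF)
  rw [hord, Nat.card_eq_fintype_card, hF] at h1
  exact (Nat.pow_left_injective (n := 2) (by norm_num) h1).symm

theorem card_fix_pow (hF : Fintype.card F = q ^ 2) : Fintype.card F = Nat.card (fixF (sigE hF)) ^ 2 := by
  rw [fix_card hF, hF]

/-- The output of the theorem, with extra information. -/
def Out (n : ℕ) (q : ℕ) (H : Subgroup (GL (Fin n) F)) : Prop :=
  (∃ W : Submodule F (Fin n → F), W ≠ ⊥ ∧ IsTotallySingularFor (hermForm n F q) W ∧ H ≤ subspaceStabilizer W) ∨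
  (∃ W : Submodule F (Fin n → F), W ≠ ⊥ ∧ IsNondegenerateOn (hermForm n F q) W ∧ 2 * Module.finrank F W < n ∧
      H ≤ subspaceStabilizer W) ∨
  (∃ (t k : ℕ) (D : Fin t → Submodule F (Fin n → F)), IsNondegenerateMDecomposition (hermForm n F q) k D ∧
      H ≤ decompositionStabilizer D) ∨
  (∃ (k : ℕ) (D : Fin 2 → Submodule F (Fin n → F)), 2 * k = n ∧ IsMDecomposition k D ∧
      (∀ i, IsTotallySingularFor (hermForm n F q) (D i)) ∧ H ≤ decompositionStabilizer D) ∨
  (∃ (F₀ : Subfield F) (r : ℕ) (P : GL (Fin n) F), r.Prime ∧ Odd r ∧ Fintype.card F = Nat.card F₀ ^ r ∧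
      IsFormRationalStructure (hermForm n F q) F₀ 1 P ∧ H ≤ subfieldSubgroup F₀ P) ∨
  (∃ (F₀ : Subfield F) (P : GL (Fin n) F), Odd q ∧ Fintype.card F = Nat.card F₀ ^ 2 ∧
      IsFormRationalStructure (hermForm n F q) F₀ 1 P ∧ H ≤ subfieldSubgroup F₀ P) ∨
  (∃ (F₀ : Subfield F) (P : GL (Fin n) F) (ζ : F), Even n ∧ Fintype.card F = Nat.card F₀ ^ 2 ∧ ζ ≠ 0 ∧
      ζ + ζ ^ q = 0 ∧ IsFormRationalStructure (hermForm n F q) F₀ ζ P ∧
      (∀ u : Fin n → F, (∀ i, u i ∈ F₀) → hermForm n F q ((P : Matrix (Fin n) (Fin n) F) *ᵥ u) ((P : Matrix (Fin n) (Fin n) F) *ᵥ u) = 0) ∧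
      H ≤ subfieldSubgroup F₀ P) ∨
  (∃ (r : ℕ) (R : Subgroup (GL (Fin n) F)) (p e k : ℕ), IsSymplecticTypeGroup r R ∧
      ActsAbsolutelyIrreducibly (matrixSet R) ∧ R ≤ similarityGroup (hermForm n F q) ∧ r ≠ p ∧
      IsMinimalFieldFor (Nat.card (Subgroup.center R)) p e F ∧
      ((Odd r ∧ Nat.card (Subgroup.center R) = r ∧ 1 ≤ k ∧ Nat.card R = r ^ (1 + 2 * k)) ∨
       (r = 2 ∧ e = 2 ∧ Nat.card (Subgroup.center R) = 4 ∧ Nat.card R = 2 ^ (2 + 2 * k))) ∧
      H ≤ subgroupNormalizer R ∧ n = r ^ k ∧ R ≤ GU n F q) ∨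
  (∃ (r : ℕ) (K : Subalgebra F (Matrix (Fin n) (Fin n) F)), r.Prime ∧ Odd r ∧ IsFieldSubalgebra r K ∧
      IsAdjointClosedFor (hermForm n F q) K ∧ H ≤ subalgebraNormalizer K) ∨
  (∃ (n₁ n₂ : ℕ) (e : Fin n ≃ Fin n₁ × Fin n₂) (P : GL (Fin n) F)
      (f₁ : (Fin n₁ → F) → (Fin n₁ → F) → F) (f₂ : (Fin n₂ → F) → (Fin n₂ → F) → F),
      2 ≤ n₁ ∧ n₁ < n₂ ∧ IsUnitaryFormPow q f₁ ∧ IsUnitaryFormPow q f₂ ∧
      IsTensorFormStructure (fun x : F => x ^ q) (hermForm n F q) f₁ f₂ e P ∧ H ≤ tensorProductSubgroup n₁ n₂ e P) ∨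
  (∃ (k t : ℕ) (e : Fin n ≃ (Fin t → Fin k)) (P : GL (Fin n) F) (f₁ : (Fin k → F) → (Fin k → F) → F),
      3 ≤ k ∧ 2 ≤ t ∧ ¬ (q = 2 ∧ k = 3) ∧ IsUnitaryFormPow q f₁ ∧
      IsTensorPowerFormStructure (fun x : F => x ^ q) (hermForm n F q) f₁ e P ∧ H ≤ tensorWreathSubgroup k t e P)

variable {H : Subgroup (GL (Fin n) F)}

/-- The output in the form of the statement. -/
theorem Out.toClass (hH : H ≤ GU n F q) (h : Out n q H) :
    ∃ M : Subgroup (GL (Fin n) F), InUnitaryClass n F q M ∧ H ≤ M := by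
  rcases h with ⟨W, h0, hts, hle⟩ | ⟨W, h0, hn, hd, hle⟩ | ⟨t, k, D, hD, hle⟩ | ⟨k, D, hk, hD, hts, hle⟩ |
    ⟨F₀, r, P, hr, ho, hc, hR, hle⟩ | ⟨F₀, P, ho, hc, hR, hle⟩ | ⟨F₀, P, ζ, he, hc, hζ, hζ', hR, hv, hle⟩ |
    ⟨r, R, p, e, k, h1, h2, h3, h4, h5, h6, hle, -, -⟩ |
    ⟨r, K, hr, ho, hK, h1, hle⟩ | ⟨n₁, n₂, e, P, f₁, f₂, h1, h2, h3, h4, h5, hle⟩ | ⟨k, t, e, P, f₁, h1, h2, h3, h4, h5, hle⟩
  · exact ⟨_, Or.inl (Or.inl ⟨W, h0, hts, rfl⟩), le_inf hle hH⟩
  · exact ⟨_, Or.inl (Or.inr (Or.inl ⟨W, h0, hn, hd, rfl⟩)), le_inf hle hH⟩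
  · exact ⟨_, Or.inl (Or.inr (Or.inr (Or.inl ⟨t, k, D, hD, rfl⟩))), le_inf hle hH⟩
  · exact ⟨_, Or.inl (Or.inr (Or.inr (Or.inr (Or.inl ⟨k, D, hk, hD, hts, rfl⟩)))), le_inf hle hH⟩
  · exact ⟨_, Or.inl (Or.inr (Or.inr (Or.inr (Or.inr (Or.inl ⟨F₀, r, P, hr, ho, hc, hR, rfl⟩))))), le_inf hle hH⟩
  · exact ⟨_, Or.inl (Or.inr (Or.inr (Or.inr (Or.inr (Or.inr (Or.inl ⟨F₀, P, ho, hc, hR, rfl⟩)))))), le_inf hle hH⟩
  · exact ⟨_, Or.inl (Or.inr (Or.inr (Or.inr (Or.inr (Or.inr (Or.inr (Or.inl ⟨F₀, P, ζ, he, hc, hζ, hζ', hR, hv, rfl⟩))))))), le_inf hle hH⟩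
  · exact ⟨_, Or.inl (Or.inr (Or.inr (Or.inr (Or.inr (Or.inr (Or.inr (Or.inr ⟨r, R, p, e, k, h1, h2, h3, h4, h5, h6, rfl⟩))))))), le_inf hle hH⟩
  · exact ⟨_, Or.inr (Or.inl ⟨r, K, hr, ho, hK, h1, rfl⟩), le_inf hle hH⟩
  · exact ⟨_, Or.inr (Or.inr (Or.inl ⟨n₁, n₂, e, P, f₁, f₂, h1, h2, h3, h4, h5, rfl⟩)), le_inf hle hH⟩
  · exact ⟨_, Or.inr (Or.inr (Or.inr ⟨k, t, e, P, f₁, h1, h2, h3, h4, h5, rfl⟩)), le_inf hle hH⟩

theorem out_ts {W : Submodule F (Fin n → F)} (h0 : W ≠ ⊥) (hts : IsTotallySingularFor (hermForm n F q) W)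
    (hle : H ≤ subspaceStabilizer W) : Out n q H :=
  Or.inl ⟨W, h0, hts, hle⟩

theorem out_nd {W : Submodule F (Fin n → F)} (h0 : W ≠ ⊥) (hn : IsNondegenerateOn (hermForm n F q) W)
    (hd : 2 * Module.finrank F W < n) (hle : H ≤ subspaceStabilizer W) : Out n q H :=
  Or.inr (Or.inl ⟨W, h0, hn, hd, hle⟩)

theorem out_decomp {t k : ℕ} {D : Fin t → Submodule F (Fin n → F)} (hD : IsNondegenerateMDecomposition (hermForm n F q) k D)
    (hle : H ≤ decompositionStabilizer D) : Out n q H :=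
  Or.inr (Or.inr (Or.inl ⟨t, k, D, hD, hle⟩))

theorem out_pair {k : ℕ} {D : Fin 2 → Submodule F (Fin n → F)} (hk : 2 * k = n) (hD : IsMDecomposition k D)
    (hts : ∀ i, IsTotallySingularFor (hermForm n F q) (D i)) (hle : H ≤ decompositionStabilizer D) : Out n q H :=
  Or.inr (Or.inr (Or.inr (Or.inl ⟨k, D, hk, hD, hts, hle⟩)))

theorem out_sub_odd {F₀ : Subfield F} {r : ℕ} {P : GL (Fin n) F} (hr : r.Prime) (ho : Odd r) (hc : Fintype.card F = Nat.card F₀ ^ r)
    (hR : IsFormRationalStructure (hermForm n F q) F₀ 1 P) (hle : H ≤ subfieldSubgroup F₀ P) : Out n q H :=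
  Or.inr (Or.inr (Or.inr (Or.inr (Or.inl ⟨F₀, r, P, hr, ho, hc, hR, hle⟩))))

theorem out_sub_two {F₀ : Subfield F} {P : GL (Fin n) F} (ho : Odd q) (hc : Fintype.card F = Nat.card F₀ ^ 2)
    (hR : IsFormRationalStructure (hermForm n F q) F₀ 1 P) (hle : H ≤ subfieldSubgroup F₀ P) : Out n q H :=
  Or.inr (Or.inr (Or.inr (Or.inr (Or.inr (Or.inl ⟨F₀, P, ho, hc, hR, hle⟩)))))

theorem out_sub_alt {F₀ : Subfield F} {P : GL (Fin n) F} {ζ : F} (he : Even n) (hc : Fintype.card F = Nat.card F₀ ^ 2)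
    (hζ : ζ ≠ 0) (hζ' : ζ + ζ ^ q = 0) (hR : IsFormRationalStructure (hermForm n F q) F₀ ζ P)
    (hv : ∀ u : Fin n → F, (∀ i, u i ∈ F₀) → hermForm n F q ((P : Matrix (Fin n) (Fin n) F) *ᵥ u) ((P : Matrix (Fin n) (Fin n) F) *ᵥ u) = 0)
    (hle : H ≤ subfieldSubgroup F₀ P) : Out n q H :=
  Or.inr (Or.inr (Or.inr (Or.inr (Or.inr (Or.inr (Or.inl ⟨F₀, P, ζ, he, hc, hζ, hζ', hR, hv, hle⟩))))))

theorem out_field {r : ℕ} {K : Subalgebra F (Matrix (Fin n) (Fin n) F)} (hr : r.Prime) (ho : Odd r) (hK : IsFieldSubalgebra r K)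
    (h1 : IsAdjointClosedFor (hermForm n F q) K) (hle : H ≤ subalgebraNormalizer K) : Out n q H :=
  Or.inr (Or.inr (Or.inr (Or.inr (Or.inr (Or.inr (Or.inr (Or.inr (Or.inl ⟨r, K, hr, ho, hK, h1, hle⟩))))))))

theorem out_tensor {n₁ n₂ : ℕ} {e : Fin n ≃ Fin n₁ × Fin n₂} {P : GL (Fin n) F}
    {f₁ : (Fin n₁ → F) → (Fin n₁ → F) → F} {f₂ : (Fin n₂ → F) → (Fin n₂ → F) → F} (h1 : 2 ≤ n₁) (h2 : n₁ < n₂)
    (h3 : IsUnitaryFormPow q f₁) (h4 : IsUnitaryFormPow q f₂)
    (h5 : IsTensorFormStructure (fun x : F => x ^ q) (hermForm n F q) f₁ f₂ e P) (hle : H ≤ tensorProductSubgroup n₁ n₂ e P) : Out n q H :=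
  Or.inr (Or.inr (Or.inr (Or.inr (Or.inr (Or.inr (Or.inr (Or.inr (Or.inr (Or.inl ⟨n₁, n₂, e, P, f₁, f₂, h1, h2, h3, h4, h5, hle⟩)))))))))

theorem out_wreath {k t : ℕ} {e : Fin n ≃ (Fin t → Fin k)} {P : GL (Fin n) F} {f₁ : (Fin k → F) → (Fin k → F) → F}
    (h1 : 3 ≤ k) (h2 : 2 ≤ t) (h3 : ¬ (q = 2 ∧ k = 3)) (h4 : IsUnitaryFormPow q f₁)
    (h5 : IsTensorPowerFormStructure (fun x : F => x ^ q) (hermForm n F q) f₁ e P) (hle : H ≤ tensorWreathSubgroup k t e P) : Out n q H :=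
  Or.inr (Or.inr (Or.inr (Or.inr (Or.inr (Or.inr (Or.inr (Or.inr (Or.inr (Or.inr ⟨k, t, e, P, f₁, h1, h2, h3, h4, h5, hle⟩)))))))))

/-! ### Subfield outcomes -/

theorem two_of_parity (hF : Fintype.card F = q ^ 2) (ho : ¬ Odd q) : (2 : F) = 0 := by
  apply two_eq_zero_of_not_odd
  rw [hF]
  intro h
  exact ho (Nat.odd_pow_iff (by norm_num) |>.mp h)

theorem two_ne_of_parity (hF : Fintype.card F = q ^ 2) (ho : Odd q) : (2 : F) ≠ 0 := by
  apply two_ne_zero_of_odd
  rw [hF]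
  exact ho.pow

theorem exists_norm_unit (hF : Fintype.card F = q ^ 2) {z : F} (hz : z ≠ 0) (hσ : sigE hF z = z) :
    ∃ u : Fˣ, (u : F) * sigE hF u = z := by
  obtain ⟨c, hc⟩ := Cfsg.Agent.Lib.Classical.Herm.Basic.exists_norm_eq hF z hz (by rwa [← sigE_apply hF])
  have hc0 : c ≠ 0 := by
    rintro rfl
    rw [zero_pow (by omega)] at hc
    exact hz hc.symm
  refine ⟨Units.mk0 c hc0, ?_⟩
  rw [Units.val_mk0, sigE_apply, ← hc, pow_succ, mul_comm]

/-- Subfields of odd index are not fixed by the involution. -/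
theorem exists_moved (hF : Fintype.card F = q ^ 2) {F₀ : Subfield F} {r : ℕ} (ho : Odd r) (hc : Fintype.card F = Nat.card F₀ ^ r) :
    ∃ t ∈ F₀, sigE hF t ≠ t := by
  classical
  by_contra hcon
  push Not at hcon
  have hle : F₀ ≤ fixF (sigE hF) := fun x hx => mem_fixF.mpr (hcon x hx)
  letI : Fintype (fixF (sigE hF)) := Fintype.ofFinite _
  let F₁ : Subfield (fixF (sigE hF)) := F₀.comap (fixF (sigE hF)).subtype
  obtain ⟨s, hs⟩ := exists_card_eq_pow F₁
  have hcard : Nat.card F₁ = Nat.card F₀ := by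
    refine Nat.card_congr ⟨fun x => ⟨x.1.1, x.2⟩, fun x => ⟨⟨x.1, hle x.2⟩, x.2⟩, fun x => rfl, fun x => rfl⟩
  rw [hcard, ← Nat.card_eq_fintype_card, fix_card hF] at hs
  rw [hF, hs, ← pow_mul] at hc
  have h2 : 1 < Nat.card F₀ := Finite.one_lt_card
  have h3 := Nat.pow_right_injective h2 hc
  rw [← Nat.not_even_iff_odd] at ho
  exact ho ⟨s, by omega⟩

/-- The Gram matrix of a non-degenerate form in any basis is invertible. -/
theorem gramP_isUnit (hF : Fintype.card F = q ^ 2) (P : GL (Fin n) F) : IsUnit (gramP (hermForm n F q) P) := by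
  have hr := refl_hermForm (n := n) hF
  refine isUnit_gram (σ := (sigE hF : F →+* F)) (sigE hF).surjective (FormDescent.ReflForm.isSesqP hr P) ?_
  intro v hv
  have hPv : (P : Matrix (Fin n) (Fin n) F) *ᵥ v ≠ 0 := by
    intro h
    apply hv
    have := inv_mulVec_mulVec P v
    rw [h, Matrix.mulVec_zero] at this
    exact this.symm
  obtain ⟨⟨x, hx⟩, ⟨y, hy⟩⟩ := hr.nondeg _ hPv
  refine ⟨⟨((P⁻¹ : GL (Fin n) F) : Matrix (Fin n) (Fin n) F) *ᵥ x, ?_⟩, ⟨((P⁻¹ : GL (Fin n) F) : Matrix (Fin n) (Fin n) F) *ᵥ y, ?_⟩⟩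
  · show hermForm n F q ((P : Matrix (Fin n) (Fin n) F) *ᵥ (((P⁻¹ : GL (Fin n) F) : Matrix (Fin n) (Fin n) F) *ᵥ x)) ((P : Matrix (Fin n) (Fin n) F) *ᵥ v) ≠ 0
    rw [mulVec_inv_mulVec]
    exact hx
  · show hermForm n F q ((P : Matrix (Fin n) (Fin n) F) *ᵥ v) ((P : Matrix (Fin n) (Fin n) F) *ᵥ (((P⁻¹ : GL (Fin n) F) : Matrix (Fin n) (Fin n) F) *ᵥ y)) ≠ 0
    rw [mulVec_inv_mulVec]
    exact hy

theorem sesqM_eq_bil_of_fix (hF : Fintype.card F = q ^ 2) (A : Matrix (Fin n) (Fin n) F) {w : Fin n → F} (hw : ∀ i, sigE hF (w i) = w i) :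
    sesqM (sigE hF : F →+* F) A w w = bil A w w := by
  unfold sesqM bil
  congr 2
  funext i
  exact hw i

/-- A non-alternating symmetric rational form in characteristic two gives an invariant hyperplane. -/
theorem not_irr_of_nonalt (hF : Fintype.card F = q ^ 2) (h2 : (2 : F) = 0) (hn2 : 2 ≤ n) {G : Subgroup (GL (Fin n) F)}
    {F₀ : Subfield F} (hc : Fintype.card F = Nat.card F₀ ^ 2) {P : GL (Fin n) F}
    (hsym : ∀ i j, gramP (hermForm n F q) P i j = gramP (hermForm n F q) P j i) {k : Fin n}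
    (hk : gramP (hermForm n F q) P k k ≠ 0) (hle : G ≤ subfieldSubgroup F₀ P)
    (hGs : G ≤ similarityGroup (hermForm n F q)) : ∃ W : Submodule F (Fin n → F), Inv G W ∧ W ≠ ⊥ ∧ W ≠ ⊤ := by
  classical
  haveI : Nonempty (Fin n) := ⟨⟨0, by omega⟩⟩
  have hr := refl_hermForm (n := n) hF
  set B := gramP (hermForm n F q) P with hB
  haveI : CharP F 2 := CharTwo.of_one_ne_zero_of_two_eq_zero one_ne_zero h2
  have hq' : Nat.card F₀ = q := by
    rw [hF] at hc
    exact (Nat.pow_left_injective (n := 2) (by norm_num) hc).symm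
  have hfix : ∀ x ∈ F₀, sigE hF x = x := by
    intro x hx
    rw [sigE_apply, ← hq']
    exact (mem_subfield_iff F₀ hc x).mp hx
  have hsq : ∀ a : F, ∃ b : F, b ^ 2 = a := by
    intro a
    obtain ⟨b, hb⟩ := FiniteField.isSquare_of_char_two (ringChar.eq F 2) a
    exact ⟨b, by rw [hb, sq]⟩
  have hsqinj : ∀ a c : F, a ^ 2 = c ^ 2 → a = c := by
    intro a c h
    have h3 : (a + c) ^ 2 = 0 := by
      linear_combination h + (c ^ 2 + a * c) * h2
    have h4 := eq_zero_of_pow_eq_zero h3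
    linear_combination h4 - c * h2
  choose b hb using fun i => hsq (B i i)
  have hbk : b k ≠ 0 := by
    intro h0
    apply hk
    rw [← hb k, h0]
    ring
  let ℓ : (Fin n → F) →ₗ[F] F :=
    { toFun := fun u => b ⬝ᵥ u
      map_add' := fun x y => dotProduct_add _ _ _
      map_smul' := fun c x => by simp [dotProduct_smul] }
  have hℓ : ∀ u, ℓ u = b ⬝ᵥ u := fun u => rfl
  let W : Submodule F (Fin n → F) := (LinearMap.ker ℓ).map (P : Matrix (Fin n) (Fin n) F).mulVecLin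
  have hWmem : ∀ u, (P : Matrix (Fin n) (Fin n) F) *ᵥ u ∈ W ↔ ℓ u = 0 := by
    intro u
    constructor
    · rintro ⟨x, hx, hxu⟩
      have h3 : x = u := mulVec_injective P hxu
      rw [← h3]
      exact hx
    · intro h
      exact ⟨u, h, rfl⟩
  refine ⟨W, ?_, ?_, ?_⟩
  · rintro g hg _ ⟨u, hu, rfl⟩
    have hu' : ℓ u = 0 := hu
    obtain ⟨y, hy, rfl⟩ := hle hg
    obtain ⟨g₀, ⟨h₀, rfl⟩, z, hz, rfl⟩ := Subgroup.mem_sup_of_normal_right.mp hy
    obtain ⟨ρ, hρ⟩ := (mem_scalars_iff' z).mp hz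
    have hρ0 : ρ ≠ 0 := by
      rintro rfl
      have h3 := z.isUnit
      rw [hρ, zero_smul] at h3
      exact not_isUnit_zero h3
    set M : Matrix (Fin n) (Fin n) F := ((Matrix.GeneralLinearGroup.map (F₀.subtype : F₀ →+* F) h₀ : GL (Fin n) F) : Matrix (Fin n) (Fin n) F) with hM
    have hMF : ∀ i j, M i j ∈ F₀ := by
      intro i j
      change ((h₀ : Matrix (Fin n) (Fin n) F₀) i j : F) ∈ F₀
      exact Subtype.coe_prop _
    set g := (MulAut.conj P).toMonoidHom (Matrix.GeneralLinearGroup.map (F₀.subtype : F₀ →+* F) h₀ * z) with hgdef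
    have hact : ∀ w : Fin n → F, (g : Matrix (Fin n) (Fin n) F) *ᵥ ((P : Matrix (Fin n) (Fin n) F) *ᵥ w) =
        (P : Matrix (Fin n) (Fin n) F) *ᵥ (ρ • (M *ᵥ w)) := by
      intro w
      have h3 : (g : GL (Fin n) F) * P = P * (Matrix.GeneralLinearGroup.map (F₀.subtype : F₀ →+* F) h₀ * z) := by
        rw [hgdef]
        simp [MulAut.conj_apply, mul_assoc]
      rw [Matrix.mulVec_mulVec, ← Units.val_mul, h3, Units.val_mul, ← Matrix.mulVec_mulVec, Units.val_mul, hρ, ← hM,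
        Matrix.mul_smul, mul_one, Matrix.smul_mulVec]
    obtain ⟨μ, hμ⟩ := hGs hg
    obtain ⟨τ, hτ⟩ := hsq ((μ : F) / (ρ * sigE hF ρ))
    have hρσ : ρ * sigE hF ρ ≠ 0 := mul_ne_zero hρ0 ((map_ne_zero _).mpr hρ0)
    have hcol : ∀ l, ∑ i, M i l * b i = τ * b l := by
      intro l
      apply hsqinj
      let x : Fin n → F := fun i => M i l
      have h3 := hμ ((P : Matrix (Fin n) (Fin n) F) *ᵥ Pi.single l 1) ((P : Matrix (Fin n) (Fin n) F) *ᵥ Pi.single l 1)
      rw [hact] at h3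
      have hMx : M *ᵥ Pi.single l 1 = x := by
        funext i
        simp [x]
      rw [hMx, Matrix.mulVec_smul, hr.smul_left, hr.smul_right] at h3
      have h4 : hermForm n F q ((P : Matrix (Fin n) (Fin n) F) *ᵥ x) ((P : Matrix (Fin n) (Fin n) F) *ᵥ x) = bil B x x := by
        rw [eq_sesqM_gramP hr, sesqM_eq_bil_of_fix hF _ (fun i => hfix _ (hMF i l))]
      have h5 : hermForm n F q ((P : Matrix (Fin n) (Fin n) F) *ᵥ Pi.single l 1) ((P : Matrix (Fin n) (Fin n) F) *ᵥ Pi.single l 1) = B l l := rfl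
      rw [h4, h5, bil_self_two h2 (by ext i j; exact hsym j i)] at h3
      have h3' : ρ * sigE hF ρ * ∑ i, x i ^ 2 * B i i = μ * B l l := by
        linear_combination h3
      have h6 : ∑ i, x i ^ 2 * B i i = τ ^ 2 * B l l := by
        rw [hτ]
        apply mul_left_cancel₀ hρσ
        rw [h3', ← mul_assoc, mul_div_cancel₀ _ hρσ]
      rw [mul_pow, hb l, ← h6, CharTwo.sum_sq]
      refine Finset.sum_congr rfl fun i _ => ?_
      rw [mul_pow, hb i]
    show (g : Matrix (Fin n) (Fin n) F) *ᵥ ((P : Matrix (Fin n) (Fin n) F) *ᵥ u) ∈ W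
    rw [hact]
    apply (hWmem _).mpr
    rw [map_smul, hℓ]
    have h3 : b ⬝ᵥ (M *ᵥ u) = τ * ℓ u := by
      rw [hℓ, Matrix.dotProduct_mulVec]
      simp only [dotProduct, Matrix.vecMul, Finset.mul_sum]
      refine Finset.sum_congr rfl fun l _ => ?_
      have h4 := hcol l
      have h5 : ∑ i, b i * M i l = ∑ i, M i l * b i := Finset.sum_congr rfl fun i _ => mul_comm _ _
      rw [h5, h4]
      ring
    rw [h3, hu']
    simp
  · intro hbot
    obtain ⟨i, hi⟩ : ∃ i, i ≠ k := by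
      have : Nontrivial (Fin n) := Fin.nontrivial_iff_two_le.mpr hn2
      exact exists_ne k
    let u : Fin n → F := b i • Pi.single k 1 - b k • Pi.single i 1
    have hu : ℓ u = 0 := by
      rw [hℓ]
      simp [u, dotProduct_sub, dotProduct_smul]
      ring
    have h3 : (P : Matrix (Fin n) (Fin n) F) *ᵥ u ∈ W := (hWmem u).mpr hu
    rw [hbot, Submodule.mem_bot] at h3
    have h4 : u = 0 := mulVec_injective P (by simpa using h3)
    have h5 := congrFun h4 i
    simp [u, hi, Ne.symm hi] at h5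
    exact hbk h5
  · intro htop
    have h3 : ℓ (Pi.single k 1) = 0 := (hWmem _).mp (by rw [htop]; trivial)
    rw [hℓ] at h3
    simp at h3
    exact hbk h3

variable {H : Subgroup (GL (Fin n) F)}

/-- **The subfield outcome.** -/
theorem out_of_rational (hF : Fintype.card F = q ^ 2) (hn2 : 2 ≤ n)
    (hG : ∀ W : Submodule F (Fin n → F), Inv (H ⊔ scalars (Fin n) F) W → W = ⊥ ∨ W = ⊤)
    (hGs : H ⊔ scalars (Fin n) F ≤ similarityGroup (hermForm n F q)) {F₀ : Subfield F} {r' : ℕ} {P : GL (Fin n) F} {ζ : F}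
    (hr' : r'.Prime) (hc : Fintype.card F = Nat.card F₀ ^ r') (hζ0 : ζ ≠ 0)
    (hζ : ∀ i j, ζ * gramP (hermForm n F q) P i j ∈ F₀) (hle : H ⊔ scalars (Fin n) F ≤ subfieldSubgroup F₀ P) : Out n q H := by
  classical
  haveI : Nonempty (Fin n) := ⟨⟨0, by omega⟩⟩
  have hr := refl_hermForm (n := n) hF
  set σ := sigE hF with hσ
  have hinv : ∀ a, σ (σ a) = a := hr.invol
  set A := gramP (hermForm n F q) P with hA
  have hherm : ∀ i j, A i j = σ (A j i) := gramP_herm hr P
  obtain ⟨i₀, j₀, hij⟩ : ∃ i j, A i j ≠ 0 := by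
    by_contra hcon
    push Not at hcon
    have hA0 : A = 0 := by
      ext i j
      exact hcon i j
    have hU := gramP_isUnit hF P
    rw [← hA, hA0] at hU
    exact not_isUnit_zero hU
  have hHle : H ≤ subfieldSubgroup F₀ P := le_sup_left.trans hle
  rcases hr'.eq_two_or_odd' with rfl | ho
  · -- index two
    have hq' : Nat.card F₀ = q := by
      rw [hF] at hc
      exact (Nat.pow_left_injective (n := 2) (by norm_num) hc).symm
    have hfix : ∀ x ∈ F₀, σ x = x := by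
      intro x hx
      rw [hσ, sigE_apply, ← hq']
      exact (mem_subfield_iff F₀ hc x).mp hx
    have hstar : ∀ i j, ζ * A i j = σ ζ * A j i := by
      intro i j
      have h1 := hfix _ (hζ i j)
      rw [map_mul] at h1
      rw [← h1, hherm i j, hinv]
    have hσζ : (σ ζ) ^ 2 = ζ ^ 2 := by
      have h1 := hstar i₀ j₀
      have h3 := hstar j₀ i₀
      apply mul_right_cancel₀ hij
      calc (σ ζ) ^ 2 * A i₀ j₀ = σ ζ * (σ ζ * A i₀ j₀) := by ring
        _ = σ ζ * (ζ * A j₀ i₀) := by rw [h3]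
        _ = ζ * (σ ζ * A j₀ i₀) := by ring
        _ = ζ * (ζ * A i₀ j₀) := by rw [h1]
        _ = ζ ^ 2 * A i₀ j₀ := by ring
    have hnd : ∀ w : Fin n → F, (∀ i, w i ∈ F₀) → ∀ i, σ (w i) = w i := fun w hw i => hfix _ (hw i)
    by_cases hζfix : σ ζ = ζ
    · -- symmetric
      have hsym : ∀ i j, A i j = A j i := by
        intro i j
        have h1 := hstar i j
        rw [hζfix] at h1
        exact mul_left_cancel₀ hζ0 h1
      obtain ⟨u, hu⟩ := exists_norm_unit hF hζ0 hζfix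
      set P' := scal (Fin n) F u * P with hP'
      have hB : ∀ i j, gramP (hermForm n F q) P' i j = ζ * A i j := by
        intro i j
        rw [hP', gramP_scal hr, hu]
      have hle' : H ⊔ scalars (Fin n) F ≤ subfieldSubgroup F₀ P' := by
        rw [hP', subfieldSubgroup_scal]
        exact hle
      have hrat : IsFormRationalStructure (hermForm n F q) F₀ 1 P' :=
        isFormRationalStructure_of hr F₀ hc P' (fun i j => by rw [one_mul, hB]; exact hζ i j)
      by_cases hq : Odd q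
      · exact out_sub_two hq hc hrat (le_sup_left.trans hle')
      · have h2 := two_of_parity hF hq
        by_cases hdiag : ∀ i, A i i = 0
        · have hBu := gramP_isUnit hF P'
          obtain ⟨J, hJ⟩ := hBu
          have hJe : ∀ i j, (J : Matrix (Fin n) (Fin n) F) i j = ζ * A i j := by
            intro i j
            rw [hJ, hB]
          have hJs : (J : Matrix (Fin n) (Fin n) F)ᵀ = (J : Matrix (Fin n) (Fin n) F) := by
            ext i j
            rw [Matrix.transpose_apply, hJe, hJe, hsym]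
          have hJd : ∀ i, (J : Matrix (Fin n) (Fin n) F) i i = 0 := by
            intro i
            rw [hJe, hdiag, mul_zero]
          have hEven : Even n := by
            have hJn : (J : Matrix (Fin n) (Fin n) F)ᵀ = -(J : Matrix (Fin n) (Fin n) F) := by
              rw [hJs]
              ext i j
              simp only [Matrix.neg_apply]
              linear_combination (J : Matrix (Fin n) (Fin n) F) i j * h2
            have := even_card_of_symplectic (bil_symplectic J hJn hJd)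
            rwa [Fintype.card_fin] at this
          have hq2 := Cfsg.Agent.Lib.Classical.Herm.Basic.two_le_q hF
          refine out_sub_alt (ζ := 1) hEven hc one_ne_zero ?_ hrat ?_ (le_sup_left.trans hle')
          · rw [one_pow]
            linear_combination h2
          · intro w hw
            rw [eq_sesqM_gramP hr, sesqM_eq_bil_of_fix hF _ (hnd w hw), ← hJ]
            exact FormEven.bil_self_of_two h2 hJs hJd w
        · exfalso
          push Not at hdiag
          obtain ⟨k, hk⟩ := hdiag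
          obtain ⟨W, hW, h0, h1⟩ := not_irr_of_nonalt hF h2 hn2 hc (P := P') (k := k)
            (fun i j => by rw [hB, hB, hsym]) (by rw [hB]; exact mul_ne_zero hζ0 hk) hle' hGs
          rcases hG W hW with h | h
          · exact h0 h
          · exact h1 h
    · -- skew
      have hneg : σ ζ = -ζ := by
        have h1 : (σ ζ - ζ) * (σ ζ + ζ) = 0 := by
          linear_combination hσζ
        rcases mul_eq_zero.mp h1 with h | h
        · exact absurd (sub_eq_zero.mp h) hζfix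
        · linear_combination h
      have hq : Odd q := by
        by_contra hq
        have h2 := two_of_parity hF hq
        apply hζfix
        rw [hneg]
        linear_combination (-ζ) * h2
      have h2 := two_ne_of_parity hF hq
      have hskew : ∀ i j, A i j = - A j i := by
        intro i j
        have h1 := hstar i j
        rw [hneg] at h1
        apply mul_left_cancel₀ hζ0
        linear_combination h1
      have hdiag : ∀ i, A i i = 0 := by
        intro i
        have h1 := hskew i i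
        have h3 : 2 * A i i = 0 := by linear_combination h1
        exact (mul_eq_zero.mp h3).resolve_left h2
      obtain ⟨J, hJ⟩ := gramP_isUnit hF P
      have hJe : ∀ i j, (J : Matrix (Fin n) (Fin n) F) i j = A i j := by
        intro i j
        rw [hJ]
      have hJn : (J : Matrix (Fin n) (Fin n) F)ᵀ = -(J : Matrix (Fin n) (Fin n) F) := by
        ext i j
        rw [Matrix.transpose_apply, Matrix.neg_apply, hJe, hJe, hskew j i]
      have hJd : ∀ i, (J : Matrix (Fin n) (Fin n) F) i i = 0 := by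
        intro i
        rw [hJe, hdiag]
      have hEven : Even n := by
        have := even_card_of_symplectic (bil_symplectic J hJn hJd)
        rwa [Fintype.card_fin] at this
      refine out_sub_alt hEven hc hζ0 ?_ (isFormRationalStructure_of hr F₀ hc P hζ) ?_ hHle
      · rw [← sigE_apply hF, ← hσ, hneg]
        ring
      · intro w hw
        rw [eq_sesqM_gramP hr, sesqM_eq_bil_of_fix hF _ (hnd w hw), ← hJ]
        exact bil_self_eq_zero hJn hJd w
  · -- odd index
    obtain ⟨t, ht, hmv⟩ := exists_moved hF ho hc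
    have hs : ∀ {x : F}, x ∈ F₀ → σ x ∈ F₀ := fun {x} hx => sigma_mem_subfield F₀ hc σ hx
    set ν := σ ζ / ζ with hν
    have hσζ0 : σ ζ ≠ 0 := (map_ne_zero _).mpr hζ0
    have hνmem : ν ∈ F₀ := by
      have h1 : σ (ζ * A j₀ i₀) = ν * (ζ * A i₀ j₀) := by
        rw [map_mul, ← hherm i₀ j₀, hν]
        field_simp
      have h3 := hs (hζ j₀ i₀)
      rw [h1] at h3
      have h4 : ν = (ν * (ζ * A i₀ j₀)) / (ζ * A i₀ j₀) := by
        field_simp
      rw [h4]
      exact F₀.div_mem h3 (hζ i₀ j₀)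
    have hνσ : ν * σ ν = 1 := by
      rw [hν, map_div₀, hinv]
      field_simp
    obtain ⟨w, hwF, hw0, hw⟩ := hilbert_two F₀ hinv hνσ hνmem ht (hs ht) hmv
    have hz0 : w * ζ ≠ 0 := mul_ne_zero hw0 hζ0
    have hzfix : σ (w * ζ) = w * ζ := by
      rw [map_mul]
      have h1 : σ ζ = ν * ζ := by
        rw [hν]
        field_simp
      rw [h1]
      linear_combination ζ * hw
    obtain ⟨u, hu⟩ := exists_norm_unit hF hz0 hzfix
    set P' := scal (Fin n) F u * P with hP'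
    have hB : ∀ i j, gramP (hermForm n F q) P' i j = w * (ζ * A i j) := by
      intro i j
      rw [hP', gramP_scal hr, hu]
      ring
    have hrat : IsFormRationalStructure (hermForm n F q) F₀ 1 P' :=
      isFormRationalStructure_of hr F₀ hc P' (fun i j => by
        rw [one_mul, hB]
        exact F₀.mul_mem hwF (hζ i j))
    refine out_sub_odd hr' ho hc hrat ?_
    rw [hP', subfieldSubgroup_scal]
    exact hHle

end Standard

end Cfsg.Agent.Lib.Classical.Asch.FormSU
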