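import Mathlib
import Cfsg.Agent.Lib.Classical.Asch.FormSU
import Cfsg.Agent.Lib.Classical.Asch.TensorTwo
import Cfsg.Agent.Lib.Classical.Herm.SU
import Cfsg.Agent.Lib.Char.Burnside2

/-!
# Aschbacher's theorem for the unitary groups: tensor decompositions
-/

set_option autoImplicit false
set_option linter.style.haveILetI false
set_option linter.unusedSectionVars false

namespace Cfsg.Agent.Lib.Classical.Asch.FormSU2

open scoped MatrixGroups Matrix Kronecker
open Cfsg Cfsg.Geo Cfsg.Agent.Lib.Classical.Asch.Basic Cfsg.Agent.Lib.Classical.Asch.Forms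
open Cfsg.Agent.Lib.Classical.Asch.Adj Cfsg.Agent.Lib.Classical.Asch.FormDich
open Cfsg.Agent.Lib.Classical.Asch.FormTensor Cfsg.Agent.Lib.Classical.Asch.FormSim
open Cfsg.Agent.Lib.Classical.Asch.FormComm Cfsg.Agent.Lib.Classical.Asch.Gram
open Cfsg.Agent.Lib.Classical.Asch.FormPerp Cfsg.Agent.Lib.Classical.Asch.FormField
open Cfsg.Agent.Lib.Classical.Asch.FormSympType
open Cfsg.Agent.Lib.Classical.Asch.FormReal Cfsg.Agent.Lib.Classical.Asch.FormDescent
open Cfsg.Agent.Lib.Classical.Asch.SympType Cfsg.Agent.Lib.Classical.Asch.SympStruct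
open Cfsg.Agent.Lib.Classical.Asch.Dichotomy Cfsg.Agent.Lib.Classical.Asch.Subfield
open Cfsg.Agent.Lib.Classical.Asch.CaseA Cfsg.Agent.Lib.Classical.Asch.Main
open Cfsg.Agent.Lib.Classical.Asch.PureTensor Cfsg.Agent.Lib.Classical.Asch.FormSU
open Cfsg.Agent.Lib.Classical.Asch.TensorTwo
open Cfsg.Agent.Lib.Classical.Asch.FormSp (scalars_le_similarity IsMDecomposition.two_mul_eq eq_bot_of_perfect)
open Cfsg.Agent.Lib.Classical.Herm.PSLGraphField (sigE sigE_apply exists_herm_factor sigE_ne_one sigE_sq)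
open Cfsg.Agent.Lib.Classical.Herm.Descent (fixF mem_fixF card_eq_pow_fix)

section Generic

variable {ι : Type} [Fintype ι] [DecidableEq ι] {F : Type*} [Field F]
variable {σ : F ≃+* F} {f : (ι → F) → (ι → F) → F}

theorem sesqM_smul (τ : F →+* F) (a : F) (A : Matrix ι ι F) (u v : ι → F) :
    sesqM τ (a • A) u v = a * sesqM τ A u v := by
  simp [sesqM, Matrix.smul_mulVec, dotProduct_smul]

theorem sesqM_single (τ : F →+* F) (A : Matrix ι ι F) (i j : ι) :
    sesqM τ A (Pi.single i 1) (Pi.single j 1) = A i j := by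
  have h : τ ∘ (Pi.single j (1 : F) : ι → F) = Pi.single j 1 := by
    funext k
    by_cases hk : k = j
    · subst hk
      simp
    · simp [hk]
  simp [sesqM, h]

theorem gramMatrix_sesqM (τ : F →+* F) (A : Matrix ι ι F) : gramMatrix (sesqM τ A) = A := by
  ext i j
  exact sesqM_single τ A i j

theorem coe_scal_mul (a : Fˣ) (J : GL ι F) : ((scal ι F a * J : GL ι F) : Matrix ι ι F) = (a : F) • (J : Matrix ι ι F) := by
  rw [Units.val_mul, coe_scal, Matrix.smul_mul, Matrix.one_mul]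

theorem map_one_sigma' : ((1 : Matrix ι ι F).map σ) = 1 := by
  ext i j
  by_cases h : i = j
  · subst h
    simp
  · simp [h]

/-- Membership in a subfield subgroup from the entries. -/
theorem mem_subfieldSubgroup_of_entries (F₀ : Subfield F) {P g : GL ι F} {a : F} (ha : a ≠ 0)
    (h : ∀ i j, a * ((P⁻¹ * g * P : GL ι F) : Matrix ι ι F) i j ∈ F₀) : g ∈ subfieldSubgroup F₀ P := by
  classical
  set G := P⁻¹ * g * P with hG
  set z : Fˣ := Units.mk0 a ha with hz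
  let M₀ : Matrix ι ι F₀ := Matrix.of fun i j => ⟨a * (G : Matrix ι ι F) i j, h i j⟩
  have hM₀ : M₀.map F₀.subtype = a • (G : Matrix ι ι F) := by
    ext i j
    rfl
  have hdet : M₀.det ≠ 0 := by
    intro h
    have h1 : (M₀.map F₀.subtype).det = 0 := by
      rw [← RingHom.mapMatrix_apply, ← RingHom.map_det, h, map_zero]
    rw [hM₀, Matrix.det_smul] at h1
    rcases mul_eq_zero.mp h1 with h2 | h2
    · exact pow_ne_zero _ ha h2
    · exact (Matrix.GeneralLinearGroup.det G).ne_zero h2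
  let g₀ : GL ι F₀ := Matrix.GeneralLinearGroup.mkOfDetNeZero M₀ hdet
  have hG2 : G = scal ι F z⁻¹ * Matrix.GeneralLinearGroup.map F₀.subtype g₀ := by
    apply Units.ext
    have h1 : ((Matrix.GeneralLinearGroup.map F₀.subtype g₀ : GL ι F) : Matrix ι ι F) = M₀.map F₀.subtype := rfl
    rw [coe_scal_mul, h1, hM₀, smul_smul]
    have : ((z⁻¹ : Fˣ) : F) * a = 1 := by
      rw [Units.val_inv_eq_inv_val, hz, Units.val_mk0, inv_mul_cancel₀ ha]
    rw [this, one_smul]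
  refine ⟨G, ?_, ?_⟩
  · rw [hG2]
    exact Subgroup.mul_mem _ (Subgroup.mem_sup_right (scal_mem _)) (Subgroup.mem_sup_left ⟨g₀, rfl⟩)
  · change P * G * P⁻¹ = g
    rw [hG]
    group

/-- A scale making a matrix Hermitian exists. -/
theorem exists_scale (hσ : ∀ a, σ (σ a) = a) (hσ1 : σ ≠ RingEquiv.refl F) {κ : Type} [Fintype κ] [DecidableEq κ] [Nonempty κ]
    (J : GL κ F) {ε : F} (he : ((J : Matrix κ κ F).map σ)ᵀ = ε • (J : Matrix κ κ F)) : ∃ a : Fˣ, (a : F) = ε * σ a := by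
  obtain ⟨i, j, hij⟩ : ∃ i j, (J : Matrix κ κ F) i j ≠ 0 := by
    by_contra hcon
    push Not at hcon
    exact gl_ne_zero J (by ext a c; exact hcon a c)
  have h1 := congrFun (congrFun he i) j
  have h2 := congrFun (congrFun he j) i
  simp only [Matrix.transpose_apply, Matrix.map_apply, Matrix.smul_apply, smul_eq_mul] at h1 h2
  have h3 : ε * σ ε = 1 := by
    have h4 := congrArg σ h2
    rw [hσ, map_mul, h1] at h4
    apply mul_right_cancel₀ hij
    rw [one_mul]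
    linear_combination -h4
  obtain ⟨t, ht⟩ : ∃ t, σ t ≠ t := by
    by_contra hcon
    push Not at hcon
    exact hσ1 (RingEquiv.ext hcon)
  obtain ⟨a, -, ha, hb⟩ := hilbert_two (⊤ : Subfield F) hσ h3 (Subfield.mem_top _) (Subfield.mem_top t) (Subfield.mem_top _) ht
  exact ⟨Units.mk0 a ha, hb.symm⟩

theorem herm_scal {κ : Type} [Fintype κ] [DecidableEq κ] (J : GL κ F) {ε : F} (a : Fˣ)
    (he : ((J : Matrix κ κ F).map σ)ᵀ = ε • (J : Matrix κ κ F)) (ha : (a : F) = ε * σ a) :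
    (((scal κ F a * J : GL κ F) : Matrix κ κ F).map σ)ᵀ = (1 : F) • ((scal κ F a * J : GL κ F) : Matrix κ κ F) := by
  ext i j
  have h := congrFun (congrFun he i) j
  simp only [Matrix.transpose_apply, Matrix.map_apply, Matrix.smul_apply, smul_eq_mul] at h
  rw [coe_scal_mul]
  simp only [Matrix.transpose_apply, Matrix.map_apply, Matrix.smul_apply, smul_eq_mul, map_mul, one_mul]
  rw [h]
  calc σ a * (ε * (J : Matrix κ κ F) i j) = (ε * σ a) * (J : Matrix κ κ F) i j := by ring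
    _ = _ := by rw [← ha]

/-- Normalise a tensor datum so that both factors are Hermitian. -/
theorem TensorData.normalize (hσ : ∀ a, σ (σ a) = a) (hσ1 : σ ≠ RingEquiv.refl F) {G : Subgroup (GL ι F)} {d k : ℕ}
    {e : ι ≃ Fin d × Fin k} {P : GL ι F} {J₁ : GL (Fin d) F} {J₂ : GL (Fin k) F} {ε₁ ε₂ c : F}
    (T : TensorData σ 1 f G d k e P J₁ J₂ ε₁ ε₂ c) :
    ∃ (J₁' : GL (Fin d) F) (J₂' : GL (Fin k) F) (c' : F), TensorData σ 1 f G d k e P J₁' J₂' 1 1 c' := by
  haveI : Nonempty (Fin d) := ⟨⟨0, by have := T.hd; omega⟩⟩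
  haveI : Nonempty (Fin k) := ⟨⟨0, by have := T.hk; omega⟩⟩
  obtain ⟨a₁, h₁⟩ := exists_scale hσ hσ1 J₁ T.herm₁
  obtain ⟨a₂, h₂⟩ := exists_scale hσ hσ1 J₂ T.herm₂
  have ha : (a₁ : F) * a₂ ≠ 0 := mul_ne_zero a₁.ne_zero a₂.ne_zero
  refine ⟨scal _ F a₁ * J₁, scal _ F a₂ * J₂, c / (a₁ * a₂), T.hd, T.hk, T.le, herm_scal J₁ a₁ T.herm₁ h₁,
    herm_scal J₂ a₂ T.herm₂ h₂, one_ne_zero, one_ne_zero, ?_, ?_, ?_⟩
  · exact div_ne_zero T.hc ha
  · intro u v
    rw [T.eq, coe_scal_mul, coe_scal_mul]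
    have h3 : (((a₁ : F) • (J₁ : Matrix (Fin d) (Fin d) F)) ⊗ₖ ((a₂ : F) • (J₂ : Matrix (Fin k) (Fin k) F))).submatrix e e =
        ((a₁ : F) * a₂) • (((J₁ : Matrix (Fin d) (Fin d) F) ⊗ₖ (J₂ : Matrix (Fin k) (Fin k) F)).submatrix e e) := by
      ext i j
      simp only [Matrix.submatrix_apply, Matrix.kroneckerMap_apply, Matrix.smul_apply, smul_eq_mul]
      ring
    rw [h3, sesqM_smul]
    field_simp
  · have hs := T.sign
    have hσa : σ (a₁ : F) * σ a₂ ≠ 0 := mul_ne_zero ((map_ne_zero _).mpr a₁.ne_zero) ((map_ne_zero _).mpr a₂.ne_zero)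
    rw [map_div₀, map_mul, one_mul, one_mul, mul_one, div_eq_div_iff ha hσa]
    linear_combination (σ (a₁ : F) * σ a₂) * hs - σ c * a₂ * h₁ - σ c * ε₁ * σ a₁ * h₂

/-- Normalise a tensor power datum so that the factor is Hermitian. -/
theorem WreathForm.normalize (hσ : ∀ a, σ (σ a) = a) (hσ1 : σ ≠ RingEquiv.refl F) {G : Subgroup (GL ι F)} {d t : ℕ}
    {e : ι ≃ (Fin t → Fin d)} {P : GL ι F} {J₀ : GL (Fin d) F} {ε₀ c : F}
    (T : WreathForm σ 1 f G d t e P J₀ ε₀ c) :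
    ∃ (a : Fˣ) (c' : F), WreathForm σ 1 f G d t e P (scal _ F a * J₀) 1 c' := by
  haveI : Nonempty (Fin d) := ⟨⟨0, by have := T.hd; omega⟩⟩
  obtain ⟨a, h⟩ := exists_scale hσ hσ1 J₀ T.herm
  have ha : (a : F) ^ t ≠ 0 := pow_ne_zero _ a.ne_zero
  refine ⟨a, c / (a : F) ^ t, T.hd, T.ht, T.le, herm_scal J₀ a T.herm h, one_ne_zero, div_ne_zero T.hc ha, ?_, ?_⟩
  · intro u v
    rw [T.eq, coe_scal_mul]
    have h3 : (pureMat fun _ : Fin t => (a : F) • (J₀ : Matrix (Fin d) (Fin d) F)).submatrix e e =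
        (a : F) ^ t • (pureMat fun _ : Fin t => (J₀ : Matrix (Fin d) (Fin d) F)).submatrix e e := by
      rw [pureMat_smul (fun _ => (a : F))]
      simp only [Finset.prod_const, Finset.card_univ, Fintype.card_fin]
      ext i j
      simp
    rw [h3, sesqM_smul]
    field_simp
  · have hs := T.sign
    have hσa : (σ (a : F)) ^ t ≠ 0 := pow_ne_zero _ ((map_ne_zero _).mpr a.ne_zero)
    have h4 : (a : F) ^ t = ε₀ ^ t * (σ a) ^ t := by
      rw [← mul_pow, ← h]
    rw [map_div₀, map_pow, one_mul, one_pow, mul_one, div_eq_div_iff ha hσa]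
    linear_combination ((σ (a : F)) ^ t) * hs - σ c * h4

/-- Pure tensors reindexed. -/
def pureE {d t : ℕ} (e : ι ≃ (Fin t → Fin d)) (T₀ : GL (Fin d) F) : GL ι F :=
  (glReindex e.symm).toMonoidHom (pureGL fun _ => T₀)

theorem coe_pureE {d t : ℕ} (e : ι ≃ (Fin t → Fin d)) (T₀ : GL (Fin d) F) :
    ((pureE e T₀ : GL ι F) : Matrix ι ι F) = (pureMat fun _ => (T₀ : Matrix (Fin d) (Fin d) F)).submatrix e e := rfl

theorem tensorWreathSubgroup_change {d t : ℕ} (e : ι ≃ (Fin t → Fin d)) (P : GL ι F) (T₀ : GL (Fin d) F) :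
    tensorWreathSubgroup d t e P ≤ tensorWreathSubgroup d t e (P * pureE e T₀) := by
  rintro x ⟨_, ⟨y, hy, rfl⟩, rfl⟩
  set p : GL (Fin t → Fin d) F := pureGL fun _ => T₀ with hp
  have hpm : p ∈ tensorWreathStandard d t F := Subgroup.subset_closure (Or.inl (pureGL_isPure _))
  refine ⟨(glReindex e.symm).toMonoidHom (p⁻¹ * y * p), ⟨_, mul_mem (mul_mem (inv_mem hpm) hy) hpm, rfl⟩, ?_⟩
  change (P * pureE e T₀) * ((glReindex e.symm).toMonoidHom (p⁻¹ * y * p)) * (P * pureE e T₀)⁻¹ =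
    P * ((glReindex e.symm).toMonoidHom y) * P⁻¹
  have h1 : pureE e T₀ = (glReindex e.symm).toMonoidHom p := rfl
  rw [h1, map_mul, map_mul, map_inv]
  group

theorem pureMat_map {d t : ℕ} (gs : Fin t → Matrix (Fin d) (Fin d) F) : (pureMat gs).map σ = pureMat fun i => (gs i).map σ := by
  ext x y
  simp [map_prod]

/-- Change of basis in a tensor power datum. -/
theorem WreathForm.change {G : Subgroup (GL ι F)} {d t : ℕ}
    {e : ι ≃ (Fin t → Fin d)} {P : GL ι F} {J₀ J' : GL (Fin d) F} {c : F} (T : WreathForm σ 1 f G d t e P J₀ 1 c)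
    {T₀ : GL (Fin d) F}
    (hT : (T₀ : Matrix (Fin d) (Fin d) F)ᵀ * (J₀ : Matrix (Fin d) (Fin d) F) * (T₀ : Matrix (Fin d) (Fin d) F).map σ = J')
    (hJ' : ((J' : Matrix (Fin d) (Fin d) F).map σ)ᵀ = (1 : F) • (J' : Matrix (Fin d) (Fin d) F)) :
    WreathForm σ 1 f G d t e (P * pureE e T₀) J' 1 c where
  hd := T.hd
  ht := T.ht
  le := T.le.trans (tensorWreathSubgroup_change e P T₀)
  herm := hJ'
  ne := T.ne
  hc := T.hc
  eq u v := by
    rw [Units.val_mul, ← Matrix.mulVec_mulVec, ← Matrix.mulVec_mulVec, T.eq, sesqM_mulVec, coe_pureE]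
    congr 2
    have h1 : ((pureMat fun _ : Fin t => (T₀ : Matrix (Fin d) (Fin d) F)).submatrix e e).map (σ : F →+* F) =
        ((pureMat fun _ : Fin t => (T₀ : Matrix (Fin d) (Fin d) F)).map σ).submatrix e e := rfl
    rw [Matrix.transpose_submatrix, h1, pureMat_map, Matrix.submatrix_mul_equiv, Matrix.submatrix_mul_equiv, pureMat_transpose,
      pureMat_mul, pureMat_mul, ← hT]
  sign := T.sign

/-- The Kronecker product reindexed. -/
def kronE {d k : ℕ} (e : ι ≃ Fin d × Fin k) (a : GL (Fin d) F) (b : GL (Fin k) F) : GL ι F where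
  val := ((a : Matrix (Fin d) (Fin d) F) ⊗ₖ (b : Matrix (Fin k) (Fin k) F)).submatrix e e
  inv := (((a⁻¹ : GL (Fin d) F) : Matrix (Fin d) (Fin d) F) ⊗ₖ ((b⁻¹ : GL (Fin k) F) : Matrix (Fin k) (Fin k) F)).submatrix e e
  val_inv := by
    rw [Matrix.submatrix_mul_equiv, ← Matrix.mul_kronecker_mul, ← Units.val_mul, ← Units.val_mul, mul_inv_cancel,
      mul_inv_cancel, Units.val_one, Units.val_one, Matrix.one_kronecker_one, Matrix.submatrix_one_equiv]
  inv_val := by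
    rw [Matrix.submatrix_mul_equiv, ← Matrix.mul_kronecker_mul, ← Units.val_mul, ← Units.val_mul, inv_mul_cancel,
      inv_mul_cancel, Units.val_one, Units.val_one, Matrix.one_kronecker_one, Matrix.submatrix_one_equiv]

theorem coe_kronE {d k : ℕ} (e : ι ≃ Fin d × Fin k) (a : GL (Fin d) F) (b : GL (Fin k) F) :
    ((kronE e a b : GL ι F) : Matrix ι ι F) = ((a : Matrix (Fin d) (Fin d) F) ⊗ₖ (b : Matrix (Fin k) (Fin k) F)).submatrix e e := rfl

theorem coe_kronE_inv {d k : ℕ} (e : ι ≃ Fin d × Fin k) (a : GL (Fin d) F) (b : GL (Fin k) F) :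
    (((kronE e a b)⁻¹ : GL ι F) : Matrix ι ι F) =
      (((a⁻¹ : GL (Fin d) F) : Matrix (Fin d) (Fin d) F) ⊗ₖ ((b⁻¹ : GL (Fin k) F) : Matrix (Fin k) (Fin k) F)).submatrix e e := rfl

theorem tensorProductSubgroup_change {d k : ℕ} (e : ι ≃ Fin d × Fin k) (P : GL ι F) (a₀ : GL (Fin d) F) (b₀ : GL (Fin k) F) :
    tensorProductSubgroup d k e P ≤ tensorProductSubgroup d k e (P * kronE e a₀ b₀) := by
  intro x hx
  obtain ⟨a, b, h⟩ := mem_tensorProductSubgroup_iff.mp hx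
  refine mem_tensorProductSubgroup_iff.mpr ⟨a₀⁻¹ * a * a₀, b₀⁻¹ * b * b₀, fun i j => ?_⟩
  have h1 : (P * kronE e a₀ b₀)⁻¹ * x * (P * kronE e a₀ b₀) = (kronE e a₀ b₀)⁻¹ * (P⁻¹ * x * P) * kronE e a₀ b₀ := by
    group
  have h2 : ((P⁻¹ * x * P : GL ι F) : Matrix ι ι F) = ((a : Matrix (Fin d) (Fin d) F) ⊗ₖ (b : Matrix (Fin k) (Fin k) F)).submatrix e e := by
    ext i j
    rw [h]
    rfl
  rw [h1, Units.val_mul, Units.val_mul, h2, coe_kronE_inv, coe_kronE, Matrix.submatrix_mul_equiv, Matrix.submatrix_mul_equiv,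
    ← Matrix.mul_kronecker_mul, ← Matrix.mul_kronecker_mul]
  simp only [Units.val_mul]
  rfl

end Generic

section Standard

variable {F : Type*} [Field F] [Fintype F] {n q : ℕ}

theorem isUnitaryFormPow_sesqM (hF : Fintype.card F = q ^ 2) {d : ℕ} [Nonempty (Fin d)] (J : GL (Fin d) F)
    (hJ : ((J : Matrix (Fin d) (Fin d) F).map (sigE hF))ᵀ = (1 : F) • (J : Matrix (Fin d) (Fin d) F)) :
    IsUnitaryFormPow q (sesqM ((sigE hF : F ≃+* F) : F →+* F) (J : Matrix (Fin d) (Fin d) F)) where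
  add_left := (sesqM_isSesq _ _).add_left
  smul_left := (sesqM_isSesq _ _).smul_left
  herm v w := by
    rw [← sigE_apply hF]
    have h1 : ∀ i j, sigE hF ((J : Matrix (Fin d) (Fin d) F) i j) = (J : Matrix (Fin d) (Fin d) F) j i := by
      intro i j
      have h := congrFun (congrFun hJ j) i
      simpa using h
    have h2 : ∀ a, sigE hF (sigE hF a) = a := (refl_hermForm (n := 0) hF).invol
    simp only [sesqM, dotProduct, Matrix.mulVec, Function.comp, Finset.mul_sum, map_sum, map_mul, h1]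
    rw [Finset.sum_comm]
    refine Finset.sum_congr rfl fun i _ => Finset.sum_congr rfl fun j _ => ?_
    change v j * ((J : Matrix (Fin d) (Fin d) F) j i * (sigE hF) (w i)) = (sigE hF) (w i) * ((J : Matrix (Fin d) (Fin d) F) j i * (sigE hF) ((sigE hF) (v j)))
    rw [h2]
    ring
  nondegenerate := sesqM_nondegenerate (sigE hF).surjective J

theorem pow_eq_sigE (hF : Fintype.card F = q ^ 2) : (fun x : F => x ^ q) = ⇑((sigE hF : F ≃+* F) : F →+* F) := by
  funext x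
  exact (sigE_apply hF x).symm

/-- Two Hermitian matrices are congruent. -/
theorem exists_congruent (hF : Fintype.card F = q ^ 2) {d : ℕ} (A B : GL (Fin d) F)
    (hA : ((A : Matrix (Fin d) (Fin d) F).map (sigE hF))ᵀ = (1 : F) • (A : Matrix (Fin d) (Fin d) F))
    (hB : ((B : Matrix (Fin d) (Fin d) F).map (sigE hF))ᵀ = (1 : F) • (B : Matrix (Fin d) (Fin d) F)) :
    ∃ T : GL (Fin d) F, (T : Matrix (Fin d) (Fin d) F)ᵀ * (B : Matrix (Fin d) (Fin d) F) * (T : Matrix (Fin d) (Fin d) F).map (sigE hF) = A := by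
  rw [one_smul] at hA hB
  obtain ⟨h₁, h1⟩ := exists_herm_factor hF A hA
  obtain ⟨h₂, h2⟩ := exists_herm_factor hF B hB
  refine ⟨glTranspose (h₁ * h₂⁻¹), ?_⟩
  set σ := sigE hF
  set X : Matrix (Fin d) (Fin d) F := ((h₁ : GL (Fin d) F) : Matrix (Fin d) (Fin d) F) with hX
  set Y : Matrix (Fin d) (Fin d) F := ((h₂ : GL (Fin d) F) : Matrix (Fin d) (Fin d) F) with hY
  set Yi : Matrix (Fin d) (Fin d) F := ((h₂⁻¹ : GL (Fin d) F) : Matrix (Fin d) (Fin d) F) with hYi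
  have hYY : Yi * Y = 1 := by
    rw [hYi, hY, ← Units.val_mul, inv_mul_cancel, Units.val_one]
  have hYY' : Y * Yi = 1 := by
    rw [hYi, hY, ← Units.val_mul, mul_inv_cancel, Units.val_one]
  have hmap : (Yi.map σ) * (Y.map σ) = 1 := by
    have h3 : (Yi.map σ) * (Y.map σ) = (Yi * Y).map σ := by
      ext i j
      simp [Matrix.mul_apply, map_sum]
    rw [h3, hYY, map_one_sigma']
  have h3 : ((glTranspose (h₁ * h₂⁻¹) : GL (Fin d) F) : Matrix (Fin d) (Fin d) F)ᵀ = X * Yi := by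
    rw [coe_glTranspose, Matrix.transpose_transpose, Units.val_mul]
  have h4 : ((glTranspose (h₁ * h₂⁻¹) : GL (Fin d) F) : Matrix (Fin d) (Fin d) F).map σ = (Yi.map σ)ᵀ * (X.map σ)ᵀ := by
    rw [coe_glTranspose, Units.val_mul, ← hX, ← hYi, ← Matrix.transpose_mul]
    ext i j
    simp [Matrix.mul_apply, map_sum, mul_comm]
  rw [h3, h4, ← h2, ← h1]
  calc X * Yi * (Y * (Y.map σ)ᵀ) * ((Yi.map σ)ᵀ * (X.map σ)ᵀ)
      = X * (Yi * Y) * ((Y.map σ)ᵀ * (Yi.map σ)ᵀ) * (X.map σ)ᵀ := by simp only [mul_assoc]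
    _ = X * (X.map σ)ᵀ := by
      rw [← Matrix.transpose_mul, hmap, hYY, Matrix.transpose_one]
      simp

variable {H : Subgroup (GL (Fin n) F)}

/-- The tensor product outcome. -/
theorem out_tensor_of (hF : Fintype.card F = q ^ 2) (hn2 : 2 ≤ n) {d k : ℕ}
    {e : Fin n ≃ Fin d × Fin k} {P : GL (Fin n) F} {J₁ : GL (Fin d) F} {J₂ : GL (Fin k) F} {c : F}
    (T : TensorData (sigE hF) 1 (hermForm n F q) (H ⊔ scalars (Fin n) F) d k e P J₁ J₂ 1 1 c) (hlt : d < k) : FormSU.Out n q H := by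
  haveI : Nonempty (Fin n) := ⟨⟨0, by omega⟩⟩
  haveI : Nonempty (Fin d) := ⟨⟨0, by have := T.hd; omega⟩⟩
  haveI : Nonempty (Fin k) := ⟨⟨0, by have := T.hk; omega⟩⟩
  refine out_tensor T.hd hlt (isUnitaryFormPow_sesqM hF J₁ T.herm₁) (isUnitaryFormPow_sesqM hF J₂ T.herm₂) ?_ (le_sup_left.trans T.le)
  rw [pow_eq_sigE hF]
  exact isTensorFormStructure_of T.hc _ T.eq (gramMatrix_sesqM _ _) (gramMatrix_sesqM _ _)

/-- Equal factors give a tensor power. -/
theorem TensorData.toWreath (hF : Fintype.card F = q ^ 2) {G : Subgroup (GL (Fin n) F)} {d : ℕ} {f : (Fin n → F) → (Fin n → F) → F}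
    {e : Fin n ≃ Fin d × Fin d} {P : GL (Fin n) F} {J₁ J₂ : GL (Fin d) F} {c : F}
    (T : TensorData (sigE hF) 1 f G d d e P J₁ J₂ 1 1 c) :
    ∃ P' : GL (Fin n) F, WreathForm (sigE hF) 1 f G d 2 (e.trans (finTwoArrowEquiv (Fin d)).symm) P' J₁ 1 c := by
  obtain ⟨T₀, hT₀⟩ := exists_congruent hF J₁ J₂ T.herm₁ T.herm₂
  refine ⟨P * kronE e 1 T₀, T.hd, le_rfl, T.le.trans ((tensorProductSubgroup_change e P 1 T₀).trans (tensorProductSubgroup_le_wreath e _)),
    T.herm₁, T.ne₁, T.hc, ?_, ?_⟩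
  · intro u v
    rw [Units.val_mul, ← Matrix.mulVec_mulVec, ← Matrix.mulVec_mulVec, T.eq, sesqM_mulVec, coe_kronE]
    congr 2
    have h1 : (((1 : GL (Fin d) F) : Matrix (Fin d) (Fin d) F) ⊗ₖ (T₀ : Matrix (Fin d) (Fin d) F)).submatrix e e =
        ((1 : Matrix (Fin d) (Fin d) F) ⊗ₖ (T₀ : Matrix (Fin d) (Fin d) F)).submatrix e e := rfl
    have h2 : (((1 : Matrix (Fin d) (Fin d) F) ⊗ₖ (T₀ : Matrix (Fin d) (Fin d) F)).submatrix e e).map (((sigE hF : F ≃+* F) : F →+* F)) =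
        (((1 : Matrix (Fin d) (Fin d) F).map (sigE hF)) ⊗ₖ ((T₀ : Matrix (Fin d) (Fin d) F).map (sigE hF))).submatrix e e := by
      rw [← map_kron]
      rfl
    rw [h1, h2, map_one_sigma', Matrix.transpose_submatrix, Matrix.submatrix_mul_equiv, Matrix.submatrix_mul_equiv, transpose_kron,
      Matrix.transpose_one, ← Matrix.mul_kronecker_mul, ← Matrix.mul_kronecker_mul, one_mul, mul_one, hT₀]
    ext i j
    simp [Fin.prod_univ_two]
  · have := T.sign
    simpa using this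

/-- Solvable overgroups have no perfect subgroups. -/
theorem eq_bot_of_perfect_le {Γ : Type*} [Group Γ] {U X : Subgroup Γ} [hU : Group.IsSolvable U] (hXU : X ≤ U) (h : ⁅X, X⁆ = X) : X = ⊥ := by
  obtain ⟨n, hn⟩ := Group.IsSolvable.solvable (G := U)
  have h1 : ∀ k, X ≤ (derivedSeries U k).map U.subtype := by
    intro k
    induction k with
    | zero =>
      rw [derivedSeries_zero, ← MonoidHom.range_eq_map, Subgroup.range_subtype]
      exact hXU
    | succ k ih =>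
      rw [derivedSeries_succ, Subgroup.map_commutator, ← h]
      exact Subgroup.commutator_mono ih ih
  have h2 := h1 n
  rw [hn, Subgroup.map_bot] at h2
  exact le_bot_iff.mp h2

/-- `GU₃(2)` is solvable. -/
theorem isSolvable_GU_three (hF : Fintype.card F = 2 ^ 2) : Group.IsSolvable (GU 3 F 2) := by
  have h1 := Cfsg.Agent.Lib.Classical.Herm.SU.card_GU_eq hF (n := 3) (by norm_num)
  have h2 := Cfsg.Agent.Lib.Classical.Herm.SU.card_SU hF (n := 3) (by norm_num)
  have h3 : Nat.card (GU 3 F 2) = 2 ^ 3 * 3 ^ 4 := by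
    rw [h1, h2]
    decide
  exact Cfsg.Agent.Lib.Char.Burnside2.isSolvable_of_card_eq Nat.prime_two Nat.prime_three _ (GU 3 F 2) 3 4 rfl h3

theorem hermForm_eq_sesqM (hF : Fintype.card F = q ^ 2) (u v : Fin n → F) :
    hermForm n F q u v = sesqM ((sigE hF : F ≃+* F) : F →+* F) 1 u v := by
  simp [sesqM, hermForm, dotProduct, sigE_apply]

theorem mem_GU_of_gram (hF : Fintype.card F = q ^ 2) {g : GL (Fin n) F}
    (h : (g : Matrix (Fin n) (Fin n) F)ᵀ * (g : Matrix (Fin n) (Fin n) F).map (sigE hF) = 1) : g ∈ GU n F q := by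
  intro u v
  change hermForm n F q ((g : Matrix (Fin n) (Fin n) F) *ᵥ u) ((g : Matrix (Fin n) (Fin n) F) *ᵥ v) = hermForm n F q u v
  rw [hermForm_eq_sesqM hF, hermForm_eq_sesqM hF, sesqM_mulVec, mul_one]
  have h1 : (g : Matrix (Fin n) (Fin n) F).map ((sigE hF : F ≃+* F) : F →+* F) = (g : Matrix (Fin n) (Fin n) F).map (sigE hF) := rfl
  rw [h1, h]

/-- In `GU₃(2)` there are no perfect subgroups. -/
theorem three_two_perfect (hF : Fintype.card F = 2 ^ 2) (J₀ : GL (Fin 3) F)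
    (hJ : ((J₀ : Matrix (Fin 3) (Fin 3) F).map (sigE hF))ᵀ = (1 : F) • (J₀ : Matrix (Fin 3) (Fin 3) F))
    {X : Subgroup (GL (Fin 3) F)} (hXp : ⁅X, X⁆ = X)
    (hX : ∀ a ∈ X, ∃ μ : F, μ ≠ 0 ∧ (a : Matrix (Fin 3) (Fin 3) F)ᵀ * (J₀ : Matrix (Fin 3) (Fin 3) F) * (a : Matrix (Fin 3) (Fin 3) F).map (sigE hF) =
      μ • (J₀ : Matrix (Fin 3) (Fin 3) F)) : X = ⊥ := by
  classical
  set σ := sigE hF with hσ
  have hinv : ∀ a, σ (σ a) = a := (refl_hermForm (n := 3) hF).invol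
  rw [one_smul] at hJ
  obtain ⟨h, hh⟩ := exists_herm_factor hF J₀ hJ
  set M : GL (Fin 3) F := glTranspose h with hM
  have hX' : X.map (MulAut.conj M).toMonoidHom ≤ GU 3 F 2 := by
    rintro _ ⟨a, ha, rfl⟩
    obtain ⟨μ, hμ0, hμ⟩ := hX a ha
    -- the multiplier is one
    have hμσ : σ μ = μ := by
      have h1 : (((a : Matrix (Fin 3) (Fin 3) F)ᵀ * (J₀ : Matrix (Fin 3) (Fin 3) F) * (a : Matrix (Fin 3) (Fin 3) F).map σ).map σ)ᵀ =
          ((μ • (J₀ : Matrix (Fin 3) (Fin 3) F)).map σ)ᵀ := by rw [hμ]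
      have h2 : (((a : Matrix (Fin 3) (Fin 3) F)ᵀ * (J₀ : Matrix (Fin 3) (Fin 3) F) * (a : Matrix (Fin 3) (Fin 3) F).map σ).map σ)ᵀ =
          (a : Matrix (Fin 3) (Fin 3) F)ᵀ * (J₀ : Matrix (Fin 3) (Fin 3) F) * (a : Matrix (Fin 3) (Fin 3) F).map σ := by
        have h3 : ∀ x y : Matrix (Fin 3) (Fin 3) F, (x * y).map σ = x.map σ * y.map σ := by
          intro x y
          ext i j
          simp [Matrix.mul_apply, map_sum]
        rw [h3, h3, Matrix.transpose_mul, Matrix.transpose_mul]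
        have h4 : (((a : Matrix (Fin 3) (Fin 3) F).map σ).map σ)ᵀ = (a : Matrix (Fin 3) (Fin 3) F)ᵀ := by
          ext i j
          simp [hinv]
        have h5 : (((a : Matrix (Fin 3) (Fin 3) F)ᵀ).map σ)ᵀ = (a : Matrix (Fin 3) (Fin 3) F).map σ := by
          ext i j
          simp
        rw [h4, h5, hJ, mul_assoc]
      have h3 : (((μ • (J₀ : Matrix (Fin 3) (Fin 3) F))).map σ)ᵀ = σ μ • (J₀ : Matrix (Fin 3) (Fin 3) F) := by
        ext i j
        have := congrFun (congrFun hJ i) j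
        simp only [Matrix.transpose_apply, Matrix.map_apply] at this
        simp [this]
      rw [h2, hμ, h3] at h1
      haveI : Nonempty (Fin 3) := ⟨0⟩
      obtain ⟨i, j, hij⟩ : ∃ i j, (J₀ : Matrix (Fin 3) (Fin 3) F) i j ≠ 0 := by
        by_contra hcon
        push Not at hcon
        exact gl_ne_zero J₀ (by ext a c; exact hcon a c)
      have h4 := congrFun (congrFun h1 i) j
      simp only [Matrix.smul_apply, smul_eq_mul] at h4
      exact (mul_right_cancel₀ hij h4).symm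
    have hμ1 : μ = 1 := by
      have h1 : μ ^ 2 = μ := by
        rw [← sigE_apply hF]
        exact hμσ
      have h2 : μ * (μ - 1) = 0 := by
        linear_combination h1
      exact sub_eq_zero.mp ((mul_eq_zero.mp h2).resolve_left hμ0)
    subst hμ1
    rw [one_smul] at hμ
    refine mem_GU_of_gram hF ?_
    set hi : Matrix (Fin 3) (Fin 3) F := ((h⁻¹ : GL (Fin 3) F) : Matrix (Fin 3) (Fin 3) F) with hhi
    have hh1 : hi * (h : Matrix (Fin 3) (Fin 3) F) = 1 := by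
      rw [hhi, ← Units.val_mul, inv_mul_cancel, Units.val_one]
    have hmapmul : ∀ x y : Matrix (Fin 3) (Fin 3) F, (x * y).map σ = x.map σ * y.map σ := by
      intro x y
      ext i j
      simp [Matrix.mul_apply, map_sum]
    have hh2 : ((h : Matrix (Fin 3) (Fin 3) F).map σ)ᵀ * (hi.map σ)ᵀ = 1 := by
      rw [← Matrix.transpose_mul, ← hmapmul, hh1, map_one_sigma', Matrix.transpose_one]
    have hg : (((MulAut.conj M).toMonoidHom a : GL (Fin 3) F) : Matrix (Fin 3) (Fin 3) F) =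
        (h : Matrix (Fin 3) (Fin 3) F)ᵀ * (a : Matrix (Fin 3) (Fin 3) F) * hiᵀ := by
      rw [hhi]
      rfl
    rw [hg, Matrix.transpose_mul, Matrix.transpose_mul, Matrix.transpose_transpose, Matrix.transpose_transpose, hmapmul, hmapmul]
    have h5 : ((h : Matrix (Fin 3) (Fin 3) F)ᵀ).map σ = ((h : Matrix (Fin 3) (Fin 3) F).map σ)ᵀ := by
      ext i j
      simp
    have h6 : (hiᵀ).map σ = (hi.map σ)ᵀ := by
      ext i j
      simp
    rw [h5, h6]
    calc hi * ((a : Matrix (Fin 3) (Fin 3) F)ᵀ * (h : Matrix (Fin 3) (Fin 3) F)) *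
          (((h : Matrix (Fin 3) (Fin 3) F).map σ)ᵀ * (a : Matrix (Fin 3) (Fin 3) F).map σ * (hi.map σ)ᵀ)
        = hi * ((a : Matrix (Fin 3) (Fin 3) F)ᵀ * ((h : Matrix (Fin 3) (Fin 3) F) * ((h : Matrix (Fin 3) (Fin 3) F).map σ)ᵀ) *
          (a : Matrix (Fin 3) (Fin 3) F).map σ) * (hi.map σ)ᵀ := by simp only [mul_assoc]
      _ = hi * ((J₀ : Matrix (Fin 3) (Fin 3) F)) * (hi.map σ)ᵀ := by rw [hh, hμ]
      _ = (hi * (h : Matrix (Fin 3) (Fin 3) F)) * (((h : Matrix (Fin 3) (Fin 3) F).map σ)ᵀ * (hi.map σ)ᵀ) := by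
          rw [← hh]
          simp only [mul_assoc]
          rfl
      _ = 1 := by rw [hh1, hh2, one_mul]
  haveI := isSolvable_GU_three hF
  have hbot : X.map (MulAut.conj M).toMonoidHom = ⊥ := by
    refine eq_bot_of_perfect_le hX' ?_
    rw [← Subgroup.map_commutator, hXp]
  rw [eq_bot_iff]
  intro x hx
  have h1 : (MulAut.conj M).toMonoidHom x ∈ X.map (MulAut.conj M).toMonoidHom := ⟨x, hx, rfl⟩
  rw [hbot, Subgroup.mem_bot] at h1
  have h2 : x = 1 := by
    have h3 : (MulAut.conj M) x = 1 := h1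
    simpa using h3
  exact (Subgroup.mem_bot).mpr h2

/-- The case of two-dimensional factors: a subfield outcome. -/
theorem out_wreath_two (hF : Fintype.card F = q ^ 2) (hn2 : 2 ≤ n)
    (hG : ∀ W : Submodule F (Fin n → F), Inv (H ⊔ scalars (Fin n) F) W → W = ⊥ ∨ W = ⊤)
    (hGs : H ⊔ scalars (Fin n) F ≤ similarityGroup (hermForm n F q)) {t : ℕ}
    {e : Fin n ≃ (Fin t → Fin 2)} {P : GL (Fin n) F} {J₀ : GL (Fin 2) F} {c : F}
    (T : WreathForm (sigE hF) 1 (hermForm n F q) (H ⊔ scalars (Fin n) F) 2 t e P J₀ 1 c) : FormSU.Out n q H := by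
  classical
  haveI : Nonempty (Fin n) := ⟨⟨0, by omega⟩⟩
  set σ := sigE hF with hσ
  have hinv : ∀ a, σ (σ a) = a := (refl_hermForm (n := n) hF).invol
  obtain ⟨t₀, ht₀⟩ : ∃ t₀, σ t₀ ≠ t₀ := by
    by_contra hcon
    push Not at hcon
    exact sigE_ne_refl hF (RingEquiv.ext hcon)
  obtain ⟨ξ, -, hξ0, hξ⟩ := hilbert_two (⊤ : Subfield F) hinv (ε := -1) (by simp) (Subfield.mem_top _) (Subfield.mem_top t₀)
    (Subfield.mem_top _) ht₀
  have hσξ : σ ξ = -ξ := by
    linear_combination -hξ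
  set u : Fˣ := Units.mk0 ξ hξ0 with hu
  have huv : (u : F) = ξ := rfl
  set A : GL (Fin 2) F := scal _ F u * TensorTwo.omegaGL F with hA
  have homega : ∀ a b, σ (omega F a b) = omega F a b := by
    intro a b
    fin_cases a <;> fin_cases b <;> simp [omega]
  have hAe : (A : Matrix (Fin 2) (Fin 2) F) = ξ • omega F := by
    rw [hA, coe_scal_mul, huv]
    rfl
  have hAh : ((A : Matrix (Fin 2) (Fin 2) F).map σ)ᵀ = (1 : F) • (A : Matrix (Fin 2) (Fin 2) F) := by
    rw [hAe, one_smul]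
    ext a b
    have h1 := congrFun (congrFun (omega_transpose (F := F)) b) a
    simp only [Matrix.transpose_apply, Matrix.smul_apply, smul_eq_mul] at h1
    simp only [Matrix.transpose_apply, Matrix.map_apply, Matrix.smul_apply, smul_eq_mul, map_mul, hσξ, homega]
    rw [h1]
    ring
  obtain ⟨T₀, hT₀⟩ := exists_congruent hF A J₀ hAh T.herm
  have W' := WreathForm.change T hT₀ hAh
  set P' := P * pureE e T₀ with hP'
  have hpure : (pureMat fun _ : Fin t => (A : Matrix (Fin 2) (Fin 2) F)) = ξ ^ t • ((Gamma t F : GL _ F) : Matrix _ _ F) := by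
    rw [hAe, coe_Gamma, pureMat_smul (fun _ => ξ)]
    simp
  have hξt : ξ ^ t ≠ 0 := pow_ne_zero _ hξ0
  have hform : ∀ u v, hermForm n F q ((P' : Matrix (Fin n) (Fin n) F) *ᵥ u) ((P' : Matrix (Fin n) (Fin n) F) *ᵥ v) =
      (c * ξ ^ t) * sesqM (σ : F →+* F) (((Gamma t F : GL _ F) : Matrix _ _ F).submatrix e e) u v := by
    intro u v
    rw [W'.eq, hpure]
    have h1 : (ξ ^ t • ((Gamma t F : GL _ F) : Matrix _ _ F)).submatrix e e =
        ξ ^ t • (((Gamma t F : GL _ F) : Matrix _ _ F).submatrix e e) := by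
      ext i j
      simp
    rw [h1, sesqM_smul, mul_assoc]
  have hc0 : c * ξ ^ t ≠ 0 := mul_ne_zero T.hc hξt
  have hrat : ∀ i j, (c * ξ ^ t)⁻¹ * gramP (hermForm n F q) P' i j ∈ fixF σ := by
    intro i j
    have h1 : gramP (hermForm n F q) P' i j = (c * ξ ^ t) * ((Gamma t F : GL _ F) : Matrix _ _ F) (e i) (e j) := by
      change hermForm n F q _ _ = _
      rw [hform, sesqM_single]
      rfl
    rw [h1, inv_mul_cancel_left₀ hc0, mem_fixF, coe_Gamma, pureMat_apply, map_prod]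
    exact Finset.prod_congr rfl fun l _ => homega _ _
  refine out_of_rational hF hn2 hG hGs Nat.prime_two (card_fix_pow hF) (inv_ne_zero hc0) hrat ?_
  intro g hg
  obtain ⟨_, ⟨y, hy, rfl⟩, rfl⟩ := W'.le hg
  set Y : GL (Fin n) F := (glReindex e.symm).toMonoidHom y with hY
  have hYm : (Y : Matrix (Fin n) (Fin n) F) = (y : Matrix _ _ F).submatrix e e := rfl
  have hconj : (MulAut.conj P').toMonoidHom Y = P' * Y * P'⁻¹ := rfl
  rw [hconj] at hg ⊢
  set B₀ : Matrix (Fin n) (Fin n) F := ((Gamma t F : GL _ F) : Matrix _ _ F).submatrix e e with hB₀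
  obtain ⟨μ, hμ⟩ := hGs hg
  have hact : ∀ w : Fin n → F, ((P' * Y * P'⁻¹ : GL (Fin n) F) : Matrix (Fin n) (Fin n) F) *ᵥ ((P' : Matrix (Fin n) (Fin n) F) *ᵥ w) =
      (P' : Matrix (Fin n) (Fin n) F) *ᵥ ((Y : Matrix (Fin n) (Fin n) F) *ᵥ w) := by
    intro w
    rw [Matrix.mulVec_mulVec, Matrix.mulVec_mulVec, ← Units.val_mul, ← Units.val_mul]
    congr 2
    group
  have h1 : (Y : Matrix (Fin n) (Fin n) F)ᵀ * B₀ * (Y : Matrix (Fin n) (Fin n) F).map σ = (μ : F) • B₀ := by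
    apply eq_of_sesqM_eq (σ := (σ : F →+* F)) σ.surjective
    intro a b
    have h2 := hμ ((P' : Matrix (Fin n) (Fin n) F) *ᵥ a) ((P' : Matrix (Fin n) (Fin n) F) *ᵥ b)
    rw [hact, hact, hform, hform, sesqM_mulVec] at h2
    have h2' : (c * ξ ^ t) * sesqM (σ : F →+* F) ((Y : Matrix (Fin n) (Fin n) F)ᵀ * B₀ * (Y : Matrix (Fin n) (Fin n) F).map σ) a b =
        (μ : F) * ((c * ξ ^ t) * sesqM (σ : F →+* F) B₀ a b) := h2
    rw [sesqM_smul]
    apply mul_left_cancel₀ hc0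
    rw [h2']
    ring
  obtain ⟨lam, hlam⟩ := standard_le_similarity hy
  have h2 : (Y : Matrix (Fin n) (Fin n) F)ᵀ * B₀ * (Y : Matrix (Fin n) (Fin n) F) = (lam : F) • B₀ := by
    have h3 : (y : Matrix (Fin t → Fin 2) (Fin t → Fin 2) F)ᵀ * ((Gamma t F : GL (Fin t → Fin 2) F) : Matrix (Fin t → Fin 2) (Fin t → Fin 2) F) * (y : Matrix (Fin t → Fin 2) (Fin t → Fin 2) F) =
        (lam : F) • ((Gamma t F : GL (Fin t → Fin 2) F) : Matrix (Fin t → Fin 2) (Fin t → Fin 2) F) := by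
      ext a b
      have h4 := hlam (Pi.single a 1) (Pi.single b 1)
      rw [bil_mulVec] at h4
      have h5 : ∀ N : Matrix (Fin t → Fin 2) (Fin t → Fin 2) F, bil N (Pi.single a 1) (Pi.single b 1) = N a b := by
        intro N
        simp [bil]
      rw [h5, h5] at h4
      simpa using h4
    rw [hYm, hB₀, Matrix.transpose_submatrix, Matrix.submatrix_mul_equiv, Matrix.submatrix_mul_equiv, h3]
    ext i j
    simp
  have hunit : IsUnit ((Y : Matrix (Fin n) (Fin n) F)ᵀ * B₀) := by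
    have h3 : IsUnit B₀ := ((glReindex e.symm).toMonoidHom (Gamma t F)).isUnit
    exact (glTranspose Y).isUnit.mul h3
  have h3 : (lam : F) • (Y : Matrix (Fin n) (Fin n) F).map σ = (μ : F) • (Y : Matrix (Fin n) (Fin n) F) := by
    apply hunit.mul_left_cancel
    rw [Matrix.mul_smul, Matrix.mul_smul, h1, h2, smul_smul, smul_smul, mul_comm]
  set κ : F := (μ : F) / lam with hκ
  have hκ0 : κ ≠ 0 := div_ne_zero μ.ne_zero lam.ne_zero
  have h4 : ∀ i j, σ ((Y : Matrix (Fin n) (Fin n) F) i j) = κ * (Y : Matrix (Fin n) (Fin n) F) i j := by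
    intro i j
    have h5 := congrFun (congrFun h3 i) j
    simp only [Matrix.smul_apply, Matrix.map_apply, smul_eq_mul] at h5
    rw [hκ]
    field_simp
    linear_combination h5
  obtain ⟨i₀, j₀, hij⟩ : ∃ i j, (Y : Matrix (Fin n) (Fin n) F) i j ≠ 0 := by
    by_contra hcon
    push Not at hcon
    exact gl_ne_zero Y (by ext a c; exact hcon a c)
  have hκσ : κ⁻¹ * σ κ⁻¹ = 1 := by
    have h5 := congrArg σ (h4 i₀ j₀)
    rw [hinv, map_mul, h4 i₀ j₀] at h5
    have h6 : σ κ * κ = 1 := by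
      apply mul_right_cancel₀ hij
      linear_combination -h5
    rw [map_inv₀, ← mul_inv, mul_comm, h6, inv_one]
  obtain ⟨a, -, ha0, ha⟩ := hilbert_two (⊤ : Subfield F) hinv hκσ (Subfield.mem_top _) (Subfield.mem_top t₀) (Subfield.mem_top _) ht₀
  have hσa : σ a = κ * a := by
    calc σ a = κ * (κ⁻¹ * σ a) := by field_simp
      _ = κ * a := by rw [ha]
  refine mem_subfieldSubgroup_of_entries (fixF σ) (inv_ne_zero ha0) fun i j => ?_
  have h5 : P'⁻¹ * (P' * Y * P'⁻¹) * P' = Y := by group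
  rw [h5, mem_fixF, map_mul, map_inv₀, h4, hσa]
  field_simp

/-- The tensor power outcome. -/
theorem out_wreath_of (hF : Fintype.card F = q ^ 2) (hn2 : 2 ≤ n)
    (hG : ∀ W : Submodule F (Fin n → F), Inv (H ⊔ scalars (Fin n) F) W → W = ⊥ ∨ W = ⊤)
    (hGs : H ⊔ scalars (Fin n) F ≤ similarityGroup (hermForm n F q)) {d t : ℕ}
    {e : Fin n ≃ (Fin t → Fin d)} {P : GL (Fin n) F} {J₀ : GL (Fin d) F} {c : F}
    (T : WreathForm (sigE hF) 1 (hermForm n F q) (H ⊔ scalars (Fin n) F) d t e P J₀ 1 c)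
    (hne : ¬ (q = 2 ∧ d = 3)) : FormSU.Out n q H := by
  haveI : Nonempty (Fin n) := ⟨⟨0, by omega⟩⟩
  have hd := T.hd
  haveI : Nonempty (Fin d) := ⟨⟨0, by omega⟩⟩
  by_cases hd2 : d = 2
  · subst hd2
    exact out_wreath_two hF hn2 hG hGs T
  · refine out_wreath (by omega) T.ht hne (isUnitaryFormPow_sesqM hF J₀ T.herm) ?_ (le_sup_left.trans T.le)
    rw [pow_eq_sigE hF]
    exact isTensorPowerFormStructure_of T.hc _ T.eq (gramMatrix_sesqM _ _)

end Standard

end Cfsg.Agent.Lib.Classical.Asch.FormSU2
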