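import Mathlib
import Cfsg.Agent.Lib.Classical.Asch.FormSU2

/-!
# Aschbacher's theorem for the unitary groups: the main flow
-/

set_option autoImplicit false
set_option linter.style.haveILetI false
set_option linter.unusedSectionVars false

namespace Cfsg.Agent.Lib.Classical.Asch.FormSU3

open scoped MatrixGroups Matrix Kronecker
open Cfsg Cfsg.Geo Cfsg.Agent.Lib.Classical.Asch.Basic Cfsg.Agent.Lib.Classical.Asch.Forms
open Cfsg.Agent.Lib.Classical.Asch.Adj Cfsg.Agent.Lib.Classical.Asch.FormDich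
open Cfsg.Agent.Lib.Classical.Asch.FormTensor Cfsg.Agent.Lib.Classical.Asch.FormSim
open Cfsg.Agent.Lib.Classical.Asch.FormComm Cfsg.Agent.Lib.Classical.Asch.Gram
open Cfsg.Agent.Lib.Classical.Asch.FormPerp Cfsg.Agent.Lib.Classical.Asch.FormField
open Cfsg.Agent.Lib.Classical.Asch.FormSympType
open Cfsg.Agent.Lib.Classical.Asch.FormReal Cfsg.Agent.Lib.Classical.Asch.FormDescent
open Cfsg.Agent.Lib.Classical.Asch.SympType Cfsg.Agent.Lib.Classical.Asch.SympStruct
open Cfsg.Agent.Lib.Classical.Asch.Dichotomy Cfsg.Agent.Lib.Classical.Asch.Subfield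
open Cfsg.Agent.Lib.Classical.Asch.CaseA Cfsg.Agent.Lib.Classical.Asch.Main
open Cfsg.Agent.Lib.Classical.Asch.PureTensor Cfsg.Agent.Lib.Classical.Asch.FormSU
open Cfsg.Agent.Lib.Classical.Asch.FormSU2
open Cfsg.Agent.Lib.Classical.Asch.FormSp (scalars_le_similarity IsMDecomposition.two_mul_eq eq_bot_of_perfect)
open Cfsg.Agent.Lib.Classical.Herm.PSLGraphField (sigE sigE_apply exists_herm_factor sigE_ne_one sigE_sq)
open Cfsg.Agent.Lib.Classical.Herm.Descent (fixF mem_fixF card_eq_pow_fix)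

variable {F : Type*} [Field F] [Fintype F] {n q : ℕ}
variable {H : Subgroup (GL (Fin n) F)}

theorem GU_le_isomG : GU n F q ≤ isomG (hermForm n F q) := fun _ hg => hg

theorem GU_le_similarity : GU n F q ≤ similarityGroup (hermForm n F q) := GU_le_isomG.trans isomG_le_similarity

/-- Isometric scalars. -/
theorem scalar_pow_of_isom (hF : Fintype.card F = q ^ 2) [Nonempty (Fin n)] {x : GL (Fin n) F} (hx : x ∈ isomG (hermForm n F q)) {c : F}
    (hc : (x : Matrix (Fin n) (Fin n) F) = c • 1) : c ^ (q + 1) = 1 := by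
  have hr := refl_hermForm (n := n) hF
  apply mult_unique hr
  intro a b
  have h1 := hx a b
  rw [hc, Matrix.smul_mulVec, Matrix.smul_mulVec, Matrix.one_mulVec, Matrix.one_mulVec, hr.smul_left, hr.smul_right, sigE_apply] at h1
  rw [one_mul]
  calc c ^ (q + 1) * hermForm n F q a b = c * (c ^ q * hermForm n F q a b) := by ring
    _ = _ := h1

theorem scal_mem_isom (hF : Fintype.card F = q ^ 2) {u : Fˣ} (hu : (u : F) ^ (q + 1) = 1) : scal (Fin n) F u ∈ isomG (hermForm n F q) := by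
  have hr := refl_hermForm (n := n) hF
  intro a b
  rw [coe_scal, Matrix.smul_mulVec, Matrix.smul_mulVec, Matrix.one_mulVec, Matrix.one_mulVec, hr.smul_left, hr.smul_right, sigE_apply,
    ← mul_assoc, ← pow_succ', hu, one_mul]

theorem out_type {r : ℕ} {R : Subgroup (GL (Fin n) F)} {p e k : ℕ} (h1 : IsSymplecticTypeGroup r R)
    (h2 : ActsAbsolutelyIrreducibly (matrixSet R)) (h3 : R ≤ similarityGroup (hermForm n F q)) (h4 : r ≠ p)
    (h5 : IsMinimalFieldFor (Nat.card (Subgroup.center R)) p e F)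
    (h6 : (Odd r ∧ Nat.card (Subgroup.center R) = r ∧ 1 ≤ k ∧ Nat.card R = r ^ (1 + 2 * k)) ∨
       (r = 2 ∧ e = 2 ∧ Nat.card (Subgroup.center R) = 4 ∧ Nat.card R = 2 ^ (2 + 2 * k)))
    (h7 : H ≤ subgroupNormalizer R) (h8 : n = r ^ k) (h9 : R ≤ GU n F q) : FormSU.Out n q H :=
  Or.inr (Or.inr (Or.inr (Or.inr (Or.inr (Or.inr (Or.inr (Or.inl ⟨r, R, p, e, k, h1, h2, h3, h4, h5, h6, h7, h8, h9⟩)))))))

/-- The symplectic type outcome. -/
theorem out_symp (hF : Fintype.card F = q ^ 2) (hn : 3 ≤ n)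
    (hG : ∀ W : Submodule F (Fin n → F), Inv (H ⊔ scalars (Fin n) F) W → W = ⊥ ∨ W = ⊤)
    (hGs : H ⊔ scalars (Fin n) F ≤ similarityGroup (hermForm n F q)) {R : Subgroup (GL (Fin n) F)} {r s : ℕ}
    (D : SympData (H ⊔ scalars (Fin n) F) R r s) (hs : ∀ x ∈ scalars (Fin n) F, x ^ s = 1 → x ∈ R)
    (hD : Dich (H ⊔ scalars (Fin n) F)) : FormSU.Out n q H := by
  classical
  haveI : Nonempty (Fin n) := ⟨⟨0, by omega⟩⟩
  have hn2 : 2 ≤ n := by omega
  have hr := refl_hermForm (n := n) hF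
  have D₀ := SympData.isomData hr D hGs hD
  have hHG : H ≤ H ⊔ scalars (Fin n) F := le_sup_left
  have hq2 := Cfsg.Agent.Lib.Classical.Herm.Basic.two_le_q hF
  obtain ⟨x, hx, hxZ⟩ := Set.not_subset.mp D₀.notZ
  obtain ⟨y, hy, u, hu, hc⟩ := SympData.exists_noncomm D₀ hx hxZ
  have h1 : u ^ r = 1 := by
    apply scal_injective (ι := Fin n)
    rw [map_pow, ← hc, D₀.comm_pow y hy x hx, map_one]
  have hscu : scal (Fin n) F u ∈ R ⊓ isomG (hermForm n F q) := by
    rw [← hc]
    exact mul_mem (mul_mem (mul_mem hy hx) (inv_mem hy)) (inv_mem hx)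
  have hq1 : (u : F) ^ (q + 1) = 1 := scalar_pow_of_isom hF hscu.2 (coe_scal u)
  have hrq : r ∣ q + 1 := by
    haveI : Fact r.Prime := ⟨D₀.prime⟩
    have hord : orderOf u = r := orderOf_eq_prime h1 hu
    rw [← hord]
    apply orderOf_dvd_of_pow_eq_one
    apply Units.ext
    simpa using hq1
  set p := ringChar F with hpdef
  haveI : CharP F p := ringChar.charP F
  obtain ⟨e', hp, hFe⟩ := FiniteField.card F p
  haveI : Fact p.Prime := ⟨hp⟩
  set e : ℕ := (e' : ℕ) with he
  have he0 : 0 < e := e'.pos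
  have hrp : r ≠ p := by
    intro h
    apply D₀.hchar
    rw [h]
    exact CharP.cast_eq_zero F p
  have hqF : Nat.card Fˣ = Fintype.card F - 1 := by
    rw [Nat.card_eq_fintype_card, Fintype.card_units]
  have hq12 : Fintype.card F - 1 = (q + 1) * (q - 1) := by
    rw [hF]
    have := Nat.sq_sub_sq q 1
    simpa [mul_comm] using this
  have hfix : FixesForm (matrixSet (R ⊓ isomG (hermForm n F q))) (hermForm n F q) := by
    rintro _ ⟨z, hz, rfl⟩ a b
    exact hz.2 a b
  by_cases hsq : s ∣ q + 1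
  · have hsq' : s ∣ Fintype.card F - 1 := by
      rw [hq12]
      exact hsq.mul_right _
    have hs₀ : ∀ z ∈ scalars (Fin n) F, z ^ s = 1 → z ∈ R ⊓ isomG (hermForm n F q) := by
      rintro z ⟨v, rfl⟩ hz
      refine ⟨hs _ (scal_mem v) hz, ?_⟩
      apply scal_mem_isom hF
      have h3 : v ^ s = 1 := by
        apply scal_injective (ι := Fin n)
        change (scal (Fin n) F v) ^ s = _ at hz
        rw [map_pow, hz, map_one]
      obtain ⟨m, hm⟩ := hsq
      rw [hm, pow_mul]
      have h4 : (v : F) ^ s = 1 := by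
        have := congrArg Units.val h3
        simpa using this
      rw [h4, one_pow]
    have hz : Nat.card (Subgroup.center ↥(R ⊓ isomG (hermForm n F q))) = s := by
      rw [SympData.card_center D₀ hs₀, hqF]
      exact Nat.gcd_eq_right hsq'
    by_cases hsub : ∃ d, 0 < d ∧ d < e ∧ s ∣ p ^ d - 1
    · obtain ⟨d, hd0, hde, hsd⟩ := hsub
      obtain ⟨F₀, r', B, a1, a2, a3, a4, -⟩ := SympData.subfield_outcome' D₀ hp hFe hsq' hd0 hde hsd
      obtain ⟨ζ, hζ0, hζ⟩ := exists_rational hr D₀.cs hfix F₀ a2 B a4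
      exact out_of_rational hF hn2 hG hGs a1 a2 hζ0 hζ a3
    · push Not at hsub
      have hmin : IsMinimalFieldFor (Nat.card (Subgroup.center ↥(R ⊓ isomG (hermForm n F q)))) p e F := by
        refine ⟨hp, inferInstance, hFe, ?_, ?_⟩
        · rw [hz, ← hFe]
          exact hsq'
        · intro d hd0 hde
          rw [hz]
          exact hsub d hd0 hde
      obtain ⟨k, hk, hquot⟩ := SympData.exists_card D₀
      rw [Fintype.card_fin] at hk
      have hcardR := SympData.card_eq D₀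
      have hsymp := SympData.isSymplecticTypeGroup D₀ hD
      have habs : ActsAbsolutelyIrreducibly (matrixSet (R ⊓ isomG (hermForm n F q))) :=
        actsAbsolutelyIrreducibly_iff.mpr ⟨actsIrreducibly_iff.mpr D₀.irr, D₀.cs⟩
      have hk1 : 1 ≤ k := by
        rcases Nat.eq_zero_or_pos k with h | h
        · rw [h, pow_zero] at hk
          omega
        · exact h
      refine out_type hsymp habs (inf_le_right.trans isomG_le_similarity) hrp hmin ?_ (hHG.trans (SympData.normalizer D₀)) hk inf_le_right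
      rcases D₀.prime.eq_two_or_odd' with h2 | hodd
      · subst h2
        have hs4 : s = 4 := by
          rw [D₀.hs]
          decide
        subst hs4
        right
        have hpodd : p % 2 = 1 := by
          have hpne : p ≠ 2 := fun h => hrp h.symm
          exact hp.eq_two_or_odd.resolve_left hpne
        have hsqp : 4 ∣ p ^ 2 - 1 := by
          have h1 : p ^ 2 % 4 = 1 % 4 := by
            have h2 : p % 4 = 1 ∨ p % 4 = 3 := by omega
            rcases h2 with h2 | h2 <;> simp [Nat.pow_mod, h2]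
          exact Nat.dvd_of_mod_eq_zero (Nat.sub_mod_eq_zero_of_mod_eq h1)
        have he2 : e = 2 := by
          have h3 : e ≤ 2 := by
            by_contra hne
            exact hsub 2 (by norm_num) (by omega) hsqp
          have h4 : e ≠ 1 := by
            intro h5
            rw [h5, pow_one, hF] at hFe
            have h6 : ¬ (q ^ 2).Prime := Nat.Prime.not_prime_pow (by norm_num)
            rw [hFe] at h6
            exact h6 hp
          omega
        refine ⟨rfl, he2, hz, ?_⟩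
        rw [hcardR, hz, hquot, pow_add]
        norm_num
      · left
        have hg : Nat.gcd 2 r = 1 := (Nat.coprime_two_left).mpr hodd
        have hsr : s = r := by rw [D₀.hs, hg, mul_one]
        refine ⟨hodd, by rw [hz, hsr], hk1, ?_⟩
        rw [hcardR, hz, hquot, hsr, pow_add, pow_one]
  · -- `r = 2` and `q ≡ 1 mod 4`
    have hr2 : r = 2 := by
      rcases D₀.prime.eq_two_or_odd' with h2 | hodd
      · exact h2
      · exfalso
        apply hsq
        have hg : Nat.gcd 2 r = 1 := (Nat.coprime_two_left).mpr hodd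
        have hsr : s = r := by rw [D₀.hs, hg, mul_one]
        rw [hsr]
        exact hrq
    subst hr2
    have hs4 : s = 4 := by
      rw [D₀.hs]
      decide
    subst hs4
    have hZ : ∀ z ∈ R ⊓ isomG (hermForm n F q), ∀ c : F, (z : Matrix (Fin n) (Fin n) F) = c • 1 → c ∈ fixF (sigE hF) := by
      intro z hz c hc'
      have h3 : c ^ 4 = 1 := SympData.scalar_pow D₀ hz hc'
      have h4 : c ^ (q + 1) = 1 := scalar_pow_of_isom hF hz.2 hc'
      obtain ⟨l, hl⟩ : ∃ l, q + 1 = 4 * l + 2 := by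
        obtain ⟨m, hm⟩ := hrq
        refine ⟨(m - 1) / 2, ?_⟩
        have hm1 : m % 2 = 1 := by
          by_contra hcon
          apply hsq
          have : m % 2 = 0 := by omega
          omega
        omega
      have h5 : c ^ 2 = 1 := by
        rw [hl, pow_add, pow_mul, h3, one_pow, one_mul] at h4
        exact h4
      have h6 : q = 2 * (2 * l) + 1 := by omega
      rw [mem_fixF, sigE_apply, h6, pow_succ, pow_mul, h5, one_pow, one_mul]
    obtain ⟨B, hB⟩ := SympData.realize_subfield D₀ (fixF (sigE hF)) (card_fix_pow hF) hZ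
    obtain ⟨ζ, hζ0, hζ⟩ := exists_rational hr D₀.cs hfix _ (card_fix_pow hF) B hB
    exact out_of_rational hF hn2 hG hGs Nat.prime_two (card_fix_pow hF) hζ0 hζ
      (fun g hg => mem_subfieldSubgroup_of_normalizes _ (card_fix_pow hF) D₀.cs B hB (D₀.norm g hg))

/-- The commutative outcome. -/
theorem out_comm (hF : Fintype.card F = q ^ 2) (hn : 2 ≤ n)
    (hO : CommOutcome (sigE hF) (hermForm n F q) (H ⊔ scalars (Fin n) F)) : FormSU.Out n q H := by
  haveI : Nonempty (Fin n) := ⟨⟨0, by omega⟩⟩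
  have hr := refl_hermForm (n := n) hF
  have hHG : H ≤ H ⊔ scalars (Fin n) F := le_sup_left
  rcases hO with ⟨t, k, D, hD, hle⟩ | ⟨k, D, hD, hts, hle⟩ | ⟨r, K, hrp, hK, hA, hle⟩
  · exact out_decomp hD (hHG.trans hle)
  · have hk := IsMDecomposition.two_mul_eq hD
    rw [Fintype.card_fin] at hk
    exact out_pair hk hD hts (hHG.trans hle)
  · rcases hrp.eq_two_or_odd' with rfl | ho
    · exact (not_adjClosed_two hr (sigE_ne_refl hF) hK hA).elim
    · exact out_field hrp ho hK (AdjClosed.isAdjointClosedFor hr hA) (hHG.trans hle)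

/-- The tensor power outcome. -/
theorem out_wreath_main (hF : Fintype.card F = q ^ 2) (hn2 : 2 ≤ n)
    (hG : ∀ W : Submodule F (Fin n → F), Inv (H ⊔ scalars (Fin n) F) W → W = ⊥ ∨ W = ⊤)
    (hGs : H ⊔ scalars (Fin n) F ≤ similarityGroup (hermForm n F q)) {d t : ℕ}
    {e : Fin n ≃ (Fin t → Fin d)} {P : GL (Fin n) F} {J₀ : GL (Fin d) F} {ε₀ c : F}
    (T : WreathForm (sigE hF) 1 (hermForm n F q) (H ⊔ scalars (Fin n) F) d t e P J₀ ε₀ c)
    (hX : ∃ X : Subgroup (GL (Fin d) F), ⁅X, X⁆ = X ∧ X ≠ ⊥ ∧ ∀ a ∈ X, ∃ μ : F, μ ≠ 0 ∧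
        (a : Matrix (Fin d) (Fin d) F)ᵀ * (J₀ : Matrix (Fin d) (Fin d) F) * (a : Matrix (Fin d) (Fin d) F).map (sigE hF) = μ • (J₀ : Matrix (Fin d) (Fin d) F)) :
    FormSU.Out n q H := by
  obtain ⟨a, c', W⟩ := WreathForm.normalize (refl_hermForm (n := n) hF).invol (sigE_ne_refl hF) T
  refine out_wreath_of hF hn2 hG hGs W ?_
  rintro ⟨rfl, rfl⟩
  obtain ⟨X, hXp, hX0, hXm⟩ := hX
  refine hX0 (three_two_perfect hF _ W.herm hXp (fun b hb => ?_))
  obtain ⟨μ, hμ0, hμ⟩ := hXm b hb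
  refine ⟨μ, hμ0, ?_⟩
  rw [coe_scal_mul, Matrix.mul_smul, Matrix.smul_mul, hμ, smul_smul, smul_smul, mul_comm]

/-- The tensor outcome. -/
theorem out_tensor_main (hF : Fintype.card F = q ^ 2) (hn2 : 2 ≤ n)
    (hG : ∀ W : Submodule F (Fin n → F), Inv (H ⊔ scalars (Fin n) F) W → W = ⊥ ∨ W = ⊤)
    (hGs : H ⊔ scalars (Fin n) F ≤ similarityGroup (hermForm n F q)) {d k : ℕ}
    (hexc : ¬ (q = 2 ∧ d = 3 ∧ k = 3)) {e : Fin n ≃ Fin d × Fin k} {P : GL (Fin n) F} {J₁ : GL (Fin d) F} {J₂ : GL (Fin k) F} {ε₁ ε₂ c : F}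
    (T : TensorData (sigE hF) 1 (hermForm n F q) (H ⊔ scalars (Fin n) F) d k e P J₁ J₂ ε₁ ε₂ c) : FormSU.Out n q H := by
  obtain ⟨J₁', J₂', c', T'⟩ := FormSU2.TensorData.normalize (refl_hermForm (n := n) hF).invol (sigE_ne_refl hF) T
  rcases lt_trichotomy d k with hlt | rfl | hgt
  · exact out_tensor_of hF hn2 T' hlt
  · obtain ⟨P', W⟩ := FormSU2.TensorData.toWreath hF T'
    refine out_wreath_of hF hn2 hG hGs W ?_
    rintro ⟨h1, h2⟩
    exact hexc ⟨h1, h2, h2⟩
  · exact out_tensor_of hF hn2 (FormSim.TensorData.swap T') hgt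

/-- The residual core. -/
theorem out_core (hF : Fintype.card F = q ^ 2) (hn2 : 2 ≤ n) (hH : H ≤ GU n F q)
    (hG : ∀ W : Submodule F (Fin n → F), Inv (H ⊔ scalars (Fin n) F) W → W = ⊥ ∨ W = ⊤)
    (hGs : H ⊔ scalars (Fin n) F ≤ similarityGroup (hermForm n F q))
    {P : Subgroup (GL (Fin n) F)} (hP : IsResidualCore H P) (hN : Normalizes (H ⊔ scalars (Fin n) F) P) :
    FormSU.Out n q H ∨ InUnitaryResidualClass H := by
  classical
  haveI : Nonempty (Fin n) := ⟨⟨0, by omega⟩⟩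
  have hr := refl_hermForm (n := n) hF
  obtain ⟨hirr, hcs⟩ := actsAbsolutelyIrreducibly_iff.mp hP.absIrred
  have hPf : FixesForm (matrixSet P) (hermForm n F q) := by
    rintro _ ⟨x, hx, rfl⟩ u v
    exact hH (hP.le hx) u v
  have hcard := card_fix_pow hF
  have key : ∀ b : (Fin n → F) → (Fin n → F) → F, IsSesq (RingHom.id F) b → IsNondegenerateForm b → FixesForm (matrixSet P) b →
      FormSU.Out n q H := by
    intro b hb hbn hbP
    obtain ⟨B, hB⟩ := realize_of_two_forms hcs hr.invol (sigE_ne_refl hF) hb hbn hbP (ReflForm.isSesq hr) hr.nondeg hPf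
    have hB' : ∀ x ∈ P, ∀ i j, ((B : Matrix (Fin n) (Fin n) F) * (x : Matrix (Fin n) (Fin n) F) * ((B⁻¹ : GL (Fin n) F) : Matrix (Fin n) (Fin n) F)) i j ∈ fixF (sigE hF) :=
      fun x hx i j => mem_fixF.mpr (hB x hx i j)
    obtain ⟨ζ, hζ0, hζ⟩ := exists_rational hr hcs hPf _ hcard B hB'
    exact out_of_rational hF hn2 hG hGs Nat.prime_two hcard hζ0 hζ
      (fun g hg => mem_subfieldSubgroup_of_normalizes _ hcard hcs B hB' (hN g hg))
  by_cases hQ : ∃ Q : (Fin n → F) → F, IsNondegenerateQuadraticForm Q ∧ FixesQuadForm (matrixSet P) Q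
  · left
    obtain ⟨Q, hQn, hQP⟩ := hQ
    exact key _ (isSesq_of_bilinear hQn.polar_bilinear) hQn.nondegenerate (fixes_polar hQP)
  · by_cases hS : ∃ b : (Fin n → F) → (Fin n → F) → F, IsSymplecticForm b ∧ FixesForm (matrixSet P) b
    · left
      obtain ⟨b, hb, hbP⟩ := hS
      exact key b (isSesq_of_bilinear hb.bilinear) hb.nondegenerate hbP
    · right
      exact ⟨P, hP, hQ, hS⟩

/-- **Aschbacher's theorem for the unitary groups**, outside the special tensor case. -/
theorem su_mainF (hF : Fintype.card F = q ^ 2) (hn : 3 ≤ n) (hH : H ≤ GU n F q)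
    (hexc : ∀ (e : Fin n ≃ Fin 3 × Fin 3) (P : GL (Fin n) F) (J₁ J₂ : GL (Fin 3) F) (ε₁ ε₂ c : F),
      q = 2 → TensorData (sigE hF) 1 (hermForm n F q) (H ⊔ scalars (Fin n) F) 3 3 e P J₁ J₂ ε₁ ε₂ c →
      FormSU.Out n q H) :
    FormSU.Out n q H ∨ InUnitaryResidualClass H := by
  classical
  haveI : Nonempty (Fin n) := ⟨⟨0, by omega⟩⟩
  have hn2 : 2 ≤ n := by omega
  have hr := refl_hermForm (n := n) hF
  have hGs : H ⊔ scalars (Fin n) F ≤ similarityGroup (hermForm n F q) :=
    sup_le (hH.trans GU_le_similarity) (scalars_le_similarity hr)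
  have hHG : H ≤ H ⊔ scalars (Fin n) F := le_sup_left
  have hcard2 : 2 ≤ Fintype.card (Fin n) := by
    rw [Fintype.card_fin]
    exact hn2
  by_cases hG : ∀ W : Submodule F (Fin n → F), Inv (H ⊔ scalars (Fin n) F) W → W = ⊥ ∨ W = ⊤
  · rcases geom_or_dich hr hG hGs with hO | ⟨d, k, e, P, J₁, J₂, ε₁, ε₂, c, T⟩ | hD
    · exact Or.inl (out_comm hF hn2 hO)
    · left
      by_cases h33 : q = 2 ∧ d = 3 ∧ k = 3
      · obtain ⟨h1, rfl, rfl⟩ := h33
        exact hexc e P J₁ J₂ ε₁ ε₂ c h1 T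
      · exact out_tensor_main hF hn2 hG hGs h33 T
    · rcases raw_of_dich hcard2 hG hD with ⟨K, d, t, e, P, φ, gs, hW⟩ | ⟨R, r, s, D, hs⟩ |
        ⟨F₀, r, B, X, hrp, hc, hle, hXH, hXc, hXi, hXr⟩ | ⟨P, hP, hN⟩
      · obtain ⟨J₀, ε₀, c, T, hX⟩ := WreathData.exists_form hr hW hGs
        exact Or.inl (out_wreath_main hF hn2 hG hGs T hX)
      · exact Or.inl (out_symp hF hn hG hGs D hs hD)
      · left
        have hfix : FixesForm (matrixSet X) (hermForm n F q) := by
          rintro _ ⟨x, hx, rfl⟩ u v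
          exact hH (hXH hx) u v
        obtain ⟨ζ, hζ0, hζ⟩ := exists_rational hr hXc hfix F₀ hc B hXr
        exact out_of_rational hF hn2 hG hGs hrp hc hζ0 hζ hle
      · exact out_core hF hn2 hH hG hGs hP hN
  · left
    push Not at hG
    obtain ⟨W, hW, h0, h1⟩ := hG
    rcases reducible_outcome hr hGs h0 h1 hW with ⟨W', h2, h3, h4⟩ | ⟨W', h2, -, h3, h4, h5⟩ | ⟨k, D, -, hD, hle⟩
    · exact out_ts h2 h3 (le_subspaceStabilizer (fun g hg v hv => h4 g (hHG hg) v hv))
    · rw [Fintype.card_fin] at h4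
      exact out_nd h2 h3 h4 (le_subspaceStabilizer (fun g hg v hv => h5 g (hHG hg) v hv))
    · exact out_decomp hD (hHG.trans hle)

end Cfsg.Agent.Lib.Classical.Asch.FormSU3
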