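import Mathlib
import Cfsg.Agent.Lib.Classical.Asch.FormSU3

/-!
# Finite field with four elements: tables for `GU₃(2)`

The group `3^(1+2)` is normal in `GU₃(2)`: a finite check, organised in terms of tables.
-/

set_option autoImplicit false
set_option linter.style.haveILetI false
set_option linter.unusedSectionVars false

namespace Cfsg.Agent.Lib.Classical.Asch.FourTable

/-- The elements of the field with four elements. -/
inductive Four
  | z | o | w | v

namespace Four

/-- Addition. -/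
def add : Four → Four → Four
  | .z, b => b | a, .z => a | .o, .o => .z | .o, .w => .v | .o, .v => .w | .w, .o => .v | .w, .w => .z | .w, .v => .o
  | .v, .o => .w | .v, .w => .o | .v, .v => .z

/-- Multiplication. -/
def mul : Four → Four → Four
  | .z, _ => .z | _, .z => .z | .o, b => b | a, .o => a | .w, .w => .v | .w, .v => .o | .v, .w => .o | .v, .v => .w

/-- Frobenius. -/
def cj : Four → Four
  | .z => .z | .o => .o | .w => .v | .v => .w

/-- Boolean equality. -/
def eqb : Four → Four → Bool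
  | .z, .z => true | .o, .o => true | .w, .w => true | .v, .v => true | _, _ => false

/-- Universal quantifier. -/
def all4 (f : Four → Bool) : Bool := f .z && f .o && f .w && f .v

theorem eq_of_eqb {a b : Four} (h : eqb a b = true) : a = b := by
  cases a <;> cases b <;> first | rfl | exact absurd h (by decide)

theorem eqb_self (a : Four) : eqb a a = true := by
  cases a <;> rfl

theorem all4_spec {f : Four → Bool} (h : all4 f = true) (a : Four) : f a = true := by
  simp only [all4, Bool.and_eq_true] at h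
  cases a
  · exact h.1.1.1
  · exact h.1.1.2
  · exact h.1.2
  · exact h.2

end Four

open Four

/-- Matrices of size three over `Four`. -/
structure Mat4 where
  (a b c d e f g h i : Four)

/-- Inner product. -/
def dot3 (x1 x2 x3 y1 y2 y3 : Four) : Four := add (add (mul x1 y1) (mul x2 y2)) (mul x3 y3)

/-- Product of matrices. -/
def Mat4.mul (x y : Mat4) : Mat4 :=
  ⟨dot3 x.a x.b x.c y.a y.d y.g, dot3 x.a x.b x.c y.b y.e y.h, dot3 x.a x.b x.c y.c y.f y.i,
   dot3 x.d x.e x.f y.a y.d y.g, dot3 x.d x.e x.f y.b y.e y.h, dot3 x.d x.e x.f y.c y.f y.i,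
   dot3 x.g x.h x.i y.a y.d y.g, dot3 x.g x.h x.i y.b y.e y.h, dot3 x.g x.h x.i y.c y.f y.i⟩

/-- Conjugate transpose. -/
def Mat4.star (x : Mat4) : Mat4 := ⟨cj x.a, cj x.d, cj x.g, cj x.b, cj x.e, cj x.h, cj x.c, cj x.f, cj x.i⟩

/-- Boolean equality. -/
def Mat4.eqb (x y : Mat4) : Bool :=
  Four.eqb x.a y.a && Four.eqb x.b y.b && Four.eqb x.c y.c && Four.eqb x.d y.d && Four.eqb x.e y.e && Four.eqb x.f y.f &&
  Four.eqb x.g y.g && Four.eqb x.h y.h && Four.eqb x.i y.i

theorem Mat4.eq_of_eqb {x y : Mat4} (h : Mat4.eqb x y = true) : x = y := by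
  simp only [Mat4.eqb, Bool.and_eq_true] at h
  obtain ⟨⟨⟨⟨⟨⟨⟨⟨h1, h2⟩, h3⟩, h4⟩, h5⟩, h6⟩, h7⟩, h8⟩, h9⟩ := h
  cases x
  cases y
  simp only [Mat4.mk.injEq]
  exact ⟨Four.eq_of_eqb h1, Four.eq_of_eqb h2, Four.eq_of_eqb h3, Four.eq_of_eqb h4, Four.eq_of_eqb h5, Four.eq_of_eqb h6, Four.eq_of_eqb h7, Four.eq_of_eqb h8, Four.eq_of_eqb h9⟩

/-- The identity. -/
def one4 : Mat4 := ⟨.o, .z, .z, .z, .o, .z, .z, .z, .o⟩
/-- A scalar. -/
def sW : Mat4 := ⟨.w, .z, .z, .z, .w, .z, .z, .z, .w⟩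
/-- A scalar. -/
def sV : Mat4 := ⟨.v, .z, .z, .z, .v, .z, .z, .z, .v⟩
/-- The diagonal generator. -/
def D4 : Mat4 := ⟨.o, .z, .z, .z, .w, .z, .z, .z, .v⟩
/-- The cyclic generator. -/
def C4 : Mat4 := ⟨.z, .o, .z, .z, .z, .o, .o, .z, .z⟩
/-- The Fourier matrix. -/
def W4 : Mat4 := ⟨.o, .o, .o, .o, .w, .v, .o, .v, .w⟩

def allN : List Mat4 :=
  [⟨.o, .z, .z, .z, .o, .z, .z, .z, .o⟩,
   ⟨.z, .o, .z, .z, .z, .o, .o, .z, .z⟩,
   ⟨.z, .z, .o, .o, .z, .z, .z, .o, .z⟩,
   ⟨.o, .z, .z, .z, .w, .z, .z, .z, .v⟩,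
   ⟨.z, .o, .z, .z, .z, .w, .v, .z, .z⟩,
   ⟨.z, .z, .o, .w, .z, .z, .z, .v, .z⟩,
   ⟨.o, .z, .z, .z, .v, .z, .z, .z, .w⟩,
   ⟨.z, .o, .z, .z, .z, .v, .w, .z, .z⟩,
   ⟨.z, .z, .o, .v, .z, .z, .z, .w, .z⟩,
   ⟨.w, .z, .z, .z, .w, .z, .z, .z, .w⟩,
   ⟨.z, .w, .z, .z, .z, .w, .w, .z, .z⟩,
   ⟨.z, .z, .w, .w, .z, .z, .z, .w, .z⟩,
   ⟨.w, .z, .z, .z, .v, .z, .z, .z, .o⟩,
   ⟨.z, .w, .z, .z, .z, .v, .o, .z, .z⟩,
   ⟨.z, .z, .w, .v, .z, .z, .z, .o, .z⟩,
   ⟨.w, .z, .z, .z, .o, .z, .z, .z, .v⟩,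
   ⟨.z, .w, .z, .z, .z, .o, .v, .z, .z⟩,
   ⟨.z, .z, .w, .o, .z, .z, .z, .v, .z⟩,
   ⟨.v, .z, .z, .z, .v, .z, .z, .z, .v⟩,
   ⟨.z, .v, .z, .z, .z, .v, .v, .z, .z⟩,
   ⟨.z, .z, .v, .v, .z, .z, .z, .v, .z⟩,
   ⟨.v, .z, .z, .z, .o, .z, .z, .z, .w⟩,
   ⟨.z, .v, .z, .z, .z, .o, .w, .z, .z⟩,
   ⟨.z, .z, .v, .o, .z, .z, .z, .w, .z⟩,
   ⟨.v, .z, .z, .z, .w, .z, .z, .z, .o⟩,
   ⟨.z, .v, .z, .z, .z, .w, .o, .z, .z⟩,
   ⟨.z, .z, .v, .w, .z, .z, .z, .o, .z⟩]

/-- The elements as products of generators. -/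
def genN : List Mat4 :=
  [one4, sW, sV].flatMap fun s => [one4, D4, D4.mul D4].flatMap fun b => [one4, C4, C4.mul C4].map fun c => (s.mul b).mul c

theorem allN_eq : allN = genN := by rfl

/-- Membership. -/
def inN (x : Mat4) : Bool := allN.any (Mat4.eqb x)

theorem mem_of_inN {x : Mat4} (h : inN x = true) : x ∈ allN := by
  obtain ⟨y, hy, hxy⟩ := List.any_eq_true.mp h
  rw [Mat4.eq_of_eqb hxy]
  exact hy

theorem inN_of_mem {x : Mat4} (h : x ∈ allN) : inN x = true := by
  refine List.any_eq_true.mpr ⟨x, h, ?_⟩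
  simp [Mat4.eqb, eqb_self]

/-- The check for one matrix. -/
def good (m : Mat4) : Bool := inN ((m.mul D4).mul m.star) && inN ((m.mul C4).mul m.star)

/-- Hermitian products. -/
def herm (x1 x2 x3 y1 y2 y3 : Four) : Four := dot3 x1 x2 x3 (cj y1) (cj y2) (cj y3)

/-- The check for all unitary matrices. -/
def chk : Bool :=
  all4 fun a => all4 fun b => all4 fun c => !(Four.eqb (herm a b c a b c) .o) ||
    all4 fun d => all4 fun e => all4 fun f => !(Four.eqb (herm d e f d e f) .o && Four.eqb (herm a b c d e f) .z) ||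
      all4 fun g => all4 fun h => all4 fun i =>
        !(Four.eqb (herm g h i g h i) .o && Four.eqb (herm a b c g h i) .z && Four.eqb (herm d e f g h i) .z) ||
          good ⟨a, b, c, d, e, f, g, h, i⟩

theorem chk_eq : chk = true := by decide +kernel

theorem good_of_unitary {m : Mat4} (h : m.mul m.star = one4) : good m = true := by
  have hc := chk_eq
  unfold chk at hc
  have h1 := all4_spec (all4_spec (all4_spec hc m.a) m.b) m.c
  have ha : herm m.a m.b m.c m.a m.b m.c = .o := congrArg Mat4.a h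
  have hb : herm m.a m.b m.c m.d m.e m.f = .z := congrArg Mat4.b h
  have hc' : herm m.a m.b m.c m.g m.h m.i = .z := congrArg Mat4.c h
  have he : herm m.d m.e m.f m.d m.e m.f = .o := congrArg Mat4.e h
  have hf : herm m.d m.e m.f m.g m.h m.i = .z := congrArg Mat4.f h
  have hi : herm m.g m.h m.i m.g m.h m.i = .o := congrArg Mat4.i h
  rw [ha] at h1
  simp only [Four.eqb, Bool.not_true, Bool.false_or] at h1
  have h2 := all4_spec (all4_spec (all4_spec h1 m.d) m.e) m.f
  rw [he, hb] at h2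
  simp only [Four.eqb, Bool.and_self, Bool.not_true, Bool.false_or] at h2
  have h3 := all4_spec (all4_spec (all4_spec h2 m.g) m.h) m.i
  rw [hi, hc', hf] at h3
  simpa [Four.eqb] using h3

/-- Closure under products. -/
theorem mul_closed : (allN.all fun x => allN.all fun y => inN (x.mul y)) = true := by decide +kernel

/-- Closure under inverses. -/
theorem star_closed : (allN.all fun x => inN x.star && Mat4.eqb (x.mul x.star) one4) = true := by decide +kernel

/-- Cubes. -/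
theorem cube_closed : (allN.all fun x => Mat4.eqb (x.mul (x.mul x)) one4) = true := by decide +kernel

/-- Scalars. -/
def isScal (x : Mat4) : Bool := Mat4.eqb x one4 || Mat4.eqb x sW || Mat4.eqb x sV

/-- Commutators. -/
theorem comm_closed : (allN.all fun x => allN.all fun y => isScal ((x.mul y).mul (x.star.mul y.star))) = true := by decide +kernel

/-- Moves. -/
theorem moves : (allN.all fun x => isScal x || !(Mat4.eqb (x.mul ((W4.mul x).mul W4.star)) (((W4.mul x).mul W4.star).mul x))) = true := by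
  decide +kernel

theorem W4_unitary : W4.mul W4.star = one4 := by rfl

theorem D4_star : (D4.mul C4) ≠ (C4.mul D4) := by
  intro h
  have h1 : Four.eqb (D4.mul C4).b (C4.mul D4).b = true := by
    rw [h]
    exact eqb_self _
  revert h1
  decide +kernel

section Field

variable {F : Type*} [Field F] {ω : F}

/-- The embedding of the table. -/
def emb (ω : F) : Four → F
  | .z => 0 | .o => 1 | .w => ω | .v => ω + 1

theorem emb_add (h2 : (2 : F) = 0) (a b : Four) : emb ω (add a b) = emb ω a + emb ω b := by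
  cases a <;> cases b <;> simp [Four.add, emb] <;> grind

theorem emb_mul (h2 : (2 : F) = 0) (hω : ω * ω = ω + 1) (a b : Four) : emb ω (Four.mul a b) = emb ω a * emb ω b := by
  cases a <;> cases b <;> simp [Four.mul, emb] <;> grind

theorem emb_sq (h2 : (2 : F) = 0) (hω : ω * ω = ω + 1) (a : Four) : emb ω (cj a) = emb ω a ^ 2 := by
  cases a <;> simp [Four.cj, emb] <;> grind

theorem emb_injective (h2 : (2 : F) = 0) (hω : ω * ω = ω + 1) : Function.Injective (emb ω) := by
  have h0 : ω ≠ 0 := by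
    rintro rfl
    simp at hω
  have h1 : ω ≠ 1 := by
    rintro rfl
    norm_num at hω
    grind
  intro a b h
  cases a <;> cases b <;> first | rfl | (exfalso; simp [emb] at h <;> grind)

theorem emb_surjective (h2 : (2 : F) = 0) (hω : ω * ω = ω + 1) (hF4 : ∀ x : F, x ^ 4 = x) : Function.Surjective (emb ω) := by
  intro x
  have h : x * (x + 1) * ((x + ω) * (x + ω + 1)) = 0 := by
    have h4 := hF4 x
    grind
  simp only [mul_eq_zero] at h
  rcases h with (h | h) | (h | h)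
  · exact ⟨.z, by simp [emb, h]⟩
  · exact ⟨.o, by simp [emb]; grind⟩
  · exact ⟨.w, by simp [emb]; grind⟩
  · exact ⟨.v, by simp [emb]; grind⟩

/-- The matrix over the field. -/
def lift (ω : F) (x : Mat4) : Matrix (Fin 3) (Fin 3) F :=
  !![emb ω x.a, emb ω x.b, emb ω x.c; emb ω x.d, emb ω x.e, emb ω x.f; emb ω x.g, emb ω x.h, emb ω x.i]

theorem lift_mul (h2 : (2 : F) = 0) (hω : ω * ω = ω + 1) (x y : Mat4) : lift ω (x.mul y) = lift ω x * lift ω y := by
  ext i j
  fin_cases i <;> fin_cases j <;>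
    simp [lift, Mat4.mul, dot3, Matrix.mul_apply, Fin.sum_univ_three, emb_add h2, emb_mul h2 hω]

theorem lift_one : lift ω one4 = 1 := by
  ext i j
  fin_cases i <;> fin_cases j <;> simp [lift, one4, emb]

theorem lift_injective (h2 : (2 : F) = 0) (hω : ω * ω = ω + 1) : Function.Injective (lift ω) := by
  intro x y h
  have hi := emb_injective h2 hω
  have e (i j : Fin 3) := congrFun (congrFun h i) j
  cases x
  cases y
  simp only [Mat4.mk.injEq]
  refine ⟨hi (e 0 0), hi (e 0 1), hi (e 0 2), hi (e 1 0), hi (e 1 1), hi (e 1 2), hi (e 2 0), hi (e 2 1), hi (e 2 2)⟩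

end Field

end Cfsg.Agent.Lib.Classical.Asch.FourTable
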