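import Mathlib
import Cfsg.Agent.Lib.Classical.Asch.FourTable

/-!
# Tables for `SU₅(2)`: the subgroup `L₂(11)`

Five by five matrices over the field with four elements, and the finite checks concerning the subgroup `L₂(11)` of
`SU₅(2)` containing the normaliser `11:5` of a Singer-type element of order eleven.
-/

set_option autoImplicit false
set_option linter.style.haveILetI false
set_option linter.unusedSectionVars false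

namespace Cfsg.Agent.Lib.Classical.Asch.FiveTable

open scoped Matrix
open Cfsg Cfsg.Agent.Lib.Classical.Asch.FourTable
open Cfsg.Agent.Lib.Classical.Asch.FourTable.Four

/-- Vectors. -/
structure V5 where
  (a b c d e : Four)

/-- Matrices, by rows. -/
structure M5 where
  (r0 r1 r2 r3 r4 : V5)

def dot5 (x y : V5) : Four :=
  add (add (add (add (Four.mul x.a y.a) (Four.mul x.b y.b)) (Four.mul x.c y.c)) (Four.mul x.d y.d)) (Four.mul x.e y.e)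

def M5.app (m : M5) (v : V5) : V5 := ⟨dot5 m.r0 v, dot5 m.r1 v, dot5 m.r2 v, dot5 m.r3 v, dot5 m.r4 v⟩

def M5.tr (m : M5) : M5 :=
  ⟨⟨m.r0.a, m.r1.a, m.r2.a, m.r3.a, m.r4.a⟩, ⟨m.r0.b, m.r1.b, m.r2.b, m.r3.b, m.r4.b⟩,
   ⟨m.r0.c, m.r1.c, m.r2.c, m.r3.c, m.r4.c⟩, ⟨m.r0.d, m.r1.d, m.r2.d, m.r3.d, m.r4.d⟩,
   ⟨m.r0.e, m.r1.e, m.r2.e, m.r3.e, m.r4.e⟩⟩

/-- Product of matrices: the rows of the product are obtained by applying the transpose of the right factor. -/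
def M5.mul (m n : M5) : M5 :=
  let t := n.tr
  ⟨t.app m.r0, t.app m.r1, t.app m.r2, t.app m.r3, t.app m.r4⟩

def V5.cj (v : V5) : V5 := ⟨Four.cj v.a, Four.cj v.b, Four.cj v.c, Four.cj v.d, Four.cj v.e⟩

def M5.cjm (m : M5) : M5 := ⟨m.r0.cj, m.r1.cj, m.r2.cj, m.r3.cj, m.r4.cj⟩

def M5.star (m : M5) : M5 := m.cjm.tr

def herm5 (x y : V5) : Four := dot5 x y.cj

def one5 : M5 :=
  ⟨⟨.o, .z, .z, .z, .z⟩, ⟨.z, .o, .z, .z, .z⟩, ⟨.z, .z, .o, .z, .z⟩, ⟨.z, .z, .z, .o, .z⟩, ⟨.z, .z, .z, .z, .o⟩⟩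

def V5.eqb (x y : V5) : Bool :=
  Four.eqb x.a y.a && Four.eqb x.b y.b && Four.eqb x.c y.c && Four.eqb x.d y.d && Four.eqb x.e y.e

def M5.eqb (m n : M5) : Bool :=
  V5.eqb m.r0 n.r0 && V5.eqb m.r1 n.r1 && V5.eqb m.r2 n.r2 && V5.eqb m.r3 n.r3 && V5.eqb m.r4 n.r4

theorem V5.eq_of_eqb {x y : V5} (h : V5.eqb x y = true) : x = y := by
  simp only [V5.eqb, Bool.and_eq_true] at h
  obtain ⟨⟨⟨⟨h1, h2⟩, h3⟩, h4⟩, h5⟩ := h
  cases x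
  cases y
  simp only [V5.mk.injEq]
  exact ⟨Four.eq_of_eqb h1, Four.eq_of_eqb h2, Four.eq_of_eqb h3, Four.eq_of_eqb h4, Four.eq_of_eqb h5⟩

theorem V5.eqb_self (x : V5) : V5.eqb x x = true := by
  simp [V5.eqb, Four.eqb_self]

theorem M5.eq_of_eqb {x y : M5} (h : M5.eqb x y = true) : x = y := by
  simp only [M5.eqb, Bool.and_eq_true] at h
  obtain ⟨⟨⟨⟨h1, h2⟩, h3⟩, h4⟩, h5⟩ := h
  cases x
  cases y
  simp only [M5.mk.injEq]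
  exact ⟨V5.eq_of_eqb h1, V5.eq_of_eqb h2, V5.eq_of_eqb h3, V5.eq_of_eqb h4, V5.eq_of_eqb h5⟩

def A5 : M5 := ⟨⟨.o, .z, .w, .v, .z⟩, ⟨.v, .w, .w, .o, .w⟩, ⟨.w, .w, .o, .v, .v⟩, ⟨.v, .o, .w, .o, .v⟩, ⟨.o, .z, .o, .o, .z⟩⟩
def Ph5 : M5 := ⟨⟨.w, .z, .o, .z, .o⟩, ⟨.v, .v, .v, .o, .o⟩, ⟨.v, .w, .o, .v, .v⟩, ⟨.w, .v, .o, .z, .z⟩, ⟨.v, .z, .w, .w, .z⟩⟩
def L5 : M5 := ⟨⟨.o, .z, .z, .z, .z⟩, ⟨.z, .o, .w, .z, .o⟩, ⟨.z, .v, .o, .v, .z⟩, ⟨.z, .z, .w, .o, .o⟩, ⟨.z, .o, .z, .o, .o⟩⟩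
def T5 : M5 := ⟨⟨.o, .z, .z, .z, .z⟩, ⟨.z, .o, .z, .z, .z⟩, ⟨.z, .z, .o, .z, .z⟩, ⟨.z, .z, .z, .z, .o⟩, ⟨.z, .z, .z, .o, .z⟩⟩
def C5 : M5 := ⟨⟨.o, .o, .z, .w, .v⟩, ⟨.z, .v, .z, .v, .o⟩, ⟨.z, .w, .z, .w, .z⟩, ⟨.z, .v, .v, .v, .z⟩, ⟨.z, .o, .z, .v, .v⟩⟩
def Ci5 : M5 := ⟨⟨.o, .w, .o, .z, .w⟩, ⟨.z, .w, .w, .z, .v⟩, ⟨.z, .z, .v, .w, .z⟩, ⟨.z, .w, .o, .z, .v⟩, ⟨.z, .o, .w, .z, .z⟩⟩
def Y5 : List V5 := [⟨.z, .z, .o, .z, .z⟩,
  ⟨.z, .z, .w, .o, .w⟩,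
  ⟨.z, .z, .v, .o, .w⟩,
  ⟨.z, .o, .z, .v, .v⟩,
  ⟨.z, .o, .o, .z, .v⟩,
  ⟨.z, .o, .o, .v, .z⟩,
  ⟨.z, .w, .z, .w, .o⟩,
  ⟨.z, .w, .o, .z, .o⟩,
  ⟨.z, .w, .o, .w, .z⟩,
  ⟨.z, .v, .z, .z, .z⟩,
  ⟨.z, .v, .z, .o, .w⟩,
  ⟨.z, .v, .z, .w, .v⟩,
  ⟨.z, .v, .z, .v, .o⟩,
  ⟨.z, .v, .o, .z, .w⟩,
  ⟨.z, .v, .w, .z, .v⟩,
  ⟨.z, .v, .v, .z, .o⟩,
  ⟨.o, .z, .z, .w, .o⟩,
  ⟨.o, .z, .o, .z, .v⟩,
  ⟨.o, .z, .v, .z, .o⟩,
  ⟨.o, .o, .o, .o, .v⟩,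
  ⟨.o, .o, .o, .v, .v⟩,
  ⟨.o, .w, .o, .o, .v⟩,
  ⟨.o, .w, .w, .v, .w⟩,
  ⟨.o, .v, .z, .o, .z⟩,
  ⟨.o, .v, .o, .o, .w⟩,
  ⟨.o, .v, .o, .w, .v⟩,
  ⟨.o, .v, .o, .v, .w⟩,
  ⟨.o, .v, .v, .z, .z⟩,
  ⟨.o, .v, .v, .v, .o⟩,
  ⟨.w, .z, .z, .v, .v⟩,
  ⟨.w, .z, .o, .z, .o⟩,
  ⟨.w, .z, .w, .z, .v⟩,
  ⟨.w, .o, .o, .o, .o⟩,
  ⟨.w, .o, .v, .w, .w⟩,
  ⟨.w, .w, .o, .o, .o⟩,
  ⟨.w, .w, .o, .w, .o⟩,
  ⟨.w, .v, .z, .o, .z⟩,
  ⟨.w, .v, .o, .o, .w⟩,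
  ⟨.w, .v, .o, .w, .w⟩,
  ⟨.w, .v, .o, .v, .o⟩,
  ⟨.w, .v, .w, .z, .z⟩,
  ⟨.w, .v, .w, .w, .v⟩,
  ⟨.v, .z, .o, .z, .w⟩,
  ⟨.v, .z, .o, .w, .z⟩,
  ⟨.v, .z, .o, .v, .z⟩,
  ⟨.v, .o, .z, .z, .w⟩,
  ⟨.v, .o, .w, .o, .o⟩,
  ⟨.v, .w, .z, .z, .w⟩,
  ⟨.v, .w, .v, .o, .v⟩,
  ⟨.v, .v, .o, .w, .w⟩,
  ⟨.v, .v, .o, .v, .w⟩,
  ⟨.v, .v, .w, .w, .v⟩,
  ⟨.v, .v, .w, .v, .o⟩,
  ⟨.v, .v, .v, .w, .v⟩,
  ⟨.v, .v, .v, .v, .o⟩]
def gramT : List Four := [.o, .o, .z, .v, .w, .w, .v, .v, .w, .z, .o]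

/-- The power of a matrix. -/
def M5.pow (m : M5) : ℕ → M5
  | 0 => one5
  | n + 1 => m.mul (M5.pow m n)

def M5.trace (m : M5) : Four := add (add (add (add m.r0.a m.r1.b) m.r2.c) m.r3.d) m.r4.e

def e5 : V5 := ⟨.o, .z, .z, .z, .z⟩

def inY (v : V5) : Bool := Y5.any (V5.eqb v)

def smul5 (c : Four) (v : V5) : V5 := ⟨Four.mul c v.a, Four.mul c v.b, Four.mul c v.c, Four.mul c v.d, Four.mul c v.e⟩

/-- Unitarity and orders. -/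
theorem chk_A : M5.eqb (A5.mul A5.star) one5 = true ∧ M5.eqb (A5.star.mul A5) one5 = true ∧ M5.eqb (M5.pow A5 11) one5 = true := by
  decide +kernel
theorem chk_Ph : M5.eqb (Ph5.mul Ph5.star) one5 = true ∧ M5.eqb (Ph5.star.mul Ph5) one5 = true ∧ M5.eqb (M5.pow Ph5 5) one5 = true := by
  decide +kernel
theorem chk_L : M5.eqb (L5.mul L5.star) one5 = true ∧ M5.eqb (L5.star.mul L5) one5 = true ∧ M5.eqb (M5.pow L5 2) one5 = true := by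
  decide +kernel
theorem chk_T : M5.eqb (T5.mul T5.star) one5 = true ∧ M5.eqb (T5.star.mul T5) one5 = true ∧ M5.eqb (M5.pow T5 2) one5 = true := by
  decide +kernel

theorem chk_gramMat : M5.eqb (A5.tr.mul A5.cjm) one5 = true ∧ M5.eqb (Ph5.tr.mul Ph5.cjm) one5 = true ∧
    M5.eqb (L5.tr.mul L5.cjm) one5 = true ∧ M5.eqb (T5.tr.mul T5.cjm) one5 = true := by
  decide +kernel

/-- The set `Y5` is invariant under the generators of `L₂(11)`, but not under `T5`. -/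
theorem chk_Y : (Y5.all fun v => inY (A5.app v) && inY (Ph5.app v) && inY (L5.app v)) = true := by
  decide +kernel

theorem chk_T_Y : (Y5.all fun v => inY (T5.app v)) = false := by
  decide +kernel

/-- Conjugation of `A5` by `Ph5`. -/
theorem chk_conj : M5.eqb (Ph5.mul A5) ((M5.pow A5 4).mul Ph5) = true := by
  decide +kernel

/-- `L5` does not normalise `A5`. -/
theorem chk_L_norm : ((List.range 11).all fun j => !(M5.eqb (L5.mul A5) ((M5.pow A5 j).mul L5))) = true := by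
  decide +kernel

/-- Traces separate the quadratic residues. -/
theorem chk_trace : ((List.range 11).all fun j => !(Four.eqb (M5.pow A5 j).trace A5.trace) || (j == 1 || j == 3 || j == 4 || j == 5 || j == 9)) = true := by
  decide +kernel

/-- The columns of `C5` are the images of the first basis vector. -/
theorem chk_C : M5.eqb (C5.mul Ci5) one5 = true ∧
    V5.eqb C5.tr.r0 e5 = true ∧ V5.eqb C5.tr.r1 (A5.app e5) = true ∧ V5.eqb C5.tr.r2 (A5.app (A5.app e5)) = true ∧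
    V5.eqb C5.tr.r3 (A5.app (A5.app (A5.app e5))) = true ∧ V5.eqb C5.tr.r4 (A5.app (A5.app (A5.app (A5.app e5)))) = true := by
  decide +kernel

/-- The Gram invariants determine the vector up to the group `3 × 11`. -/
def gramChk (w : V5) : V5 → List Four → Bool
  | _, [] => true
  | cur, t :: ts => Four.eqb (herm5 w cur) t && gramChk w (A5.app cur) ts

def orbList : List V5 :=
  [Four.o, Four.w, Four.v].flatMap fun c => (List.range 11).map fun l => smul5 c ((M5.pow A5 l).app e5)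

theorem chk_gram : (all4 fun a => all4 fun b => all4 fun c => all4 fun d => all4 fun e =>
    !(gramChk ⟨a, b, c, d, e⟩ ⟨a, b, c, d, e⟩ gramT) || orbList.any (V5.eqb ⟨a, b, c, d, e⟩)) = true := by
  decide +kernel

theorem chk_gramT : gramChk e5 e5 gramT = true := by
  decide +kernel

section Lift

variable {F : Type*} [Field F] {ω : F}

def liftV (ω : F) (v : V5) : Fin 5 → F := ![emb ω v.a, emb ω v.b, emb ω v.c, emb ω v.d, emb ω v.e]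

def liftM (ω : F) (m : M5) : Matrix (Fin 5) (Fin 5) F :=
  Matrix.of ![liftV ω m.r0, liftV ω m.r1, liftV ω m.r2, liftV ω m.r3, liftV ω m.r4]

variable (h2 : (2 : F) = 0) (hω : ω * ω = ω + 1)
include h2 hω

theorem emb_dot (x y : V5) : emb ω (dot5 x y) = liftV ω x ⬝ᵥ liftV ω y := by
  simp [dot5, dotProduct, Fin.sum_univ_five, liftV, emb_add h2, emb_mul h2 hω]

theorem liftM_app (m : M5) (v : V5) : liftM ω m *ᵥ liftV ω v = liftV ω (m.app v) := by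
  funext i
  fin_cases i <;> exact (emb_dot h2 hω _ _).symm

omit h2 hω in
theorem liftM_tr (m : M5) : liftM ω m.tr = (liftM ω m)ᵀ := by
  ext i j
  fin_cases i <;> fin_cases j <;> rfl

theorem liftM_mul (m n : M5) : liftM ω (m.mul n) = liftM ω m * liftM ω n := by
  have key : ∀ i : Fin 5, (liftM ω (m.mul n)) i = (liftM ω n)ᵀ *ᵥ (liftM ω m i) := by
    intro i
    rw [← liftM_tr]
    fin_cases i
    · exact (liftM_app h2 hω _ _).symm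
    · exact (liftM_app h2 hω _ _).symm
    · exact (liftM_app h2 hω _ _).symm
    · exact (liftM_app h2 hω _ _).symm
    · exact (liftM_app h2 hω _ _).symm
  ext i j
  rw [key i, Matrix.mul_apply]
  simp [Matrix.mulVec, dotProduct, mul_comm]

omit h2 hω in
theorem liftM_one : liftM ω one5 = 1 := by
  ext i j
  fin_cases i <;> fin_cases j <;> simp [liftM, liftV, one5, emb]

theorem liftM_pow (m : M5) (k : ℕ) : liftM ω (M5.pow m k) = liftM ω m ^ k := by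
  induction k with
  | zero => exact liftM_one
  | succ k ih => rw [M5.pow, liftM_mul h2 hω, ih, pow_succ']

theorem liftM_cjm (m : M5) : liftM ω m.cjm = (liftM ω m).map (fun x => x ^ 2) := by
  ext i j
  fin_cases i <;> fin_cases j <;> simp [liftM, liftV, M5.cjm, V5.cj, emb_sq h2 hω]

theorem herm_lift (x y : V5) : hermForm 5 F 2 (liftV ω x) (liftV ω y) = emb ω (herm5 x y) := by
  rw [herm5, emb_dot h2 hω]
  simp [hermForm, dotProduct, Fin.sum_univ_five, liftV, V5.cj, emb_sq h2 hω]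

theorem trace_lift (m : M5) : (liftM ω m).trace = emb ω m.trace := by
  simp [Matrix.trace, Fin.sum_univ_five, liftM, liftV, M5.trace, emb_add h2]

theorem liftV_inj {x y : V5} (h : liftV ω x = liftV ω y) : x = y := by
  have hi := emb_injective h2 hω
  have e (i : Fin 5) := congrFun h i
  cases x
  cases y
  simp only [V5.mk.injEq]
  exact ⟨hi (e 0), hi (e 1), hi (e 2), hi (e 3), hi (e 4)⟩

theorem liftM_inj {x y : M5} (h : liftM ω x = liftM ω y) : x = y := by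
  have e (i : Fin 5) := congrFun h i
  cases x
  cases y
  simp only [M5.mk.injEq]
  exact ⟨liftV_inj h2 hω (e 0), liftV_inj h2 hω (e 1), liftV_inj h2 hω (e 2), liftV_inj h2 hω (e 3), liftV_inj h2 hω (e 4)⟩

theorem liftV_surj (hF4 : ∀ x : F, x ^ 4 = x) (v : Fin 5 → F) : ∃ w, liftV ω w = v := by
  have hs := emb_surjective h2 hω hF4
  obtain ⟨a, ha⟩ := hs (v 0)
  obtain ⟨b, hb⟩ := hs (v 1)
  obtain ⟨c, hc⟩ := hs (v 2)
  obtain ⟨d, hd⟩ := hs (v 3)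
  obtain ⟨e, he⟩ := hs (v 4)
  refine ⟨⟨a, b, c, d, e⟩, ?_⟩
  funext i
  fin_cases i
  · exact ha
  · exact hb
  · exact hc
  · exact hd
  · exact he

end Lift

end Cfsg.Agent.Lib.Classical.Asch.FiveTable
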