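import Mathlib
import Cfsg.Agent.Lib.Classical.Asch.FormSp
import Cfsg.Agent.Lib.Classical.Asch.MaxCases
import Cfsg.Agent.Lib.Classical.Symp.SimpleMatrix
import Cfsg.Agent.Lib.Classical.Symp.Perfect

/-!
# The symplectic group lies in no member of the geometric classes

Copies of the arguments of `NotSL` for a subgroup transitive on non-zero vectors, then the maximal subgroups
of `spGL` listed in the raw form.
-/

set_option autoImplicit false
set_option linter.style.haveILetI false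
set_option linter.unusedSectionVars false

namespace Cfsg.Agent.Lib.Classical.Asch.NotSp

open scoped MatrixGroups Matrix commutatorElement
open Cfsg Cfsg.Geo Cfsg.Agent.Lib.Classical.Asch.Basic Cfsg.Agent.Lib.Classical.Asch.MinNormal
open Cfsg.Agent.Lib.Classical.Asch.NotSL (Pure0 standard_preserves_pure rank_sub_le)
open Cfsg.Agent.Lib.Classical.Asch

theorem isSymplecticForm_sympForm' {F : Type*} [Field F] [Fintype F] {m : ℕ} : IsSymplecticForm (sympForm m F) :=
  FormSp.isSymplecticForm_sympForm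

variable {ι : Type} [Fintype ι] [DecidableEq ι] {F : Type*} [Field F]

/-- Transitivity on non-zero vectors. -/
def Trans1 (I : Subgroup (GL ι F)) : Prop :=
  ∀ v v' : ι → F, v ≠ 0 → v' ≠ 0 → ∃ g ∈ I, (g : Matrix ι ι F) *ᵥ v = v'

/-- A set of vectors preserved by `M`: generic obstruction. -/
theorem not_le_of_set' {I : Subgroup (GL ι F)} (hI : Trans1 I) {M : Subgroup (GL ι F)} (S : Set (ι → F))
    (hS : ∀ g ∈ M, ∀ w ∈ S, (g : Matrix ι ι F) *ᵥ w ∈ S) {w₀ w₁ : ι → F} (h₀ : w₀ ∈ S) (h₀' : w₀ ≠ 0)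
    (h₁ : w₁ ∉ S) (h₁' : w₁ ≠ 0) : ¬ I ≤ M := by
  intro h
  obtain ⟨g, hg, hgw⟩ := hI _ _ h₀' h₁'
  apply h₁
  rw [← hgw]
  exact hS g (h hg) w₀ h₀

theorem eq_inf_of_le' {I H M : Subgroup (GL ι F)} (hH : IsMaximalIn I H)
    (hle : H ≤ M) (hM : ¬ I ≤ M) : H = M ⊓ I := by
  have hHS : H ≤ I := hH.1.le
  rcases hH.2 (M ⊓ I) (le_inf hle hHS) inf_le_right with h | h
  · exact h.symm
  · exact absurd (inf_eq_right.mp h) hM

theorem not_le_subspaceStabilizer {I : Subgroup (GL ι F)} (hI : Trans1 I) (hn : 2 ≤ Fintype.card ι) {W : Submodule F (ι → F)} (h₁ : W ≠ ⊥) (h₂ : W ≠ ⊤) :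
    ¬ I ≤ subspaceStabilizer W := by
  obtain ⟨w, hw, hw0⟩ := Submodule.exists_mem_ne_zero_of_ne_bot h₁
  obtain ⟨x, hx⟩ : ∃ x, x ∉ W := by
    by_contra hc
    push Not at hc
    exact h₂ (Submodule.eq_top_iff'.mpr hc)
  refine not_le_of_set' hI (W : Set (ι → F)) ?_ hw hw0 hx ?_
  · intro g hg v hv
    exact (hg v).mp hv
  · rintro rfl
    exact hx W.zero_mem

theorem not_le_decompositionStabilizer {I : Subgroup (GL ι F)} (hI : Trans1 I) (hn : 2 ≤ Fintype.card ι) {t m : ℕ} {D : Fin t → Submodule F (ι → F)}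
    (hD : IsMDecomposition m D) : ¬ I ≤ decompositionStabilizer D := by
  have ht := hD.two_le
  have hbot : ∀ i, D i ≠ ⊥ := by
    intro i h
    have := hD.finrank_eq i
    rw [h, finrank_bot] at this
    have := hD.pos
    omega
  let i₀ : Fin t := ⟨0, by omega⟩
  let i₁ : Fin t := ⟨1, by omega⟩
  have h01 : i₀ ≠ i₁ := by simp [i₀, i₁, Fin.ext_iff]
  obtain ⟨v₀, hv₀, hv₀0⟩ := Submodule.exists_mem_ne_zero_of_ne_bot (hbot i₀)
  obtain ⟨v₁, hv₁, hv₁0⟩ := Submodule.exists_mem_ne_zero_of_ne_bot (hbot i₁)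
  have hout : ∀ j, v₀ + v₁ ∉ D j := by
    intro j hj
    -- one of the two vectors would lie in the span of the other blocks
    have key : ∀ a b : Fin t, ∀ va vb : ι → F, va ∈ D a → vb ∈ D b → a ≠ b → va ≠ 0 → a ≠ j → va + vb ∈ D j → False := by
      intro a b va vb ha hb hab ha0 haj hsum
      have h1 := hD.indep a
      have h2 : va ∈ ⨆ k, ⨆ (_ : k ≠ a), D k := by
        have h3 : va = (va + vb) + (-vb) := by abel
        rw [h3]
        refine Submodule.add_mem _ ?_ (Submodule.neg_mem _ ?_)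
        · exact Submodule.mem_iSup_of_mem j (Submodule.mem_iSup_of_mem (Ne.symm haj) hsum)
        · exact Submodule.mem_iSup_of_mem b (Submodule.mem_iSup_of_mem (Ne.symm hab) hb)
      exact ha0 ((Submodule.disjoint_def.mp h1) va ha h2)
    by_cases hj0 : i₀ = j
    · refine key i₁ i₀ v₁ v₀ hv₁ hv₀ h01.symm hv₁0 (fun h => h01 (hj0.trans h.symm)) ?_
      rwa [add_comm]
    · exact key i₀ i₁ v₀ v₁ hv₀ hv₁ h01 hv₀0 hj0 hj
  have hne : v₀ + v₁ ≠ 0 := by
    intro h
    exact hout i₀ (by rw [h]; exact (D i₀).zero_mem)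
  refine not_le_of_set' hI (⋃ i, (D i : Set (ι → F))) ?_ (Set.mem_iUnion.mpr ⟨i₀, hv₀⟩) hv₀0 ?_ hne
  · intro g hg w hw
    obtain ⟨i, hi⟩ := Set.mem_iUnion.mp hw
    obtain ⟨σ, hσ⟩ := hg
    refine Set.mem_iUnion.mpr ⟨σ i, ?_⟩
    rw [← hσ i]
    exact ⟨w, hi, rfl⟩
  · intro h
    obtain ⟨j, hj⟩ := Set.mem_iUnion.mp h
    exact hout j hj

theorem not_le_tensorProductSubgroup {I : Subgroup (GL ι F)} (hI : Trans1 I) (hn : 2 ≤ Fintype.card ι) {d k : ℕ} (hd : 2 ≤ d) (hk : 2 ≤ k)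
    (e : ι ≃ Fin d × Fin k) (P : GL ι F) : ¬ I ≤ tensorProductSubgroup d k e P := by
  classical
  let S : Set (ι → F) := {w | ∃ (x : Fin d → F) (y : Fin k → F), ∀ i,
    (((P⁻¹ : GL ι F) : Matrix ι ι F) *ᵥ w) i = x (e i).1 * y (e i).2}
  have hPP : ∀ w, ((P⁻¹ : GL ι F) : Matrix ι ι F) *ᵥ ((P : Matrix ι ι F) *ᵥ w) = w := inv_mulVec_mulVec P
  let d0 : Fin d := ⟨0, by omega⟩
  let d1 : Fin d := ⟨1, by omega⟩
  let k0 : Fin k := ⟨0, by omega⟩
  let k1 : Fin k := ⟨1, by omega⟩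
  have hd01 : d0 ≠ d1 := by simp [d0, d1, Fin.ext_iff]
  have hk01 : k0 ≠ k1 := by simp [k0, k1, Fin.ext_iff]
  let u₀ : ι → F := Pi.single (e.symm (d0, k0)) 1
  let u₁ : ι → F := Pi.single (e.symm (d0, k0)) 1 + Pi.single (e.symm (d1, k1)) 1
  have hu₀ : u₀ ≠ 0 := by
    intro h
    have := congrFun h (e.symm (d0, k0))
    simp [u₀] at this
  have hne : e.symm (d0, k0) ≠ e.symm (d1, k1) := by
    intro h
    have := e.symm.injective h
    simp [Prod.ext_iff, hd01] at this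
  have hu₁ : u₁ ≠ 0 := by
    intro h
    have := congrFun h (e.symm (d0, k0))
    simp [u₁, hne] at this
  have hinj : Function.Injective (fun x : ι → F => (P : Matrix ι ι F) *ᵥ x) := mulVec_injective P
  refine not_le_of_set' hI S ?_ (w₀ := (P : Matrix ι ι F) *ᵥ u₀) (w₁ := (P : Matrix ι ι F) *ᵥ u₁) ?_ ?_ ?_ ?_
  · intro g hg w ⟨x, y, hxy⟩
    obtain ⟨a, b, hab⟩ := Main.mem_tensorProductSubgroup_iff.mp hg
    refine ⟨(a : Matrix _ _ F) *ᵥ x, (b : Matrix _ _ F) *ᵥ y, fun i => ?_⟩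
    have h1 : ((P⁻¹ : GL ι F) : Matrix ι ι F) *ᵥ ((g : Matrix ι ι F) *ᵥ w) =
        ((P⁻¹ * g * P : GL ι F) : Matrix ι ι F) *ᵥ (((P⁻¹ : GL ι F) : Matrix ι ι F) *ᵥ w) := by
      rw [Matrix.mulVec_mulVec, Matrix.mulVec_mulVec]
      congr 1
      simp only [Units.val_mul, mul_assoc]
      rw [← Units.val_mul P, mul_inv_cancel, Units.val_one, mul_one]
    rw [h1]
    have h2 : (((P⁻¹ * g * P : GL ι F) : Matrix ι ι F) *ᵥ (((P⁻¹ : GL ι F) : Matrix ι ι F) *ᵥ w)) i =
        ∑ j, ((P⁻¹ * g * P : GL ι F) : Matrix ι ι F) i j * (((P⁻¹ : GL ι F) : Matrix ι ι F) *ᵥ w) j := rfl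
    rw [h2]
    simp only [hab, hxy]
    have h3 := Equiv.sum_comp e (fun p : Fin d × Fin k =>
      ((a : Matrix (Fin d) (Fin d) F) (e i).1 p.1 * (b : Matrix (Fin k) (Fin k) F) (e i).2 p.2) * (x p.1 * y p.2))
    rw [h3, Fintype.sum_prod_type]
    simp only [Matrix.mulVec, dotProduct]
    rw [Finset.sum_mul_sum]
    apply Finset.sum_congr rfl
    intro c _
    apply Finset.sum_congr rfl
    intro c' _
    ring
  · refine ⟨Pi.single d0 1, Pi.single k0 1, fun i => ?_⟩
    rw [hPP]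
    by_cases hi : i = e.symm (d0, k0)
    · subst hi
      simp [u₀]
    · have h2 : ¬ ((e i).1 = d0 ∧ (e i).2 = k0) := by
        rintro ⟨h3, h4⟩
        apply hi
        apply e.injective
        simp [Prod.ext_iff, h3, h4]
      simp only [u₀, Pi.single_apply, hi, if_false]
      by_cases h3 : (e i).1 = d0
      · have h4 : (e i).2 ≠ k0 := fun h4 => h2 ⟨h3, h4⟩
        simp [h4]
      · simp [h3]
  · intro h
    exact hu₀ (hinj (by simpa using h))
  · rintro ⟨x, y, hxy⟩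
    have h00 := hxy (e.symm (d0, k0))
    have h11 := hxy (e.symm (d1, k1))
    have h01 := hxy (e.symm (d0, k1))
    rw [hPP] at h00 h11 h01
    simp only [Equiv.apply_symm_apply] at h00 h11 h01
    have hne2 : e.symm (d0, k1) ≠ e.symm (d0, k0) := by
      intro h
      have := e.symm.injective h
      simp [Prod.ext_iff, hk01.symm] at this
    have hne3 : e.symm (d0, k1) ≠ e.symm (d1, k1) := by
      intro h
      have := e.symm.injective h
      simp [Prod.ext_iff, hd01] at this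
    have v00 : u₁ (e.symm (d0, k0)) = 1 := by simp [u₁, hne]
    have v11 : u₁ (e.symm (d1, k1)) = 1 := by simp [u₁, hne.symm]
    have v01 : u₁ (e.symm (d0, k1)) = 0 := by simp [u₁, hne2, hne3]
    rw [v00] at h00
    rw [v11] at h11
    rw [v01] at h01
    have hx0 : x d0 ≠ 0 := by
      intro h
      rw [h, zero_mul] at h00
      exact one_ne_zero h00
    have hy1 : y k1 ≠ 0 := by
      intro h
      rw [h, mul_zero] at h11
      exact one_ne_zero h11
    exact mul_ne_zero hx0 hy1 h01.symm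
  · intro h
    exact hu₁ (hinj (by simpa using h))

theorem not_le_tensorWreathSubgroup [Finite F] {I : Subgroup (GL ι F)} (hI : Trans1 I) (hn : 2 ≤ Fintype.card ι) {m t : ℕ} (hm : 2 ≤ m) (ht : 2 ≤ t)
    (e : ι ≃ (Fin t → Fin m)) (P : GL ι F) : ¬ I ≤ tensorWreathSubgroup m t e P := by
  classical
  let S : Set (ι → F) := {w | (fun f => (((P⁻¹ : GL ι F) : Matrix ι ι F) *ᵥ w) (e.symm f)) ∈ Pure0 F t m}
  have hPP : ∀ w, ((P⁻¹ : GL ι F) : Matrix ι ι F) *ᵥ ((P : Matrix ι ι F) *ᵥ w) = w := inv_mulVec_mulVec P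
  have hinj : Function.Injective (fun x : ι → F => (P : Matrix ι ι F) *ᵥ x) := mulVec_injective P
  let c0 : Fin t → Fin m := fun _ => ⟨0, by omega⟩
  let c1 : Fin t → Fin m := fun _ => ⟨1, by omega⟩
  let i₀ : Fin t := ⟨0, by omega⟩
  let i₁ : Fin t := ⟨1, by omega⟩
  have hi01 : i₀ ≠ i₁ := by simp [i₀, i₁, Fin.ext_iff]
  have h01 : c0 ≠ c1 := by
    intro h
    have := congrFun h i₀
    simp [c0, c1, Fin.ext_iff] at this
  let u₀ : ι → F := Pi.single (e.symm c0) 1
  let u₁ : ι → F := Pi.single (e.symm c0) 1 + Pi.single (e.symm c1) 1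
  have hne : e.symm c0 ≠ e.symm c1 := fun h => h01 (e.symm.injective h)
  have hu₀ : u₀ ≠ 0 := by
    intro h
    have := congrFun h (e.symm c0)
    simp [u₀] at this
  have hu₁ : u₁ ≠ 0 := by
    intro h
    have := congrFun h (e.symm c0)
    simp [u₁, hne] at this
  refine not_le_of_set' hI S ?_ (w₀ := (P : Matrix ι ι F) *ᵥ u₀) (w₁ := (P : Matrix ι ι F) *ᵥ u₁) ?_ ?_ ?_ ?_
  · rintro g ⟨_, ⟨y, hy, rfl⟩, rfl⟩ w hw
    have h0 := standard_preserves_pure hy _ hw
    change (fun f => (((P⁻¹ : GL ι F) : Matrix ι ι F) *ᵥ ((MulAut.conj P (glReindex e.symm y) : GL ι F) : Matrix ι ι F) *ᵥ w)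
      (e.symm f)) ∈ Pure0 F t m
    convert h0 using 1
    funext f
    have h1 : ((P⁻¹ : GL ι F) : Matrix ι ι F) *ᵥ ((MulAut.conj P (glReindex e.symm y) : GL ι F) : Matrix ι ι F) *ᵥ w =
        ((glReindex e.symm y : GL ι F) : Matrix ι ι F) *ᵥ (((P⁻¹ : GL ι F) : Matrix ι ι F) *ᵥ w) := by
      rw [Matrix.mulVec_mulVec, Matrix.mulVec_mulVec]
      congr 1
      rw [← Units.val_mul, ← Units.val_mul]
      congr 1
      simp [MulAut.conj_apply, mul_assoc]
    rw [h1]
    change ∑ j, (y : Matrix (Fin t → Fin m) (Fin t → Fin m) F) (e (e.symm f)) (e j) *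
      (((P⁻¹ : GL ι F) : Matrix ι ι F) *ᵥ w) j = _
    rw [Equiv.apply_symm_apply, ← Equiv.sum_comp e.symm]
    simp only [Equiv.apply_symm_apply]
    rfl
  · refine ⟨fun _ => Pi.single ⟨0, by omega⟩ 1, fun f => ?_⟩
    change (((P⁻¹ : GL ι F) : Matrix ι ι F) *ᵥ ((P : Matrix ι ι F) *ᵥ u₀)) (e.symm f) = _
    rw [hPP]
    by_cases hf : f = c0
    · subst hf
      simp [u₀, c0]
    · have h1 : e.symm f ≠ e.symm c0 := fun h => hf (e.symm.injective h)
      obtain ⟨i, hi⟩ : ∃ i, f i ≠ c0 i := by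
        by_contra hc
        push Not at hc
        exact hf (funext hc)
      have h2 : ∏ i, (Pi.single (⟨0, by omega⟩ : Fin m) (1 : F) : Fin m → F) (f i) = 0 :=
        Finset.prod_eq_zero (Finset.mem_univ i) (by simp [Pi.single_apply]; exact hi)
      rw [h2]
      simp [u₀, h1]
  · intro h
    exact hu₀ (hinj (by simpa using h))
  · rintro ⟨xs, hxs⟩
    simp only [hPP] at hxs
    let mix : Fin t → Fin m := Function.update c0 i₀ ⟨1, by omega⟩
    have hmix0 : mix ≠ c0 := by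
      intro h
      have := congrFun h i₀
      simp [mix, c0, Fin.ext_iff] at this
    have hmix1 : mix ≠ c1 := by
      intro h
      have := congrFun h i₁
      simp [mix, c0, c1, Fin.ext_iff] at this
    have v0 : u₁ (e.symm c0) = 1 := by simp [u₁, hne]
    have v1 : u₁ (e.symm c1) = 1 := by simp [u₁, hne.symm]
    have vm : u₁ (e.symm mix) = 0 := by
      have h1 : e.symm mix ≠ e.symm c0 := fun h => hmix0 (e.symm.injective h)
      have h2 : e.symm mix ≠ e.symm c1 := fun h => hmix1 (e.symm.injective h)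
      simp [u₁, h1, h2]
    have h0 := hxs c0
    have h1 := hxs c1
    have hm' := hxs mix
    rw [v0] at h0
    rw [v1] at h1
    rw [vm] at hm'
    have hn0 : ∀ i, xs i (c0 i) ≠ 0 := by
      intro i h
      rw [Finset.prod_eq_zero (Finset.mem_univ i) h] at h0
      exact one_ne_zero h0
    have hn1 : ∀ i, xs i (c1 i) ≠ 0 := by
      intro i h
      rw [Finset.prod_eq_zero (Finset.mem_univ i) h] at h1
      exact one_ne_zero h1
    have hnm : ∀ i, xs i (mix i) ≠ 0 := by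
      intro i
      by_cases hi : i = i₀
      · subst hi
        simpa [mix, c1] using hn1 i₀
      · simpa [mix, Function.update_of_ne hi] using hn0 i
    exact (Finset.prod_ne_zero_iff.mpr fun i _ => hnm i) hm'.symm
  · intro h
    exact hu₁ (hinj (by simpa using h))

theorem not_le_subfieldSubgroup {I : Subgroup (GL ι F)} (hI : Trans1 I) (hn : 2 ≤ Fintype.card ι) {F₀ : Subfield F} (hF₀ : F₀ ≠ ⊤) (P : GL ι F) :
    ¬ I ≤ subfieldSubgroup F₀ P := by
  classical
  obtain ⟨α, hα⟩ : ∃ α : F, α ∉ F₀ := by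
    by_contra hc
    push Not at hc
    exact hF₀ (eq_top_iff.mpr fun x _ => hc x)
  obtain ⟨i, j, hij⟩ : ∃ i j : ι, i ≠ j := by
    have : Nontrivial ι := Fintype.one_lt_card_iff_nontrivial.1 (by omega)
    exact exists_pair_ne ι
  let S : Set (ι → F) := {w | ∃ (c : F) (v : ι → F), (∀ k, v k ∈ F₀) ∧ ((P⁻¹ : GL ι F) : Matrix ι ι F) *ᵥ w = c • v}
  have hPP : ∀ w, ((P⁻¹ : GL ι F) : Matrix ι ι F) *ᵥ ((P : Matrix ι ι F) *ᵥ w) = w := inv_mulVec_mulVec P
  have hinj : Function.Injective (fun x : ι → F => (P : Matrix ι ι F) *ᵥ x) := mulVec_injective P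
  let u₀ : ι → F := Pi.single i 1
  let u₁ : ι → F := Pi.single i 1 + α • Pi.single j 1
  have hu₀ : u₀ ≠ 0 := by
    intro h
    have := congrFun h i
    simp [u₀] at this
  have hu₁ : u₁ ≠ 0 := by
    intro h
    have := congrFun h i
    simp [u₁, hij] at this
  refine not_le_of_set' hI S ?_ (w₀ := (P : Matrix ι ι F) *ᵥ u₀) (w₁ := (P : Matrix ι ι F) *ᵥ u₁) ?_ ?_ ?_ ?_
  · rintro g ⟨y, hy, rfl⟩ w ⟨c, v, hv, hw⟩
    obtain ⟨g₀, ⟨h₀, rfl⟩, z, hz, rfl⟩ := Subgroup.mem_sup_of_normal_right.mp hy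
    obtain ⟨d, hd⟩ := (mem_scalars_iff' z).mp hz
    refine ⟨d * c, (Matrix.GeneralLinearGroup.map (F₀.subtype : F₀ →+* F) h₀ : GL ι F).val *ᵥ v, fun k => ?_, ?_⟩
    · change ∑ l, (Matrix.GeneralLinearGroup.map (F₀.subtype : F₀ →+* F) h₀ : GL ι F).val k l * v l ∈ F₀
      refine sum_mem fun l _ => mul_mem ?_ (hv l)
      change ((h₀ : Matrix ι ι F₀) k l : F) ∈ F₀
      exact Subtype.coe_prop _
    · have h1 : ((P⁻¹ : GL ι F) : Matrix ι ι F) *ᵥ
          ((MulAut.conj P).toMonoidHom (Matrix.GeneralLinearGroup.map (F₀.subtype : F₀ →+* F) h₀ * z) : GL ι F).val *ᵥ w =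
          ((Matrix.GeneralLinearGroup.map (F₀.subtype : F₀ →+* F) h₀ * z : GL ι F) : Matrix ι ι F) *ᵥ
            (((P⁻¹ : GL ι F) : Matrix ι ι F) *ᵥ w) := by
        rw [Matrix.mulVec_mulVec, Matrix.mulVec_mulVec]
        congr 1
        rw [← Units.val_mul, ← Units.val_mul]
        congr 1
        simp [MulAut.conj_apply, mul_assoc]
      rw [h1, hw, Units.val_mul, hd]
      rw [Matrix.mulVec_smul, Matrix.mul_smul, mul_one, Matrix.smul_mulVec, smul_smul, mul_comm c d]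
  · exact ⟨1, Pi.single i 1, fun k => by
      by_cases hk : k = i
      · subst hk
        simp
      · simp [hk], by rw [hPP, one_smul]⟩
  · intro h
    exact hu₀ (hinj (by simpa using h))
  · rintro ⟨c, v, hv, hw⟩
    rw [hPP] at hw
    have h1 := congrFun hw i
    have h2 := congrFun hw j
    simp [u₁, hij, hij.symm] at h1 h2
    have hvi : v i ≠ 0 := by
      intro h
      rw [h, mul_zero] at h1
      exact one_ne_zero h1
    have hc : c ≠ 0 := by
      rintro rfl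
      rw [zero_mul] at h1
      exact one_ne_zero h1
    apply hα
    have h3 : α = v j / v i := by
      field_simp
      rw [h2]
      have : c * v i * v j = v j * (c * v i) := by ring
      rw [← h1] at this
      linear_combination (-(v j)) * h1
    rw [h3]
    exact F₀.div_mem (hv j) (hv i)
  · intro h
    exact hu₁ (hinj (by simpa using h))

/-- A rank-bounded perturbation of the identity normalising a field subalgebra commutes with it. -/
theorem comm_of_low_rank {r : ℕ} {K : Subalgebra F (Matrix ι ι F)} (hK : IsFieldSubalgebra r K) {t : GL ι F}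
    {N : Matrix ι ι F} {s : ℕ} (htN : (t : Matrix ι ι F) = 1 + N) (hNrank : N.rank ≤ s) (hs : 2 * s < Fintype.card ι)
    (ht : t ∈ subalgebraNormalizer K) : ∀ k ∈ K, N * k = k * N := by
  have hunit : ∀ x ∈ K, x ≠ 0 → IsUnit x := by
    intro x hx hx0
    obtain ⟨y, _, hy⟩ := hK.inv x hx hx0
    exact ⟨⟨x, y, hy, mul_eq_one_comm.mp hy⟩, rfl⟩
  intro k hk
  have h1 : (t : Matrix ι ι F) * k * ((t⁻¹ : GL ι F) : Matrix ι ι F) ∈ K := (ht k).mp hk
  set k' := (t : Matrix ι ι F) * k * ((t⁻¹ : GL ι F) : Matrix ι ι F) with hk'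
  have h2 : k' * (t : Matrix ι ι F) = (t : Matrix ι ι F) * k := by
    rw [hk', mul_assoc, ← Units.val_mul, inv_mul_cancel, Units.val_one, mul_one]
  by_cases hkk : k' = k
  · have h3 := h2
    rw [hkk, htN, add_mul, mul_add, one_mul, mul_one] at h3
    exact (add_left_cancel h3).symm
  · exfalso
    have h3 : IsUnit (k' - k) := hunit _ (K.sub_mem h1 hk) (sub_ne_zero.mpr hkk)
    have h4 : (k' - k) * (t : Matrix ι ι F) = N * k - k * N := by
      rw [sub_mul, h2, htN, add_mul, mul_add, one_mul, mul_one]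
      abel
    have h5 : ((k' - k) * (t : Matrix ι ι F)).rank = Fintype.card ι :=
      Matrix.rank_of_isUnit _ (h3.mul t.isUnit)
    rw [h4] at h5
    have h6 := rank_sub_le (N * k) (k * N)
    have h7 := Matrix.rank_mul_le_left N k
    have h8 := Matrix.rank_mul_le_right k N
    omega

/-- A matrix for which all non-zero vectors are eigenvectors is scalar. -/
theorem exists_scalar_of_eigen [Nonempty ι] {k : Matrix ι ι F} (h : ∀ w : ι → F, w ≠ 0 → ∃ a : F, k *ᵥ w = a • w) :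
    ∃ c : F, k = c • 1 := by
  classical
  obtain ⟨a, ha⟩ := LinearMap.exists_eq_smul_id_of_forall_notLinearIndependent (f := k.mulVecLin) (by
    intro w hw
    by_cases hw0 : w = 0
    · subst hw0
      rw [LinearIndependent.pair_iff] at hw
      have := hw 1 0 (by simp)
      simp at this
    · obtain ⟨a, ha⟩ := h w hw0
      rw [LinearIndependent.pair_iff] at hw
      have := hw a (-1) (by simp [ha])
      simp at this)
  refine ⟨a, ?_⟩
  ext i j
  have h1 := congrFun (congrArg (fun φ : (ι → F) →ₗ[F] (ι → F) => φ (Pi.single j 1)) ha) i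
  simpa [Matrix.smul_apply, Matrix.one_apply, Pi.single_apply, Matrix.mulVec_single] using h1

section Sp

variable {m : ℕ}

open Cfsg.Agent.Lib.Classical.Symp.Basic Cfsg.Agent.Lib.Classical.Symp.SimpleMatrix

/-- A symplectic matrix as an element of `GL`. -/
noncomputable def glOfSp (A : Matrix.symplecticGroup (Fin m) F) : GL (Fin m ⊕ Fin m) F :=
  let hi := inv_mem_symplecticGroup A.2
  ⟨A.1, A.1⁻¹, hi.2.1, hi.2.2⟩

theorem coe_glOfSp (A : Matrix.symplecticGroup (Fin m) F) : (glOfSp A : Matrix _ _ F) = A.1 := rfl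

theorem glOfSp_mem (A : Matrix.symplecticGroup (Fin m) F) : glOfSp A ∈ spGL m F := by
  intro u v
  exact mem_symplecticGroup_iff_forall.mp A.2 u v

theorem trans1_spGL : Trans1 (spGL m F) := by
  intro v v' hv hv'
  obtain ⟨A, -, hA⟩ := closure_transitive_vec hv hv'
  exact ⟨glOfSp A, glOfSp_mem A, hA⟩

/-- The symplectic transvection as an element of `spGL`. -/
noncomputable def tvSp (w : Fin m ⊕ Fin m → F) (c : F) : GL (Fin m ⊕ Fin m) F :=
  glOfSp ⟨sympTransvection m w c, sympTransvection_mem w c⟩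

theorem tvSp_mem (w : Fin m ⊕ Fin m → F) (c : F) : tvSp w c ∈ spGL m F := glOfSp_mem _

theorem coe_tvSp (w : Fin m ⊕ Fin m → F) (c : F) :
    (tvSp w c : Matrix _ _ F) = 1 + c • Matrix.vecMulVec w (Matrix.J (Fin m) F *ᵥ w) := rfl

theorem J_mulVec_ne_zero {w : Fin m ⊕ Fin m → F} (hw : w ≠ 0) : Matrix.J (Fin m) F *ᵥ w ≠ 0 := by
  obtain ⟨j, hj⟩ := Function.ne_iff.mp hw
  intro h
  cases j with
  | inl i =>
    have := congrFun h (.inr i)
    rw [J_mulVec_inr] at this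
    exact hj this
  | inr i =>
    have := congrFun h (.inl i)
    rw [J_mulVec_inl] at this
    exact hj (by simpa using this)

/-- Commuting with all transvections means being scalar. -/
theorem exists_scalar_of_comm (hm : 1 ≤ m) {k : Matrix (Fin m ⊕ Fin m) (Fin m ⊕ Fin m) F}
    (h : ∀ w : Fin m ⊕ Fin m → F, w ≠ 0 → Matrix.vecMulVec w (Matrix.J (Fin m) F *ᵥ w) * k =
      k * Matrix.vecMulVec w (Matrix.J (Fin m) F *ᵥ w)) : ∃ c : F, k = c • 1 := by
  haveI : Nonempty (Fin m ⊕ Fin m) := ⟨.inl ⟨0, by omega⟩⟩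
  refine exists_scalar_of_eigen fun w hw => ?_
  obtain ⟨i, hi⟩ := Function.ne_iff.mp (J_mulVec_ne_zero hw)
  set y := Matrix.J (Fin m) F *ᵥ w with hy
  let x : Fin m ⊕ Fin m → F := Pi.single i 1
  have hyx : y ⬝ᵥ x = y i := by simp [x]
  have h1 := congrArg (fun M => M *ᵥ x) (h w hw)
  simp only [← Matrix.mulVec_mulVec, Matrix.vecMulVec_mulVec] at h1
  simp only [op_smul_eq_smul, Matrix.mulVec_smul, hyx, ← hy] at h1
  refine ⟨(y ⬝ᵥ (k *ᵥ x)) / y i, ?_⟩
  have hi' : y i ≠ 0 := hi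
  rw [div_eq_inv_mul, mul_smul, h1, smul_smul, inv_mul_cancel₀ hi', one_smul]

/-- The centraliser of the transvections consists of scalars. -/
theorem not_le_subalgebraNormalizer_sp (hm : 2 ≤ m) {r : ℕ} (hr : 2 ≤ r) {K : Subalgebra F (Matrix (Fin m ⊕ Fin m) (Fin m ⊕ Fin m) F)}
    (hK : IsFieldSubalgebra r K) : ¬ spGL m F ≤ subalgebraNormalizer K := by
  intro hle
  have hscal : ∀ k ∈ K, ∃ c : F, k = c • 1 := by
    intro k hk
    refine exists_scalar_of_comm (by omega) fun w _ => ?_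
    refine comm_of_low_rank hK (t := tvSp w 1) (s := 1) ?_ (Matrix.rank_vecMulVec_le _ _) ?_ (hle (tvSp_mem w 1)) k hk
    · rw [coe_tvSp, one_smul]
    · simp
      omega
  have h1 : Subalgebra.toSubmodule K ≤ Submodule.span F {(1 : Matrix (Fin m ⊕ Fin m) (Fin m ⊕ Fin m) F)} := by
    intro k hk
    obtain ⟨c, rfl⟩ := hscal k hk
    exact Submodule.smul_mem _ _ (Submodule.mem_span_singleton_self _)
  have h2 := Submodule.finrank_mono h1
  have h3 : Module.finrank F (Submodule.span F {(1 : Matrix (Fin m ⊕ Fin m) (Fin m ⊕ Fin m) F)}) = 1 := by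
    haveI : Nonempty (Fin m ⊕ Fin m) := ⟨.inl ⟨0, by omega⟩⟩
    exact finrank_span_singleton one_ne_zero
  have h4 : Module.finrank F (Subalgebra.toSubmodule K) = r := hK.finrank_eq
  omega

/-- **Quadratic forms**. -/
theorem not_le_quadSim_sp (hm : 2 ≤ m) [Fintype F] (hq : ¬ Odd (Fintype.card F)) {Q : (Fin m ⊕ Fin m → F) → F}
    (hQ : IsNondegenerateQuadraticForm Q) (hp : ∀ u v, QuadraticMap.polar Q u v = sympForm m F u v) :
    ¬ spGL m F ≤ quadSimilarityGroup Q := by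
  classical
  have h2 : (2 : F) = 0 := Forms.two_eq_zero_of_not_odd hq
  haveI : CharP F 2 := CharTwo.of_one_ne_zero_of_two_eq_zero one_ne_zero h2
  have hsq : ∀ a : F, ∃ b : F, b ^ 2 = a := by
    intro a
    obtain ⟨b, hb⟩ := FiniteField.isSquare_of_char_two (ringChar.eq F 2) a
    exact ⟨b, by rw [hb, sq]⟩
  have hQadd : ∀ x y, Q (x + y) = Q x + Q y + sympForm m F x y := by
    intro x y
    rw [← hp, QuadraticMap.polar]
    ring
  let i₀ : Fin m := ⟨0, by omega⟩
  let i₁ : Fin m := ⟨1, by omega⟩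
  have hi : i₀ ≠ i₁ := by simp [i₀, i₁, Fin.ext_iff]
  let u : Fin m ⊕ Fin m → F := Pi.single (.inl i₀) 1
  let w : Fin m ⊕ Fin m → F := Pi.single (.inl i₁) 1
  have huw : sympForm m F u w = 0 := by
    rw [sympForm_apply]
    refine Finset.sum_eq_zero fun j _ => ?_
    simp [u, w]
  have hu0 : u ≠ 0 := by
    intro h
    have := congrFun h (.inl i₀)
    simp [u] at this
  have hQ0 : Q 0 = 0 := by
    have := hQ.smul 0 0
    simpa using this
  -- a singular vector
  obtain ⟨w₀, hw₀, hw₀0⟩ : ∃ w₀, Q w₀ = 0 ∧ w₀ ≠ 0 := by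
    obtain ⟨a, ha⟩ := hsq (Q u)
    obtain ⟨b, hb⟩ := hsq (Q w)
    by_cases hb0 : b = 0
    · refine ⟨w, ?_, ?_⟩
      · rw [← hb, hb0]
        simp
      · intro h
        have := congrFun h (.inl i₁)
        simp [w] at this
    · refine ⟨b • u + a • w, ?_, ?_⟩
      · rw [hQadd, hQ.smul, hQ.smul, ← ha, ← hb]
        have : sympForm m F (b • u) (a • w) = b * a * sympForm m F u w := by
          have h3 := isSymplecticForm_sympForm' (m := m) (F := F)
          rw [h3.bilinear.smul_left, h3.bilinear.smul_right]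
          ring
        rw [this, huw]
        linear_combination (a ^ 2 * b ^ 2) * h2
      · intro h
        have h3 := congrFun h (.inl i₀)
        have h4 : (i₁ : Fin m) ≠ i₀ := hi.symm
        simp [u, w, h4, hi] at h3
        exact hb0 h3
  obtain ⟨w₁, hw₁⟩ : ∃ w₁, Q w₁ ≠ 0 := by
    by_contra hc
    push Not at hc
    have h3 : sympForm m F (Pi.single (.inl i₀) 1) (Pi.single (.inr i₀) 1) = 0 := by
      rw [← hp, QuadraticMap.polar, hc, hc, hc]
      simp
    rw [sympForm_single_inr] at h3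
    simp at h3
  refine not_le_of_set' trans1_spGL {x | Q x = 0} ?_ (w₀ := w₀) (w₁ := w₁) hw₀ hw₀0 hw₁ ?_
  · rintro g ⟨c, hc⟩ x hx
    change Q _ = 0
    rw [hc, show Q x = 0 from hx, mul_zero]
  · rintro rfl
    exact hw₁ hQ0

/-- A normal subgroup of `spGL` is scalar or everything. -/
theorem normal_sp (hm : 2 ≤ m) [Fintype F] (h : m = 2 → 3 ≤ Fintype.card F) {N : Subgroup (GL (Fin m ⊕ Fin m) F)} (hN : N ≤ spGL m F)
    (hnorm : Normalizes (spGL m F) N) : N ≤ scalars (Fin m ⊕ Fin m) F ∨ spGL m F ≤ N := by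
  classical
  have hperf : commutator (Matrix.symplecticGroup (Fin m) F) = ⊤ :=
    Cfsg.Agent.Lib.Classical.Symp.Perfect.commutator_symplecticGroup m (by
      by_cases h2 : m = 2
      · exact Or.inr (Or.inl ⟨h2, h h2⟩)
      · left
        omega)
  have hperf' : commutator (Cfsg.Agent.Lib.Classical.Symp.AltForm.IsomGroup (sympBilin m F)) = ⊤ :=
    Cfsg.Agent.Lib.Classical.Symp.Perfect.commutator_eq_top_of_mulEquiv spEquivIsom.symm hperf
  haveI : Nontrivial (Fin m ⊕ Fin m → F) := by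
    haveI : Nonempty (Fin m ⊕ Fin m) := ⟨Sum.inl ⟨0, by omega⟩⟩
    infer_instance
  let e := spEquivIsom (m := m) (F := F)
  -- `N` inside the symplectic group of matrices
  let N' : Subgroup (Matrix.symplecticGroup (Fin m) F) :=
    { carrier := {A | glOfSp A ∈ N}
      mul_mem' := by
        intro a b ha hb
        have : glOfSp (a * b) = glOfSp a * glOfSp b := Units.ext rfl
        change glOfSp (a * b) ∈ N
        rw [this]
        exact N.mul_mem ha hb
      one_mem' := by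
        have : glOfSp (1 : Matrix.symplecticGroup (Fin m) F) = 1 := Units.ext rfl
        change glOfSp 1 ∈ N
        rw [this]
        exact N.one_mem
      inv_mem' := by
        intro a ha
        have h1 : glOfSp a⁻¹ = (glOfSp a)⁻¹ := by
          rw [eq_inv_iff_mul_eq_one]
          have h2 : glOfSp a⁻¹ * glOfSp a = glOfSp (a⁻¹ * a) := Units.ext rfl
          rw [h2, inv_mul_cancel]
          exact Units.ext rfl
        change glOfSp a⁻¹ ∈ N
        rw [h1]
        exact N.inv_mem ha }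
  have hmulGL : ∀ a b : Matrix.symplecticGroup (Fin m) F, glOfSp (a * b) = glOfSp a * glOfSp b := fun _ _ => Units.ext rfl
  have hinvGL : ∀ a : Matrix.symplecticGroup (Fin m) F, glOfSp a⁻¹ = (glOfSp a)⁻¹ := by
    intro a
    rw [eq_inv_iff_mul_eq_one]
    have h2 : glOfSp a⁻¹ * glOfSp a = glOfSp (a⁻¹ * a) := Units.ext rfl
    rw [h2, inv_mul_cancel]
    exact Units.ext rfl
  have hN' : N'.Normal := by
    refine ⟨fun n hn g => ?_⟩
    change glOfSp (g * n * g⁻¹) ∈ N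
    rw [hmulGL, hmulGL, hinvGL]
    exact hnorm _ (glOfSp_mem g) _ hn
  have hN'' : (N'.map e.toMonoidHom).Normal := hN'.map _ e.surjective
  have hof : ∀ x : GL (Fin m ⊕ Fin m) F, x ∈ spGL m F → ∃ A : Matrix.symplecticGroup (Fin m) F, glOfSp A = x := by
    intro x hx
    exact ⟨spGLToSp ⟨x, hx⟩, Units.ext rfl⟩
  rcases Cfsg.Agent.Lib.Classical.Symp.Simple.normal_le_center_or sympBilin_isAlt sympBilin_nondegenerate _ hN'' with h1 | h1
  · left
    intro x hx
    obtain ⟨A, rfl⟩ := hof x (hN hx)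
    have h2 : e A ∈ Subgroup.center (Cfsg.Agent.Lib.Classical.Symp.AltForm.IsomGroup (sympBilin m F)) := h1 ⟨A, hx, rfl⟩
    obtain ⟨a, ha⟩ := exists_scalar_of_mem_center sympBilin_isAlt sympBilin_nondegenerate h2
    refine (mem_scalars_iff' _).mpr ?_
    haveI : Nonempty (Fin m ⊕ Fin m) := ⟨Sum.inl ⟨0, by omega⟩⟩
    obtain ⟨c, hc⟩ := exists_scalar_of_eigen (k := (glOfSp A : Matrix _ _ F)) (fun w _ => ⟨a, by simpa [e] using ha w⟩)
    exact ⟨c, hc⟩
  · right
    rw [hperf', top_le_iff] at h1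
    intro x hx
    obtain ⟨A, rfl⟩ := hof x hx
    have : e A ∈ N'.map e.toMonoidHom := by rw [h1]; trivial
    obtain ⟨y, hy, hyx⟩ := this
    have : y = A := e.injective hyx
    rw [this] at hy
    exact hy

/-- The powers of a transvection. -/
theorem coe_tvSp_pow (w : Fin m ⊕ Fin m → F) (n : ℕ) :
    (((tvSp w 1 ^ n : GL (Fin m ⊕ Fin m) F)) : Matrix _ _ F) = sympTransvection m w (n : F) := by
  induction n with
  | zero =>
    simp [sympTransvection]
  | succ n ih =>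
    rw [pow_succ, Units.val_mul, ih]
    have h1 : (tvSp w 1 : Matrix _ _ F) = sympTransvection m w 1 := rfl
    rw [h1, sympTransvection_mul]
    push_cast
    rfl

/-- **Symplectic-type groups**. -/
theorem not_le_subgroupNormalizer_sp (hm : 2 ≤ m) [Fintype F] (hq : Odd (Fintype.card F))
    {G R : Subgroup (GL (Fin m ⊕ Fin m) F)} (D : SympType.SympData G R 2 4) (hR : R ≤ spGL m F) :
    ¬ spGL m F ≤ subgroupNormalizer R := by
  intro hle
  haveI : Nonempty (Fin m ⊕ Fin m) := ⟨Sum.inl ⟨0, by omega⟩⟩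
  have h3 : m = 2 → 3 ≤ Fintype.card F := by
    intro _
    have h1 : 1 < Fintype.card F := Fintype.one_lt_card
    rcases hq with ⟨a, ha⟩
    omega
  have hnorm : Normalizes (spGL m F) R := fun g hg x hx => (Subgroup.mem_normalizer_iff.mp (hle hg) x).mp hx
  rcases normal_sp hm h3 hR hnorm with h | h
  · exact D.notZ h
  · have hp := SympStruct.SympData.isPGroup D
    let i₀ : Fin m ⊕ Fin m := .inl ⟨0, by omega⟩
    let w : Fin m ⊕ Fin m → F := Pi.single i₀ 1
    have hw : w ≠ 0 := by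
      intro h0
      have := congrFun h0 i₀
      simp [w] at this
    obtain ⟨a, ha⟩ := hp ⟨tvSp w 1, h (tvSp_mem w 1)⟩
    have h1 : (tvSp w 1 ^ (2 ^ a) : GL (Fin m ⊕ Fin m) F) = 1 := by
      have := congrArg Subtype.val ha
      simpa using this
    have h2 := coe_tvSp_pow w (2 ^ a)
    rw [h1, Units.val_one] at h2
    have h4 : (((2 ^ a : ℕ) : F)) ≠ 0 := by
      push_cast
      exact pow_ne_zero _ (Forms.two_ne_zero_of_odd hq)
    have h5 : ((2 ^ a : ℕ) : F) • Matrix.vecMulVec w (Matrix.J (Fin m) F *ᵥ w) = 0 := by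
      have h6 : (1 : Matrix (Fin m ⊕ Fin m) (Fin m ⊕ Fin m) F) + ((2 ^ a : ℕ) : F) • Matrix.vecMulVec w (Matrix.J (Fin m) F *ᵥ w) = 1 + 0 := by
        rw [add_zero]
        exact h2.symm
      exact add_left_cancel h6
    have h6 : Matrix.vecMulVec w (Matrix.J (Fin m) F *ᵥ w) = 0 := (smul_eq_zero.mp h5).resolve_left h4
    obtain ⟨i, hi⟩ := Function.ne_iff.mp (J_mulVec_ne_zero hw)
    have h7 := congrFun (congrFun h6 i₀) i
    simp only [Matrix.vecMulVec_apply, Matrix.zero_apply] at h7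
    have h8 : w i₀ = 1 := by simp [w]
    rw [h8, one_mul] at h7
    exact hi h7

variable [Fintype F]

/-- The list of `Out`, with equalities. -/
def OutEq (H : Subgroup (GL (Fin m ⊕ Fin m) F)) : Prop :=
  (∃ W : Submodule F (Fin m ⊕ Fin m → F), W ≠ ⊥ ∧ IsTotallySingularFor (sympForm m F) W ∧ H = subspaceStabilizer W ⊓ spGL m F) ∨
  (∃ W : Submodule F (Fin m ⊕ Fin m → F), W ≠ ⊥ ∧ IsNondegenerateOn (sympForm m F) W ∧ Module.finrank F W < m ∧
    H = subspaceStabilizer W ⊓ spGL m F) ∨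
  (∃ (t k : ℕ) (D : Fin t → Submodule F (Fin m ⊕ Fin m → F)), IsNondegenerateMDecomposition (sympForm m F) k D ∧
    H = decompositionStabilizer D ⊓ spGL m F) ∨
  (∃ D : Fin 2 → Submodule F (Fin m ⊕ Fin m → F), Odd (Fintype.card F) ∧ IsMDecomposition m D ∧
    (∀ i, IsTotallySingularFor (sympForm m F) (D i)) ∧ H = decompositionStabilizer D ⊓ spGL m F) ∨
  (∃ (F₀ : Subfield F) (r : ℕ) (P : GL (Fin m ⊕ Fin m) F) (ζ : F), r.Prime ∧ Fintype.card F = Nat.card F₀ ^ r ∧ ζ ≠ 0 ∧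
    IsFormRationalStructure (sympForm m F) F₀ ζ P ∧ H = subfieldSubgroup F₀ P ⊓ spGL m F) ∨
  (∃ (R : Subgroup (GL (Fin m ⊕ Fin m) F)) (p k : ℕ), IsSymplecticTypeGroup 2 R ∧
    ActsAbsolutelyIrreducibly (matrixSet R) ∧ R ≤ similarityGroup (sympForm m F) ∧ p.Prime ∧ Odd p ∧ Fintype.card F = p ∧
    Nat.card R = 2 ^ (1 + 2 * k) ∧ Nat.card (Subgroup.center R) = 2 ∧ IsOfMinusType k R ∧ H = subgroupNormalizer R ⊓ spGL m F ∧
    Fintype.card (Fin m ⊕ Fin m) = 2 ^ k) ∨
  (∃ Q : (Fin m ⊕ Fin m → F) → F, ¬ Odd (Fintype.card F) ∧ IsNondegenerateQuadraticForm Q ∧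
    (∀ u v, QuadraticMap.polar Q u v = sympForm m F u v) ∧ H = quadSimilarityGroup Q ⊓ spGL m F) ∨
  (∃ (r : ℕ) (K : Subalgebra F (Matrix (Fin m ⊕ Fin m) (Fin m ⊕ Fin m) F)), r.Prime ∧ IsFieldSubalgebra r K ∧
    IsSelfAdjointFor (sympForm m F) K ∧ (∀ k ∈ K, ∀ v, sympForm m F (k *ᵥ v) v = 0) ∧ H = subalgebraNormalizer K ⊓ spGL m F) ∨
  (∃ K : Subalgebra F (Matrix (Fin m ⊕ Fin m) (Fin m ⊕ Fin m) F), Odd (Fintype.card F) ∧ IsFieldSubalgebra 2 K ∧
    IsAdjointClosedFor (sympForm m F) K ∧ ¬ IsSelfAdjointFor (sympForm m F) K ∧ H = subalgebraNormalizer K ⊓ spGL m F) ∨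
  (∃ (n₁ n₂ : ℕ) (e : (Fin m ⊕ Fin m) ≃ Fin n₁ × Fin n₂) (P : GL (Fin m ⊕ Fin m) F)
      (f₁ : (Fin n₁ → F) → (Fin n₁ → F) → F) (f₂ : (Fin n₂ → F) → (Fin n₂ → F) → F),
      Odd (Fintype.card F) ∧ 3 ≤ n₂ ∧ IsSymplecticForm f₁ ∧ IsSymmetricForm f₂ ∧
      IsTensorFormStructure id (sympForm m F) f₁ f₂ e P ∧ H = tensorProductSubgroup n₁ n₂ e P ⊓ spGL m F) ∨
  (∃ (k t : ℕ) (e : (Fin m ⊕ Fin m) ≃ (Fin t → Fin k)) (P : GL (Fin m ⊕ Fin m) F) (f₁ : (Fin k → F) → (Fin k → F) → F),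
      Odd (Fintype.card F) ∧ Odd t ∧ 3 ≤ t ∧ ¬ (Fintype.card F = 3 ∧ k = 2) ∧ IsSymplecticForm f₁ ∧
      IsTensorPowerFormStructure id (sympForm m F) f₁ e P ∧ H = tensorWreathSubgroup k t e P ⊓ spGL m F)

theorem card_index' : Fintype.card (Fin m ⊕ Fin m) = 2 * m := FormSp.card_index

/-- The standard form is not totally singular on a subspace equal to the whole space. -/
theorem ne_top_of_ts (hm : 1 ≤ m) {W : Submodule F (Fin m ⊕ Fin m → F)} (hts : IsTotallySingularFor (sympForm m F) W) : W ≠ ⊤ := by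
  rintro rfl
  have h3 := hts (Pi.single (.inl ⟨0, by omega⟩) 1) trivial (Pi.single (.inr ⟨0, by omega⟩) 1) trivial
  rw [sympForm_single_inr] at h3
  simp at h3

/-- **Maximal subgroups of the symplectic groups**: the raw list. -/
theorem sp_max_cases (hm : 2 ≤ m) {H : Subgroup (GL (Fin m ⊕ Fin m) F)} (hH : IsMaximalIn (spGL m F) H) :
    OutEq H ∨ InSymplecticResidualClass H := by
  classical
  have hn : 2 ≤ Fintype.card (Fin m ⊕ Fin m) := by
    rw [card_index']
    omega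
  have hI := trans1_spGL (m := m) (F := F)
  rcases FormSp.sp_mainF hm hH.1.le with h | h
  swap
  · exact Or.inr h
  left
  rcases h with ⟨W, h0, hts, hle⟩ | ⟨W, h0, hn', hd, hle⟩ | ⟨t, k, D, hD, hle⟩ | ⟨D, hq, hD, hts, hle⟩ |
    ⟨F₀, r, P, ζ, hr, hc, hζ, hR, hle⟩ | ⟨R, p, k, h1, h2, h3, h4, h5, h6, h7, h8, h9, hle, hcd, ⟨G, DD⟩, hRs⟩ |
    ⟨Q, hq, hQ, hp, hle⟩ | ⟨r, K, hr, hK, h1, h2, hle⟩ | ⟨K, hq, hK, h1, h2, hle⟩ |
    ⟨n₁, n₂, e, P, f₁, f₂, hq, h3, h1, h2, hs, hle⟩ | ⟨k, t, e, P, f₁, hq, ht, h3, hne, h1, hs, hle⟩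
  · exact Or.inl ⟨W, h0, hts, eq_inf_of_le' hH hle (not_le_subspaceStabilizer hI hn h0 (ne_top_of_ts (by omega) hts))⟩
  · refine Or.inr (Or.inl ⟨W, h0, hn', hd, eq_inf_of_le' hH hle (not_le_subspaceStabilizer hI hn h0 ?_)⟩)
    rintro rfl
    rw [finrank_top, Module.finrank_fintype_fun_eq_card, card_index'] at hd
    omega
  · exact Or.inr (Or.inr (Or.inl ⟨t, k, D, hD, eq_inf_of_le' hH hle (not_le_decompositionStabilizer hI hn hD.decomp)⟩))
  · exact Or.inr (Or.inr (Or.inr (Or.inl ⟨D, hq, hD, hts, eq_inf_of_le' hH hle (not_le_decompositionStabilizer hI hn hD)⟩)))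
  · exact Or.inr (Or.inr (Or.inr (Or.inr (Or.inl ⟨F₀, r, P, ζ, hr, hc, hζ, hR,
      eq_inf_of_le' hH hle (not_le_subfieldSubgroup hI hn (MaxCases.subfield_ne_top hr hc) P)⟩))))
  · have hq : Odd (Fintype.card F) := by rw [h6]; exact h5
    exact Or.inr (Or.inr (Or.inr (Or.inr (Or.inr (Or.inl ⟨R, p, k, h1, h2, h3, h4, h5, h6, h7, h8, h9,
      eq_inf_of_le' hH hle (not_le_subgroupNormalizer_sp hm hq DD hRs), hcd⟩)))))
  · exact Or.inr (Or.inr (Or.inr (Or.inr (Or.inr (Or.inr (Or.inl ⟨Q, hq, hQ, hp,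
      eq_inf_of_le' hH hle (not_le_quadSim_sp hm hq hQ hp)⟩))))))
  · exact Or.inr (Or.inr (Or.inr (Or.inr (Or.inr (Or.inr (Or.inr (Or.inl ⟨r, K, hr, hK, h1, h2,
      eq_inf_of_le' hH hle (not_le_subalgebraNormalizer_sp hm hr.two_le hK)⟩)))))))
  · exact Or.inr (Or.inr (Or.inr (Or.inr (Or.inr (Or.inr (Or.inr (Or.inr (Or.inl ⟨K, hq, hK, h1, h2,
      eq_inf_of_le' hH hle (not_le_subalgebraNormalizer_sp hm le_rfl hK)⟩))))))))
  · have hcd : n₁ * n₂ = 2 * m := by
      have := Fintype.card_congr e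
      rw [card_index', Fintype.card_prod, Fintype.card_fin, Fintype.card_fin] at this
      exact this.symm
    have hev : Even n₁ := by
      have := Forms.even_card_of_symplectic h1
      rwa [Fintype.card_fin] at this
    have hd : 2 ≤ n₁ := by
      obtain ⟨a, ha⟩ := hev
      have : n₁ ≠ 0 := by
        rintro rfl
        omega
      omega
    exact Or.inr (Or.inr (Or.inr (Or.inr (Or.inr (Or.inr (Or.inr (Or.inr (Or.inr (Or.inl ⟨n₁, n₂, e, P, f₁, f₂, hq, h3, h1, h2, hs,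
      eq_inf_of_le' hH hle (not_le_tensorProductSubgroup hI hn hd (by omega) e P)⟩)))))))))
  · have hcd : k ^ t = 2 * m := by
      have := Fintype.card_congr e
      rw [card_index', Fintype.card_fun, Fintype.card_fin, Fintype.card_fin] at this
      exact this.symm
    have hev : Even k := by
      have := Forms.even_card_of_symplectic h1
      rwa [Fintype.card_fin] at this
    have hd : 2 ≤ k := by
      obtain ⟨a, ha⟩ := hev
      have : k ≠ 0 := by
        rintro rfl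
        rw [zero_pow (by omega)] at hcd
        omega
      omega
    exact Or.inr (Or.inr (Or.inr (Or.inr (Or.inr (Or.inr (Or.inr (Or.inr (Or.inr (Or.inr ⟨k, t, e, P, f₁, hq, ht, h3, hne, h1, hs,
      eq_inf_of_le' hH hle (not_le_tensorWreathSubgroup hI hn hd (by omega) e P)⟩)))))))))

end Sp

end Cfsg.Agent.Lib.Classical.Asch.NotSp
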