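import Mathlib
import Cfsg.Agent.Lib.Classical.Asch.NotSp
import Cfsg.Agent.Lib.Classical.Asch.Block

/-!
# Maximal subgroups of the symplectic groups: numerical conditions
-/

set_option autoImplicit false
set_option linter.style.haveILetI false
set_option linter.unusedSectionVars false

namespace Cfsg.Agent.Lib.Classical.Asch.SpRows

open scoped MatrixGroups Matrix Kronecker
open Cfsg Cfsg.Geo Cfsg.Agent.Lib.Classical.Asch.Basic Cfsg.Agent.Lib.Classical.Asch.NotSp
open Cfsg.Agent.Lib.Classical.Symp.Basic Cfsg.Agent.Lib.Classical.Asch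

variable {F : Type*} [Field F] {m : ℕ}

/-- A non-degenerate subspace for the alternating form has even dimension. -/
theorem even_finrank_of_nondegOn {W : Submodule F (Fin m ⊕ Fin m → F)} (h : IsNondegenerateOn (sympForm m F) W) :
    Even (Module.finrank F W) := by
  let B : LinearMap.BilinForm F W := (sympBilin m F).restrict W
  have hB : ∀ u v : W, B u v = sympForm m F u v := fun u v => rfl
  have hA : B.IsAlt := fun v => sympForm_self _
  have hN : B.Nondegenerate := by
    constructor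
    · intro x hx
      by_contra h0
      have h1 : (x : Fin m ⊕ Fin m → F) ≠ 0 := fun h2 => h0 (Subtype.ext h2)
      obtain ⟨-, y, hy, hy'⟩ := h x x.2 h1
      exact hy' (hx ⟨y, hy⟩)
    · intro x hx
      by_contra h0
      have h1 : (x : Fin m ⊕ Fin m → F) ≠ 0 := fun h2 => h0 (Subtype.ext h2)
      obtain ⟨⟨y, hy, hy'⟩, -⟩ := h x x.2 h1
      exact hy' (hx ⟨y, hy⟩)
  obtain ⟨k, hk⟩ := Cfsg.Agent.Lib.Classical.Symp.DecompMax.even_finrank _ B hA hN rfl
  exact ⟨k, by omega⟩

/-- Numerics of a non-degenerate decomposition. -/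
theorem decomp_numerics {t k : ℕ} {D : Fin t → Submodule F (Fin m ⊕ Fin m → F)}
    (hD : IsNondegenerateMDecomposition (sympForm m F) k D) : t * k = 2 * m ∧ Even k ∧ 0 < k ∧ 2 ≤ t := by
  refine ⟨?_, ?_, hD.decomp.pos, hD.decomp.two_le⟩
  · rw [← Block.card_eq_mul hD.decomp, FormSp.card_index]
  · have h := even_finrank_of_nondegOn (hD.nondegenerate ⟨0, by have := hD.decomp.two_le; omega⟩)
    rwa [hD.decomp.finrank_eq] at h

section Field

variable {ι : Type} [Fintype ι] [DecidableEq ι] [Nonempty ι]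

open Cfsg.Agent.Lib.Classical.Asch.Stable in
/-- A self-adjoint field with `f(kv, v) = 0` carries an alternating form over the field: the degree of the field
divides half the dimension. -/
theorem two_mul_dvd_of_selfAdj {f : (ι → F) → (ι → F) → F} (hf : IsSymplecticForm f) {r : ℕ}
    {K : Subalgebra F (Matrix ι ι F)} (hK : IsFieldSubalgebra r K) (hsa : IsSelfAdjointFor f K)
    (halt : ∀ k ∈ K, ∀ v, f (k *ᵥ v) v = 0) : 2 * r ∣ Fintype.card ι := by
  classical
  have hfield : IsField ↥K := FormField.isField_of hK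
  letI inst : Module ↥K (ι → F) := Module.compHom _ (toEndC K)
  have smul_def : ∀ (c : ↥K) (v : ι → F), c • v = c.1 *ᵥ v := fun c v => rfl
  letI instF : Field ↥K := hfield.toField
  letI instA : Algebra F ↥K := K.algebra
  -- a functional on the field
  obtain ⟨i₀⟩ := ‹Nonempty ι›
  let s₀ : ↥K →ₗ[F] F :=
    { toFun := fun k => k.1 i₀ i₀
      map_add' := fun a b => rfl
      map_smul' := fun a b => rfl }
  have hs₀ : s₀ 1 = 1 := by
    change (1 : Matrix ι ι F) i₀ i₀ = 1
    simp
  -- the pairing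
  let T : ↥K →ₗ[F] Module.Dual F ↥K :=
    { toFun := fun c =>
        { toFun := fun k => s₀ (k * c)
          map_add' := fun a b => by rw [add_mul, map_add]
          map_smul' := fun a b => by rw [smul_mul_assoc, map_smul]; rfl }
      map_add' := fun a b => by
        ext k
        simp [mul_add]
      map_smul' := fun a b => by
        ext k
        simp [mul_smul_comm] }
  have hTapp : ∀ c k, T c k = s₀ (k * c) := fun c k => rfl
  have hTinj : Function.Injective T := by
    rw [← LinearMap.ker_eq_bot, LinearMap.ker_eq_bot']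
    intro c hc
    by_contra h0
    have h1 := hTapp c c⁻¹
    rw [hc, inv_mul_cancel₀ h0, hs₀] at h1
    exact one_ne_zero h1.symm
  have hTsurj : Function.Surjective T := by
    refine (LinearMap.injective_iff_surjective_of_finrank_eq_finrank ?_).mp hTinj
    exact (Subspace.dual_finrank_eq).symm
  let φ : (ι → F) → (ι → F) → Module.Dual F ↥K := fun v w =>
    { toFun := fun k => f (k.1 *ᵥ v) w
      map_add' := fun a b => by
        change f ((a.1 + b.1) *ᵥ v) w = _
        rw [Matrix.add_mulVec, hf.bilinear.add_left]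
      map_smul' := fun a b => by
        change f ((a • b.1) *ᵥ v) w = _
        rw [Matrix.smul_mulVec, hf.bilinear.smul_left]
        rfl }
  choose B hB using fun v w => hTsurj (φ v w)
  have hspec : ∀ v w (k : ↥K), s₀ (k * B v w) = f (k.1 *ᵥ v) w := by
    intro v w k
    rw [← hTapp, hB]
    rfl
  have huniq : ∀ c c' : ↥K, (∀ k, s₀ (k * c) = s₀ (k * c')) → c = c' := by
    intro c c' h
    apply hTinj
    ext k
    rw [hTapp, hTapp]
    exact h k
  let BK : LinearMap.BilinForm ↥K (ι → F) :=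
    LinearMap.mk₂ ↥K B
      (fun a b c => huniq _ _ fun k => by
        rw [mul_add, map_add, hspec, hspec, hspec, Matrix.mulVec_add, hf.bilinear.add_left])
      (fun l a c => huniq _ _ fun k => by
        rw [smul_eq_mul, ← mul_assoc, hspec, hspec]
        change f (k.1 *ᵥ (l.1 *ᵥ a)) c = _
        rw [Matrix.mulVec_mulVec]
        rfl)
      (fun a b c => huniq _ _ fun k => by
        rw [mul_add, map_add, hspec, hspec, hspec, hf.bilinear.add_right])
      (fun l a c => huniq _ _ fun k => by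
        rw [smul_eq_mul, ← mul_assoc, hspec, hspec]
        change f (k.1 *ᵥ a) (l.1 *ᵥ c) = _
        have h1 := hsa l.1 l.2 (k.1 *ᵥ a) c
        rw [← h1, Matrix.mulVec_mulVec, hK.comm l.1 l.2 k.1 k.2]
        rfl)
  have hBK : ∀ v w, BK v w = B v w := fun v w => rfl
  have hAlt : BK.IsAlt := by
    intro v
    rw [hBK]
    refine huniq _ _ fun k => ?_
    rw [hspec, mul_zero, map_zero]
    exact halt k.1 k.2 v
  have hNd : BK.Nondegenerate := by
    constructor
    · intro x hx
      by_contra h0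
      obtain ⟨-, y, hy⟩ := hf.nondegenerate x h0
      apply hy
      have h1 := hspec x y 1
      have h2 : (1 : ↥K).1 = 1 := rfl
      rw [h2, Matrix.one_mulVec] at h1
      rw [← h1]
      have h3 : B x y = 0 := hx y
      rw [h3, mul_zero, map_zero]
    · intro x hx
      by_contra h0
      obtain ⟨⟨y, hy⟩, -⟩ := hf.nondegenerate x h0
      apply hy
      have h1 := hspec y x 1
      have h2 : (1 : ↥K).1 = 1 := rfl
      rw [h2, Matrix.one_mulVec] at h1
      rw [← h1]
      have h3 : B y x = 0 := hx y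
      rw [h3, mul_zero, map_zero]
  haveI : Module.Finite ↥K (ι → F) := @Module.Finite.of_restrictScalars_finite F ↥K (ι → F) _ _ _ _ _ _ ⟨fun a c v => by
    change ((a • c.1) *ᵥ v) = a • (c.1 *ᵥ v)
    rw [Matrix.smul_mulVec]⟩ _
  obtain ⟨c, hc⟩ := Cfsg.Agent.Lib.Classical.Symp.DecompMax.even_finrank _ BK hAlt hNd rfl
  have h1 : Module.finrank F ↥K * Module.finrank ↥K (ι → F) = Module.finrank F (ι → F) :=
    @Module.finrank_mul_finrank F ↥K (ι → F) _ _ _ _ _ _ ⟨fun a c v => by
      change ((a • c.1) *ᵥ v) = a • (c.1 *ᵥ v)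
      rw [Matrix.smul_mulVec]⟩ _ _ _ _
  have h2 : Module.finrank F ↥K = r := hK.finrank_eq
  rw [h2, Module.finrank_fintype_fun_eq_card, hc] at h1
  exact ⟨c, by rw [← h1]; ring⟩

end Field

section Planes

variable [Fintype F]

/-- **Planes over the field with two elements**: the stabiliser of a decomposition into planes fixes a quadratic form. -/
theorem planes_two (hq : Fintype.card F = 2) {t : ℕ} {D : Fin t → Submodule F (Fin m ⊕ Fin m → F)}
    (hD : IsNondegenerateMDecomposition (sympForm m F) 2 D) :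
    ∃ Q : (Fin m ⊕ Fin m → F) → F, IsNondegenerateQuadraticForm Q ∧ (∀ u v, QuadraticMap.polar Q u v = sympForm m F u v) ∧
      decompositionStabilizer D ⊓ spGL m F ≤ quadSimilarityGroup Q := by
  classical
  have hf := isSymplecticForm_sympForm' (m := m) (F := F)
  have h2 : (2 : F) = 0 := by
    have h1 : ¬ Odd (Fintype.card F) := by
      rw [hq]
      decide
    exact Forms.two_eq_zero_of_not_odd h1
  have hval : ∀ x : F, x = 0 ∨ x = 1 := by
    intro x
    have h3 := FiniteField.pow_card x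
    rw [hq] at h3
    by_cases hx : x = 0
    · exact Or.inl hx
    · right
      have h4 : x * (x - 1) = 0 := by linear_combination h3
      exact sub_eq_zero.mp ((mul_eq_zero.mp h4).resolve_left hx)
  have hneg : ∀ x : F, -x = x := by
    intro x
    linear_combination (-x) * h2
  have hsk : ∀ u v, sympForm m F u v = sympForm m F v u := by
    intro u v
    rw [hf.skew, hneg]
  -- symplectic bases of the planes
  have hbasis : ∀ i, ∃ a ∈ D i, ∃ b ∈ D i, sympForm m F a b = 1 := by
    intro i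
    have hne : D i ≠ ⊥ := by
      intro h
      have := hD.decomp.finrank_eq i
      rw [h, finrank_bot] at this
      omega
    obtain ⟨a, ha, ha0⟩ := Submodule.exists_mem_ne_zero_of_ne_bot hne
    obtain ⟨-, b, hb, hab⟩ := hD.nondegenerate i a ha ha0
    exact ⟨a, ha, b, hb, (hval _).resolve_left hab⟩
  choose a ha b hb hab using hbasis
  have hba : ∀ i, sympForm m F (b i) (a i) = 1 := fun i => by rw [hsk, hab]
  have hexp : ∀ i, ∀ w ∈ D i, ∃ α β : F, w = α • a i + β • b i := by
    intro i w hw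
    have hli : LinearIndependent F ![a i, b i] := by
      rw [LinearIndependent.pair_iff]
      intro x y hxy
      have h3 := congrArg (fun v => sympForm m F v (b i)) hxy
      have h4 := congrArg (fun v => sympForm m F (a i) v) hxy
      simp only [hf.bilinear.add_left, hf.bilinear.smul_left, hf.bilinear.add_right, hf.bilinear.smul_right, hf.alternating, hab] at h3 h4
      have h5 : sympForm m F (0 : Fin m ⊕ Fin m → F) (b i) = 0 := by
        rw [sympForm_apply]; simp
      have h6 : sympForm m F (a i) (0 : Fin m ⊕ Fin m → F) = 0 := by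
        rw [sympForm_apply]; simp
      rw [h5] at h3
      rw [h6] at h4
      constructor
      · simpa using h3
      · simpa using h4
    have hle : Submodule.span F (Set.range ![a i, b i]) ≤ D i := by
      rw [Submodule.span_le]
      rintro _ ⟨j, rfl⟩
      fin_cases j
      · exact ha i
      · exact hb i
    have hfr : Module.finrank F (Submodule.span F (Set.range ![a i, b i])) = Module.finrank F (D i) := by
      rw [finrank_span_eq_card hli, hD.decomp.finrank_eq]
      simp
    have heq := Submodule.eq_of_le_of_finrank_eq hle hfr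
    rw [← heq] at hw
    obtain ⟨c, hc⟩ := (Submodule.mem_span_range_iff_exists_fun F).mp hw
    refine ⟨c 0, c 1, ?_⟩
    rw [← hc]
    simp [Fin.sum_univ_two]
  let q : Fin t → (Fin m ⊕ Fin m → F) → F := fun i v =>
    (sympForm m F v (a i)) ^ 2 + (sympForm m F v (a i)) * (sympForm m F v (b i)) + (sympForm m F v (b i)) ^ 2
  let Q : (Fin m ⊕ Fin m → F) → F := fun v => ∑ i, q i v
  have hqval : ∀ i v, q i v = if ∃ u ∈ D i, sympForm m F v u ≠ 0 then 1 else 0 := by
    intro i v
    by_cases hex : ∃ u ∈ D i, sympForm m F v u ≠ 0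
    · rw [if_pos hex]
      obtain ⟨u, hu, huv⟩ := hex
      obtain ⟨α, β, rfl⟩ := hexp i u hu
      rw [hf.bilinear.add_right, hf.bilinear.smul_right, hf.bilinear.smul_right] at huv
      change sympForm m F v (a i) ^ 2 + sympForm m F v (a i) * sympForm m F v (b i) + sympForm m F v (b i) ^ 2 = 1
      rcases hval (sympForm m F v (a i)) with h3 | h3 <;> rcases hval (sympForm m F v (b i)) with h4 | h4
      · rw [h3, h4] at huv
        simp at huv
      · rw [h3, h4]
        ring
      · rw [h3, h4]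
        ring
      · rw [h3, h4]
        linear_combination h2
    · rw [if_neg hex]
      push Not at hex
      change sympForm m F v (a i) ^ 2 + sympForm m F v (a i) * sympForm m F v (b i) + sympForm m F v (b i) ^ 2 = 0
      rw [hex _ (ha i), hex _ (hb i)]
      ring
  -- the polar form
  have hid : ∀ v w, sympForm m F v w =
      ∑ i, (sympForm m F v (a i) * sympForm m F w (b i) + sympForm m F w (a i) * sympForm m F v (b i)) := by
    intro v w
    have htop : w ∈ ⨆ i, D i := by
      rw [hD.decomp.iSup_eq_top]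
      trivial
    induction htop using Submodule.iSup_induction' with
    | mem j w hw =>
      obtain ⟨α, β, rfl⟩ := hexp j w hw
      rw [Finset.sum_eq_single j]
      · simp only [hf.bilinear.add_left, hf.bilinear.smul_left, hf.bilinear.add_right, hf.bilinear.smul_right, hf.alternating, hab, hba]
        ring
      · intro i _ hij
        have h3 := hD.orthogonal j i (Ne.symm hij) _ ((D j).add_mem ((D j).smul_mem α (ha j)) ((D j).smul_mem β (hb j))) _ (hb i)
        have h4 := hD.orthogonal j i (Ne.symm hij) _ ((D j).add_mem ((D j).smul_mem α (ha j)) ((D j).smul_mem β (hb j))) _ (ha i)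
        rw [h3, h4]
        ring
      · intro h
        exact absurd (Finset.mem_univ j) h
    | zero =>
      have hz : ∀ u, sympForm m F (0 : Fin m ⊕ Fin m → F) u = 0 := by
        intro u
        rw [sympForm_apply]
        simp
      have hz' : sympForm m F v (0 : Fin m ⊕ Fin m → F) = 0 := by
        rw [sympForm_apply]
        simp
      simp [hz, hz']
    | add x y _ _ hx hy =>
      rw [hf.bilinear.add_right, hx, hy, ← Finset.sum_add_distrib]
      refine Finset.sum_congr rfl fun i _ => ?_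
      rw [hf.bilinear.add_left, hf.bilinear.add_left]
      ring
  have hpol : ∀ u v, QuadraticMap.polar Q u v = sympForm m F u v := by
    intro u v
    rw [hid u v]
    unfold QuadraticMap.polar
    change ∑ i, q i (u + v) - ∑ i, q i u - ∑ i, q i v = _
    rw [← Finset.sum_sub_distrib, ← Finset.sum_sub_distrib]
    refine Finset.sum_congr rfl fun i _ => ?_
    change (sympForm m F (u + v) (a i)) ^ 2 + (sympForm m F (u + v) (a i)) * (sympForm m F (u + v) (b i)) + (sympForm m F (u + v) (b i)) ^ 2 -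
      ((sympForm m F u (a i)) ^ 2 + (sympForm m F u (a i)) * (sympForm m F u (b i)) + (sympForm m F u (b i)) ^ 2) -
      ((sympForm m F v (a i)) ^ 2 + (sympForm m F v (a i)) * (sympForm m F v (b i)) + (sympForm m F v (b i)) ^ 2) = _
    rw [hf.bilinear.add_left, hf.bilinear.add_left]
    linear_combination (sympForm m F u (a i) * sympForm m F v (a i) + sympForm m F u (b i) * sympForm m F v (b i)) * h2
  have hpol' : QuadraticMap.polar Q = sympForm m F := by
    funext u v
    exact hpol u v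
  refine ⟨Q, ⟨fun c v => ?_, by rw [hpol']; exact hf.bilinear, by rw [hpol']; exact hf.nondegenerate⟩, hpol, ?_⟩
  · change ∑ i, q i (c • v) = c ^ 2 * ∑ i, q i v
    rw [Finset.mul_sum]
    refine Finset.sum_congr rfl fun i _ => ?_
    change (sympForm m F (c • v) (a i)) ^ 2 + (sympForm m F (c • v) (a i)) * (sympForm m F (c • v) (b i)) + (sympForm m F (c • v) (b i)) ^ 2 =
      c ^ 2 * ((sympForm m F v (a i)) ^ 2 + (sympForm m F v (a i)) * (sympForm m F v (b i)) + (sympForm m F v (b i)) ^ 2)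
    rw [hf.bilinear.smul_left, hf.bilinear.smul_left]
    ring
  · rintro g ⟨⟨σ, hσ⟩, hg⟩
    refine ⟨1, fun v => ?_⟩
    change ∑ i, q i ((g : Matrix _ _ F) *ᵥ v) = ((1 : Fˣ) : F) * ∑ i, q i v
    rw [Units.val_one, one_mul, ← Equiv.sum_comp σ (fun i => q i ((g : Matrix _ _ F) *ᵥ v))]
    refine Finset.sum_congr rfl fun i _ => ?_
    rw [hqval, hqval]
    have hiff : (∃ u ∈ D (σ i), sympForm m F ((g : Matrix _ _ F) *ᵥ v) u ≠ 0) ↔ ∃ u ∈ D i, sympForm m F v u ≠ 0 := by
      constructor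
      · rintro ⟨u, hu, huv⟩
        rw [← hσ i] at hu
        obtain ⟨u₀, hu₀, rfl⟩ := hu
        refine ⟨u₀, hu₀, ?_⟩
        have h3 : sympForm m F ((g : Matrix _ _ F) *ᵥ v) ((g : Matrix _ _ F) *ᵥ u₀) = sympForm m F v u₀ := hg v u₀
        rw [Matrix.toLin'_apply] at huv
        rw [← h3]
        exact huv
      · rintro ⟨u, hu, huv⟩
        refine ⟨(g : Matrix _ _ F) *ᵥ u, ?_, ?_⟩
        · rw [← hσ i]
          exact ⟨u, hu, rfl⟩
        · have h3 : sympForm m F ((g : Matrix _ _ F) *ᵥ v) ((g : Matrix _ _ F) *ᵥ u) = sympForm m F v u := hg v u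
          rw [h3]
          exact huv
    simp only [hiff]

/-- The list of `OutEq`, with numerical conditions. -/
def OutRef (H : Subgroup (GL (Fin m ⊕ Fin m) F)) : Prop :=
  (∃ W : Submodule F (Fin m ⊕ Fin m → F), W ≠ ⊥ ∧ IsTotallySingularFor (sympForm m F) W ∧ H = subspaceStabilizer W ⊓ spGL m F) ∨
  (∃ W : Submodule F (Fin m ⊕ Fin m → F), W ≠ ⊥ ∧ IsNondegenerateOn (sympForm m F) W ∧ Module.finrank F W < m ∧
    H = subspaceStabilizer W ⊓ spGL m F) ∨
  (∃ (t k : ℕ) (D : Fin t → Submodule F (Fin m ⊕ Fin m → F)), IsNondegenerateMDecomposition (sympForm m F) k D ∧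
    (k = 2 → 3 ≤ Fintype.card F) ∧ t * k = 2 * m ∧ Even k ∧ 0 < k ∧ 2 ≤ t ∧ H = decompositionStabilizer D ⊓ spGL m F) ∨
  (∃ D : Fin 2 → Submodule F (Fin m ⊕ Fin m → F), Odd (Fintype.card F) ∧ IsMDecomposition m D ∧
    (∀ i, IsTotallySingularFor (sympForm m F) (D i)) ∧ H = decompositionStabilizer D ⊓ spGL m F) ∨
  (∃ (F₀ : Subfield F) (r : ℕ) (P : GL (Fin m ⊕ Fin m) F) (ζ : F), r.Prime ∧ Fintype.card F = Nat.card F₀ ^ r ∧ ζ ≠ 0 ∧
    IsFormRationalStructure (sympForm m F) F₀ ζ P ∧ H = subfieldSubgroup F₀ P ⊓ spGL m F) ∨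
  (∃ (R : Subgroup (GL (Fin m ⊕ Fin m) F)) (p k : ℕ), IsSymplecticTypeGroup 2 R ∧
    ActsAbsolutelyIrreducibly (matrixSet R) ∧ R ≤ similarityGroup (sympForm m F) ∧ p.Prime ∧ Odd p ∧ Fintype.card F = p ∧
    Nat.card R = 2 ^ (1 + 2 * k) ∧ Nat.card (Subgroup.center R) = 2 ∧ IsOfMinusType k R ∧ H = subgroupNormalizer R ⊓ spGL m F ∧
    2 * m = 2 ^ k) ∨
  (∃ Q : (Fin m ⊕ Fin m → F) → F, ¬ Odd (Fintype.card F) ∧ IsNondegenerateQuadraticForm Q ∧
    (∀ u v, QuadraticMap.polar Q u v = sympForm m F u v) ∧ H = quadSimilarityGroup Q ⊓ spGL m F) ∨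
  (∃ (r : ℕ) (K : Subalgebra F (Matrix (Fin m ⊕ Fin m) (Fin m ⊕ Fin m) F)), r.Prime ∧ r ∣ m ∧ IsFieldSubalgebra r K ∧
    IsSelfAdjointFor (sympForm m F) K ∧ (∀ k ∈ K, ∀ v, sympForm m F (k *ᵥ v) v = 0) ∧ H = subalgebraNormalizer K ⊓ spGL m F) ∨
  (∃ K : Subalgebra F (Matrix (Fin m ⊕ Fin m) (Fin m ⊕ Fin m) F), Odd (Fintype.card F) ∧ IsFieldSubalgebra 2 K ∧
    IsAdjointClosedFor (sympForm m F) K ∧ ¬ IsSelfAdjointFor (sympForm m F) K ∧ H = subalgebraNormalizer K ⊓ spGL m F) ∨
  (∃ (n₁ n₂ : ℕ) (e : (Fin m ⊕ Fin m) ≃ Fin n₁ × Fin n₂) (P : GL (Fin m ⊕ Fin m) F)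
      (f₁ : (Fin n₁ → F) → (Fin n₁ → F) → F) (f₂ : (Fin n₂ → F) → (Fin n₂ → F) → F),
      Odd (Fintype.card F) ∧ 3 ≤ n₂ ∧ n₁ * n₂ = 2 * m ∧ Even n₁ ∧ 2 ≤ n₁ ∧ IsSymplecticForm f₁ ∧ IsSymmetricForm f₂ ∧
      IsTensorFormStructure id (sympForm m F) f₁ f₂ e P ∧ H = tensorProductSubgroup n₁ n₂ e P ⊓ spGL m F) ∨
  (∃ (k t : ℕ) (e : (Fin m ⊕ Fin m) ≃ (Fin t → Fin k)) (P : GL (Fin m ⊕ Fin m) F) (f₁ : (Fin k → F) → (Fin k → F) → F),
      Odd (Fintype.card F) ∧ Odd t ∧ 3 ≤ t ∧ ¬ (Fintype.card F = 3 ∧ k = 2) ∧ k ^ t = 2 * m ∧ Even k ∧ 2 ≤ k ∧ IsSymplecticForm f₁ ∧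
      IsTensorPowerFormStructure id (sympForm m F) f₁ e P ∧ H = tensorWreathSubgroup k t e P ⊓ spGL m F)

/-- **Maximal subgroups of the symplectic groups**, with numerical conditions. -/
theorem sp_rows (hm : 2 ≤ m) {H : Subgroup (GL (Fin m ⊕ Fin m) F)} (hH : IsMaximalIn (spGL m F) H) :
    OutRef H ∨ InSymplecticResidualClass H := by
  classical
  rcases sp_max_cases hm hH with
    (⟨W, h0, hts, hE⟩ | ⟨W, h0, hn, hd, hE⟩ | ⟨t, k, D, hD, hE⟩ | ⟨D, hq, hD, hts, hE⟩ |
    ⟨F₀, r, P, ζ, hr, hc, hζ, hR, hE⟩ | ⟨R, p, k, h1, h2, h3, h4, h5, h6, h7, h8, h9, hE, hcd⟩ |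
    ⟨Q, hq, hQ, hp, hE⟩ | ⟨r, K, hr, hK, h1, h2, hE⟩ | ⟨K, hq, hK, h1, h2, hE⟩ |
    ⟨n₁, n₂, e, P, f₁, f₂, hq, h3, h1, h2, hs, hE⟩ | ⟨k, t, e, P, f₁, hq, ht, h3, hne, h1, hs, hE⟩) | hres
  · exact Or.inl (Or.inl ⟨W, h0, hts, hE⟩)
  · exact Or.inl (Or.inr (Or.inl ⟨W, h0, hn, hd, hE⟩))
  · obtain ⟨h1, h2, h3, h4⟩ := decomp_numerics hD
    by_cases hk : k = 2 ∧ Fintype.card F = 2
    · obtain ⟨rfl, hq⟩ := hk
      obtain ⟨Q, hQ, hp, hle⟩ := planes_two hq hD
      have hodd : ¬ Odd (Fintype.card F) := by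
        rw [hq]
        decide
      refine Or.inl (Or.inr (Or.inr (Or.inr (Or.inr (Or.inr (Or.inr (Or.inl ⟨Q, hodd, hQ, hp, ?_⟩)))))))
      refine eq_inf_of_le' hH ?_ (not_le_quadSim_sp hm hodd hQ hp)
      refine le_trans ?_ hle
      rw [hE]
    · refine Or.inl (Or.inr (Or.inr (Or.inl ⟨t, k, D, hD, fun hk2 => ?_, h1, h2, h3, h4, hE⟩)))
      have h5 : 1 < Fintype.card F := Fintype.one_lt_card
      have h6 : Fintype.card F ≠ 2 := fun h6 => hk ⟨hk2, h6⟩
      omega
  · exact Or.inl (Or.inr (Or.inr (Or.inr (Or.inl ⟨D, hq, hD, hts, hE⟩))))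
  · exact Or.inl (Or.inr (Or.inr (Or.inr (Or.inr (Or.inl ⟨F₀, r, P, ζ, hr, hc, hζ, hR, hE⟩)))))
  · refine Or.inl (Or.inr (Or.inr (Or.inr (Or.inr (Or.inr (Or.inl ⟨R, p, k, h1, h2, h3, h4, h5, h6, h7, h8, h9, hE, ?_⟩))))))
    rw [← hcd, FormSp.card_index]
  · exact Or.inl (Or.inr (Or.inr (Or.inr (Or.inr (Or.inr (Or.inr (Or.inl ⟨Q, hq, hQ, hp, hE⟩)))))))
  · haveI : Nonempty (Fin m ⊕ Fin m) := ⟨.inl ⟨0, by omega⟩⟩
    have hd := two_mul_dvd_of_selfAdj isSymplecticForm_sympForm' hK h1 h2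
    rw [FormSp.card_index] at hd
    have hd' : r ∣ m := (Nat.mul_dvd_mul_iff_left (by norm_num)).mp hd
    exact Or.inl (Or.inr (Or.inr (Or.inr (Or.inr (Or.inr (Or.inr (Or.inr (Or.inl ⟨r, K, hr, hd', hK, h1, h2, hE⟩))))))))
  · exact Or.inl (Or.inr (Or.inr (Or.inr (Or.inr (Or.inr (Or.inr (Or.inr (Or.inr (Or.inl ⟨K, hq, hK, h1, h2, hE⟩)))))))))
  · have hcd : n₁ * n₂ = 2 * m := by
      have := Fintype.card_congr e
      rw [FormSp.card_index, Fintype.card_prod, Fintype.card_fin, Fintype.card_fin] at this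
      exact this.symm
    have hev : Even n₁ := by
      have := Forms.even_card_of_symplectic h1
      rwa [Fintype.card_fin] at this
    have hd : 2 ≤ n₁ := by
      obtain ⟨a, ha⟩ := hev
      have : n₁ ≠ 0 := by
        rintro rfl
        omega
      omega
    exact Or.inl (Or.inr (Or.inr (Or.inr (Or.inr (Or.inr (Or.inr (Or.inr (Or.inr (Or.inr (Or.inl
      ⟨n₁, n₂, e, P, f₁, f₂, hq, h3, hcd, hev, hd, h1, h2, hs, hE⟩))))))))))
  · have hcd : k ^ t = 2 * m := by
      have := Fintype.card_congr e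
      rw [FormSp.card_index, Fintype.card_fun, Fintype.card_fin, Fintype.card_fin] at this
      exact this.symm
    have hev : Even k := by
      have := Forms.even_card_of_symplectic h1
      rwa [Fintype.card_fin] at this
    have hd : 2 ≤ k := by
      obtain ⟨a, ha⟩ := hev
      have : k ≠ 0 := by
        rintro rfl
        rw [zero_pow (by omega)] at hcd
        omega
      omega
    exact Or.inl (Or.inr (Or.inr (Or.inr (Or.inr (Or.inr (Or.inr (Or.inr (Or.inr (Or.inr (Or.inr
      ⟨k, t, e, P, f₁, hq, ht, h3, hne, hcd, hev, hd, h1, hs, hE⟩))))))))))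
  · exact Or.inr hres

end Planes

end Cfsg.Agent.Lib.Classical.Asch.SpRows
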