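import Mathlib
import Cfsg.Agent.Lib.Classical.Asch.SpRows

/-!
# A symmetric factor of dimension three over the field with three elements

The similarities of a non-degenerate symmetric form on `F₃³` are monomial for a suitable basis, so that the tensor
product group of such a factor lies in a decomposition stabiliser.
-/

set_option autoImplicit false
set_option linter.style.haveILetI false
set_option linter.unusedSectionVars false

namespace Cfsg.Agent.Lib.Classical.Asch.SpThree

open scoped MatrixGroups Matrix Kronecker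
open Cfsg Cfsg.Geo Cfsg.Agent.Lib.Classical.Asch.Basic
open Cfsg.Agent.Lib.Classical.Asch

variable {ι : Type} [Fintype ι] [DecidableEq ι] {F : Type*} [Field F]

/-- Pure tensors in coordinates. -/
def kr {d k : ℕ} (e : ι ≃ Fin d × Fin k) (z : Fin d → F) (y : Fin k → F) : ι → F := fun i => z (e i).1 * y (e i).2

theorem kr_smul_right {d k : ℕ} (e : ι ≃ Fin d × Fin k) (z : Fin d → F) (y : Fin k → F) (s : F) :
    kr e z (s • y) = kr e (s • z) y := by
  funext i
  simp [kr]
  ring

theorem bilinear_expand {κ : Type} [Fintype κ] [DecidableEq κ] {f : (κ → F) → (κ → F) → F} (h : IsBilinearForm f) (u v : κ → F) :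
    f u v = ∑ a, ∑ b, u a * gramMatrix f a b * v b := by
  rw [(Forms.isSesq_of_bilinear h).eq_sesqM]
  simp only [Forms.sesqM, dotProduct, Matrix.mulVec, Forms.gram, Matrix.of_apply, Finset.mul_sum, gramMatrix]
  refine Finset.sum_congr rfl fun a _ => Finset.sum_congr rfl fun b _ => ?_
  simp [mul_assoc]

theorem form_kr {d k : ℕ} {f₁ : (Fin d → F) → (Fin d → F) → F} {f₂ : (Fin k → F) → (Fin k → F) → F}
    (h₁ : IsBilinearForm f₁) (h₂ : IsBilinearForm f₂) (z z' : Fin d → F) (y y' : Fin k → F) :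
    formOfGram id (gramMatrix f₁ ⊗ₖ gramMatrix f₂) (fun p => z p.1 * y p.2) (fun p => z' p.1 * y' p.2) = f₁ z z' * f₂ y y' := by
  rw [bilinear_expand h₁, bilinear_expand h₂]
  unfold formOfGram
  simp only [Fintype.sum_prod_type, Matrix.kroneckerMap_apply, id]
  have hR : (∑ a, ∑ b, z a * gramMatrix f₁ a b * z' b) * (∑ c, ∑ d, y c * gramMatrix f₂ c d * y' d) =
      ∑ a, ∑ c, ∑ b, ∑ d, (z a * gramMatrix f₁ a b * z' b) * (y c * gramMatrix f₂ c d * y' d) := by
    rw [Finset.sum_mul]
    refine Finset.sum_congr rfl fun a _ => ?_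
    rw [Finset.mul_sum]
    refine Finset.sum_congr rfl fun c _ => ?_
    rw [Finset.sum_mul_sum]
  rw [hR]
  refine Finset.sum_congr rfl fun a _ => Finset.sum_congr rfl fun c _ => Finset.sum_congr rfl fun b _ => Finset.sum_congr rfl fun d _ => ?_
  ring

theorem tensor_action {d k : ℕ} {e : ι ≃ Fin d × Fin k} {X : Matrix ι ι F} {a : Matrix (Fin d) (Fin d) F}
    {b : Matrix (Fin k) (Fin k) F} (hab : ∀ i j, X i j = a (e i).1 (e j).1 * b (e i).2 (e j).2) (z : Fin d → F) (y : Fin k → F) :
    X *ᵥ kr e z y = kr e (a *ᵥ z) (b *ᵥ y) := by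
  funext i
  change ∑ j, X i j * (z (e j).1 * y (e j).2) = _
  simp only [hab]
  have h3 := Equiv.sum_comp e (fun p : Fin d × Fin k =>
      (a (e i).1 p.1 * b (e i).2 p.2) * (z p.1 * y p.2))
  rw [h3, Fintype.sum_prod_type]
  simp only [kr, Matrix.mulVec, dotProduct]
  rw [Finset.sum_mul_sum]
  refine Finset.sum_congr rfl fun c _ => Finset.sum_congr rfl fun c' _ => ?_
  ring

theorem conj_mulVec_P {g P : GL ι F} (w : ι → F) :
    (g : Matrix ι ι F) *ᵥ ((P : Matrix ι ι F) *ᵥ w) = (P : Matrix ι ι F) *ᵥ (((P⁻¹ * g * P : GL ι F) : Matrix ι ι F) *ᵥ w) := by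
  rw [Matrix.mulVec_mulVec, Matrix.mulVec_mulVec, ← Units.val_mul, ← Units.val_mul]
  congr 2
  group

section Three

variable [Fintype F]

theorem three_eq_zero (hq : Fintype.card F = 3) : (3 : F) = 0 := by
  have h := FiniteField.cast_card_eq_zero F
  rw [hq] at h
  exact_mod_cast h

theorem val_three (hq : Fintype.card F = 3) (x : F) : x = 0 ∨ x = 1 ∨ x = -1 := by
  have h3 := FiniteField.pow_card x
  rw [hq] at h3
  by_cases hx : x = 0
  · exact Or.inl hx
  · right
    have h4 : x * ((x - 1) * (x + 1)) = 0 := by linear_combination h3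
    rcases mul_eq_zero.mp ((mul_eq_zero.mp h4).resolve_left hx) with h | h
    · exact Or.inl (sub_eq_zero.mp h)
    · exact Or.inr (eq_neg_of_add_eq_zero_left h)

theorem sq_three (hq : Fintype.card F = 3) {x : F} (hx : x ≠ 0) : x ^ 2 = 1 := by
  rcases val_three hq x with h | h | h
  · exact absurd h hx
  · rw [h]; ring
  · rw [h]; ring

theorem two_ne_zero_three (hq : Fintype.card F = 3) : (2 : F) ≠ 0 := by
  intro h
  have h3 := three_eq_zero hq
  have : (1 : F) = 0 := by linear_combination h3 - h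
  exact one_ne_zero this

/-- Bases of a symmetric form over the field with three elements. -/
theorem exists_ortho_triple (hq : Fintype.card F = 3) {f₂ : (Fin 3 → F) → (Fin 3 → F) → F} (hf : IsSymmetricForm f₂) :
    ∃ (c : F) (x : Fin 3 → Fin 3 → F), c ≠ 0 ∧ ∀ i j, f₂ (x i) (x j) = if i = j then c else 0 := by
  classical
  have h3 := three_eq_zero hq
  have h2 := two_ne_zero_three hq
  letI : Invertible (2 : F) := invertibleOfNonzero h2
  let B : LinearMap.BilinForm F (Fin 3 → F) :=
    LinearMap.mk₂ F f₂ hf.bilinear.add_left (fun c x v => by simpa using hf.bilinear.smul_left c x v)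
      hf.bilinear.add_right (fun c v x => by simpa using hf.bilinear.smul_right c v x)
  have hB : ∀ u v, B u v = f₂ u v := fun u v => rfl
  have hsym : LinearMap.IsSymm B := ⟨fun u v => by simpa [hB] using hf.symm u v⟩
  obtain ⟨v, hv⟩ := LinearMap.BilinForm.exists_orthogonal_basis (B := B) hsym
  have hfin : Module.finrank F (Fin 3 → F) = 3 := Module.finrank_fin_fun F
  let w : Module.Basis (Fin 3) F (Fin 3 → F) := v.reindex (finCongr hfin)
  have hwv : ∀ i, w i = v ((finCongr hfin).symm i) := fun i => by simp [w]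
  have horth : ∀ i j, i ≠ j → f₂ (w i) (w j) = 0 := by
    intro i j hij
    rw [hwv, hwv]
    exact hv (fun h => hij ((finCongr hfin).symm.injective h))
  have hne : ∀ i, f₂ (w i) (w i) ≠ 0 := by
    intro i h0
    obtain ⟨-, y, hy⟩ := hf.nondegenerate (w i) (w.ne_zero i)
    apply hy
    have h4 : y ∈ Submodule.span F (Set.range w) := by
      rw [w.span_eq]
      trivial
    obtain ⟨c, rfl⟩ := (Submodule.mem_span_range_iff_exists_fun F).mp h4
    have hsum : ∀ s : Finset (Fin 3), f₂ (w i) (∑ j ∈ s, c j • w j) = 0 := by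
      intro s
      induction s using Finset.induction_on with
      | empty =>
        have := hf.bilinear.smul_right 0 (w i) (w i)
        simpa using this
      | insert a s ha ih =>
        rw [Finset.sum_insert ha, hf.bilinear.add_right, ih, hf.bilinear.smul_right]
        by_cases hia : i = a
        · subst hia
          rw [h0]
          ring
        · rw [horth i a hia]
          ring
    exact hsum _
  have hsign : ∀ a b : F, a ≠ 0 → b ≠ 0 → a ≠ b → b = -a := by
    intro a b ha hb hab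
    rcases val_three hq a with h | h | h
    · exact absurd h ha
    · rcases val_three hq b with h' | h' | h'
      · exact absurd h' hb
      · exact absurd (h.trans h'.symm) hab
      · rw [h, h']
    · rcases val_three hq b with h' | h' | h'
      · exact absurd h' hb
      · rw [h, h']
        ring
      · exact absurd (h.trans h'.symm) hab
  -- the transformation
  have hT : ∀ (a b u : Fin 3 → F) (d : F), d ≠ 0 → f₂ a a = d → f₂ b b = d → f₂ u u = -d → f₂ a b = 0 → f₂ a u = 0 → f₂ b u = 0 →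
      ∃ (c : F) (x : Fin 3 → Fin 3 → F), c ≠ 0 ∧ ∀ i j, f₂ (x i) (x j) = if i = j then c else 0 := by
    intro a b u d hd haa hbb huu hab hau hbu
    have hba : f₂ b a = 0 := by rw [hf.symm]; exact hab
    have hua : f₂ u a = 0 := by rw [hf.symm]; exact hau
    have hub : f₂ u b = 0 := by rw [hf.symm]; exact hbu
    have hnL : ∀ x y : Fin 3 → F, f₂ (-x) y = - f₂ x y := by
      intro x y
      have := hf.bilinear.smul_left (-1) x y
      simpa using this
    have hnR : ∀ x y : Fin 3 → F, f₂ x (-y) = - f₂ x y := by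
      intro x y
      have := hf.bilinear.smul_right (-1) x y
      simpa using this
    refine ⟨-d, ![a + b, a - b, u], neg_ne_zero.mpr hd, fun i j => ?_⟩
    fin_cases i <;> fin_cases j <;>
      simp [sub_eq_add_neg, hnL, hnR, hf.bilinear.add_left, hf.bilinear.add_right,
        haa, hbb, huu, hab, hau, hbu, hba, hua, hub]
    · linear_combination d * h3
    · linear_combination d * h3
  by_cases h01 : f₂ (w 0) (w 0) = f₂ (w 1) (w 1)
  · by_cases h02 : f₂ (w 2) (w 2) = f₂ (w 0) (w 0)
    · refine ⟨f₂ (w 0) (w 0), fun i => w i, hne 0, fun i j => ?_⟩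
      by_cases hij : i = j
      · subst hij
        rw [if_pos rfl]
        fin_cases i
        · rfl
        · exact h01.symm
        · exact h02
      · rw [if_neg hij]
        exact horth i j hij
    · exact hT (w 0) (w 1) (w 2) _ (hne 0) rfl h01.symm (hsign _ _ (hne 0) (hne 2) (Ne.symm h02))
        (horth _ _ (by decide)) (horth _ _ (by decide)) (horth _ _ (by decide))
  · have h1 := hsign _ _ (hne 0) (hne 1) h01
    by_cases h02 : f₂ (w 2) (w 2) = f₂ (w 0) (w 0)
    · exact hT (w 0) (w 2) (w 1) _ (hne 0) rfl h02 h1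
        (horth _ _ (by decide)) (horth _ _ (by decide)) (horth _ _ (by decide))
    · have h4 := hsign _ _ (hne 0) (hne 2) (Ne.symm h02)
      have h5 : f₂ (w 2) (w 2) = f₂ (w 1) (w 1) := by rw [h4, h1]
      have h6 : f₂ (w 0) (w 0) = -f₂ (w 1) (w 1) := by rw [h1]; ring
      exact hT (w 1) (w 2) (w 0) _ (hne 1) rfl h5 h6
        (horth _ _ (by decide)) (horth _ _ (by decide)) (horth _ _ (by decide))

/-- The multiplier of a similarity of a form in dimension three over the field with three elements is one. -/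
theorem multiplier_three (hq : Fintype.card F = 3) {f₂ : (Fin 3 → F) → (Fin 3 → F) → F} (hf : IsSymmetricForm f₂)
    (b : GL (Fin 3) F) {μ : F} (hb : ∀ y y', f₂ ((b : Matrix (Fin 3) (Fin 3) F) *ᵥ y) ((b : Matrix (Fin 3) (Fin 3) F) *ᵥ y') = μ * f₂ y y') :
    μ = 1 := by
  have hS := Forms.isSesq_of_bilinear hf.bilinear
  have hU := Forms.isUnit_gram (σ := RingHom.id F) Function.surjective_id hS hf.nondegenerate
  have hG : (b : Matrix (Fin 3) (Fin 3) F)ᵀ * Forms.gram f₂ * (b : Matrix (Fin 3) (Fin 3) F).map (RingHom.id F) = μ • Forms.gram f₂ := by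
    apply Forms.eq_of_sesqM_eq (σ := RingHom.id F) Function.surjective_id
    intro u v
    rw [← Forms.sesqM_mulVec, ← hS.eq_sesqM, hb, hS.eq_sesqM]
    simp [Forms.sesqM, Matrix.smul_mulVec, smul_dotProduct]
  have hd := congrArg Matrix.det hG
  have hmap : (b : Matrix (Fin 3) (Fin 3) F).map (RingHom.id F) = (b : Matrix (Fin 3) (Fin 3) F) := by
    ext i j
    simp
  rw [hmap, Matrix.det_mul, Matrix.det_mul, Matrix.det_transpose, Matrix.det_smul, Fintype.card_fin] at hd
  have hdu : (Forms.gram f₂).det ≠ 0 := by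
    have := (Matrix.isUnit_iff_isUnit_det _).mp hU
    exact this.ne_zero
  have hdb : (b : Matrix (Fin 3) (Fin 3) F).det ≠ 0 := by
    have := (Matrix.isUnit_iff_isUnit_det _).mp b.isUnit
    exact this.ne_zero
  have h1 : (b : Matrix (Fin 3) (Fin 3) F).det ^ 2 = μ ^ 3 := by
    apply mul_right_cancel₀ hdu
    rw [← hd]
    ring
  rw [sq_three hq hdb] at h1
  have h2 := FiniteField.pow_card μ
  rw [hq] at h2
  rw [h2] at h1
  exact h1.symm

/-- Vectors of the norm of a member of an orthogonal basis are, up to a scalar, members of the basis. -/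
theorem eq_smul_of_norm (hq : Fintype.card F = 3) {f₂ : (Fin 3 → F) → (Fin 3 → F) → F} (hf : IsSymmetricForm f₂)
    {c : F} {x : Fin 3 → Fin 3 → F} (hc : c ≠ 0) (hx : ∀ i j, f₂ (x i) (x j) = if i = j then c else 0)
    {w : Fin 3 → F} (hw : f₂ w w = c) : ∃ (j : Fin 3) (s : F), s ≠ 0 ∧ w = s • x j := by
  classical
  have h3 := three_eq_zero hq
  have hli : LinearIndependent F x := by
    rw [Fintype.linearIndependent_iff]
    intro β hβ i
    have h1 : f₂ (∑ j, β j • x j) (x i) = β i * c := by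
      rw [Fin.sum_univ_three, hf.bilinear.add_left, hf.bilinear.add_left, hf.bilinear.smul_left, hf.bilinear.smul_left,
        hf.bilinear.smul_left, hx, hx, hx]
      fin_cases i <;> simp
    rw [hβ] at h1
    have h2 : f₂ (0 : Fin 3 → F) (x i) = 0 := by
      have := hf.bilinear.smul_left 0 (x i) (x i)
      simpa using this
    rw [h2] at h1
    exact (mul_eq_zero.mp h1.symm).resolve_right hc
  have htop : Submodule.span F (Set.range x) = ⊤ :=
    hli.span_eq_top_of_card_eq_finrank (by simp)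
  have hw' : w ∈ Submodule.span F (Set.range x) := by
    rw [htop]
    trivial
  obtain ⟨β, rfl⟩ := (Submodule.mem_span_range_iff_exists_fun F).mp hw'
  have hnorm : (β 0 ^ 2 + β 1 ^ 2 + β 2 ^ 2) * c = c := by
    have h5 : f₂ (∑ i, β i • x i) (∑ i, β i • x i) = (β 0 ^ 2 + β 1 ^ 2 + β 2 ^ 2) * c := by
      rw [Fin.sum_univ_three]
      simp only [hf.bilinear.add_left, hf.bilinear.add_right, hf.bilinear.smul_left, hf.bilinear.smul_right, hx]
      simp
      ring
    rw [← h5, hw]
  have hsum : β 0 ^ 2 + β 1 ^ 2 + β 2 ^ 2 = 1 := by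
    apply mul_right_cancel₀ hc
    rw [hnorm, one_mul]
  have hsq : ∀ i, β i ^ 2 = if β i = 0 then 0 else 1 := by
    intro i
    by_cases h : β i = 0
    · rw [if_pos h, h]
      ring
    · rw [if_neg h]
      exact sq_three hq h
  rw [hsq, hsq, hsq] at hsum
  rw [Fin.sum_univ_three]
  by_cases h0 : β 0 = 0 <;> by_cases h1 : β 1 = 0 <;> by_cases h2 : β 2 = 0
  · exfalso
    simp [h0, h1, h2] at hsum
  · exact ⟨2, β 2, h2, by simp [h0, h1]⟩
  · exact ⟨1, β 1, h1, by simp [h0, h2]⟩
  · exfalso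
    simp [h0, h1, h2] at hsum
  · exact ⟨0, β 0, h0, by simp [h1, h2]⟩
  · exfalso
    simp [h0, h1, h2] at hsum
  · exfalso
    simp [h0, h1, h2] at hsum
  · exfalso
    simp [h0, h1, h2] at hsum
    norm_num at hsum
    have : (1 : F) = 0 := by linear_combination (-1 : F) * hsum + h3
    exact one_ne_zero this

/-- Similarities permute the lines of an orthogonal basis. -/
theorem monomial_of_sim (hq : Fintype.card F = 3) {f₂ : (Fin 3 → F) → (Fin 3 → F) → F} (hf : IsSymmetricForm f₂)
    {c : F} {x : Fin 3 → Fin 3 → F} (hc : c ≠ 0) (hx : ∀ i j, f₂ (x i) (x j) = if i = j then c else 0)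
    (b : GL (Fin 3) F) {μ : F} (hb : ∀ y y', f₂ ((b : Matrix (Fin 3) (Fin 3) F) *ᵥ y) ((b : Matrix (Fin 3) (Fin 3) F) *ᵥ y') = μ * f₂ y y') :
    ∃ (π : Equiv.Perm (Fin 3)) (s : Fin 3 → F), (∀ i, s i ≠ 0) ∧ ∀ i, (b : Matrix (Fin 3) (Fin 3) F) *ᵥ x i = s i • x (π i) := by
  classical
  have hμ := multiplier_three hq hf b hb
  subst hμ
  have h1 : ∀ i, ∃ (j : Fin 3) (s : F), s ≠ 0 ∧ (b : Matrix (Fin 3) (Fin 3) F) *ᵥ x i = s • x j := by
    intro i
    refine eq_smul_of_norm hq hf hc hx ?_
    rw [hb, hx, if_pos rfl, one_mul]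
  choose π s hs hπ using h1
  have hinj : Function.Injective π := by
    intro i i' hii
    by_contra hne
    have h2 := hb (x i) (x i')
    rw [hx, if_neg hne, mul_zero, hπ, hπ, hii, hf.bilinear.smul_left, hf.bilinear.smul_right, hx, if_pos rfl] at h2
    exact mul_ne_zero (hs i) (mul_ne_zero (hs i') hc) h2
  exact ⟨Equiv.ofBijective π (Finite.injective_iff_bijective.mp hinj), s, hs, hπ⟩

/-- Orthogonal non-degenerate subspaces are independent. -/
theorem indep_of_orth {t : ℕ} {D : Fin t → Submodule F (ι → F)} {f : (ι → F) → (ι → F) → F} (hf : IsBilinearForm f)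
    (hnd : ∀ i, IsNondegenerateOn f (D i)) (horth : ∀ i j, i ≠ j → AreOrthogonalFor f (D i) (D j)) : iSupIndep D := by
  intro i
  rw [Submodule.disjoint_def]
  intro v hv hv'
  by_contra h0
  obtain ⟨⟨x, hx, hxv⟩, -⟩ := hnd i v hv h0
  apply hxv
  let S : Submodule F (ι → F) :=
    { carrier := {w | f x w = 0}
      add_mem' := fun {a b} ha hb => by
        change f x (a + b) = 0
        rw [hf.add_right, show f x a = 0 from ha, show f x b = 0 from hb, add_zero]
      zero_mem' := by
        change f x 0 = 0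
        have := hf.smul_right 0 x 0
        simpa using this
      smul_mem' := fun c a ha => by
        change f x (c • a) = 0
        rw [hf.smul_right, show f x a = 0 from ha, mul_zero] }
  have hle : (⨆ j, ⨆ (_ : j ≠ i), D j) ≤ S := by
    refine iSup₂_le fun j hj => ?_
    intro w hw
    exact horth i j (Ne.symm hj) x hx w hw
  exact hle hv'

/-- **The tensor product with a symmetric factor of dimension three over the field with three elements**. -/
theorem tensor_three (hq : Fintype.card F = 3) {d : ℕ} (hd : 0 < d) {f : (ι → F) → (ι → F) → F} (hf : IsBilinearForm f)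
    {e : ι ≃ Fin d × Fin 3} {P : GL ι F} {f₁ : (Fin d → F) → (Fin d → F) → F} {f₂ : (Fin 3 → F) → (Fin 3 → F) → F}
    (h1b : IsBilinearForm f₁) (h1n : IsNondegenerateForm f₁) (h2 : IsSymmetricForm f₂) (hs : IsTensorFormStructure id f f₁ f₂ e P) :
    ∃ D : Fin 3 → Submodule F (ι → F), IsNondegenerateMDecomposition f d D ∧
      ∀ g ∈ tensorProductSubgroup d 3 e P, (∀ u v, f ((g : Matrix ι ι F) *ᵥ u) ((g : Matrix ι ι F) *ᵥ v) = f u v) →
        g ∈ decompositionStabilizer D := by
  classical
  obtain ⟨c₀, hc₀, heq⟩ := hs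
  obtain ⟨c, x, hc, hx⟩ := exists_ortho_triple hq h2
  have R1 : ∀ z z' y y', f ((P : Matrix ι ι F) *ᵥ kr e z y) ((P : Matrix ι ι F) *ᵥ kr e z' y') = c₀ * (f₁ z z' * f₂ y y') := by
    intro z z' y y'
    have h3 := heq (fun p => z p.1 * y p.2) (fun p => z' p.1 * y' p.2)
    rw [form_kr h1b h2.bilinear] at h3
    exact h3
  let Li : Fin 3 → (Fin d → F) →ₗ[F] (ι → F) := fun i =>
    { toFun := fun z => (P : Matrix ι ι F) *ᵥ kr e z (x i)
      map_add' := fun a b => by
        rw [← Matrix.mulVec_add]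
        congr 1
        funext k
        simp [kr, add_mul]
      map_smul' := fun a b => by
        rw [RingHom.id_apply, ← Matrix.mulVec_smul]
        congr 1
        funext k
        simp [kr, mul_assoc] }
  have hLi : ∀ i z, Li i z = (P : Matrix ι ι F) *ᵥ kr e z (x i) := fun i z => rfl
  have hR : ∀ i j z z', f (Li i z) (Li j z') = c₀ * (f₁ z z' * (if i = j then c else 0)) := by
    intro i j z z'
    rw [hLi, hLi, R1, hx]
  have hf0 : ∀ w, f 0 w = 0 := by
    intro w
    have := hf.smul_left 0 0 w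
    simpa using this
  have hinj : ∀ i, Function.Injective (Li i) := by
    intro i
    rw [← LinearMap.ker_eq_bot, LinearMap.ker_eq_bot']
    intro z hz
    by_contra h0
    obtain ⟨-, z', hz'⟩ := h1n z h0
    have h3 := hR i i z z'
    rw [hz, hf0, if_pos rfl] at h3
    exact mul_ne_zero hc₀ (mul_ne_zero hz' hc) h3.symm
  let D : Fin 3 → Submodule F (ι → F) := fun i => LinearMap.range (Li i)
  have hnd : ∀ i, IsNondegenerateOn f (D i) := by
    rintro i _ ⟨z, rfl⟩ hz
    have hz0 : z ≠ 0 := by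
      rintro rfl
      exact hz (map_zero _)
    obtain ⟨⟨z', hz'⟩, ⟨z'', hz''⟩⟩ := h1n z hz0
    refine ⟨⟨Li i z', ⟨z', rfl⟩, ?_⟩, ⟨Li i z'', ⟨z'', rfl⟩, ?_⟩⟩
    · rw [hR, if_pos rfl]
      exact mul_ne_zero hc₀ (mul_ne_zero hz' hc)
    · rw [hR, if_pos rfl]
      exact mul_ne_zero hc₀ (mul_ne_zero hz'' hc)
  have horth : ∀ i j, i ≠ j → AreOrthogonalFor f (D i) (D j) := by
    rintro i j hij _ ⟨z, rfl⟩ _ ⟨z', rfl⟩
    rw [hR, if_neg hij]
    simp
  -- spanning
  have hxspan : Submodule.span F (Set.range x) = ⊤ := by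
    have hli : LinearIndependent F x := by
      rw [Fintype.linearIndependent_iff]
      intro β hβ i
      have h1 : f₂ (∑ j, β j • x j) (x i) = β i * c := by
        rw [Fin.sum_univ_three, h2.bilinear.add_left, h2.bilinear.add_left, h2.bilinear.smul_left, h2.bilinear.smul_left,
          h2.bilinear.smul_left, hx, hx, hx]
        fin_cases i <;> simp
      rw [hβ] at h1
      have h3 : f₂ (0 : Fin 3 → F) (x i) = 0 := by
        have := h2.bilinear.smul_left 0 (x i) (x i)
        simpa using this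
      rw [h3] at h1
      exact (mul_eq_zero.mp h1.symm).resolve_right hc
    exact hli.span_eq_top_of_card_eq_finrank (by simp)
  have htop : iSup D = ⊤ := by
    rw [eq_top_iff]
    -- pure tensors
    have hpure : ∀ (z : Fin d → F) (y : Fin 3 → F), (P : Matrix ι ι F) *ᵥ kr e z y ∈ iSup D := by
      intro z y
      let K : (Fin 3 → F) →ₗ[F] (ι → F) :=
        { toFun := fun y => (P : Matrix ι ι F) *ᵥ kr e z y
          map_add' := fun a b => by
            rw [← Matrix.mulVec_add]
            congr 1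
            funext k
            simp [kr, mul_add]
          map_smul' := fun a b => by
            rw [RingHom.id_apply, ← Matrix.mulVec_smul]
            congr 1
            funext k
            simp [kr]
            ring }
      have hle : Submodule.span F (Set.range x) ≤ (iSup D).comap K := by
        rw [Submodule.span_le]
        rintro _ ⟨i, rfl⟩
        exact (le_iSup D i) ⟨z, rfl⟩
      rw [hxspan] at hle
      exact hle (Submodule.mem_top (x := y))
    intro u _
    have hu : u = (P : Matrix ι ι F) *ᵥ (((P⁻¹ : GL ι F) : Matrix ι ι F) *ᵥ u) := (Basic.mulVec_inv_mulVec P u).symm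
    rw [hu]
    generalize ((P⁻¹ : GL ι F) : Matrix ι ι F) *ᵥ u = v
    rw [Forms.sum_single_eq v, Matrix.mulVec_sum]
    refine Submodule.sum_mem _ fun k _ => ?_
    rw [Matrix.mulVec_smul]
    refine Submodule.smul_mem _ _ ?_
    have h3 : (Pi.single k 1 : ι → F) = kr e (Pi.single (e k).1 1) (Pi.single (e k).2 1) := by
      funext l
      by_cases hl : l = k
      · subst hl
        simp [kr]
      · have h4 : ¬ ((e l).1 = (e k).1 ∧ (e l).2 = (e k).2) := by
          rintro ⟨h5, h6⟩
          exact hl (e.injective (Prod.ext h5 h6))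
        simp only [kr, Pi.single_apply, hl, if_false]
        by_cases h5 : (e l).1 = (e k).1
        · have h6 : (e l).2 ≠ (e k).2 := fun h6 => h4 ⟨h5, h6⟩
          simp [h6]
        · simp [h5]
    rw [h3]
    exact hpure _ _
  have hdecomp : IsMDecomposition d D :=
    { two_le := by norm_num
      pos := hd
      finrank_eq := fun i => by
        change Module.finrank F (LinearMap.range (Li i)) = d
        rw [LinearMap.finrank_range_of_inj (hinj i), Module.finrank_fin_fun]
      indep := indep_of_orth hf hnd horth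
      iSup_eq_top := htop }
  refine ⟨D, ⟨hdecomp, hnd, horth⟩, fun g hg hiso => ?_⟩
  obtain ⟨a, b, hab⟩ := Main.mem_tensorProductSubgroup_iff.mp hg
  have hgP : ∀ z y, (g : Matrix ι ι F) *ᵥ ((P : Matrix ι ι F) *ᵥ kr e z y) =
      (P : Matrix ι ι F) *ᵥ kr e ((a : Matrix (Fin d) (Fin d) F) *ᵥ z) ((b : Matrix (Fin 3) (Fin 3) F) *ᵥ y) := by
    intro z y
    rw [conj_mulVec_P, tensor_action hab]
  -- the second factor is a similarity
  haveI : Nonempty (Fin d) := ⟨⟨0, hd⟩⟩
  obtain ⟨z₀, hz₀⟩ : ∃ z₀ : Fin d → F, z₀ ≠ 0 := by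
    refine ⟨Pi.single ⟨0, hd⟩ 1, fun h => ?_⟩
    have := congrFun h ⟨0, hd⟩
    simp at this
  obtain ⟨-, z₀', hz₀'⟩ := h1n z₀ hz₀
  have hrel : ∀ y y', f₁ ((a : Matrix (Fin d) (Fin d) F) *ᵥ z₀) ((a : Matrix (Fin d) (Fin d) F) *ᵥ z₀') *
      f₂ ((b : Matrix (Fin 3) (Fin 3) F) *ᵥ y) ((b : Matrix (Fin 3) (Fin 3) F) *ᵥ y') = f₁ z₀ z₀' * f₂ y y' := by
    intro y y'
    have h3 := hiso ((P : Matrix ι ι F) *ᵥ kr e z₀ y) ((P : Matrix ι ι F) *ᵥ kr e z₀' y')
    rw [hgP, hgP, R1, R1] at h3
    exact mul_left_cancel₀ hc₀ h3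
  have hne : f₁ ((a : Matrix (Fin d) (Fin d) F) *ᵥ z₀) ((a : Matrix (Fin d) (Fin d) F) *ᵥ z₀') ≠ 0 := by
    intro h0
    have h3 := hrel (x 0) (x 0)
    rw [h0, zero_mul, hx, if_pos rfl] at h3
    exact mul_ne_zero hz₀' hc h3.symm
  obtain ⟨π, s, hs, hπ⟩ := monomial_of_sim hq h2 hc hx b (μ := f₁ z₀ z₀' / f₁ ((a : Matrix (Fin d) (Fin d) F) *ᵥ z₀) ((a : Matrix (Fin d) (Fin d) F) *ᵥ z₀'))
    (fun y y' => by
      rw [div_mul_eq_mul_div, ← hrel y y']
      field_simp)
  have hgL : ∀ i z, (g : Matrix ι ι F) *ᵥ Li i z = Li (π i) (s i • ((a : Matrix (Fin d) (Fin d) F) *ᵥ z)) := by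
    intro i z
    rw [hLi, hLi, hgP, hπ, kr_smul_right]
  refine ⟨π, fun i => ?_⟩
  ext w
  constructor
  · rintro ⟨_, ⟨z, rfl⟩, rfl⟩
    exact ⟨s i • ((a : Matrix (Fin d) (Fin d) F) *ᵥ z), by rw [Matrix.toLin'_apply, hgL]⟩
  · rintro ⟨z', rfl⟩
    refine ⟨Li i ((s i)⁻¹ • (((a⁻¹ : GL (Fin d) F) : Matrix (Fin d) (Fin d) F) *ᵥ z')), ⟨_, rfl⟩, ?_⟩
    rw [Matrix.toLin'_apply, hgL, Matrix.mulVec_smul, Basic.mulVec_inv_mulVec, smul_smul, mul_inv_cancel₀ (hs i), one_smul]

/-- The maximal subgroup case of `tensor_three`. -/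
theorem tensor_three_outcome {m : ℕ} (hm : 2 ≤ m) {H : Subgroup (GL (Fin m ⊕ Fin m) F)} (hH : IsMaximalIn (spGL m F) H)
    (hq : Fintype.card F = 3) {d : ℕ} (hd : 0 < d)
    {e : (Fin m ⊕ Fin m) ≃ Fin d × Fin 3} {P : GL (Fin m ⊕ Fin m) F} {f₁ : (Fin d → F) → (Fin d → F) → F} {f₂ : (Fin 3 → F) → (Fin 3 → F) → F}
    (h1 : IsSymplecticForm f₁) (h2 : IsSymmetricForm f₂) (hs : IsTensorFormStructure id (sympForm m F) f₁ f₂ e P)
    (hE : H = tensorProductSubgroup d 3 e P ⊓ spGL m F) :
    ∃ D : Fin 3 → Submodule F (Fin m ⊕ Fin m → F), IsNondegenerateMDecomposition (sympForm m F) d D ∧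
      H = decompositionStabilizer D ⊓ spGL m F := by
  obtain ⟨D, hD, hle⟩ := tensor_three hq hd NotSp.isSymplecticForm_sympForm'.bilinear h1.bilinear h1.nondegenerate h2 hs
  refine ⟨D, hD, NotSp.eq_inf_of_le' hH ?_ (NotSp.not_le_decompositionStabilizer NotSp.trans1_spGL (by simp; omega) hD.decomp)⟩
  intro g hg
  rw [hE] at hg
  exact hle g hg.1 fun u v => hg.2 u v

end Three

end Cfsg.Agent.Lib.Classical.Asch.SpThree
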