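import Mathlib
import Cfsg.Agent.Lib.Classical.Asch.FormSU3
import Cfsg.Agent.Lib.Classical.Asch.SpThree
import Cfsg.Agent.Lib.Classical.Orth.Models
import Cfsg.Agent.Lib.Classical.Witt.Hyp

/-!
# Aschbacher's theorem for the orthogonal groups in odd dimension: generic facts
-/

set_option autoImplicit false
set_option linter.style.haveILetI false
set_option linter.unusedSectionVars false

namespace Cfsg.Agent.Lib.Classical.Asch.FormO

open scoped MatrixGroups Matrix Kronecker
open Cfsg Cfsg.Geo Cfsg.Agent.Lib.Classical.Asch.Basic Cfsg.Agent.Lib.Classical.Asch.Forms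
open Cfsg.Agent.Lib.Classical.Asch.Adj Cfsg.Agent.Lib.Classical.Asch.FormDich
open Cfsg.Agent.Lib.Classical.Asch.FormTensor Cfsg.Agent.Lib.Classical.Asch.FormSim
open Cfsg.Agent.Lib.Classical.Asch.FormComm Cfsg.Agent.Lib.Classical.Asch.Gram
open Cfsg.Agent.Lib.Classical.Asch.FormPerp Cfsg.Agent.Lib.Classical.Asch.FormField
open Cfsg.Agent.Lib.Classical.Asch.FormSympType
open Cfsg.Agent.Lib.Classical.Asch.FormReal Cfsg.Agent.Lib.Classical.Asch.FormDescent
open Cfsg.Agent.Lib.Classical.Asch.SympType Cfsg.Agent.Lib.Classical.Asch.SympStruct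
open Cfsg.Agent.Lib.Classical.Asch.Dichotomy Cfsg.Agent.Lib.Classical.Asch.Subfield
open Cfsg.Agent.Lib.Classical.Asch.CaseA Cfsg.Agent.Lib.Classical.Asch.Main
open Cfsg.Agent.Lib.Classical.Asch.PureTensor Cfsg.Agent.Lib.Classical.Asch.FormSU2
open Cfsg.Agent.Lib.Classical.Asch.FormSp (scalars_le_similarity IsMDecomposition.two_mul_eq eq_bot_of_perfect)
open Cfsg.Agent.Lib.Classical.Herm.Descent (fixF mem_fixF card_eq_pow_fix)

section Generic

variable {ι : Type} [Fintype ι] [DecidableEq ι] {F : Type*} [Field F] {Q : (ι → F) → F}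

theorem symm_polar (hQ : IsNondegenerateQuadraticForm Q) : IsSymmetricForm (QuadraticMap.polar Q) :=
  ⟨hQ.polar_bilinear, fun u v => QuadraticMap.polar_comm Q u v, hQ.nondegenerate⟩

theorem polar_self_eq (hQ : IsNondegenerateQuadraticForm Q) (v : ι → F) : QuadraticMap.polar Q v v = 2 * Q v := by
  have h := hQ.smul 2 v
  rw [two_smul] at h
  simp only [QuadraticMap.polar]
  rw [h]
  ring

theorem Q_eq_half (hQ : IsNondegenerateQuadraticForm Q) (h2 : (2 : F) ≠ 0) (v : ι → F) :
    Q v = 2⁻¹ * QuadraticMap.polar Q v v := by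
  rw [polar_self_eq hQ]
  field_simp

theorem Q_zero (hQ : IsNondegenerateQuadraticForm Q) : Q 0 = 0 := by
  have := hQ.smul 0 0
  simpa using this

theorem Q_act_eq {g : GL ι F} (hg : g ∈ isometryGroup F Q) (x : ι → F) : Q ((g : Matrix ι ι F) *ᵥ x) = Q x :=
  hg x x

theorem isometry_le_isomG : isometryGroup F Q ≤ isomG (QuadraticMap.polar Q) := by
  intro g hg u v
  simp only [QuadraticMap.polar]
  rw [← Matrix.mulVec_add, Q_act_eq hg, Q_act_eq hg, Q_act_eq hg]

/-- The sum with the scalars of a group under which a subspace is invariant. -/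
theorem inv_sup {H : Subgroup (GL ι F)} {W : Submodule F (ι → F)} (hW : ∀ h ∈ H, ∀ v ∈ W, (h : Matrix ι ι F) *ᵥ v ∈ W) :
    Inv (H ⊔ scalars ι F) W := by
  intro g hg v hv
  obtain ⟨h, hh, z, hz, rfl⟩ := Subgroup.mem_sup_of_normal_right.mp hg
  obtain ⟨c, hc⟩ := (mem_scalars_iff' z).mp hz
  rw [Units.val_mul, hc, Matrix.mul_smul, mul_one, Matrix.smul_mulVec]
  exact W.smul_mem _ (hW h hh v hv)

/-- **Transitivity on the parts of a decomposition.** -/
theorem exists_map_eq {G : Subgroup (GL ι F)} {t k : ℕ} {D : Fin t → Submodule F (ι → F)} (hD : IsMDecomposition k D)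
    (hG : ∀ W : Submodule F (ι → F), Inv G W → W = ⊥ ∨ W = ⊤) (hle : G ≤ decompositionStabilizer D) (i j : Fin t) :
    ∃ g ∈ G, (D i).map (Matrix.toLin' (g : Matrix ι ι F)) = D j := by
  classical
  by_contra hne
  push Not at hne
  let W : Submodule F (ι → F) := ⨆ g : ↥G, (D i).map (Matrix.toLin' ((g : GL ι F) : Matrix ι ι F))
  have hinv : Inv G W := by
    intro x hx v hv
    refine Submodule.iSup_induction (motive := fun v => (x : Matrix ι ι F) *ᵥ v ∈ W) _ hv ?_ ?_ ?_
    · rintro g _ ⟨w, hw, rfl⟩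
      refine Submodule.mem_iSup_of_mem ⟨x * g, mul_mem hx g.2⟩ ⟨w, hw, ?_⟩
      simp [Matrix.toLin'_apply, Matrix.mulVec_mulVec]
    · simp
    · intro a b ha hb
      rw [Matrix.mulVec_add]
      exact W.add_mem ha hb
  have hi0 : D i ≠ ⊥ := by
    intro h
    have h1 := hD.finrank_eq i
    rw [h, finrank_bot] at h1
    exact hD.pos.ne h1
  have hj0 : D j ≠ ⊥ := by
    intro h
    have h1 := hD.finrank_eq j
    rw [h, finrank_bot] at h1
    exact hD.pos.ne h1
  have hDi : D i ≤ W := by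
    intro v hv
    refine Submodule.mem_iSup_of_mem ⟨1, one_mem _⟩ ⟨v, hv, ?_⟩
    simp
  have hW : W = ⊤ := by
    rcases hG W hinv with h | h
    · rw [h, le_bot_iff] at hDi
      exact absurd hDi hi0
    · exact h
  have hle2 : W ≤ ⨆ l, ⨆ (_ : l ≠ j), D l := by
    refine iSup_le fun g => ?_
    obtain ⟨π, hπ⟩ := hle g.2
    have h1 := hπ i
    rw [h1]
    have h2 : π i ≠ j := by
      intro h
      apply hne g g.2
      rw [h1, h]
    exact le_iSup₂_of_le (π i) h2 le_rfl
  have hdis := hD.indep j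
  have h3 : D j ≤ ⨆ l, ⨆ (_ : l ≠ j), D l := by
    refine le_trans ?_ hle2
    rw [hW]
    exact le_top
  exact hj0 (disjoint_self.mp (hdis.mono_right h3))

/-- Isometric images. -/
theorem areIsometric_of_map {g : GL ι F} (hg : g ∈ isometryGroup F Q) {W W' : Submodule F (ι → F)}
    (h : W.map (Matrix.toLin' (g : Matrix ι ι F)) = W') : AreIsometricFor Q W W' := by
  have hinj : Function.Injective (Matrix.toLin' (g : Matrix ι ι F)) := by
    intro x y hxy
    exact mulVec_injective g (by simpa [Matrix.toLin'_apply] using hxy)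
  refine ⟨(Submodule.equivMapOfInjective _ hinj W).trans (LinearEquiv.ofEq _ _ h), fun w => ?_⟩
  change Q (Matrix.toLin' (g : Matrix ι ι F) (w : ι → F)) = Q w
  rw [Matrix.toLin'_apply]
  exact Q_act_eq hg w

/-- The map of a subspace under a product with a scalar. -/
theorem map_mul_scalar [Nonempty ι] {h z : GL ι F} (hz : z ∈ scalars ι F) (W : Submodule F (ι → F)) :
    W.map (Matrix.toLin' ((h * z : GL ι F) : Matrix ι ι F)) = W.map (Matrix.toLin' (h : Matrix ι ι F)) := by
  obtain ⟨c, hc⟩ := (mem_scalars_iff' z).mp hz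
  have hc0 : c ≠ 0 := by
    rintro rfl
    have h1 := z.val_inv
    rw [hc, zero_smul, zero_mul] at h1
    exact zero_ne_one h1
  have hv : ∀ v, Matrix.toLin' ((h * z : GL ι F) : Matrix ι ι F) v = Matrix.toLin' (h : Matrix ι ι F) (c • v) := by
    intro v
    rw [Units.val_mul, hc, Matrix.mul_smul, mul_one, Matrix.toLin'_apply, Matrix.toLin'_apply, Matrix.smul_mulVec, Matrix.mulVec_smul]
  ext w
  constructor
  · rintro ⟨v, hv', rfl⟩
    exact ⟨c • v, W.smul_mem _ hv', (hv v).symm⟩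
  · rintro ⟨v, hv', rfl⟩
    refine ⟨c⁻¹ • v, W.smul_mem _ hv', ?_⟩
    rw [hv, smul_smul, mul_inv_cancel₀ hc0, one_smul]

/-- Decompositions preserved by irreducible groups of isometries have isometric parts. -/
theorem isOrthogonal_of [Nonempty ι] {H : Subgroup (GL ι F)} (hH : H ≤ isometryGroup F Q)
    (hG : ∀ W : Submodule F (ι → F), Inv (H ⊔ scalars ι F) W → W = ⊥ ∨ W = ⊤) {t k : ℕ} {D : Fin t → Submodule F (ι → F)}
    (hD : IsNondegenerateMDecomposition (QuadraticMap.polar Q) k D) (hle : H ⊔ scalars ι F ≤ decompositionStabilizer D) :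
    IsOrthogonalMDecomposition Q k D := by
  refine ⟨hD, fun i j => ?_⟩
  obtain ⟨g, hg, hmap⟩ := exists_map_eq hD.decomp hG hle i j
  obtain ⟨h, hh, z, hz, rfl⟩ := Subgroup.mem_sup_of_normal_right.mp hg
  rw [map_mul_scalar hz] at hmap
  exact areIsometric_of_map (hH hh) hmap

/-- Parity of the geometric sum. -/
theorem exists_geom (q₀ : ℕ) (hq : q₀ % 2 = 1) (r : ℕ) : ∃ S, q₀ ^ r - 1 = (q₀ - 1) * S ∧ S % 2 = r % 2 := by
  have hq1 : 1 ≤ q₀ := by omega
  induction r with
  | zero => exact ⟨0, by simp, rfl⟩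
  | succ r ih =>
    obtain ⟨S, h1, h2⟩ := ih
    have h3 : 1 ≤ q₀ ^ r := Nat.one_le_pow _ _ (by omega)
    refine ⟨q₀ * S + 1, ?_, ?_⟩
    · obtain ⟨a, rfl⟩ : ∃ a, q₀ = a + 1 := ⟨q₀ - 1, by omega⟩
      obtain ⟨b, hb⟩ : ∃ b, (a + 1) ^ r = b + 1 := ⟨(a + 1) ^ r - 1, by omega⟩
      rw [pow_succ, hb]
      rw [hb] at h1
      simp only [Nat.add_sub_cancel] at h1 ⊢
      have h4 : (b + 1) * (a + 1) - 1 = b * (a + 1) + a := by
        have : (b + 1) * (a + 1) = b * (a + 1) + a + 1 := by ring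
        omega
      rw [h4, h1]
      ring
    · have h5 : q₀ * S % 2 = S % 2 := by
        rw [Nat.mul_mod, hq]
        simp
      omega

section Fin

variable [Fintype F]

/-- Squares in an index two subfield. -/
theorem isSquare_of_mem_two (hq : Odd (Fintype.card F)) {F₀ : Subfield F} (hc : Fintype.card F = Nat.card F₀ ^ 2) {x : F}
    (hx : x ∈ F₀) : IsSquare x := by
  classical
  by_cases hx0 : x = 0
  · rw [hx0]
    exact IsSquare.zero
  have hch : ringChar F ≠ 2 := by
    intro h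
    have h2 := FiniteField.even_card_of_char_two h
    exact (Nat.not_even_iff_odd.mpr hq) (Nat.even_iff.mpr h2)
  rw [FiniteField.isSquare_iff hch hx0]
  set q₀ := Nat.card F₀ with hq₀
  have hq₀1 : 1 ≤ q₀ := Nat.succ_le_of_lt Nat.card_pos
  have h1 : x ^ q₀ = x := (mem_subfield_iff F₀ hc x).mp hx
  have h2 : x ^ (q₀ - 1) = 1 := by
    have : x ^ (q₀ - 1) * x = 1 * x := by
      rw [← pow_succ, Nat.sub_add_cancel hq₀1, h1, one_mul]
    exact mul_right_cancel₀ hx0 this
  have h3 : Fintype.card F / 2 = (q₀ - 1) * ((q₀ + 1) / 2) := by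
    have hodd₀ : q₀ % 2 = 1 := by
      rw [hc] at hq
      rcases Nat.even_or_odd q₀ with h | h
      · exact absurd (h.pow_of_ne_zero (by norm_num)) (Nat.not_even_iff_odd.mpr hq)
      · exact Nat.odd_iff.mp h
    obtain ⟨a, ha⟩ : ∃ a, q₀ = 2 * a + 1 := ⟨q₀ / 2, by omega⟩
    rw [hc, ha]
    have e1 : (2 * a + 1 + 1) / 2 = a + 1 := by omega
    have e2 : 2 * a + 1 - 1 = 2 * a := by omega
    rw [e1, e2]
    have e3 : (2 * a + 1) ^ 2 = 2 * (2 * a * (a + 1)) + 1 := by ring
    rw [e3]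
    omega
  rw [h3, pow_mul, h2, one_pow]

/-- **The scale of a rational structure.** -/
theorem exists_scale_rational (hq : Odd (Fintype.card F)) (hn : Odd (Fintype.card ι)) {f : (ι → F) → (ι → F) → F}
    (hf : IsSymmetricForm f) {F₀ : Subfield F} {r : ℕ} (hr : r.Prime) (hc : Fintype.card F = Nat.card F₀ ^ r)
    (hdisc : ∀ F₁ : Subfield F, ∀ i j, gramMatrix f i j ∈ F₁) {P : GL ι F} {ζ : F} (hζ0 : ζ ≠ 0)
    (hζ : ∀ i j, ζ * gramP f P i j ∈ F₀) : ∃ c b : F, c ≠ 0 ∧ b ∈ F₀ ∧ c ^ 2 = ζ * b := by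
  classical
  rcases hr.eq_two_or_odd' with rfl | ho
  · -- index two
    have hrf := reflForm_symmetric hf
    have hG : gramP f P = (P : Matrix ι ι F)ᵀ * gramMatrix f * (P : Matrix ι ι F) := by
      ext i j
      have h1 := (isSesq_of_bilinear hf.bilinear).eq_sesqM ((P : Matrix ι ι F) *ᵥ Pi.single i 1) ((P : Matrix ι ι F) *ᵥ Pi.single j 1)
      change f _ _ = _
      rw [h1, sesqM_mulVec]
      have h3 : ((P : Matrix ι ι F)).map (RingHom.id F) = P := by
        ext a b
        simp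
      rw [h3]
      have h4 : ∀ M : Matrix ι ι F, sesqM (RingHom.id F) M (Pi.single i 1) (Pi.single j 1) = M i j := by
        intro M
        simp [sesqM]
      rw [h4]
      rfl
    have hd : (Matrix.of fun i j => ζ * gramP f P i j).det ∈ F₀ := by
      rw [Matrix.det_apply]
      refine F₀.sum_mem fun σ _ => ?_
      rw [Units.smul_def, zsmul_eq_mul]
      refine F₀.mul_mem (intCast_mem F₀ _) (F₀.prod_mem fun i _ => hζ _ _)
    have hd' : (Matrix.of fun i j => ζ * gramP f P i j) = ζ • gramP f P := by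
      ext i j
      rfl
    rw [hd', Matrix.det_smul, hG, Matrix.det_mul, Matrix.det_mul, Matrix.det_transpose] at hd
    have hdG : (gramMatrix f).det ∈ F₀ := by
      rw [Matrix.det_apply]
      refine F₀.sum_mem fun σ _ => ?_
      rw [Units.smul_def, zsmul_eq_mul]
      exact F₀.mul_mem (intCast_mem F₀ _) (F₀.prod_mem fun i _ => hdisc F₀ _ _)
    have hGu : (gramMatrix f).det ≠ 0 := by
      have := isUnit_gram (σ := RingHom.id F) Function.surjective_id (isSesq_of_bilinear hf.bilinear) hf.nondegenerate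
      exact ((Matrix.isUnit_iff_isUnit_det _).mp this).ne_zero
    have hPu : (P : Matrix ι ι F).det ≠ 0 := by
      have := (Matrix.isUnit_iff_isUnit_det _).mp P.isUnit
      exact this.ne_zero
    obtain ⟨s, hs⟩ := isSquare_of_mem_two hq hc hd
    obtain ⟨s', hs'⟩ := isSquare_of_mem_two hq hc hdG
    obtain ⟨l, hl⟩ := hn
    set n := Fintype.card ι with hndef
    have hs'0 : s' ≠ 0 := by
      rintro rfl
      rw [mul_zero] at hs'
      exact hGu hs'
    have hP0 : (P : Matrix ι ι F).det ≠ 0 := hPu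
    -- the square root of `ζ`
    have key : ζ = (s / ((P : Matrix ι ι F).det * s' * ζ ^ l)) ^ 2 := by
      have hs2 : s ^ 2 = (ζ ^ l) ^ 2 * ζ * ((P : Matrix ι ι F).det * s') ^ 2 := by
        rw [sq s, ← hs, hl, hs']
        ring
      have hζl : ζ ^ l ≠ 0 := pow_ne_zero _ hζ0
      rw [div_pow, hs2]
      field_simp
    refine ⟨s / ((P : Matrix ι ι F).det * s' * ζ ^ l), 1, ?_, F₀.one_mem, ?_⟩
    · intro h
      rw [h] at key
      apply hζ0
      rw [key]
      ring
    · rw [mul_one]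
      exact key.symm
  · -- odd index
    set q₀ := Nat.card F₀ with hq₀
    have hodd₀ : q₀ % 2 = 1 := by
      rw [hc] at hq
      rcases Nat.even_or_odd q₀ with h | h
      · exact absurd (h.pow_of_ne_zero hr.ne_zero) (Nat.not_even_iff_odd.mpr hq)
      · exact Nat.odd_iff.mp h
    obtain ⟨S, hS, hSm⟩ := exists_geom q₀ hodd₀ r
    have hrm : r % 2 = 1 := Nat.odd_iff.mp ho
    have hq₀1 : 1 ≤ q₀ := by omega
    have hb : ζ ^ S ∈ F₀ := by
      rw [mem_subfield_iff F₀ hc]
      have h1 : (ζ ^ S) ^ (q₀ - 1) = 1 := by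
        rw [← pow_mul, mul_comm, ← hS, ← hc]
        exact FiniteField.pow_card_sub_one_eq_one ζ hζ0
      have h2 : (ζ ^ S) ^ q₀ = (ζ ^ S) ^ (q₀ - 1) * ζ ^ S := by
        rw [← pow_succ, Nat.sub_add_cancel hq₀1]
      rw [h2, h1, one_mul]
    refine ⟨ζ ^ ((S + 1) / 2), ζ ^ S, pow_ne_zero _ hζ0, hb, ?_⟩
    rw [← pow_mul]
    have : (S + 1) / 2 * 2 = S + 1 := by omega
    rw [this, pow_succ]
    ring


/-- **A rational structure for the quadratic form.** -/
theorem exists_rational_quad (hQ : IsNondegenerateQuadraticForm Q) (hq : Odd (Fintype.card F)) (hn : Odd (Fintype.card ι))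
    {F₀ : Subfield F} {r : ℕ} (hr : r.Prime) (hc : Fintype.card F = Nat.card F₀ ^ r)
    (hdisc : ∀ F₁ : Subfield F, ∀ i j, gramMatrix (QuadraticMap.polar Q) i j ∈ F₁) {P : GL ι F} {ζ : F} (hζ0 : ζ ≠ 0)
    (hζ : ∀ i j, ζ * gramP (QuadraticMap.polar Q) P i j ∈ F₀) :
    ∃ P' : GL ι F, IsQuadFormRationalStructure Q F₀ P' ∧ subfieldSubgroup F₀ P' = subfieldSubgroup F₀ P := by
  have h2 := Forms.two_ne_zero_of_odd hq
  have hsym := symm_polar hQ
  have hrf := reflForm_symmetric hsym
  obtain ⟨c, b, hc0, hb, hcb⟩ := exists_scale_rational hq hn hsym hr hc hdisc hζ0 hζ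
  refine ⟨scal ι F (Units.mk0 c hc0) * P, fun u hu => ?_, FormSU.subfieldSubgroup_scal F₀ _ P⟩
  have h1 : ((scal ι F (Units.mk0 c hc0) * P : GL ι F) : Matrix ι ι F) *ᵥ u = c • ((P : Matrix ι ι F) *ᵥ u) := by
    rw [Units.val_mul, coe_scal, Matrix.smul_mul, Matrix.one_mul, Matrix.smul_mulVec]
    rfl
  rw [h1, hQ.smul, hcb, Q_eq_half hQ h2]
  have h3 := isFormRationalStructure_of hrf F₀ hc P hζ u u hu hu
  have h4 : (2⁻¹ : F) ∈ F₀ := F₀.inv_mem (by exact_mod_cast natCast_mem F₀ 2)
  have e1 : ζ * b * (2⁻¹ * QuadraticMap.polar Q ((P : Matrix ι ι F) *ᵥ u) ((P : Matrix ι ι F) *ᵥ u)) =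
      b * (2⁻¹ * (ζ * QuadraticMap.polar Q ((P : Matrix ι ι F) *ᵥ u) ((P : Matrix ι ι F) *ᵥ u))) := by ring
  rw [e1]
  exact F₀.mul_mem hb (F₀.mul_mem h4 h3)

/-- Sums in the first variable. -/
theorem form_sum_left {κ : Type*} {f : (ι → F) → (ι → F) → F} (hb : IsBilinearForm f) (s : Finset κ) (c : κ → F) (x : κ → ι → F) (w : ι → F) :
    f (∑ i ∈ s, c i • x i) w = ∑ i ∈ s, c i * f (x i) w := by
  classical
  induction s using Finset.induction_on with
  | empty =>
    have := hb.smul_left 0 0 w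
    simpa using this
  | insert a s ha ih =>
    rw [Finset.sum_insert ha, Finset.sum_insert ha, hb.add_left, hb.smul_left, ih]

/-- **The stabiliser of a frame lies in the subfield groups.** -/
theorem frame_rational [Nonempty ι] (hQ : IsNondegenerateQuadraticForm Q) (h2 : (2 : F) ≠ 0) {H : Subgroup (GL ι F)}
    (hH : H ≤ isometryGroup F Q) {t : ℕ} {D : Fin t → Submodule F (ι → F)} (hD : IsOrthogonalMDecomposition Q 1 D)
    (hle : H ≤ decompositionStabilizer D) (F₀ : Subfield F) :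
    ∃ (P : GL ι F) (ζ : F), ζ ≠ 0 ∧ (∀ i j, ζ * gramP (QuadraticMap.polar Q) P i j ∈ F₀) ∧ H ≤ subfieldSubgroup F₀ P := by
  classical
  have hsym := symm_polar hQ
  have hbil := hsym.bilinear
  have hdec := hD.decomp.decomp
  have hcard := Block.card_eq_mul hdec
  rw [mul_one] at hcard
  let ε : ι ≃ Fin t := Fintype.equivFinOfCardEq hcard
  obtain ⟨i₀⟩ := ‹Nonempty ι›
  let j₀ : Fin t := ε i₀
  have h1 : ∀ j, ∃ v ∈ D j, v ≠ 0 ∧ ∀ w ∈ D j, ∃ c : F, w = c • v := by
    intro j
    obtain ⟨v, hv, hall⟩ := finrank_eq_one_iff'.mp (hdec.finrank_eq j)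
    refine ⟨v, v.2, fun h => hv (Subtype.ext h), fun w hw => ?_⟩
    obtain ⟨c, hc⟩ := hall ⟨w, hw⟩
    refine ⟨c, ?_⟩
    have := congrArg Subtype.val hc
    exact this.symm
  obtain ⟨v₀, hv₀, hv₀0, hall₀⟩ := h1 j₀
  have hQv₀ : Q v₀ ≠ 0 := by
    intro h0
    obtain ⟨⟨x, hx, hxv⟩, -⟩ := hD.decomp.nondegenerate j₀ v₀ hv₀ hv₀0
    obtain ⟨c, rfl⟩ := hall₀ x hx
    rw [hbil.smul_left, polar_self_eq hQ, h0] at hxv
    simp at hxv
  have h3 : ∀ j, ∃ v ∈ D j, Q v = Q v₀ ∧ v ≠ 0 := by
    intro j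
    obtain ⟨e, he⟩ := hD.isometric j₀ j
    refine ⟨e ⟨v₀, hv₀⟩, (e ⟨v₀, hv₀⟩).2, he _, fun h => ?_⟩
    apply hv₀0
    have h4 : e ⟨v₀, hv₀⟩ = 0 := Subtype.ext h
    have h5 := (map_eq_zero_iff e e.injective).mp h4
    exact congrArg Subtype.val h5
  choose v hvD hvQ hv0 using h3
  set a := Q v₀ with ha
  have hall : ∀ j, ∀ w ∈ D j, ∃ c : F, w = c • v j := by
    intro j w hw
    obtain ⟨u, hu, hu0, huall⟩ := h1 j
    obtain ⟨c₁, rfl⟩ := huall w hw
    obtain ⟨c₂, hc₂⟩ := huall (v j) (hvD j)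
    have hc₂0 : c₂ ≠ 0 := by
      rintro rfl
      apply hv0 j
      rw [hc₂, zero_smul]
    refine ⟨c₁ * c₂⁻¹, ?_⟩
    rw [hc₂, smul_smul, mul_assoc, inv_mul_cancel₀ hc₂0, mul_one]
  have horth : ∀ i j, QuadraticMap.polar Q (v i) (v j) = if i = j then 2 * a else 0 := by
    intro i j
    by_cases hij : i = j
    · subst hij
      rw [if_pos rfl, polar_self_eq hQ, hvQ]
    · rw [if_neg hij]
      exact hD.decomp.orthogonal i j hij _ (hvD i) _ (hvD j)
  let M : Matrix ι ι F := Matrix.of fun k l => v (ε l) k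
  have hMv : ∀ u : ι → F, M *ᵥ u = ∑ l, u l • v (ε l) := by
    intro u
    funext k
    simp [M, Matrix.mulVec, dotProduct, Finset.sum_apply, mul_comm]
  have hMs : ∀ l, M *ᵥ Pi.single l 1 = v (ε l) := by
    intro l
    funext k
    simp [M]
  have h2a : 2 * a ≠ 0 := mul_ne_zero h2 hQv₀
  have hpair : ∀ (u : ι → F) (l : ι), QuadraticMap.polar Q (M *ᵥ u) (v (ε l)) = u l * (2 * a) := by
    intro u l
    rw [hMv, form_sum_left hbil, Finset.sum_eq_single l]
    · rw [horth, if_pos rfl]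
    · intro b _ hb
      rw [horth, if_neg (fun h => hb (ε.injective h)), mul_zero]
    · simp
  have hinj : Function.Injective M.mulVec := by
    intro u u' h
    funext l
    have e1 := hpair u l
    have e2 := hpair u' l
    change M *ᵥ u = M *ᵥ u' at h
    rw [h, e2] at e1
    exact (mul_right_cancel₀ h2a e1).symm
  have hunit : IsUnit M := Matrix.mulVec_injective_iff_isUnit.mp hinj
  obtain ⟨P, hP⟩ := hunit
  have hPs : ∀ l, (P : Matrix ι ι F) *ᵥ Pi.single l 1 = v (ε l) := by
    intro l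
    rw [hP, hMs]
  refine ⟨P, a⁻¹, inv_ne_zero hQv₀, fun k l => ?_, fun h hh => ?_⟩
  · have e1 : gramP (QuadraticMap.polar Q) P k l = QuadraticMap.polar Q ((P : Matrix ι ι F) *ᵥ Pi.single k 1) ((P : Matrix ι ι F) *ᵥ Pi.single l 1) := rfl
    rw [e1, hPs, hPs, horth]
    by_cases hkl : k = l
    · subst hkl
      rw [if_pos rfl]
      have e2 : a⁻¹ * (2 * a) = 2 := by
        field_simp
      rw [e2]
      exact_mod_cast natCast_mem F₀ 2
    · rw [if_neg (fun h => hkl (ε.injective h)), mul_zero]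
      exact F₀.zero_mem
  · refine FormSU2.mem_subfieldSubgroup_of_entries F₀ one_ne_zero fun k l => ?_
    rw [one_mul]
    obtain ⟨π, hπ⟩ := hle hh
    have h4 : (h : Matrix ι ι F) *ᵥ v (ε l) ∈ D (π (ε l)) := by
      rw [← hπ]
      exact ⟨_, hvD _, rfl⟩
    obtain ⟨s, hs⟩ := hall _ _ h4
    have hs1 : s ^ 2 = 1 := by
      have e1 : Q ((h : Matrix ι ι F) *ᵥ v (ε l)) = Q (v (ε l)) := Q_act_eq (hH hh) _
      rw [hs, hQ.smul, hvQ, hvQ] at e1
      exact mul_right_cancel₀ hQv₀ (by rw [e1, one_mul])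
    have h5 : ((P⁻¹ * h * P : GL ι F) : Matrix ι ι F) *ᵥ Pi.single l 1 = s • Pi.single (ε.symm (π (ε l))) 1 := by
      have e1 : (((P⁻¹ * h * P : GL ι F) : Matrix ι ι F)) = ((P⁻¹ : GL ι F) : Matrix ι ι F) * (h : Matrix ι ι F) * (P : Matrix ι ι F) := by
        simp only [Units.val_mul]
      rw [e1, ← Matrix.mulVec_mulVec, ← Matrix.mulVec_mulVec, hPs, hs]
      have e2 : v (π (ε l)) = (P : Matrix ι ι F) *ᵥ Pi.single (ε.symm (π (ε l))) 1 := by
        rw [hPs]
        simp
      rw [e2, Matrix.mulVec_smul, inv_mulVec_mulVec]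
    have h6 := congrFun h5 k
    rw [Matrix.mulVec_single_one] at h6
    have h7 : ((P⁻¹ * h * P : GL ι F) : Matrix ι ι F) k l = (s • (Pi.single (ε.symm (π (ε l))) 1 : ι → F)) k := h6
    rw [h7]
    have hs' : s = 1 ∨ s = -1 := by
      have e3 : (s - 1) * (s + 1) = 0 := by linear_combination hs1
      rcases mul_eq_zero.mp e3 with e4 | e4
      · exact Or.inl (sub_eq_zero.mp e4)
      · exact Or.inr (eq_neg_of_add_eq_zero_left e4)
    have hsm : s ∈ F₀ := by
      rcases hs' with rfl | rfl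
      · exact F₀.one_mem
      · exact F₀.neg_mem F₀.one_mem
    simp only [Pi.smul_apply, smul_eq_mul, Pi.single_apply]
    by_cases hk : k = ε.symm (π (ε l))
    · rw [if_pos hk, mul_one]
      exact hsm
    · rw [if_neg hk, mul_zero]
      exact F₀.zero_mem

/-- **Commuting groups of isometries in odd dimension consist of scalars.** -/
theorem le_scalars_of_comm [Nonempty ι] {f : (ι → F) → (ι → F) → F} (hf : IsSymmetricForm f) (h2 : (2 : F) ≠ 0)
    (hn : Odd (Fintype.card ι)) {H : Subgroup (GL ι F)}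
    (hG : ∀ W : Submodule F (ι → F), Inv (H ⊔ scalars ι F) W → W = ⊥ ∨ W = ⊤)
    (hH : H ≤ isomG f) (hc : ∀ x ∈ H, ∀ y ∈ H, x * y = y * x) : H ≤ scalars ι F := by
  classical
  intro g hg
  set A : Matrix ι ι F := (g : Matrix ι ι F) with hA
  set B : Matrix ι ι F := ((g⁻¹ : GL ι F) : Matrix ι ι F) with hB
  have hAB : A * B = 1 := by
    rw [hA, hB, ← Units.val_mul, mul_inv_cancel, Units.val_one]
  have hBA : B * A = 1 := by
    rw [hA, hB, ← Units.val_mul, inv_mul_cancel, Units.val_one]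
  have hcomm : ∀ x ∈ H, (x : Matrix ι ι F) * A = A * (x : Matrix ι ι F) := by
    intro x hx
    rw [hA, ← Units.val_mul, hc x hx g hg, Units.val_mul]
  have hcommB : ∀ x ∈ H, (x : Matrix ι ι F) * B = B * (x : Matrix ι ι F) := by
    intro x hx
    rw [hB, ← Units.val_mul, hc x hx _ (inv_mem hg), Units.val_mul]
  have hker : ∀ S : Matrix ι ι F, (∀ x ∈ H, (x : Matrix ι ι F) * S = S * (x : Matrix ι ι F)) →
      (∃ v : ι → F, v ≠ 0 ∧ S *ᵥ v = 0) → S = 0 := by
    intro S hS ⟨v, hv0, hv⟩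
    let W : Submodule F (ι → F) := LinearMap.ker S.mulVecLin
    have hinv : Inv (H ⊔ scalars ι F) W := by
      refine inv_sup fun h hh w hw => ?_
      have hw' : S *ᵥ w = 0 := hw
      change S *ᵥ ((h : Matrix ι ι F) *ᵥ w) = 0
      rw [Matrix.mulVec_mulVec, ← hS h hh, ← Matrix.mulVec_mulVec, hw', Matrix.mulVec_zero]
    rcases hG W hinv with h0 | h0
    · exfalso
      have : v ∈ W := hv
      rw [h0, Submodule.mem_bot] at this
      exact hv0 this
    · ext i j
      have h3 : Pi.single j 1 ∈ W := by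
        rw [h0]
        trivial
      have h4 : S *ᵥ Pi.single j 1 = 0 := h3
      have h5 := congrFun h4 i
      simpa using h5
  have hadj : ∀ u v, f ((A - B) *ᵥ u) v = - f u ((A - B) *ᵥ v) := by
    intro u v
    have hAi : ∀ x y, f (A *ᵥ x) (A *ᵥ y) = f x y := fun x y => hH hg x y
    have e1 : f (A *ᵥ u) v = f u (B *ᵥ v) := by
      have := hAi u (B *ᵥ v)
      rw [Matrix.mulVec_mulVec, hAB, Matrix.one_mulVec] at this
      exact this
    have e2 : f (B *ᵥ u) v = f u (A *ᵥ v) := by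
      have := hAi (B *ᵥ u) v
      rw [Matrix.mulVec_mulVec, hAB, Matrix.one_mulVec] at this
      exact this.symm
    have hb := hf.bilinear
    have hneg : ∀ x y : ι → F, f (-x) y = - f x y := by
      intro x y
      have := hb.smul_left (-1) x y
      simpa using this
    have hnegr : ∀ x y : ι → F, f x (-y) = - f x y := by
      intro x y
      have := hb.smul_right (-1) x y
      simpa using this
    rw [Matrix.sub_mulVec, Matrix.sub_mulVec, sub_eq_add_neg, sub_eq_add_neg, hb.add_left, hb.add_right, hneg, hnegr, e1, e2]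
    ring
  -- the skew operator is singular
  have hsing : ∃ v : ι → F, v ≠ 0 ∧ (A - B) *ᵥ v = 0 := by
    by_contra hcon
    push Not at hcon
    have hinj : Function.Injective (A - B).mulVec := by
      intro x y hxy
      by_contra hne
      apply hcon (x - y) (sub_ne_zero.mpr hne)
      rw [Matrix.mulVec_sub]
      exact sub_eq_zero.mpr hxy
    have hsymp : IsSymplecticForm (fun u v => f ((A - B) *ᵥ u) v) := by
      have hb := hf.bilinear
      refine ⟨⟨fun x y v => ?_, fun c x v => ?_, fun v x y => hb.add_right _ _ _, fun c v x => hb.smul_right _ _ _⟩, fun v w => ?_, fun v => ?_, fun v hv => ?_⟩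
      · rw [Matrix.mulVec_add, hb.add_left]
      · rw [Matrix.mulVec_smul, hb.smul_left]
      · rw [hadj, hf.symm]
      · have e1 := hadj v v
        have e2 : (2 : F) * f ((A - B) *ᵥ v) v = 0 := by
          rw [hf.symm v] at e1
          linear_combination e1
        exact (mul_eq_zero.mp e2).resolve_left h2
      · have h3 : (A - B) *ᵥ v ≠ 0 := hcon v hv
        obtain ⟨⟨x, hx⟩, ⟨y, hy⟩⟩ := hf.nondegenerate _ h3
        refine ⟨?_, ⟨y, hy⟩⟩
        have hsurj : Function.Surjective (A - B).mulVec := by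
          have hlin : Function.Injective (A - B).mulVecLin := hinj
          exact LinearMap.injective_iff_surjective.mp hlin
        refine ⟨y, ?_⟩
        intro h0
        apply hy
        rw [hadj] at h0
        have := neg_eq_zero.mp h0
        rw [hf.symm]
        exact this
    have hev := Forms.even_card_of_symplectic hsymp
    exact (Nat.not_even_iff_odd.mpr hn) hev
  have hS0 : A - B = 0 := hker _ (fun x hx => by rw [mul_sub, sub_mul, hcomm x hx, hcommB x hx]) hsing
  have hAB' : A = B := sub_eq_zero.mp hS0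
  have hsq : A * A = 1 := by
    nth_rewrite 2 [hAB']
    exact hAB
  have hmem : ∃ c : F, A = c • 1 := by
    by_cases h1 : A - 1 = 0
    · exact ⟨1, by rw [one_smul]; exact sub_eq_zero.mp h1⟩
    · refine ⟨-1, ?_⟩
      by_cases hex : ∃ v : ι → F, v ≠ 0 ∧ (A - 1) *ᵥ v = 0
      · exact absurd (hker _ (fun x hx => by rw [mul_sub, sub_mul, hcomm x hx, mul_one, one_mul]) hex) h1
      · push Not at hex
        have e1 : (A - 1) * (A + 1) = 0 := by
          rw [sub_mul, mul_add, hsq, mul_one, one_mul, add_comm, sub_self]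
        have e2 : A + 1 = 0 := by
          ext i j
          by_contra hne
          have h3 : (A + 1) *ᵥ Pi.single j 1 ≠ 0 := by
            intro h0
            have := congrFun h0 i
            simp only [Matrix.mulVec_single_one, Pi.zero_apply] at this
            exact hne this
          apply hex _ h3
          rw [Matrix.mulVec_mulVec, e1, Matrix.zero_mulVec]
        rw [neg_one_smul]
        exact eq_neg_of_add_eq_zero_left e2
  exact (mem_scalars_iff' g).mpr hmem


/-- The automorphism group of a finite extension of finite fields. -/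
theorem card_aut {E L : Type*} [Field E] [Field L] [Algebra E L] [Finite L] {r : ℕ} (hL : Module.finrank E L = r) :
    Nat.card (L ≃ₐ[E] L) = r := by
  haveI : Finite E := Finite.of_injective (algebraMap E L) (algebraMap E L).injective
  haveI : FiniteDimensional E L := Module.Finite.of_finite
  haveI : Fintype E := Fintype.ofFinite E
  rw [IsGalois.card_aut_eq_finrank, hL]

/-- The centraliser of a field subalgebra of maximal degree. -/
theorem mem_of_comm_field [Nonempty ι] {r : ℕ} {K : Subalgebra F (Matrix ι ι F)} (hK : IsFieldSubalgebra r K)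
    (hrn : r = Fintype.card ι) {h : Matrix ι ι F} (hc : ∀ k ∈ K, h * k = k * h) : h ∈ K := by
  classical
  obtain ⟨i₀⟩ := ‹Nonempty ι›
  let v₀ : ι → F := Pi.single i₀ 1
  have hv₀ : v₀ ≠ 0 := by
    intro h0
    have := congrFun h0 i₀
    simp [v₀] at this
  let L : ↥K →ₗ[F] (ι → F) :=
    { toFun := fun k => (k : Matrix ι ι F) *ᵥ v₀
      map_add' := fun a b => by
        change ((a : Matrix ι ι F) + (b : Matrix ι ι F)) *ᵥ v₀ = _
        rw [Matrix.add_mulVec]
      map_smul' := fun c a => by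
        change (c • (a : Matrix ι ι F)) *ᵥ v₀ = _
        rw [Matrix.smul_mulVec]
        rfl }
  have hL : ∀ k : ↥K, L k = (k : Matrix ι ι F) *ᵥ v₀ := fun _ => rfl
  have hinj : Function.Injective L := by
    rw [← LinearMap.ker_eq_bot, LinearMap.ker_eq_bot']
    intro k hk
    by_contra hk0
    have hk0' : (k : Matrix ι ι F) ≠ 0 := fun h => hk0 (Subtype.ext h)
    obtain ⟨y, -, hy⟩ := hK.inv _ k.2 hk0'
    have hy' : y * (k : Matrix ι ι F) = 1 := mul_eq_one_comm.mp hy
    apply hv₀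
    have h1 : y *ᵥ ((k : Matrix ι ι F) *ᵥ v₀) = v₀ := by
      rw [Matrix.mulVec_mulVec, hy', Matrix.one_mulVec]
    rw [← h1, ← hL, hk, Matrix.mulVec_zero]
  have hfin : Module.finrank F ↥K = Module.finrank F (ι → F) := by
    rw [hK.finrank_eq, Module.finrank_fintype_fun_eq_card, hrn]
  have hsurj : Function.Surjective L := (LinearMap.injective_iff_surjective_of_finrank_eq_finrank hfin).mp hinj
  obtain ⟨k₀, hk₀⟩ := hsurj (h *ᵥ v₀)
  have heq : h = (k₀ : Matrix ι ι F) := by
    apply Matrix.toLin'.injective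
    refine LinearMap.ext fun w => ?_
    obtain ⟨k, rfl⟩ := hsurj w
    rw [Matrix.toLin'_apply, Matrix.toLin'_apply, hL, Matrix.mulVec_mulVec, hc k k.2, ← Matrix.mulVec_mulVec, ← hk₀, hL k₀,
      Matrix.mulVec_mulVec, Matrix.mulVec_mulVec, hK.comm _ k.2 _ k₀.2]
  rw [heq]
  exact k₀.2

/-- **Commutativity in the field case of maximal degree.** -/
theorem comm_of_field_eq [Nonempty ι] {f : (ι → F) → (ι → F) → F} (hf : IsSymmetricForm f) (h2 : (2 : F) ≠ 0)
    {H : Subgroup (GL ι F)} (hH : H ≤ isomG f) {r : ℕ} (hr : r.Prime) {K : Subalgebra F (Matrix ι ι F)}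
    (hK : IsFieldSubalgebra r K) (hself : IsSelfAdjointFor f K) (hrn : r = Fintype.card ι)
    (hle : H ≤ subalgebraNormalizer K) : ∀ x ∈ H, ∀ y ∈ H, x * y = y * x := by
  classical
  letI instF : Field ↥K := (isField_of hK).toField
  letI instA : Algebra F ↥K := K.algebra
  haveI : Finite ↥K := inferInstance
  let φ₀ : ∀ g : GL ι F, g ∈ subalgebraNormalizer K → (↥K →ₐ[F] ↥K) := fun g hg =>
    { toFun := fun x => ⟨conj g x, (hg x).mp x.2⟩
      map_one' := Subtype.ext (conj_one g)
      map_mul' := fun x y => Subtype.ext (conj_mul g _ _)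
      map_zero' := Subtype.ext (by simp [conj])
      map_add' := fun x y => Subtype.ext (conj_add g _ _)
      commutes' := fun c => Subtype.ext (by
        change conj g (algebraMap F (Matrix ι ι F) c) = algebraMap F (Matrix ι ι F) c
        rw [Algebra.algebraMap_eq_smul_one, conj_smul, conj_one]) }
  have hφ₀ : ∀ g hg (x : ↥K), ((φ₀ g hg x : ↥K) : Matrix ι ι F) = conj g x := fun _ _ _ => rfl
  let φ : ↥(subalgebraNormalizer K) →* (↥K ≃ₐ[F] ↥K) :=
    { toFun := fun g => AlgEquiv.ofAlgHom (φ₀ g g.2) (φ₀ g⁻¹ (inv_mem g.2))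
        (AlgHom.ext fun x => Subtype.ext (conj_conj_inv (g : GL ι F) (x : Matrix ι ι F)))
        (AlgHom.ext fun x => Subtype.ext (conj_inv_conj (g : GL ι F) (x : Matrix ι ι F)))
      map_one' := by
        refine AlgEquiv.ext fun x => Subtype.ext ?_
        change conj (1 : GL ι F) (x : Matrix ι ι F) = x
        simp [conj]
      map_mul' := fun a b => by
        refine AlgEquiv.ext fun x => Subtype.ext ?_
        change conj ((a : GL ι F) * (b : GL ι F)) (x : Matrix ι ι F) = conj (a : GL ι F) (conj (b : GL ι F) (x : Matrix ι ι F))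
        rw [conj_conj] }
  have hφ : ∀ (g : ↥(subalgebraNormalizer K)) (x : ↥K), ((φ g x : ↥K) : Matrix ι ι F) = conj (g : GL ι F) x := fun _ _ => rfl
  have hcard : Nat.card (↥K ≃ₐ[F] ↥K) = r := card_aut hK.finrank_eq
  -- the kernel
  have hker : ∀ g ∈ H, ∀ hg : g ∈ subalgebraNormalizer K, φ ⟨g, hg⟩ = 1 → (g : Matrix ι ι F) = 1 ∨ (g : Matrix ι ι F) = -1 := by
    intro g hgH hg h1
    have hc : ∀ k ∈ K, (g : Matrix ι ι F) * k = k * (g : Matrix ι ι F) := by
      intro k hk
      have h3 := congrArg (fun e : ↥K ≃ₐ[F] ↥K => ((e ⟨k, hk⟩ : ↥K) : Matrix ι ι F)) h1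
      simp only [hφ] at h3
      change conj g k = k at h3
      unfold conj at h3
      nth_rewrite 2 [← h3]
      rw [mul_assoc, ← Units.val_mul, inv_mul_cancel, Units.val_one, mul_one]
    have hm : (g : Matrix ι ι F) ∈ K := mem_of_comm_field hK hrn hc
    have hsq : (g : Matrix ι ι F) * g = 1 := by
      apply Matrix.toLin'.injective
      refine LinearMap.ext fun u => ?_
      rw [Matrix.toLin'_apply, Matrix.toLin'_apply, Matrix.one_mulVec]
      by_contra hne
      have h3 : ((g : Matrix ι ι F) * (g : Matrix ι ι F)) *ᵥ u - u ≠ 0 := sub_ne_zero.mpr hne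
      obtain ⟨-, v, hv⟩ := hf.nondegenerate _ h3
      apply hv
      rw [sub_eq_add_neg]
      have hb := hf.bilinear
      have hneg : ∀ x y : ι → F, f (-x) y = - f x y := by
        intro x y
        have := hb.smul_left (-1) x y
        simpa using this
      rw [hb.add_left, hneg, ← Matrix.mulVec_mulVec, hself _ hm, hH hgH]
      ring
    by_cases h3 : (g : Matrix ι ι F) - 1 = 0
    · exact Or.inl (sub_eq_zero.mp h3)
    · right
      obtain ⟨y, -, hy⟩ := hK.inv _ (K.sub_mem hm K.one_mem) h3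
      have e1 : ((g : Matrix ι ι F) - 1) * ((g : Matrix ι ι F) + 1) = 0 := by
        rw [sub_mul, mul_add, hsq, mul_one, one_mul, add_comm, sub_self]
      have e2 : y * ((g : Matrix ι ι F) - 1) = 1 := mul_eq_one_comm.mp hy
      have e3 : (g : Matrix ι ι F) + 1 = 0 := by
        calc (g : Matrix ι ι F) + 1 = (y * ((g : Matrix ι ι F) - 1)) * ((g : Matrix ι ι F) + 1) := by rw [e2, one_mul]
          _ = y * (((g : Matrix ι ι F) - 1) * ((g : Matrix ι ι F) + 1)) := by rw [mul_assoc]
          _ = 0 := by rw [e1, mul_zero]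
      exact eq_neg_of_add_eq_zero_left e3
  have hcen : ∀ g : GL ι F, ((g : Matrix ι ι F) = 1 ∨ (g : Matrix ι ι F) = -1) → ∀ z : GL ι F, Commute g z := by
    intro g hg z
    apply Units.ext
    rw [Units.val_mul, Units.val_mul]
    rcases hg with hg | hg <;> rw [hg] <;> simp
  haveI : Fact r.Prime := ⟨hr⟩
  intro x hx y hy
  by_cases h1 : φ ⟨x, hle hx⟩ = 1
  · exact hcen x (hker x hx (hle hx) h1) y
  · have h3 := mem_zpowers_of_prime_card hcard (g' := φ ⟨y, hle hy⟩) h1
    obtain ⟨i, hi⟩ := Subgroup.mem_zpowers_iff.mp h3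
    set w : GL ι F := y * x ^ (-i) with hw
    have hwH : w ∈ H := mul_mem hy (zpow_mem hx _)
    have hφw : φ ⟨w, hle hwH⟩ = 1 := by
      have e1 : (⟨w, hle hwH⟩ : ↥(subalgebraNormalizer K)) = ⟨y, hle hy⟩ * (⟨x, hle hx⟩ : ↥(subalgebraNormalizer K)) ^ (-i) := by
        apply Subtype.ext
        simp [hw]
      rw [e1, map_mul, map_zpow, ← hi, zpow_neg, mul_inv_cancel]
    have hwc := hcen w (hker w hwH (hle hwH) hφw) x
    have hyw : y = w * x ^ i := by
      rw [hw, zpow_neg, inv_mul_cancel_right]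
    have h4 : Commute y x := by
      rw [hyw]
      exact hwc.mul_left ((Commute.refl x).zpow_left i)
    exact h4.eq.symm

end Fin

end Generic

end Cfsg.Agent.Lib.Classical.Asch.FormO
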