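import Mathlib
import Cfsg.Agent.Lib.Classical.Asch.FormO

/-!
# Aschbacher's theorem for the orthogonal groups in odd dimension: tensor factors
-/

set_option autoImplicit false
set_option linter.style.haveILetI false
set_option linter.unusedSectionVars false

namespace Cfsg.Agent.Lib.Classical.Asch.FormO2

open scoped MatrixGroups Matrix Kronecker
open Cfsg Cfsg.Geo Cfsg.Agent.Lib.Classical.Asch.Basic Cfsg.Agent.Lib.Classical.Asch.Forms
open Cfsg.Agent.Lib.Classical.Asch.Adj Cfsg.Agent.Lib.Classical.Asch.FormDich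
open Cfsg.Agent.Lib.Classical.Asch.FormTensor Cfsg.Agent.Lib.Classical.Asch.FormSim
open Cfsg.Agent.Lib.Classical.Asch.FormComm Cfsg.Agent.Lib.Classical.Asch.Gram
open Cfsg.Agent.Lib.Classical.Asch.FormPerp Cfsg.Agent.Lib.Classical.Asch.FormField
open Cfsg.Agent.Lib.Classical.Asch.FormSympType
open Cfsg.Agent.Lib.Classical.Asch.FormReal Cfsg.Agent.Lib.Classical.Asch.FormDescent
open Cfsg.Agent.Lib.Classical.Asch.PureTensor Cfsg.Agent.Lib.Classical.Asch.FormSU2
open Cfsg.Agent.Lib.Classical.Asch.FormO Cfsg.Agent.Lib.Classical.Asch.Main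
open Cfsg.Agent.Lib.Classical.Orth.Models

section Std

variable {F : Type*} [Field F] {m : ℕ}

/-- The standard form is non-degenerate. -/
theorem isNondeg_quadFormOdd (h2 : (2 : F) ≠ 0) : IsNondegenerateQuadraticForm (quadFormOdd m F) := by
  have hbil : IsBilinearForm (QuadraticMap.polar (quadFormOdd m F)) :=
    { add_left := fun a b c => by
        simp only [polar_odd, Pi.add_apply, ← Finset.sum_add_distrib]
        have : ∀ x : Fin m, (a (Sum.inr (Sum.inl x)) + b (Sum.inr (Sum.inl x))) * c (Sum.inr (Sum.inr x)) +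
            c (Sum.inr (Sum.inl x)) * (a (Sum.inr (Sum.inr x)) + b (Sum.inr (Sum.inr x))) =
            a (Sum.inr (Sum.inl x)) * c (Sum.inr (Sum.inr x)) + c (Sum.inr (Sum.inl x)) * a (Sum.inr (Sum.inr x)) +
            (b (Sum.inr (Sum.inl x)) * c (Sum.inr (Sum.inr x)) + c (Sum.inr (Sum.inl x)) * b (Sum.inr (Sum.inr x))) := fun x => by ring
        simp only [this, Finset.sum_add_distrib]
        ring
      smul_left := fun t a c => by
        simp only [polar_odd, Pi.smul_apply, smul_eq_mul, Finset.mul_sum, mul_add]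
        have : ∀ x : Fin m, t * a (Sum.inr (Sum.inl x)) * c (Sum.inr (Sum.inr x)) + c (Sum.inr (Sum.inl x)) * (t * a (Sum.inr (Sum.inr x))) =
            t * (a (Sum.inr (Sum.inl x)) * c (Sum.inr (Sum.inr x))) + t * (c (Sum.inr (Sum.inl x)) * a (Sum.inr (Sum.inr x))) := fun x => by ring
        simp only [this]
        ring
      add_right := fun a b c => by
        simp only [polar_odd, Pi.add_apply, ← Finset.sum_add_distrib]
        have : ∀ x : Fin m, a (Sum.inr (Sum.inl x)) * (b (Sum.inr (Sum.inr x)) + c (Sum.inr (Sum.inr x))) +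
            (b (Sum.inr (Sum.inl x)) + c (Sum.inr (Sum.inl x))) * a (Sum.inr (Sum.inr x)) =
            a (Sum.inr (Sum.inl x)) * b (Sum.inr (Sum.inr x)) + b (Sum.inr (Sum.inl x)) * a (Sum.inr (Sum.inr x)) +
            (a (Sum.inr (Sum.inl x)) * c (Sum.inr (Sum.inr x)) + c (Sum.inr (Sum.inl x)) * a (Sum.inr (Sum.inr x))) := fun x => by ring
        simp only [this, Finset.sum_add_distrib]
        ring
      smul_right := fun t a c => by
        simp only [polar_odd, Pi.smul_apply, smul_eq_mul, Finset.mul_sum, mul_add]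
        have : ∀ x : Fin m, a (Sum.inr (Sum.inl x)) * (t * c (Sum.inr (Sum.inr x))) + t * c (Sum.inr (Sum.inl x)) * a (Sum.inr (Sum.inr x)) =
            t * (a (Sum.inr (Sum.inl x)) * c (Sum.inr (Sum.inr x))) + t * (c (Sum.inr (Sum.inl x)) * a (Sum.inr (Sum.inr x))) := fun x => by ring
        simp only [this]
        ring }
  refine ⟨fun c v => ?_, hbil, fun v hv => ?_⟩
  · simp only [quadFormOdd, Pi.smul_apply, smul_eq_mul, Finset.mul_sum]
    rw [mul_add, Finset.mul_sum]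
    congr 1
    · ring
    · exact Finset.sum_congr rfl fun i _ => by ring
  · obtain ⟨j, hj⟩ := Function.ne_iff.mp hv
    have key : ∃ x, QuadraticMap.polar (quadFormOdd m F) x v ≠ 0 := by
      rcases j with u | j | j
      · refine ⟨Pi.single (Sum.inl ()) 1, ?_⟩
        rw [polar_odd_single_unit]
        exact mul_ne_zero h2 hj
      · refine ⟨Pi.single (Sum.inr (Sum.inr j)) 1, ?_⟩
        rw [polar_odd_single_inr]
        exact hj
      · refine ⟨Pi.single (Sum.inr (Sum.inl j)) 1, ?_⟩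
        rw [polar_odd_single_inl]
        exact hj
    obtain ⟨x, hx⟩ := key
    refine ⟨⟨x, hx⟩, ⟨x, ?_⟩⟩
    rw [QuadraticMap.polar_comm]
    exact hx

/-- The Gram matrix of the standard form lies in every subfield. -/
theorem gram_mem_odd (F₁ : Subfield F) (i j : Unit ⊕ (Fin m ⊕ Fin m)) :
    gramMatrix (QuadraticMap.polar (quadFormOdd m F)) i j ∈ F₁ := by
  classical
  have h0 := F₁.zero_mem
  have h1 := F₁.one_mem
  change QuadraticMap.polar (quadFormOdd m F) (Pi.single i 1) (Pi.single j 1) ∈ F₁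
  rcases i with u | i | i
  · rw [polar_odd_single_unit]
    refine F₁.mul_mem (by exact_mod_cast natCast_mem F₁ 2) ?_
    by_cases h : j = Sum.inl ()
    · subst h
      simpa using h1
    · have hne : (Sum.inl () : Unit ⊕ (Fin m ⊕ Fin m)) ≠ j := fun h' => h h'.symm
      rw [Pi.single_eq_of_ne hne]
      exact h0
  · rw [polar_odd_single_inl]
    by_cases h : j = Sum.inr (Sum.inr i)
    · subst h
      simpa using h1
    · have hne : (Sum.inr (Sum.inr i) : Unit ⊕ (Fin m ⊕ Fin m)) ≠ j := fun h' => h h'.symm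
      rw [Pi.single_eq_of_ne hne]
      exact h0
  · rw [polar_odd_single_inr]
    by_cases h : j = Sum.inr (Sum.inl i)
    · subst h
      simpa using h1
    · have hne : (Sum.inr (Sum.inl i) : Unit ⊕ (Fin m ⊕ Fin m)) ≠ j := fun h' => h h'.symm
      rw [Pi.single_eq_of_ne hne]
      exact h0

theorem card_odd_index : Fintype.card (Unit ⊕ (Fin m ⊕ Fin m)) = 2 * m + 1 := by
  simp
  omega

end Std

section Similar

variable {F : Type*} [Field F] [Fintype F] {d m : ℕ}

open Cfsg.Agent.Lib.Classical.Witt.Hyp in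
/-- A symmetric form of odd dimension is a scalar multiple of the standard form. -/
theorem exists_std (hd : d = 2 * m + 1) (h2 : (2 : F) ≠ 0) {f₁ : (Fin d → F) → (Fin d → F) → F} (hf₁ : IsSymmetricForm f₁) :
    ∃ (a : F) (w : Unit ⊕ (Fin m ⊕ Fin m) → (Fin d → F)), a ≠ 0 ∧
      ∀ i j, f₁ (w i) (w j) = a * QuadraticMap.polar (quadFormOdd m F) (Pi.single i 1) (Pi.single j 1) := by
  classical
  let B : LinearMap.BilinForm F (Fin d → F) :=
    LinearMap.mk₂ F f₁ hf₁.bilinear.add_left (fun c x v => by simpa using hf₁.bilinear.smul_left c x v)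
      hf₁.bilinear.add_right (fun c v x => by simpa using hf₁.bilinear.smul_right c v x)
  have hB : ∀ u v, B u v = f₁ u v := fun u v => rfl
  let Q₁ : QuadraticForm F (Fin d → F) := (2⁻¹ : F) • LinearMap.BilinMap.toQuadraticMap B
  have hQ₁ : ∀ x, Q₁ x = 2⁻¹ * f₁ x x := fun x => rfl
  have hpol : ∀ x y, QuadraticMap.polar Q₁ x y = f₁ x y := by
    intro x y
    simp only [QuadraticMap.polar, hQ₁]
    rw [hf₁.bilinear.add_left, hf₁.bilinear.add_right, hf₁.bilinear.add_right, hf₁.symm y x]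
    field_simp
    ring
  have hnd : PolarNondeg Q₁ := by
    intro x hx
    by_contra h0
    obtain ⟨-, y, hy⟩ := hf₁.nondegenerate x h0
    exact hy (by rw [← hpol]; exact hx y)
  have hfr : Module.finrank F (Fin d → F) = 2 * m + 1 := by
    rw [Module.finrank_fin_fun, hd]
  obtain ⟨e, f, x, hfam, hx, hperp⟩ := exists_odd_family m Q₁ hnd hfr
  set a := Q₁ x with ha
  have hxx : f₁ x x = 2 * a := by
    rw [ha, hQ₁]
    field_simp
  have hfe : ∀ i j, f₁ (e i) (f j) = if i = j then 1 else 0 := fun i j => by rw [← hpol]; exact hfam.ef i j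
  have hee : ∀ i j, f₁ (e i) (e j) = 0 := fun i j => by rw [← hpol]; exact hfam.ee i j
  have hff : ∀ i j, f₁ (f i) (f j) = 0 := fun i j => by rw [← hpol]; exact hfam.ff i j
  have hxe : ∀ i, f₁ x (e i) = 0 := fun i => by rw [← hpol]; exact (hperp i).1
  have hxf : ∀ i, f₁ x (f i) = 0 := fun i => by rw [← hpol]; exact (hperp i).2
  let w : Unit ⊕ (Fin m ⊕ Fin m) → (Fin d → F) := fun i =>
    match i with
    | .inl _ => x
    | .inr (.inl i) => e i
    | .inr (.inr i) => a • f i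
  refine ⟨a, w, hx, fun i j => ?_⟩
  have hb := hf₁.bilinear
  have hsy := hf₁.symm
  rcases i with u | i | i <;> rcases j with v | j | j
  · rw [polar_odd_single_unit]
    simp [w, hxx]
    ring
  · rw [polar_odd_single_unit]
    simp [w, hxe]
  · rw [polar_odd_single_unit]
    simp [w, hb.smul_right, hxf]
  · rw [polar_odd_single_inl]
    simp [w, hsy (e i) x, hxe]
  · rw [polar_odd_single_inl]
    simp [w, hee]
  · rw [polar_odd_single_inl]
    simp only [w, hb.smul_right, hfe, Pi.single_apply, Sum.inr.injEq]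
  · rw [polar_odd_single_inr]
    simp [w, hb.smul_left, hsy (f i) x, hxf]
  · rw [polar_odd_single_inr]
    simp only [w, hb.smul_left, hsy (f i) (e j), hfe, Pi.single_apply, Sum.inr.injEq, Sum.inl.injEq]
    by_cases hij : i = j
    · subst hij
      simp
    · simp [hij, Ne.symm hij]
  · rw [polar_odd_single_inr]
    simp [w, hb.smul_left, hb.smul_right, hff]

/-- **Similarity of symmetric forms in odd dimension.** -/
theorem exists_similar (hd : d = 2 * m + 1) (h2 : (2 : F) ≠ 0) {J₁ J₂ : GL (Fin d) F}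
    (hJ₁ : (J₁ : Matrix (Fin d) (Fin d) F)ᵀ = J₁) (hJ₂ : (J₂ : Matrix (Fin d) (Fin d) F)ᵀ = J₂) :
    ∃ (T : GL (Fin d) F) (μ : F), μ ≠ 0 ∧ (T : Matrix (Fin d) (Fin d) F)ᵀ * (J₂ : Matrix (Fin d) (Fin d) F) * (T : Matrix (Fin d) (Fin d) F) =
      μ • (J₁ : Matrix (Fin d) (Fin d) F) := by
  classical
  have hcard : Fintype.card (Fin d) = Fintype.card (Unit ⊕ (Fin m ⊕ Fin m)) := by
    rw [card_odd_index, Fintype.card_fin, hd]
  let ε : Fin d ≃ Unit ⊕ (Fin m ⊕ Fin m) := Fintype.equivOfCardEq hcard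
  have hstd := isNondeg_quadFormOdd (m := m) h2
  have hGU : IsUnit (gramMatrix (QuadraticMap.polar (quadFormOdd m F))) :=
    isUnit_gram (σ := RingHom.id F) Function.surjective_id (isSesq_of_bilinear hstd.polar_bilinear) hstd.nondegenerate
  let S : Matrix (Fin d) (Fin d) F := (gramMatrix (QuadraticMap.polar (quadFormOdd m F))).submatrix ε ε
  have hSd : S.det ≠ 0 := by
    change ((gramMatrix (QuadraticMap.polar (quadFormOdd m F))).submatrix ε ε).det ≠ 0
    rw [Matrix.det_submatrix_equiv_self]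
    exact ((Matrix.isUnit_iff_isUnit_det _).mp hGU).ne_zero
  have key : ∀ J : GL (Fin d) F, (J : Matrix (Fin d) (Fin d) F)ᵀ = J →
      ∃ (a : F) (M : GL (Fin d) F), a ≠ 0 ∧ (M : Matrix (Fin d) (Fin d) F)ᵀ * (J : Matrix (Fin d) (Fin d) F) * (M : Matrix (Fin d) (Fin d) F) = a • S := by
    intro J hJ
    obtain ⟨a, w, ha, hw⟩ := exists_std hd h2 (bil_symmetric J hJ)
    let M : Matrix (Fin d) (Fin d) F := Matrix.of fun i j => w (ε j) i
    have hMs : ∀ j, M *ᵥ Pi.single j 1 = w (ε j) := by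
      intro j
      funext k
      simp [M]
    have hM : Mᵀ * (J : Matrix (Fin d) (Fin d) F) * M = a • S := by
      ext i j
      have h1 : (Mᵀ * (J : Matrix (Fin d) (Fin d) F) * M) i j = bil (Mᵀ * (J : Matrix (Fin d) (Fin d) F) * M) (Pi.single i 1) (Pi.single j 1) := by
        simp [bil]
      rw [h1, ← bil_mulVec, hMs, hMs, hw]
      rfl
    have hdetM : M.det ≠ 0 := by
      intro h0
      have h1 := congrArg Matrix.det hM
      rw [Matrix.det_mul, Matrix.det_mul, Matrix.det_transpose, h0, zero_mul, zero_mul, Matrix.det_smul] at h1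
      exact mul_ne_zero (pow_ne_zero _ ha) hSd h1.symm
    exact ⟨a, Matrix.GeneralLinearGroup.mkOfDetNeZero M hdetM, ha, hM⟩
  obtain ⟨a₁, M₁, ha₁, h₁⟩ := key J₁ hJ₁
  obtain ⟨a₂, M₂, ha₂, h₂⟩ := key J₂ hJ₂
  refine ⟨M₂ * M₁⁻¹, a₂ / a₁, div_ne_zero ha₂ ha₁, ?_⟩
  set A₁ : Matrix (Fin d) (Fin d) F := (M₁ : Matrix (Fin d) (Fin d) F) with hA₁
  set B₁ : Matrix (Fin d) (Fin d) F := ((M₁⁻¹ : GL (Fin d) F) : Matrix (Fin d) (Fin d) F) with hB₁
  have hAB : A₁ * B₁ = 1 := by
    rw [hA₁, hB₁, ← Units.val_mul, mul_inv_cancel, Units.val_one]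
  have hAB' : B₁ᵀ * A₁ᵀ = 1 := by
    rw [← Matrix.transpose_mul, hAB, Matrix.transpose_one]
  rw [Units.val_mul, Matrix.transpose_mul]
  calc B₁ᵀ * (M₂ : Matrix (Fin d) (Fin d) F)ᵀ * (J₂ : Matrix (Fin d) (Fin d) F) * ((M₂ : Matrix (Fin d) (Fin d) F) * B₁)
      = B₁ᵀ * ((M₂ : Matrix (Fin d) (Fin d) F)ᵀ * (J₂ : Matrix (Fin d) (Fin d) F) * (M₂ : Matrix (Fin d) (Fin d) F)) * B₁ := by
        simp only [mul_assoc]
    _ = a₂ • (B₁ᵀ * S * B₁) := by
        rw [h₂, Matrix.mul_smul, Matrix.smul_mul]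
    _ = a₂ • (B₁ᵀ * (a₁⁻¹ • (A₁ᵀ * (J₁ : Matrix (Fin d) (Fin d) F) * A₁)) * B₁) := by
        rw [h₁, smul_smul, inv_mul_cancel₀ ha₁, one_smul]
    _ = (a₂ / a₁) • (B₁ᵀ * A₁ᵀ * (J₁ : Matrix (Fin d) (Fin d) F) * (A₁ * B₁)) := by
        rw [Matrix.mul_smul, Matrix.smul_mul, smul_smul, div_eq_mul_inv]
        simp only [mul_assoc]
    _ = (a₂ / a₁) • (J₁ : Matrix (Fin d) (Fin d) F) := by
        rw [hAB, hAB', one_mul, mul_one]

end Similar

section Wreath

variable {ι : Type} [Fintype ι] [DecidableEq ι] {F : Type*} [Field F] {f : (ι → F) → (ι → F) → F}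

/-- Equal factors give a tensor power. -/
theorem toWreath {G : Subgroup (GL ι F)} {d : ℕ} {e : ι ≃ Fin d × Fin d} {P : GL ι F} {J₁ J₂ : GL (Fin d) F} {c : F}
    (T : TensorData (RingEquiv.refl F) 1 f G d d e P J₁ J₂ 1 1 c) (T₀ : GL (Fin d) F) {μ : F} (hμ : μ ≠ 0)
    (hT₀ : (T₀ : Matrix (Fin d) (Fin d) F)ᵀ * (J₂ : Matrix (Fin d) (Fin d) F) * (T₀ : Matrix (Fin d) (Fin d) F) = μ • (J₁ : Matrix (Fin d) (Fin d) F)) :
    ∃ P' : GL ι F, WreathForm (RingEquiv.refl F) 1 f G d 2 (e.trans (finTwoArrowEquiv (Fin d)).symm) P' J₁ 1 (c * μ) := by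
  refine ⟨P * kronE e 1 T₀, T.hd, le_rfl, T.le.trans ((tensorProductSubgroup_change e P 1 T₀).trans (tensorProductSubgroup_le_wreath e _)),
    T.herm₁, T.ne₁, mul_ne_zero T.hc hμ, ?_, ?_⟩
  · intro u v
    rw [Units.val_mul, ← Matrix.mulVec_mulVec, ← Matrix.mulVec_mulVec, T.eq, sesqM_mulVec, coe_kronE]
    have h1 : (((1 : GL (Fin d) F) : Matrix (Fin d) (Fin d) F) ⊗ₖ (T₀ : Matrix (Fin d) (Fin d) F)).submatrix e e =
        ((1 : Matrix (Fin d) (Fin d) F) ⊗ₖ (T₀ : Matrix (Fin d) (Fin d) F)).submatrix e e := rfl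
    have h2 : ((((1 : Matrix (Fin d) (Fin d) F) ⊗ₖ (T₀ : Matrix (Fin d) (Fin d) F)).submatrix e e).map (((RingEquiv.refl F : F ≃+* F) : F →+* F))) =
        ((1 : Matrix (Fin d) (Fin d) F) ⊗ₖ (T₀ : Matrix (Fin d) (Fin d) F)).submatrix e e := by
      ext i j
      simp
    rw [h1, h2, Matrix.transpose_submatrix, Matrix.submatrix_mul_equiv, Matrix.submatrix_mul_equiv, transpose_kron,
      Matrix.transpose_one, ← Matrix.mul_kronecker_mul, ← Matrix.mul_kronecker_mul, one_mul, mul_one, hT₀, mul_assoc]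
    congr 1
    have h3 : ((J₁ : Matrix (Fin d) (Fin d) F) ⊗ₖ (μ • (J₁ : Matrix (Fin d) (Fin d) F))).submatrix e e =
        μ • ((pureMat fun _ : Fin 2 => (J₁ : Matrix (Fin d) (Fin d) F)).submatrix (e.trans (finTwoArrowEquiv (Fin d)).symm) (e.trans (finTwoArrowEquiv (Fin d)).symm)) := by
      ext i j
      simp [Fin.prod_univ_two, Matrix.kroneckerMap_apply]
      ring
    rw [h3, sesqM_smul]
  · have := T.sign
    simp only [RingEquiv.refl_apply, one_mul, mul_one, one_pow] at this ⊢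

end Wreath

end Cfsg.Agent.Lib.Classical.Asch.FormO2
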