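import Mathlib
import Cfsg.Agent.Lib.Classical.Asch.FormO2

/-!
# Aschbacher's theorem for the orthogonal groups in odd dimension
-/

set_option autoImplicit false
set_option linter.style.haveILetI false
set_option linter.unusedSectionVars false

namespace Cfsg.Agent.Lib.Classical.Asch.FormO3

open scoped MatrixGroups Matrix Kronecker
open Cfsg Cfsg.Geo Cfsg.Agent.Lib.Classical.Asch.Basic Cfsg.Agent.Lib.Classical.Asch.Forms
open Cfsg.Agent.Lib.Classical.Asch.Adj Cfsg.Agent.Lib.Classical.Asch.FormDich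
open Cfsg.Agent.Lib.Classical.Asch.FormTensor Cfsg.Agent.Lib.Classical.Asch.FormSim
open Cfsg.Agent.Lib.Classical.Asch.FormComm Cfsg.Agent.Lib.Classical.Asch.Gram
open Cfsg.Agent.Lib.Classical.Asch.FormPerp Cfsg.Agent.Lib.Classical.Asch.FormField
open Cfsg.Agent.Lib.Classical.Asch.FormSympType
open Cfsg.Agent.Lib.Classical.Asch.FormReal Cfsg.Agent.Lib.Classical.Asch.FormDescent
open Cfsg.Agent.Lib.Classical.Asch.SympType Cfsg.Agent.Lib.Classical.Asch.SympStruct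
open Cfsg.Agent.Lib.Classical.Asch.Dichotomy Cfsg.Agent.Lib.Classical.Asch.Subfield
open Cfsg.Agent.Lib.Classical.Asch.CaseA Cfsg.Agent.Lib.Classical.Asch.Main
open Cfsg.Agent.Lib.Classical.Asch.PureTensor Cfsg.Agent.Lib.Classical.Asch.FormSU2
open Cfsg.Agent.Lib.Classical.Asch.FormO Cfsg.Agent.Lib.Classical.Asch.FormO2
open Cfsg.Agent.Lib.Classical.Asch.FormSp (scalars_le_similarity IsMDecomposition.two_mul_eq)
open Cfsg.Agent.Lib.Classical.Herm.Descent (fixF mem_fixF card_eq_pow_fix)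

section Three

variable {F : Type*} [Field F]

/-- The monomial group of a family of three vectors. -/
def monoGroup (x : Fin 3 → Fin 3 → F) : Subgroup (GL (Fin 3) F) where
  carrier := {g | ∃ (π : Equiv.Perm (Fin 3)) (s : Fin 3 → F), (∀ i, s i ≠ 0) ∧ ∀ i, (g : Matrix (Fin 3) (Fin 3) F) *ᵥ x i = s i • x (π i)}
  one_mem' := ⟨1, 1, fun _ => one_ne_zero, fun i => by simp⟩
  mul_mem' := by
    rintro a b ⟨π, s, hs, hπ⟩ ⟨ρ, t, ht, hρ⟩
    refine ⟨π * ρ, fun i => t i * s (ρ i), fun i => mul_ne_zero (ht i) (hs _), fun i => ?_⟩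
    rw [Units.val_mul, ← Matrix.mulVec_mulVec, hρ, Matrix.mulVec_smul, hπ, smul_smul]
    rfl
  inv_mem' := by
    rintro a ⟨π, s, hs, hπ⟩
    refine ⟨π⁻¹, fun j => (s (π⁻¹ j))⁻¹, fun j => inv_ne_zero (hs _), fun j => ?_⟩
    have h1 := hπ (π⁻¹ j)
    have hj : π (π⁻¹ j) = j := by simp
    rw [hj] at h1
    have h2 := inv_mulVec_mulVec a (x (π⁻¹ j))
    rw [h1, Matrix.mulVec_smul] at h2
    have h3 : ((a⁻¹ : GL (Fin 3) F) : Matrix (Fin 3) (Fin 3) F) *ᵥ x j = (s (π⁻¹ j))⁻¹ • (s (π⁻¹ j) • ((a⁻¹ : GL (Fin 3) F) : Matrix (Fin 3) (Fin 3) F) *ᵥ x j) := by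
      rw [smul_smul, inv_mul_cancel₀ (hs _), one_smul]
    rw [h3, h2]

theorem isSolvable_perm_three : Group.IsSolvable (Equiv.Perm (Fin 3)) :=
  Cfsg.Agent.Lib.Char.Burnside2.isSolvable_of_card_eq Nat.prime_two Nat.prime_three _ _ 1 1 rfl
    (by rw [Nat.card_eq_fintype_card, Fintype.card_perm]; decide)

/-- The monomial group is solvable. -/
theorem isSolvable_mono {x : Fin 3 → Fin 3 → F} (hunq : ∀ (j j' : Fin 3) (s s' : F), s ≠ 0 → s • x j = s' • x j' → j = j')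
    (hspan : Submodule.span F (Set.range x) = ⊤) : Group.IsSolvable (monoGroup x) := by
  classical
  have hspec : ∀ g : ↥(monoGroup x), ∃ (π : Equiv.Perm (Fin 3)) (s : Fin 3 → F), (∀ i, s i ≠ 0) ∧ ∀ i, ((g : GL (Fin 3) F) : Matrix (Fin 3) (Fin 3) F) *ᵥ x i = s i • x (π i) := fun g => g.2
  choose π s hs hπ using hspec
  have huniq : ∀ (g : ↥(monoGroup x)) (ρ : Equiv.Perm (Fin 3)) (t : Fin 3 → F), (∀ i, ((g : GL (Fin 3) F) : Matrix (Fin 3) (Fin 3) F) *ᵥ x i = t i • x (ρ i)) → π g = ρ := by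
    intro g ρ t h
    ext i
    congr 1
    exact hunq _ _ (s g i) (t i) (hs g i) (by rw [← hπ, h])
  let ψ : ↥(monoGroup x) →* Equiv.Perm (Fin 3) :=
    MonoidHom.mk' π (fun a b => by
      refine huniq (a * b) _ (fun i => s b i * s a (π b i)) (fun i => ?_)
      change (((a : GL (Fin 3) F) * (b : GL (Fin 3) F) : GL (Fin 3) F) : Matrix (Fin 3) (Fin 3) F) *ᵥ x i = _
      rw [Units.val_mul, ← Matrix.mulVec_mulVec, hπ, Matrix.mulVec_smul, hπ, smul_smul]
      rfl)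
  haveI : Group.IsSolvable ↥ψ.ker := by
    refine isSolvable_of_comm fun a b => ?_
    apply Subtype.ext
    apply Subtype.ext
    apply Units.ext
    apply Matrix.toLin'.injective
    refine LinearMap.ext_on_range hspan fun i => ?_
    have ha : π a.1 = 1 := a.2
    have hb : π b.1 = 1 := b.2
    have e1 : ∀ (c : ↥ψ.ker) i, ((c.1 : GL (Fin 3) F) : Matrix (Fin 3) (Fin 3) F) *ᵥ x i = s c.1 i • x i := by
      intro c i
      have hc : π c.1 = 1 := c.2
      rw [hπ, hc]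
      rfl
    change ((((a.1 : GL (Fin 3) F) * (b.1 : GL (Fin 3) F) : GL (Fin 3) F) : Matrix (Fin 3) (Fin 3) F) *ᵥ x i) =
      ((((b.1 : GL (Fin 3) F) * (a.1 : GL (Fin 3) F) : GL (Fin 3) F) : Matrix (Fin 3) (Fin 3) F) *ᵥ x i)
    rw [Units.val_mul, Units.val_mul, ← Matrix.mulVec_mulVec, ← Matrix.mulVec_mulVec, e1, e1, Matrix.mulVec_smul, Matrix.mulVec_smul, e1, e1, smul_smul, smul_smul,
      mul_comm]
  haveI := isSolvable_perm_three
  exact Group.isSolvable_of_ker_le_range ψ.ker.subtype ψ (by simp)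

variable [Fintype F]

/-- **Perfect groups of similarities in dimension three over the field with three elements.** -/
theorem perfect_three (hq : Fintype.card F = 3) {J₀ : GL (Fin 3) F} (hJ : (J₀ : Matrix (Fin 3) (Fin 3) F)ᵀ = J₀)
    {X : Subgroup (GL (Fin 3) F)} (hXp : ⁅X, X⁆ = X)
    (hX : ∀ a ∈ X, ∃ μ : F, μ ≠ 0 ∧ (a : Matrix (Fin 3) (Fin 3) F)ᵀ * (J₀ : Matrix (Fin 3) (Fin 3) F) * (a : Matrix (Fin 3) (Fin 3) F).map (RingEquiv.refl F) =
      μ • (J₀ : Matrix (Fin 3) (Fin 3) F)) : X = ⊥ := by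
  classical
  have hf := bil_symmetric J₀ hJ
  obtain ⟨c, x, hc, hx⟩ := SpThree.exists_ortho_triple hq hf
  have hzero : ∀ w : Fin 3 → F, bil (J₀ : Matrix (Fin 3) (Fin 3) F) 0 w = 0 := by
    intro w
    simp [bil]
  have hli : LinearIndependent F x := by
    rw [Fintype.linearIndependent_iff]
    intro β hβ i
    have h1 : bil (J₀ : Matrix (Fin 3) (Fin 3) F) (∑ j, β j • x j) (x i) = β i * c := by
      rw [Fin.sum_univ_three, hf.bilinear.add_left, hf.bilinear.add_left, hf.bilinear.smul_left, hf.bilinear.smul_left,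
        hf.bilinear.smul_left, hx, hx, hx]
      fin_cases i <;> simp
    rw [hβ, hzero] at h1
    exact (mul_eq_zero.mp h1.symm).resolve_right hc
  have hspan : Submodule.span F (Set.range x) = ⊤ := hli.span_eq_top_of_card_eq_finrank (by simp)
  have hunq : ∀ (j j' : Fin 3) (s s' : F), s ≠ 0 → s • x j = s' • x j' → j = j' := by
    intro j j' s s' hs h
    by_contra hne
    have h1 := congrArg (fun w => bil (J₀ : Matrix (Fin 3) (Fin 3) F) w (x j)) h
    simp only [hf.bilinear.smul_left, hx] at h1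
    rw [if_neg (Ne.symm hne), mul_zero] at h1
    simp only [if_true] at h1
    exact mul_ne_zero hs hc h1
  haveI := isSolvable_mono hunq hspan
  refine eq_bot_of_perfect_le (U := monoGroup x) ?_ hXp
  intro a ha
  obtain ⟨μ, hμ0, hμ⟩ := hX a ha
  have hmap : (a : Matrix (Fin 3) (Fin 3) F).map (RingEquiv.refl F) = a := by
    ext i j
    simp
  rw [hmap] at hμ
  obtain ⟨π, s, hs, hπ⟩ := SpThree.monomial_of_sim hq hf hc hx a (μ := μ) (fun y y' => by
    rw [bil_mulVec, hμ]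
    simp [bil, Matrix.smul_mulVec, smul_dotProduct])
  exact ⟨π, s, hs, hπ⟩

end Three

section Generic

variable {ι : Type} [Fintype ι] [DecidableEq ι] {F : Type*} [Field F] [Fintype F] {Q : (ι → F) → F}

/-- The output of the theorem. -/
def OutO (Q : (ι → F) → F) (H : Subgroup (GL ι F)) : Prop :=
  (∃ W : Submodule F (ι → F), W ≠ ⊥ ∧ IsTotallySingularQuad Q W ∧ H ≤ subspaceStabilizer W) ∨
  (∃ W : Submodule F (ι → F), W ≠ ⊥ ∧ W ≠ ⊤ ∧ IsNondegenerateOn (QuadraticMap.polar Q) W ∧ H ≤ subspaceStabilizer W) ∨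
  (∃ (t k : ℕ) (D : Fin t → Submodule F (ι → F)), 1 < k ∧ IsOrthogonalMDecomposition Q k D ∧ H ≤ decompositionStabilizer D) ∨
  (∃ (t : ℕ) (D : Fin t → Submodule F (ι → F)), (Fintype.card F).Prime ∧ IsOrthogonalMDecomposition Q 1 D ∧
    H ≤ decompositionStabilizer D) ∨
  (∃ (r : ℕ) (K : Subalgebra F (Matrix ι ι F)), r.Prime ∧ Fintype.card ι ≠ r ∧ IsFieldSubalgebra r K ∧
    IsSelfAdjointFor (QuadraticMap.polar Q) K ∧ H ≤ subalgebraNormalizer K) ∨
  (∃ (n₁ n₂ : ℕ) (e : ι ≃ Fin n₁ × Fin n₂) (P : GL ι F) (f₁ : (Fin n₁ → F) → (Fin n₁ → F) → F) (f₂ : (Fin n₂ → F) → (Fin n₂ → F) → F),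
    3 ≤ n₁ ∧ n₁ < n₂ ∧ IsSymmetricForm f₁ ∧ IsSymmetricForm f₂ ∧ IsTensorFormStructure id (QuadraticMap.polar Q) f₁ f₂ e P ∧
    H ≤ tensorProductSubgroup n₁ n₂ e P) ∨
  (∃ (F₀ : Subfield F) (r : ℕ) (P : GL ι F), r.Prime ∧ Fintype.card F = Nat.card F₀ ^ r ∧ IsQuadFormRationalStructure Q F₀ P ∧
    H ≤ subfieldSubgroup F₀ P) ∨
  (∃ (k t : ℕ) (e : ι ≃ (Fin t → Fin k)) (P : GL ι F) (f₁ : (Fin k → F) → (Fin k → F) → F), 3 ≤ k ∧ 2 ≤ t ∧
    ¬ (Fintype.card F = 3 ∧ k = 3) ∧ IsSymmetricForm f₁ ∧ IsTensorPowerFormStructure id (QuadraticMap.polar Q) f₁ e P ∧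
    H ≤ tensorWreathSubgroup k t e P)

variable {H : Subgroup (GL ι F)}

theorem scalars_le_decomp [Nonempty ι] {t : ℕ} (D : Fin t → Submodule F (ι → F)) : scalars ι F ≤ decompositionStabilizer D := by
  intro z hz
  refine ⟨1, fun i => ?_⟩
  have h1 := map_mul_scalar (h := 1) hz (D i)
  rw [one_mul] at h1
  rw [h1]
  simp

/-- The sign of a symmetric or skew matrix in odd dimension. -/
theorem sign_one {d : ℕ} (hd : Odd d) (h2 : (2 : F) ≠ 0) {J : GL (Fin d) F} {ε : F} (hJ : (J : Matrix (Fin d) (Fin d) F)ᵀ = ε • (J : Matrix (Fin d) (Fin d) F))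
    (he : ε * ε = 1) : ε = 1 := by
  rcases FormSp.eq_one_or_of_mul_self he with h | h
  · exact h
  · exfalso
    subst h
    have h3 := congrArg Matrix.det hJ
    rw [Matrix.det_transpose, Matrix.det_smul, Fintype.card_fin, hd.neg_one_pow] at h3
    have h4 : (J : Matrix (Fin d) (Fin d) F).det ≠ 0 := ((Matrix.isUnit_iff_isUnit_det _).mp J.isUnit).ne_zero
    have h5 : (2 : F) * (J : Matrix (Fin d) (Fin d) F).det = 0 := by
      linear_combination h3
    exact (mul_eq_zero.mp h5).elim h2 h4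

theorem odd_of_odd_mul {a b : ℕ} (h : Odd (a * b)) : Odd a ∧ Odd b := Nat.odd_mul.mp h

/-- The frame outcome over non-prime fields. -/
theorem out_frame [Nonempty ι] (hQ : IsNondegenerateQuadraticForm Q) (hq : Odd (Fintype.card F)) (hn : Odd (Fintype.card ι))
    (hdisc : ∀ F₁ : Subfield F, ∀ i j, gramMatrix (QuadraticMap.polar Q) i j ∈ F₁) (hH : H ≤ isometryGroup F Q)
    {t : ℕ} {D : Fin t → Submodule F (ι → F)} (hOD : IsOrthogonalMDecomposition Q 1 D) (hle : H ≤ decompositionStabilizer D) : OutO Q H := by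
  classical
  by_cases hp : (Fintype.card F).Prime
  · exact Or.inr (Or.inr (Or.inr (Or.inl ⟨t, D, hp, hOD, hle⟩)))
  · set p := ringChar F with hpdef
    haveI : CharP F p := ringChar.charP F
    obtain ⟨e', hpp, hF⟩ := FiniteField.card F p
    set e : ℕ := (e' : ℕ) with he
    have he0 : 0 < e := e'.pos
    have he1 : e ≠ 1 := by
      intro h
      rw [hF, h, pow_one] at hp
      exact hp hpp
    obtain ⟨F₁, hF₁card, -⟩ := exists_subfield_of_dvd p e 1 hpp hF (one_dvd e)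
    have hne : F₁ ≠ ⊤ := by
      rintro rfl
      have h1 : Nat.card (⊤ : Subfield F) = Fintype.card F := by
        rw [← Nat.card_eq_fintype_card]
        exact Nat.card_congr Subfield.topEquiv.toEquiv
      rw [h1, hF] at hF₁card
      have h3 : p ^ 1 < p ^ e := Nat.pow_lt_pow_right hpp.one_lt (by omega)
      omega
    obtain ⟨F₂, r', -, hr', hcard⟩ := exists_prime_index_subfield F₁ hne
    obtain ⟨P, ζ, hζ0, hζ, hleP⟩ := frame_rational hQ (Forms.two_ne_zero_of_odd hq) hH hOD hle F₂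
    obtain ⟨P', hP', heq⟩ := exists_rational_quad hQ hq hn hr' hcard hdisc hζ0 hζ
    exact Or.inr (Or.inr (Or.inr (Or.inr (Or.inr (Or.inr (Or.inl ⟨F₂, r', P', hr', hcard, hP', heq ▸ hleP⟩))))))

/-- The decomposition outcome. -/
theorem out_decomp [Nonempty ι] (hQ : IsNondegenerateQuadraticForm Q) (hq : Odd (Fintype.card F)) (hn : Odd (Fintype.card ι))
    (hdisc : ∀ F₁ : Subfield F, ∀ i j, gramMatrix (QuadraticMap.polar Q) i j ∈ F₁) (hH : H ≤ isometryGroup F Q)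
    (hG : ∀ W : Submodule F (ι → F), Inv (H ⊔ scalars ι F) W → W = ⊥ ∨ W = ⊤) {t k : ℕ} {D : Fin t → Submodule F (ι → F)}
    (hD : IsNondegenerateMDecomposition (QuadraticMap.polar Q) k D) (hle : H ≤ decompositionStabilizer D) : OutO Q H := by
  have hOD := isOrthogonal_of hH hG hD (sup_le hle (scalars_le_decomp D))
  have hk0 := hD.decomp.pos
  by_cases hk1 : k = 1
  · subst hk1
    exact out_frame hQ hq hn hdisc hH hOD hle
  · exact Or.inr (Or.inr (Or.inl ⟨t, k, D, by omega, hOD, hle⟩))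

/-- The commutative outcome. -/
theorem out_comm [Nonempty ι] (hQ : IsNondegenerateQuadraticForm Q) (hq : Odd (Fintype.card F)) (hn : Odd (Fintype.card ι))
    (hn2 : 2 ≤ Fintype.card ι) (hdisc : ∀ F₁ : Subfield F, ∀ i j, gramMatrix (QuadraticMap.polar Q) i j ∈ F₁) (hH : H ≤ isometryGroup F Q)
    (hG : ∀ W : Submodule F (ι → F), Inv (H ⊔ scalars ι F) W → W = ⊥ ∨ W = ⊤)
    (hO : CommOutcome (RingEquiv.refl F) (QuadraticMap.polar Q) (H ⊔ scalars ι F)) : OutO Q H := by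
  classical
  have hsym := symm_polar hQ
  have hr := reflForm_symmetric hsym
  have h2 := Forms.two_ne_zero_of_odd hq
  have hHG : H ≤ H ⊔ scalars ι F := le_sup_left
  rcases hO with ⟨t, k, D, hD, hle⟩ | ⟨k, D, hD, hts, hle⟩ | ⟨r, K, hrp, hK, hA, hle⟩
  · exact out_decomp hQ hq hn hdisc hH hG hD (hHG.trans hle)
  · exfalso
    have := IsMDecomposition.two_mul_eq hD
    obtain ⟨l, hl⟩ := hn
    omega
  · have hdv := Small.dvd_card_of_field hK
    rcases adj_field_dichotomy hr hrp hK hA with hself | ⟨rfl, -⟩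
    · have hsa : IsSelfAdjointFor (QuadraticMap.polar Q) K := by
        intro k hk u v
        have := hr.adj_spec k u v
        rwa [hself k hk] at this
      by_cases hrn : r = Fintype.card ι
      · exfalso
        have hHi : H ≤ isomG (QuadraticMap.polar Q) := hH.trans isometry_le_isomG
        have hcm := comm_of_field_eq hsym h2 hHi hrp hK hsa hrn (hHG.trans hle)
        have hsc := le_scalars_of_comm hsym h2 hn hG hHi hcm
        have hsup : H ⊔ scalars ι F = scalars ι F := sup_eq_right.mpr hsc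
        obtain ⟨W, h1, h3, h4⟩ := exists_inv_of_eq_scalars hn2 hsup
        rcases hG W h4 with h5 | h5
        · exact h1 h5
        · exact h3 h5
      · exact Or.inr (Or.inr (Or.inr (Or.inr (Or.inl ⟨r, K, hrp, fun h => hrn h.symm, hK, hsa, hHG.trans hle⟩))))
    · exfalso
      obtain ⟨l, hl⟩ := hn
      omega

/-- The tensor outcome. -/
theorem out_tensor_main [Nonempty ι] (hQ : IsNondegenerateQuadraticForm Q) (hq : Odd (Fintype.card F)) (hn : Odd (Fintype.card ι))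
    (hdisc : ∀ F₁ : Subfield F, ∀ i j, gramMatrix (QuadraticMap.polar Q) i j ∈ F₁) (hH : H ≤ isometryGroup F Q)
    (hG : ∀ W : Submodule F (ι → F), Inv (H ⊔ scalars ι F) W → W = ⊥ ∨ W = ⊤) {d k : ℕ}
    {e : ι ≃ Fin d × Fin k} {P : GL ι F} {J₁ : GL (Fin d) F} {J₂ : GL (Fin k) F} {ε₁ ε₂ c : F}
    (T : TensorData (RingEquiv.refl F) 1 (QuadraticMap.polar Q) (H ⊔ scalars ι F) d k e P J₁ J₂ ε₁ ε₂ c) : OutO Q H := by
  classical
  have hsym := symm_polar hQ
  have h2 := Forms.two_ne_zero_of_odd hq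
  haveI : Nonempty (Fin d) := ⟨⟨0, by have := T.hd; omega⟩⟩
  haveI : Nonempty (Fin k) := ⟨⟨0, by have := T.hk; omega⟩⟩
  have hcd : Fintype.card ι = d * k := by
    rw [Fintype.card_congr e]
    simp
  rw [hcd] at hn
  obtain ⟨hdo, hko⟩ := odd_of_odd_mul hn
  obtain ⟨hJ₁, he₁⟩ := refl_sign_facts (gl_ne_zero J₁) T.herm₁
  obtain ⟨hJ₂, he₂⟩ := refl_sign_facts (gl_ne_zero J₂) T.herm₂
  have h1 := sign_one hdo h2 hJ₁ he₁
  have h3 := sign_one hko h2 hJ₂ he₂
  subst h1 h3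
  rw [one_smul] at hJ₁ hJ₂
  have hd3 : 3 ≤ d := by
    have := T.hd
    obtain ⟨l, hl⟩ := hdo
    omega
  have hk3 : 3 ≤ k := by
    have := T.hk
    obtain ⟨l, hl⟩ := hko
    omega
  have hst : IsTensorFormStructure id (QuadraticMap.polar Q) (bil (J₁ : Matrix (Fin d) (Fin d) F)) (bil (J₂ : Matrix (Fin k) (Fin k) F)) e P :=
    isTensorFormStructure_of T.hc ((RingEquiv.refl F : F ≃+* F) : F →+* F) T.eq (gramMatrix_bil _) (gramMatrix_bil _)
  have hsJ₁ := bil_symmetric J₁ hJ₁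
  have hsJ₂ := bil_symmetric J₂ hJ₂
  have hHle : H ≤ tensorProductSubgroup d k e P := le_sup_left.trans T.le
  rcases lt_trichotomy d k with hlt | rfl | hgt
  · exact Or.inr (Or.inr (Or.inr (Or.inr (Or.inr (Or.inl ⟨d, k, e, P, _, _, hd3, hlt, hsJ₁, hsJ₂, hst, hHle⟩)))))
  · by_cases h33 : Fintype.card F = 3 ∧ d = 3
    · obtain ⟨h4, rfl⟩ := h33
      obtain ⟨D, hD, hle⟩ := SpThree.tensor_three h4 (by norm_num) hsym.bilinear hsJ₁.bilinear hsJ₁.nondegenerate hsJ₂ hst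
      refine out_decomp hQ hq ?_ hdisc hH hG hD (fun g hg => hle g (hHle hg) ?_)
      · rw [hcd]
        exact hn
      · exact fun u v => (hH.trans isometry_le_isomG) hg u v
    · obtain ⟨l, hl⟩ := hdo
      obtain ⟨T₀, μ, hμ, hT₀⟩ := exists_similar (m := l) hl h2 hJ₁ hJ₂
      obtain ⟨P', W⟩ := toWreath T T₀ hμ hT₀
      have hst' : IsTensorPowerFormStructure id (QuadraticMap.polar Q) (bil (J₁ : Matrix (Fin d) (Fin d) F)) (e.trans (finTwoArrowEquiv (Fin d)).symm) P' :=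
        isTensorPowerFormStructure_of W.hc ((RingEquiv.refl F : F ≃+* F) : F →+* F) W.eq (gramMatrix_bil _)
      exact Or.inr (Or.inr (Or.inr (Or.inr (Or.inr (Or.inr (Or.inr ⟨d, 2, _, P', _, hd3, le_rfl, fun h => h33 h, hsJ₁, hst', le_sup_left.trans W.le⟩))))))
  · have hst' : IsTensorFormStructure id (QuadraticMap.polar Q) (bil (J₂ : Matrix (Fin k) (Fin k) F)) (bil (J₁ : Matrix (Fin d) (Fin d) F)) _ P :=
      isTensorFormStructure_of T.hc ((RingEquiv.refl F : F ≃+* F) : F →+* F) (TensorData.swap T).eq (gramMatrix_bil _) (gramMatrix_bil _)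
    exact Or.inr (Or.inr (Or.inr (Or.inr (Or.inr (Or.inl ⟨k, d, _, P, _, _, hk3, hgt, hsJ₂, hsJ₁, hst', le_sup_left.trans (TensorData.swap T).le⟩)))))

/-- The tensor power outcome. -/
theorem out_wreath_main [Nonempty ι] (hQ : IsNondegenerateQuadraticForm Q) (hq : Odd (Fintype.card F)) (hn : Odd (Fintype.card ι))
    {d t : ℕ} {e : ι ≃ (Fin t → Fin d)} {P : GL ι F} {J₀ : GL (Fin d) F} {ε₀ c : F}
    (T : WreathForm (RingEquiv.refl F) 1 (QuadraticMap.polar Q) (H ⊔ scalars ι F) d t e P J₀ ε₀ c)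
    (hX : ∃ X : Subgroup (GL (Fin d) F), ⁅X, X⁆ = X ∧ X ≠ ⊥ ∧ ∀ a ∈ X, ∃ μ : F, μ ≠ 0 ∧
        (a : Matrix (Fin d) (Fin d) F)ᵀ * (J₀ : Matrix (Fin d) (Fin d) F) * (a : Matrix (Fin d) (Fin d) F).map (RingEquiv.refl F) = μ • (J₀ : Matrix (Fin d) (Fin d) F)) :
    OutO Q H := by
  classical
  have h2 := Forms.two_ne_zero_of_odd hq
  have hd2 := T.hd
  have ht := T.ht
  haveI : Nonempty (Fin d) := ⟨⟨0, by omega⟩⟩
  have hcd : Fintype.card ι = d ^ t := by
    rw [Fintype.card_congr e]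
    simp
  rw [hcd] at hn
  have hdo : Odd d := (Nat.odd_pow_iff (by omega)).mp hn
  obtain ⟨hJ, he⟩ := refl_sign_facts (gl_ne_zero J₀) T.herm
  have h1 := sign_one hdo h2 hJ he
  subst h1
  rw [one_smul] at hJ
  have hd3 : 3 ≤ d := by
    obtain ⟨l, hl⟩ := hdo
    omega
  have hst : IsTensorPowerFormStructure id (QuadraticMap.polar Q) (bil (J₀ : Matrix (Fin d) (Fin d) F)) e P :=
    isTensorPowerFormStructure_of T.hc ((RingEquiv.refl F : F ≃+* F) : F →+* F) T.eq (gramMatrix_bil _)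
  refine Or.inr (Or.inr (Or.inr (Or.inr (Or.inr (Or.inr (Or.inr ⟨d, t, e, P, _, hd3, ht, ?_, bil_symmetric J₀ hJ, hst, le_sup_left.trans T.le⟩))))))
  rintro ⟨h3, rfl⟩
  obtain ⟨X, hXp, hX0, hXm⟩ := hX
  exact hX0 (perfect_three h3 hJ hXp hXm)

/-- The residual core. -/
theorem out_core [Nonempty ι] (hQ : IsNondegenerateQuadraticForm Q) (hq : Odd (Fintype.card F)) (hn : Odd (Fintype.card ι))
    (hdisc : ∀ F₁ : Subfield F, ∀ i j, gramMatrix (QuadraticMap.polar Q) i j ∈ F₁) (hH : H ≤ isometryGroup F Q)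
    {P : Subgroup (GL ι F)} (hP : IsResidualCore H P) (hN : Normalizes (H ⊔ scalars ι F) P) :
    OutO Q H ∨ InOrthogonalResidualClass H := by
  classical
  have hsym := symm_polar hQ
  have hr := reflForm_symmetric hsym
  obtain ⟨hirr, hcs⟩ := actsAbsolutelyIrreducibly_iff.mp hP.absIrred
  have hPf : FixesForm (matrixSet P) (QuadraticMap.polar Q) := by
    rintro _ ⟨x, hx, rfl⟩ u v
    exact (hH.trans isometry_le_isomG) (hP.le hx) u v
  have hbil := isSesq_of_bilinear hsym.bilinear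
  by_cases hU : ∃ (σ : F ≃+* F) (u : (ι → F) → (ι → F) → F), IsUnitaryForm σ u ∧ FixesForm (matrixSet P) u
  · left
    obtain ⟨σ, u, hu, huP⟩ := hU
    obtain ⟨B, hB⟩ := realize_of_two_forms hcs hu.involutive hu.ne_refl hbil hsym.nondegenerate hPf (isSesq_of_unitary hu)
      hu.nondegenerate huP
    have hord : orderOf σ = 2 := by
      refine orderOf_eq_prime ?_ hu.ne_refl
      ext a
      rw [pow_two]
      exact hu.involutive a
    have hcard : Fintype.card F = Nat.card (fixF σ) ^ 2 := by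
      rw [← Nat.card_eq_fintype_card, card_eq_pow_fix σ, hord]
    have hB' : ∀ x ∈ P, ∀ i j, ((B : Matrix ι ι F) * (x : Matrix ι ι F) * ((B⁻¹ : GL ι F) : Matrix ι ι F)) i j ∈ fixF σ :=
      fun x hx i j => mem_fixF.mpr (hB x hx i j)
    obtain ⟨ζ, hζ0, hζ⟩ := exists_rational hr hcs hPf _ hcard B hB'
    obtain ⟨P', hP', heq⟩ := exists_rational_quad hQ hq hn Nat.prime_two hcard hdisc hζ0 hζ
    refine Or.inr (Or.inr (Or.inr (Or.inr (Or.inr (Or.inr (Or.inl ⟨fixF σ, 2, P', Nat.prime_two, hcard, hP', ?_⟩))))))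
    rw [heq]
    exact fun g hg => mem_subfieldSubgroup_of_normalizes _ hcard hcs B hB' (hN g (le_sup_left (a := H) hg))
  · right
    exact ⟨P, hP, hU⟩

/-- **Aschbacher's theorem for the orthogonal groups in odd dimension.** -/
theorem o_mainF [Nonempty ι] (hQ : IsNondegenerateQuadraticForm Q) (hq : Odd (Fintype.card F)) (hn : Odd (Fintype.card ι))
    (hn2 : 2 ≤ Fintype.card ι) (hdisc : ∀ F₁ : Subfield F, ∀ i j, gramMatrix (QuadraticMap.polar Q) i j ∈ F₁) (hH : H ≤ isometryGroup F Q) :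
    OutO Q H ∨ InOrthogonalResidualClass H := by
  classical
  have hsym := symm_polar hQ
  have hr := reflForm_symmetric hsym
  have h2 := Forms.two_ne_zero_of_odd hq
  have hHi : H ≤ isomG (QuadraticMap.polar Q) := hH.trans isometry_le_isomG
  have hGs : H ⊔ scalars ι F ≤ similarityGroup (QuadraticMap.polar Q) :=
    sup_le (hHi.trans isomG_le_similarity) (scalars_le_similarity hr)
  have hHG : H ≤ H ⊔ scalars ι F := le_sup_left
  by_cases hG : ∀ W : Submodule F (ι → F), Inv (H ⊔ scalars ι F) W → W = ⊥ ∨ W = ⊤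
  · rcases geom_or_dich hr hG hGs with hO | ⟨d, k, e, P, J₁, J₂, ε₁, ε₂, c, T⟩ | hD
    · exact Or.inl (out_comm hQ hq hn hn2 hdisc hH hG hO)
    · exact Or.inl (out_tensor_main hQ hq hn hdisc hH hG T)
    · rcases raw_of_dich hn2 hG hD with ⟨K, d, t, e, P, φ, gs, hW⟩ | ⟨R, r, s, D, hs⟩ |
        ⟨F₀, r, B, X, hrp, hc, hle, hXH, hXc, hXi, hXr⟩ | ⟨P, hP, hN⟩
      · obtain ⟨J₀, ε₀, c, T, hX⟩ := WreathData.exists_form hr hW hGs
        exact Or.inl (out_wreath_main hQ hq hn T hX)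
      · exfalso
        have D₀ := SympData.isomData hr D hGs hD
        obtain ⟨rfl, -, -, -, -⟩ := SympData.refl_facts hr D₀ inf_le_right
        obtain ⟨k, hk, -⟩ := SympData.exists_card D₀
        have hk0 : k ≠ 0 := by
          rintro rfl
          rw [pow_zero] at hk
          omega
        rw [hk] at hn
        exact (Nat.not_even_iff_odd.mpr hn) (Even.pow_of_ne_zero even_two hk0)
      · left
        have hfix : FixesForm (matrixSet X) (QuadraticMap.polar Q) := by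
          rintro _ ⟨x, hx, rfl⟩ u v
          exact hHi (hXH hx) u v
        obtain ⟨ζ, hζ0, hζ⟩ := exists_rational hr hXc hfix F₀ hc B hXr
        obtain ⟨P', hP', heq⟩ := exists_rational_quad hQ hq hn hrp hc hdisc hζ0 hζ
        exact Or.inr (Or.inr (Or.inr (Or.inr (Or.inr (Or.inr (Or.inl ⟨F₀, r, P', hrp, hc, hP', heq ▸ hHG.trans hle⟩))))))
      · exact out_core hQ hq hn hdisc hH hP hN
  · left
    push Not at hG
    obtain ⟨W, hW, h0, h1⟩ := hG
    rcases reducible_outcome hr hGs h0 h1 hW with ⟨W', h3, h4, h5⟩ | ⟨W', h3, h4, h5, -, h6⟩ | ⟨k, D, hk, -, -⟩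
    · refine Or.inl ⟨W', h3, fun w hw => ?_, le_subspaceStabilizer (fun g hg v hv => h5 g (hHG hg) v hv)⟩
      rw [Q_eq_half hQ h2, h4 w hw w hw, mul_zero]
    · exact Or.inr (Or.inl ⟨W', h3, h4, h5, le_subspaceStabilizer (fun g hg v hv => h6 g (hHG hg) v hv)⟩)
    · exfalso
      obtain ⟨l, hl⟩ := hn
      omega

end Generic

section Standard

variable {F : Type*} [Field F] [Fintype F] {m : ℕ}

/-- The output in the form of the statement. -/
theorem OutO.toClass {H : Subgroup (GL (Unit ⊕ (Fin m ⊕ Fin m)) F)} (hH : H ≤ isometryGroup F (quadFormOdd m F))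
    (h : OutO (quadFormOdd m F) H) : ∃ M : Subgroup (GL (Unit ⊕ (Fin m ⊕ Fin m)) F), InOrthogonalOddClass m F M ∧ H ≤ M := by
  rcases h with ⟨W, h0, hts, hle⟩ | ⟨W, h0, h1, hn, hle⟩ | ⟨t, k, D, hk, hD, hle⟩ | ⟨t, D, hp, hD, hle⟩ |
    ⟨r, K, hr, hne, hK, hs, hle⟩ | ⟨n₁, n₂, e, P, f₁, f₂, h3, hlt, h1, h2, hs, hle⟩ | ⟨F₀, r, P, hr, hc, hR, hle⟩ |
    ⟨k, t, e, P, f₁, hk, ht, hne, h1, hs, hle⟩
  · exact ⟨_, Or.inl ⟨W, h0, hts, rfl⟩, le_inf hle hH⟩
  · exact ⟨_, Or.inr (Or.inl ⟨W, h0, h1, hn, rfl⟩), le_inf hle hH⟩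
  · exact ⟨_, Or.inr (Or.inr (Or.inl ⟨t, k, D, hk, hD, rfl⟩)), le_inf hle hH⟩
  · exact ⟨_, Or.inr (Or.inr (Or.inr (Or.inl ⟨t, D, hp, hD, rfl⟩))), le_inf hle hH⟩
  · refine ⟨_, Or.inr (Or.inr (Or.inr (Or.inr (Or.inl ⟨r, K, hr, ?_, hK, hs, rfl⟩)))), le_inf hle hH⟩
    rwa [card_odd_index] at hne
  · exact ⟨_, Or.inr (Or.inr (Or.inr (Or.inr (Or.inr (Or.inl ⟨n₁, n₂, e, P, f₁, f₂, h3, hlt, h1, h2, hs, rfl⟩))))), le_inf hle hH⟩
  · exact ⟨_, Or.inr (Or.inr (Or.inr (Or.inr (Or.inr (Or.inr (Or.inl ⟨F₀, r, P, hr, hc, hR, rfl⟩)))))), le_inf hle hH⟩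
  · exact ⟨_, Or.inr (Or.inr (Or.inr (Or.inr (Or.inr (Or.inr (Or.inr ⟨k, t, e, P, f₁, hk, ht, hne, h1, hs, rfl⟩)))))), le_inf hle hH⟩

/-- **Aschbacher's theorem for the standard odd-dimensional orthogonal group**, with the output in `OutO`. -/
theorem omega_odd_mainF (hodd : Odd (Fintype.card F)) {H : Subgroup (GL (Unit ⊕ (Fin m ⊕ Fin m)) F)}
    (hm : 1 ≤ m) (hH : H ≤ isometryGroup F (quadFormOdd m F)) :
    OutO (quadFormOdd m F) H ∨ InOrthogonalResidualClass H := by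
  have h2 := Forms.two_ne_zero_of_odd hodd
  have hn : Odd (Fintype.card (Unit ⊕ (Fin m ⊕ Fin m))) := by
    rw [card_odd_index]
    exact odd_two_mul_add_one m
  have hn2 : 2 ≤ Fintype.card (Unit ⊕ (Fin m ⊕ Fin m)) := by
    rw [card_odd_index]
    omega
  haveI : Nonempty (Unit ⊕ (Fin m ⊕ Fin m)) := ⟨.inl ()⟩
  exact o_mainF (isNondeg_quadFormOdd h2) hodd hn hn2 gram_mem_odd hH

/-- **Aschbacher's theorem for the standard odd-dimensional orthogonal group.** -/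
theorem omega_odd_main (hodd : Odd (Fintype.card F)) {H : Subgroup (GL (Unit ⊕ (Fin m ⊕ Fin m)) F)}
    (hm : 1 ≤ m) (hH : H ≤ isometryGroup F (quadFormOdd m F)) :
    (∃ M : Subgroup (GL (Unit ⊕ (Fin m ⊕ Fin m)) F), InOrthogonalOddClass m F M ∧ H ≤ M) ∨ InOrthogonalResidualClass H :=
  (omega_odd_mainF hodd hm hH).imp (OutO.toClass hH) id

end Standard

end Cfsg.Agent.Lib.Classical.Asch.FormO3
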