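import Mathlib
import Cfsg.Agent.Lib.Classical.Asch.FourTable

/-!
# Aschbacher's theorem for `SU₉(2)`: tensor squares of `GU₃(2)` lie in a class 6 subgroup
-/

set_option autoImplicit false
set_option linter.style.haveILetI false
set_option linter.unusedSectionVars false

namespace Cfsg.Agent.Lib.Classical.Asch.SUNine

open scoped MatrixGroups Matrix Kronecker
open Cfsg Cfsg.Geo Cfsg.Agent.Lib.Classical.Asch.Basic Cfsg.Agent.Lib.Classical.Asch.Forms
open Cfsg.Agent.Lib.Classical.Asch.Adj Cfsg.Agent.Lib.Classical.Asch.FormDich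
open Cfsg.Agent.Lib.Classical.Asch.FormTensor Cfsg.Agent.Lib.Classical.Asch.FormSim
open Cfsg.Agent.Lib.Classical.Asch.FormSympType
open Cfsg.Agent.Lib.Classical.Asch.SympType Cfsg.Agent.Lib.Classical.Asch.SympStruct
open Cfsg.Agent.Lib.Classical.Asch.Dichotomy Cfsg.Agent.Lib.Classical.Asch.CaseA
open Cfsg.Agent.Lib.Classical.Asch.FormSU Cfsg.Agent.Lib.Classical.Asch.FormSU2 Cfsg.Agent.Lib.Classical.Asch.FormSU3
open Cfsg.Agent.Lib.Classical.Asch.FourTable
open Cfsg.Agent.Lib.Classical.Herm.PSLGraphField (sigE sigE_apply exists_herm_factor sigE_ne_one sigE_sq)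

section Span

variable {ι : Type} [Fintype ι] [DecidableEq ι] {F : Type*} [Field F]

/-- A subgroup spanning the whole matrix algebra is irreducible with scalar centraliser. -/
theorem irr_cs_of_span [Nonempty ι] {R : Subgroup (GL ι F)} (h : ∀ M : Matrix ι ι F, M ∈ Submodule.span F (matrixSet R)) :
    (∀ W : Submodule F (ι → F), Inv R W → W = ⊥ ∨ W = ⊤) ∧ CentScalar R := by
  classical
  constructor
  · intro W hW
    have hall : ∀ M : Matrix ι ι F, ∀ v ∈ W, M *ᵥ v ∈ W := by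
      intro M v hv
      induction h M using Submodule.span_induction with
      | mem x hx =>
        obtain ⟨g, hg, rfl⟩ := hx
        exact hW g hg v hv
      | zero =>
        rw [Matrix.zero_mulVec]
        exact W.zero_mem
      | add x y _ _ hx hy =>
        rw [Matrix.add_mulVec]
        exact W.add_mem hx hy
      | smul c x _ hx =>
        rw [Matrix.smul_mulVec]
        exact W.smul_mem c hx
    by_cases hb : W = ⊥
    · exact Or.inl hb
    · right
      obtain ⟨v, hv, hv0⟩ := (Submodule.ne_bot_iff W).mp hb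
      obtain ⟨i₀, hi₀⟩ := Function.ne_iff.mp hv0
      rw [eq_top_iff]
      intro w _
      let M : Matrix ι ι F := Matrix.of fun i j => if j = i₀ then w i / v i₀ else 0
      have hM : M *ᵥ v = w := by
        funext i
        simp only [Matrix.mulVec, dotProduct, M, Matrix.of_apply]
        rw [Finset.sum_eq_single i₀]
        · have hi₀' : v i₀ ≠ 0 := by simpa using hi₀
          rw [if_pos rfl, div_mul_cancel₀ _ hi₀']
        · intro j _ hj
          rw [if_neg hj, zero_mul]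
        · simp
      rw [← hM]
      exact hall M v hv
  · intro x hx
    have hcomm : ∀ M : Matrix ι ι F, x * M = M * x := by
      intro M
      induction h M using Submodule.span_induction with
      | mem y hy =>
        obtain ⟨g, hg, rfl⟩ := hy
        exact ((mem_cent.mp hx) g hg).symm
      | zero => simp
      | add y z _ _ hy hz => rw [mul_add, add_mul, hy, hz]
      | smul c y _ hy => rw [Matrix.mul_smul, Matrix.smul_mul, hy]
    exact eq_smul_one_of_forall_commute hcomm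

/-- A variant of the symplectic type statement, from an automorphism moving each non-central element. -/
theorem isSymplecticTypeGroup_of_moves [Fintype F] [Nonempty ι] {G R : Subgroup (GL ι F)} {r s : ℕ} (D : SympData G R r s)
    (hm : ∀ x ∈ R, x ∉ scalars ι F → ∃ g ∈ G, x * (g * x * g⁻¹) ≠ (g * x * g⁻¹) * x) :
    IsSymplecticTypeGroup r R where
  prime := D.prime
  pGroup := SympData.isPGroup D
  exponent_eq := by
    rw [SympData.exponent_eq D, D.hs]
  cyclic_of_characteristic := by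
    intro A hA hcomm
    refine isCyclic_of_le_scalars (R.subtype.comp A.subtype) ?_ ?_
    · exact R.subtype_injective.comp A.subtype_injective
    · intro a
      by_contra hna
      obtain ⟨g, hg, hne⟩ := hm _ (a : R).2 hna
      let φ : R ≃* R :=
        { toFun := fun y => ⟨g * y * g⁻¹, D.norm g hg y y.2⟩
          invFun := fun y => ⟨g⁻¹ * y * g, by
            have := D.norm g⁻¹ (inv_mem hg) y y.2
            simpa using this⟩
          left_inv := fun y => Subtype.ext (by simp [mul_assoc])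
          right_inv := fun y => Subtype.ext (by simp [mul_assoc])
          map_mul' := fun a b => Subtype.ext (by simp [mul_assoc]) }
      have h1 : ∀ y ∈ A, φ y ∈ A := by
        intro y hy
        have h2 := (Subgroup.characteristic_iff_map_eq.mp hA) φ
        rw [← h2]
        exact ⟨y, hy, rfl⟩
      have h3 := hcomm.is_comm.comm a ⟨φ (a : R), h1 _ a.2⟩
      apply hne
      exact congrArg (fun w : A => ((w : R) : GL ι F)) h3

theorem kron_left_inj {α β : Type*} {A A' : Matrix α α F} {B : Matrix β β F} (hB : B ≠ 0) (h : A ⊗ₖ B = A' ⊗ₖ B) : A = A' := by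
  obtain ⟨k, l, hkl⟩ : ∃ k l, B k l ≠ 0 := by
    by_contra hcon
    push Not at hcon
    exact hB (by ext a c; exact hcon a c)
  ext i j
  have h1 := congrFun (congrFun h (i, k)) (j, l)
  simp only [Matrix.kroneckerMap_apply] at h1
  exact mul_right_cancel₀ hkl h1

theorem kron_right_inj {α β : Type*} {A : Matrix α α F} {B B' : Matrix β β F} (hA : A ≠ 0) (h : A ⊗ₖ B = A ⊗ₖ B') : B = B' := by
  obtain ⟨k, l, hkl⟩ : ∃ k l, A k l ≠ 0 := by
    by_contra hcon
    push Not at hcon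
    exact hA (by ext a c; exact hcon a c)
  ext i j
  have h1 := congrFun (congrFun h (k, i)) (l, j)
  simp only [Matrix.kroneckerMap_apply] at h1
  exact mul_left_cancel₀ hkl h1

/-- Change of basis in a tensor datum. -/
theorem TensorData.change {σ : F ≃+* F} {f : (ι → F) → (ι → F) → F} {G : Subgroup (GL ι F)} {d k : ℕ}
    {e : ι ≃ Fin d × Fin k} {P : GL ι F} {J₁ J₁' : GL (Fin d) F} {J₂ J₂' : GL (Fin k) F} {c : F}
    (T : TensorData σ 1 f G d k e P J₁ J₂ 1 1 c) {T₁ : GL (Fin d) F} {T₂ : GL (Fin k) F}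
    (h₁ : (T₁ : Matrix (Fin d) (Fin d) F)ᵀ * (J₁ : Matrix (Fin d) (Fin d) F) * (T₁ : Matrix (Fin d) (Fin d) F).map σ = J₁')
    (h₂ : (T₂ : Matrix (Fin k) (Fin k) F)ᵀ * (J₂ : Matrix (Fin k) (Fin k) F) * (T₂ : Matrix (Fin k) (Fin k) F).map σ = J₂')
    (hJ₁ : ((J₁' : Matrix (Fin d) (Fin d) F).map σ)ᵀ = (1 : F) • (J₁' : Matrix (Fin d) (Fin d) F))
    (hJ₂ : ((J₂' : Matrix (Fin k) (Fin k) F).map σ)ᵀ = (1 : F) • (J₂' : Matrix (Fin k) (Fin k) F)) :
    TensorData σ 1 f G d k e (P * kronE e T₁ T₂) J₁' J₂' 1 1 c where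
  hd := T.hd
  hk := T.hk
  le := T.le.trans (tensorProductSubgroup_change e P T₁ T₂)
  herm₁ := hJ₁
  herm₂ := hJ₂
  ne₁ := T.ne₁
  ne₂ := T.ne₂
  hc := T.hc
  eq u v := by
    rw [Units.val_mul, ← Matrix.mulVec_mulVec, ← Matrix.mulVec_mulVec, T.eq, sesqM_mulVec, coe_kronE]
    congr 2
    have h3 : (((T₁ : Matrix (Fin d) (Fin d) F) ⊗ₖ (T₂ : Matrix (Fin k) (Fin k) F)).submatrix e e).map (σ : F →+* F) =
        (((T₁ : Matrix (Fin d) (Fin d) F).map σ) ⊗ₖ ((T₂ : Matrix (Fin k) (Fin k) F).map σ)).submatrix e e := by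
      rw [← map_kron]
      rfl
    rw [h3, Matrix.transpose_submatrix, Matrix.submatrix_mul_equiv, Matrix.submatrix_mul_equiv, transpose_kron,
      ← Matrix.mul_kronecker_mul, ← Matrix.mul_kronecker_mul, h₁, h₂]
  sign := T.sign

end Span

section Table

variable {F : Type*} [Field F] {ω : F}

theorem inN_mul {x y : Mat4} (hx : inN x = true) (hy : inN y = true) : inN (x.mul y) = true :=
  List.all_eq_true.mp (List.all_eq_true.mp mul_closed x (mem_of_inN hx)) y (mem_of_inN hy)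

theorem star_spec {x : Mat4} (hx : inN x = true) : inN x.star = true ∧ x.mul x.star = one4 := by
  have h := List.all_eq_true.mp star_closed x (mem_of_inN hx)
  rw [Bool.and_eq_true] at h
  exact ⟨h.1, Mat4.eq_of_eqb h.2⟩

theorem cube_spec {x : Mat4} (hx : inN x = true) : x.mul (x.mul x) = one4 :=
  Mat4.eq_of_eqb (List.all_eq_true.mp cube_closed x (mem_of_inN hx))

theorem comm_spec {x y : Mat4} (hx : inN x = true) (hy : inN y = true) : isScal ((x.mul y).mul (x.star.mul y.star)) = true :=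
  List.all_eq_true.mp (List.all_eq_true.mp comm_closed x (mem_of_inN hx)) y (mem_of_inN hy)

theorem moves_spec {x : Mat4} (hx : inN x = true) :
    isScal x = true ∨ x.mul ((W4.mul x).mul W4.star) ≠ ((W4.mul x).mul W4.star).mul x := by
  have h := List.all_eq_true.mp moves x (mem_of_inN hx)
  rw [Bool.or_eq_true] at h
  rcases h with h | h
  · exact Or.inl h
  · right
    intro h1
    rw [h1] at h
    have h3 : Mat4.eqb (((W4.mul x).mul W4.star).mul x) (((W4.mul x).mul W4.star).mul x) = true := by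
      simp [Mat4.eqb, Four.eqb_self]
    rw [h3] at h
    exact absurd h (by decide)


end Table


section Field

variable {F : Type*} [Field F] {ω : F}

/-- The lifted elements. -/
def liftSet (ω : F) : Set (Matrix (Fin 3) (Fin 3) F) := {A | ∃ x, inN x = true ∧ lift ω x = A}

theorem single_mem_00 (h2 : (2 : F) = 0) (hω : ω * ω = ω + 1) :
    Matrix.single (0 : Fin 3) (0 : Fin 3) (1 : F) ∈ Submodule.span F (liftSet ω) := by
  have h : Matrix.single (0 : Fin 3) (0 : Fin 3) (1 : F) =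
      emb ω .o • lift ω ⟨.o, .z, .z, .z, .o, .z, .z, .z, .o⟩ + emb ω .o • lift ω ⟨.o, .z, .z, .z, .w, .z, .z, .z, .v⟩ + emb ω .o • lift ω ⟨.o, .z, .z, .z, .v, .z, .z, .z, .w⟩ := by
    ext a b
    fin_cases a <;> fin_cases b <;> simp [lift, emb, Matrix.single_apply] <;> grind
  rw [h]
  exact add_mem (add_mem (Submodule.smul_mem _ _ (Submodule.subset_span ⟨_, rfl, rfl⟩))
    (Submodule.smul_mem _ _ (Submodule.subset_span ⟨_, rfl, rfl⟩))) (Submodule.smul_mem _ _ (Submodule.subset_span ⟨_, rfl, rfl⟩))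

theorem single_mem_01 (h2 : (2 : F) = 0) (hω : ω * ω = ω + 1) :
    Matrix.single (0 : Fin 3) (1 : Fin 3) (1 : F) ∈ Submodule.span F (liftSet ω) := by
  have h : Matrix.single (0 : Fin 3) (1 : Fin 3) (1 : F) =
      emb ω .o • lift ω ⟨.z, .o, .z, .z, .z, .o, .o, .z, .z⟩ + emb ω .o • lift ω ⟨.z, .o, .z, .z, .z, .w, .v, .z, .z⟩ + emb ω .o • lift ω ⟨.z, .o, .z, .z, .z, .v, .w, .z, .z⟩ := by
    ext a b
    fin_cases a <;> fin_cases b <;> simp [lift, emb, Matrix.single_apply] <;> grind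
  rw [h]
  exact add_mem (add_mem (Submodule.smul_mem _ _ (Submodule.subset_span ⟨_, rfl, rfl⟩))
    (Submodule.smul_mem _ _ (Submodule.subset_span ⟨_, rfl, rfl⟩))) (Submodule.smul_mem _ _ (Submodule.subset_span ⟨_, rfl, rfl⟩))

theorem single_mem_02 (h2 : (2 : F) = 0) (hω : ω * ω = ω + 1) :
    Matrix.single (0 : Fin 3) (2 : Fin 3) (1 : F) ∈ Submodule.span F (liftSet ω) := by
  have h : Matrix.single (0 : Fin 3) (2 : Fin 3) (1 : F) =
      emb ω .o • lift ω ⟨.z, .z, .o, .o, .z, .z, .z, .o, .z⟩ + emb ω .o • lift ω ⟨.z, .z, .o, .w, .z, .z, .z, .v, .z⟩ + emb ω .o • lift ω ⟨.z, .z, .o, .v, .z, .z, .z, .w, .z⟩ := by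
    ext a b
    fin_cases a <;> fin_cases b <;> simp [lift, emb, Matrix.single_apply] <;> grind
  rw [h]
  exact add_mem (add_mem (Submodule.smul_mem _ _ (Submodule.subset_span ⟨_, rfl, rfl⟩))
    (Submodule.smul_mem _ _ (Submodule.subset_span ⟨_, rfl, rfl⟩))) (Submodule.smul_mem _ _ (Submodule.subset_span ⟨_, rfl, rfl⟩))

theorem single_mem_10 (h2 : (2 : F) = 0) (hω : ω * ω = ω + 1) :
    Matrix.single (1 : Fin 3) (0 : Fin 3) (1 : F) ∈ Submodule.span F (liftSet ω) := by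
  have h : Matrix.single (1 : Fin 3) (0 : Fin 3) (1 : F) =
      emb ω .o • lift ω ⟨.z, .z, .o, .o, .z, .z, .z, .o, .z⟩ + emb ω .v • lift ω ⟨.z, .z, .o, .w, .z, .z, .z, .v, .z⟩ + emb ω .w • lift ω ⟨.z, .z, .o, .v, .z, .z, .z, .w, .z⟩ := by
    ext a b
    fin_cases a <;> fin_cases b <;> simp [lift, emb, Matrix.single_apply] <;> grind
  rw [h]
  exact add_mem (add_mem (Submodule.smul_mem _ _ (Submodule.subset_span ⟨_, rfl, rfl⟩))
    (Submodule.smul_mem _ _ (Submodule.subset_span ⟨_, rfl, rfl⟩))) (Submodule.smul_mem _ _ (Submodule.subset_span ⟨_, rfl, rfl⟩))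

theorem single_mem_11 (h2 : (2 : F) = 0) (hω : ω * ω = ω + 1) :
    Matrix.single (1 : Fin 3) (1 : Fin 3) (1 : F) ∈ Submodule.span F (liftSet ω) := by
  have h : Matrix.single (1 : Fin 3) (1 : Fin 3) (1 : F) =
      emb ω .o • lift ω ⟨.o, .z, .z, .z, .o, .z, .z, .z, .o⟩ + emb ω .v • lift ω ⟨.o, .z, .z, .z, .w, .z, .z, .z, .v⟩ + emb ω .w • lift ω ⟨.o, .z, .z, .z, .v, .z, .z, .z, .w⟩ := by
    ext a b
    fin_cases a <;> fin_cases b <;> simp [lift, emb, Matrix.single_apply] <;> grind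
  rw [h]
  exact add_mem (add_mem (Submodule.smul_mem _ _ (Submodule.subset_span ⟨_, rfl, rfl⟩))
    (Submodule.smul_mem _ _ (Submodule.subset_span ⟨_, rfl, rfl⟩))) (Submodule.smul_mem _ _ (Submodule.subset_span ⟨_, rfl, rfl⟩))

theorem single_mem_12 (h2 : (2 : F) = 0) (hω : ω * ω = ω + 1) :
    Matrix.single (1 : Fin 3) (2 : Fin 3) (1 : F) ∈ Submodule.span F (liftSet ω) := by
  have h : Matrix.single (1 : Fin 3) (2 : Fin 3) (1 : F) =
      emb ω .o • lift ω ⟨.z, .o, .z, .z, .z, .o, .o, .z, .z⟩ + emb ω .v • lift ω ⟨.z, .o, .z, .z, .z, .w, .v, .z, .z⟩ + emb ω .w • lift ω ⟨.z, .o, .z, .z, .z, .v, .w, .z, .z⟩ := by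
    ext a b
    fin_cases a <;> fin_cases b <;> simp [lift, emb, Matrix.single_apply] <;> grind
  rw [h]
  exact add_mem (add_mem (Submodule.smul_mem _ _ (Submodule.subset_span ⟨_, rfl, rfl⟩))
    (Submodule.smul_mem _ _ (Submodule.subset_span ⟨_, rfl, rfl⟩))) (Submodule.smul_mem _ _ (Submodule.subset_span ⟨_, rfl, rfl⟩))

theorem single_mem_20 (h2 : (2 : F) = 0) (hω : ω * ω = ω + 1) :
    Matrix.single (2 : Fin 3) (0 : Fin 3) (1 : F) ∈ Submodule.span F (liftSet ω) := by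
  have h : Matrix.single (2 : Fin 3) (0 : Fin 3) (1 : F) =
      emb ω .o • lift ω ⟨.z, .o, .z, .z, .z, .o, .o, .z, .z⟩ + emb ω .w • lift ω ⟨.z, .o, .z, .z, .z, .w, .v, .z, .z⟩ + emb ω .v • lift ω ⟨.z, .o, .z, .z, .z, .v, .w, .z, .z⟩ := by
    ext a b
    fin_cases a <;> fin_cases b <;> simp [lift, emb, Matrix.single_apply] <;> grind
  rw [h]
  exact add_mem (add_mem (Submodule.smul_mem _ _ (Submodule.subset_span ⟨_, rfl, rfl⟩))
    (Submodule.smul_mem _ _ (Submodule.subset_span ⟨_, rfl, rfl⟩))) (Submodule.smul_mem _ _ (Submodule.subset_span ⟨_, rfl, rfl⟩))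

theorem single_mem_21 (h2 : (2 : F) = 0) (hω : ω * ω = ω + 1) :
    Matrix.single (2 : Fin 3) (1 : Fin 3) (1 : F) ∈ Submodule.span F (liftSet ω) := by
  have h : Matrix.single (2 : Fin 3) (1 : Fin 3) (1 : F) =
      emb ω .o • lift ω ⟨.z, .z, .o, .o, .z, .z, .z, .o, .z⟩ + emb ω .w • lift ω ⟨.z, .z, .o, .w, .z, .z, .z, .v, .z⟩ + emb ω .v • lift ω ⟨.z, .z, .o, .v, .z, .z, .z, .w, .z⟩ := by
    ext a b
    fin_cases a <;> fin_cases b <;> simp [lift, emb, Matrix.single_apply] <;> grind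
  rw [h]
  exact add_mem (add_mem (Submodule.smul_mem _ _ (Submodule.subset_span ⟨_, rfl, rfl⟩))
    (Submodule.smul_mem _ _ (Submodule.subset_span ⟨_, rfl, rfl⟩))) (Submodule.smul_mem _ _ (Submodule.subset_span ⟨_, rfl, rfl⟩))

theorem single_mem_22 (h2 : (2 : F) = 0) (hω : ω * ω = ω + 1) :
    Matrix.single (2 : Fin 3) (2 : Fin 3) (1 : F) ∈ Submodule.span F (liftSet ω) := by
  have h : Matrix.single (2 : Fin 3) (2 : Fin 3) (1 : F) =
      emb ω .o • lift ω ⟨.o, .z, .z, .z, .o, .z, .z, .z, .o⟩ + emb ω .w • lift ω ⟨.o, .z, .z, .z, .w, .z, .z, .z, .v⟩ + emb ω .v • lift ω ⟨.o, .z, .z, .z, .v, .z, .z, .z, .w⟩ := by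
    ext a b
    fin_cases a <;> fin_cases b <;> simp [lift, emb, Matrix.single_apply] <;> grind
  rw [h]
  exact add_mem (add_mem (Submodule.smul_mem _ _ (Submodule.subset_span ⟨_, rfl, rfl⟩))
    (Submodule.smul_mem _ _ (Submodule.subset_span ⟨_, rfl, rfl⟩))) (Submodule.smul_mem _ _ (Submodule.subset_span ⟨_, rfl, rfl⟩))



/-- The lifted elements span the matrix algebra. -/
theorem span_all (h2 : (2 : F) = 0) (hω : ω * ω = ω + 1) (A : Matrix (Fin 3) (Fin 3) F) :
    A ∈ Submodule.span F (liftSet ω) := by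
  have hs : ∀ i j : Fin 3, Matrix.single i j (1 : F) ∈ Submodule.span F (liftSet ω) := by
    intro i j
    fin_cases i <;> fin_cases j
    · exact single_mem_00 h2 hω
    · exact single_mem_01 h2 hω
    · exact single_mem_02 h2 hω
    · exact single_mem_10 h2 hω
    · exact single_mem_11 h2 hω
    · exact single_mem_12 h2 hω
    · exact single_mem_20 h2 hω
    · exact single_mem_21 h2 hω
    · exact single_mem_22 h2 hω
  rw [Matrix.matrix_eq_sum_single A]
  refine Submodule.sum_mem _ fun i _ => Submodule.sum_mem _ fun j _ => ?_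
  have h1 : Matrix.single i j (A i j) = A i j • Matrix.single i j (1 : F) := by
    rw [Matrix.smul_single, smul_eq_mul, mul_one]
  rw [h1]
  exact Submodule.smul_mem _ _ (hs i j)

theorem lift_sW : lift ω sW = ω • (1 : Matrix (Fin 3) (Fin 3) F) := by
  ext i j
  fin_cases i <;> fin_cases j <;> simp [lift, sW, emb]

theorem lift_sV : lift ω sV = (ω + 1) • (1 : Matrix (Fin 3) (Fin 3) F) := by
  ext i j
  fin_cases i <;> fin_cases j <;> simp [lift, sV, emb]

theorem isScal_lift {x : Mat4} (h : isScal x = true) : ∃ c : F, lift ω x = c • (1 : Matrix (Fin 3) (Fin 3) F) := by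
  simp only [isScal, Bool.or_eq_true] at h
  rcases h with (h | h) | h
  · rw [Mat4.eq_of_eqb h]
    exact ⟨1, by rw [lift_one, one_smul]⟩
  · rw [Mat4.eq_of_eqb h]
    exact ⟨ω, lift_sW⟩
  · rw [Mat4.eq_of_eqb h]
    exact ⟨ω + 1, lift_sV⟩

theorem coe_inv_eq {ι : Type} [Fintype ι] [DecidableEq ι] {a : GL ι F} {S : Matrix ι ι F} (h : (a : Matrix ι ι F) * S = 1) :
    ((a⁻¹ : GL ι F) : Matrix ι ι F) = S := by
  calc ((a⁻¹ : GL ι F) : Matrix ι ι F) = ((a⁻¹ : GL ι F) : Matrix ι ι F) * ((a : Matrix ι ι F) * S) := by rw [h, mul_one]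
    _ = S := by rw [← mul_assoc, ← Units.val_mul, inv_mul_cancel, Units.val_one, one_mul]

/-- The group `3^(1+2)` inside `GL₃`. -/
def NN (h2 : (2 : F) = 0) (hω : ω * ω = ω + 1) : Subgroup (GL (Fin 3) F) where
  carrier := {g | ∃ x, inN x = true ∧ (g : Matrix (Fin 3) (Fin 3) F) = lift ω x}
  mul_mem' := by
    rintro a b ⟨x, hx, hax⟩ ⟨y, hy, hby⟩
    exact ⟨x.mul y, inN_mul hx hy, by rw [Units.val_mul, hax, hby, lift_mul h2 hω]⟩
  one_mem' := ⟨one4, rfl, by rw [lift_one, Units.val_one]⟩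
  inv_mem' := by
    rintro a ⟨x, hx, hax⟩
    obtain ⟨h3, h4⟩ := star_spec hx
    refine ⟨x.star, h3, coe_inv_eq ?_⟩
    rw [hax, ← lift_mul h2 hω, h4, lift_one]

theorem mem_NN {h2 : (2 : F) = 0} {hω : ω * ω = ω + 1} {g : GL (Fin 3) F} :
    g ∈ NN h2 hω ↔ ∃ x, inN x = true ∧ (g : Matrix (Fin 3) (Fin 3) F) = lift ω x := Iff.rfl

/-- An element of the table, as an element of `GL₃`. -/
def elt (h2 : (2 : F) = 0) (hω : ω * ω = ω + 1) (x : Mat4) (hx : x.mul x.star = one4) : GL (Fin 3) F where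
  val := lift ω x
  inv := lift ω x.star
  val_inv := by rw [← lift_mul h2 hω, hx, lift_one]
  inv_val := by
    rw [mul_eq_one_comm, ← lift_mul h2 hω, hx, lift_one]

theorem elt_mem (h2 : (2 : F) = 0) (hω : ω * ω = ω + 1) (x : Mat4) (hx : inN x = true) : elt h2 hω x (star_spec hx).2 ∈ NN h2 hω :=
  ⟨x, hx, rfl⟩

variable [Fintype F] {n q : ℕ}

theorem gram_of_mem_GU (hF : Fintype.card F = q ^ 2) {u : GL (Fin n) F} (hu : u ∈ GU n F q) :
    (u : Matrix (Fin n) (Fin n) F)ᵀ * (u : Matrix (Fin n) (Fin n) F).map (sigE hF) = 1 := by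
  have h1 : (u : Matrix (Fin n) (Fin n) F)ᵀ * 1 * (u : Matrix (Fin n) (Fin n) F).map (sigE hF) = 1 := by
    apply eq_of_sesqM_eq (σ := ((sigE hF : F ≃+* F) : F →+* F)) (sigE hF).surjective
    intro a b
    have h2 : hermForm n F q ((u : Matrix (Fin n) (Fin n) F) *ᵥ a) ((u : Matrix (Fin n) (Fin n) F) *ᵥ b) = hermForm n F q a b := hu a b
    rw [hermForm_eq_sesqM hF, hermForm_eq_sesqM hF, sesqM_mulVec] at h2
    exact h2
  rwa [mul_one] at h1

theorem lift_star (hF : Fintype.card F = 2 ^ 2) (h2 : (2 : F) = 0) (hω : ω * ω = ω + 1) (x : Mat4) :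
    lift ω x.star = ((lift ω x).map (sigE hF))ᵀ := by
  ext i j
  fin_cases i <;> fin_cases j <;> simp [lift, Mat4.star, emb_sq h2 hω, sigE_apply]

theorem exists_lift (hF : Fintype.card F = 2 ^ 2) (h2 : (2 : F) = 0) (hω : ω * ω = ω + 1) (A : Matrix (Fin 3) (Fin 3) F) :
    ∃ m, lift ω m = A := by
  have hs := emb_surjective h2 hω (fun x => by
    have h3 := FiniteField.pow_card x
    rw [hF] at h3
    exact h3)
  obtain ⟨a, ha⟩ := hs (A 0 0)
  obtain ⟨b, hb⟩ := hs (A 0 1)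
  obtain ⟨c, hc⟩ := hs (A 0 2)
  obtain ⟨d, hd⟩ := hs (A 1 0)
  obtain ⟨e, he⟩ := hs (A 1 1)
  obtain ⟨f, hf⟩ := hs (A 1 2)
  obtain ⟨g, hg⟩ := hs (A 2 0)
  obtain ⟨h, hh⟩ := hs (A 2 1)
  obtain ⟨i, hi⟩ := hs (A 2 2)
  refine ⟨⟨a, b, c, d, e, f, g, h, i⟩, ?_⟩
  ext r s
  fin_cases r <;> fin_cases s <;> simp [lift, *]

theorem mem_GU_of_unitary (hF : Fintype.card F = 2 ^ 2) (h2 : (2 : F) = 0) (hω : ω * ω = ω + 1) {x : Mat4} (hx : x.mul x.star = one4)
    {g : GL (Fin 3) F} (hg : (g : Matrix (Fin 3) (Fin 3) F) = lift ω x) : g ∈ GU 3 F 2 := by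
  refine mem_GU_of_gram hF ?_
  have h1 : (g : Matrix (Fin 3) (Fin 3) F) * ((g : Matrix (Fin 3) (Fin 3) F).map (sigE hF))ᵀ = 1 := by
    rw [hg, ← lift_star hF h2 hω, ← lift_mul h2 hω, hx, lift_one]
  have h3 := mul_eq_one_comm.mp h1
  have h4 := congrArg Matrix.transpose h3
  rwa [Matrix.transpose_mul, Matrix.transpose_transpose, Matrix.transpose_one] at h4

/-- `3^(1+2)` is normal in `GU₃(2)`. -/
theorem conj_mem (hF : Fintype.card F = 2 ^ 2) (h2 : (2 : F) = 0) (hω : ω * ω = ω + 1) {u g : GL (Fin 3) F} (hu : u ∈ GU 3 F 2)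
    (hg : g ∈ NN h2 hω) : u * g * u⁻¹ ∈ NN h2 hω := by
  obtain ⟨m, hm⟩ := exists_lift hF h2 hω (u : Matrix (Fin 3) (Fin 3) F)
  have hgram := gram_of_mem_GU hF hu
  have hgr2 : (u : Matrix (Fin 3) (Fin 3) F) * ((u : Matrix (Fin 3) (Fin 3) F).map (sigE hF))ᵀ = 1 := by
    have h3 := congrArg Matrix.transpose hgram
    rw [Matrix.transpose_mul, Matrix.transpose_transpose, Matrix.transpose_one] at h3
    exact mul_eq_one_comm.mp h3
  have hsm : lift ω m * lift ω m.star = 1 := by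
    rw [lift_star hF h2 hω, hm]
    exact hgr2
  have hU : m.mul m.star = one4 := lift_injective h2 hω (by rw [lift_mul h2 hω, lift_one, hsm])
  have hms : lift ω m.star * lift ω m = 1 := mul_eq_one_comm.mp hsm
  have hgood := good_of_unitary hU
  simp only [good, Bool.and_eq_true] at hgood
  have huinv : ((u⁻¹ : GL (Fin 3) F) : Matrix (Fin 3) (Fin 3) F) = lift ω m.star := coe_inv_eq (by rw [← hm, hsm])
  let Q : Mat4 → Prop := fun x => ∃ y, inN y = true ∧ lift ω m * lift ω x * lift ω m.star = lift ω y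
  have Qmul : ∀ x y, Q x → Q y → Q (x.mul y) := by
    rintro x y ⟨a, ha, hax⟩ ⟨b, hb, hby⟩
    refine ⟨a.mul b, inN_mul ha hb, ?_⟩
    rw [lift_mul h2 hω, lift_mul h2 hω, ← hax, ← hby]
    calc lift ω m * (lift ω x * lift ω y) * lift ω m.star
        = lift ω m * lift ω x * 1 * lift ω y * lift ω m.star := by rw [mul_one]; simp only [mul_assoc]
      _ = _ := by rw [← hms]; simp only [mul_assoc]
  have Qscal : ∀ (s : Mat4) (c : F), inN s = true → lift ω s = c • (1 : Matrix (Fin 3) (Fin 3) F) → Q s := by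
    intro s c hs hc
    refine ⟨s, hs, ?_⟩
    rw [hc, Matrix.mul_smul, mul_one, Matrix.smul_mul, hsm]
  have Qone : Q one4 := Qscal one4 1 rfl (by rw [lift_one, one_smul])
  have QW : Q sW := Qscal sW ω rfl lift_sW
  have QV : Q sV := Qscal sV (ω + 1) rfl lift_sV
  have QD : Q D4 := ⟨_, hgood.1, by rw [lift_mul h2 hω, lift_mul h2 hω]⟩
  have QC : Q C4 := ⟨_, hgood.2, by rw [lift_mul h2 hω, lift_mul h2 hω]⟩
  obtain ⟨x, hx, hgx⟩ := hg
  have hmem := mem_of_inN hx
  rw [allN_eq] at hmem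
  simp only [genN, List.mem_flatMap, List.mem_map, List.mem_cons, List.not_mem_nil, or_false] at hmem
  obtain ⟨s, hs, b, hb, c, hc, rfl⟩ := hmem
  have Qs : Q s := by
    rcases hs with rfl | rfl | rfl
    · exact Qone
    · exact QW
    · exact QV
  have Qb : Q b := by
    rcases hb with rfl | rfl | rfl
    · exact Qone
    · exact QD
    · exact Qmul _ _ QD QD
  have Qc : Q c := by
    rcases hc with rfl | rfl | rfl
    · exact Qone
    · exact QC
    · exact Qmul _ _ QC QC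
  obtain ⟨y, hy, hxy⟩ := Qmul _ _ (Qmul _ _ Qs Qb) Qc
  exact ⟨y, hy, by rw [Units.val_mul, Units.val_mul, hgx, huinv, ← hm, hxy]⟩

end Field


section Kron

variable {F : Type*} [Field F] {n : ℕ} {d k : ℕ}

theorem kronE_mul (e : Fin n ≃ Fin d × Fin k) (a a' : GL (Fin d) F) (b b' : GL (Fin k) F) :
    kronE e a b * kronE e a' b' = kronE e (a * a') (b * b') := by
  apply Units.ext
  rw [Units.val_mul, coe_kronE, coe_kronE, coe_kronE, Matrix.submatrix_mul_equiv, ← Matrix.mul_kronecker_mul, Units.val_mul, Units.val_mul]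

theorem kronE_one (e : Fin n ≃ Fin d × Fin k) : kronE e (1 : GL (Fin d) F) (1 : GL (Fin k) F) = 1 := by
  apply Units.ext
  rw [coe_kronE, Units.val_one, Units.val_one, Units.val_one, Matrix.one_kronecker_one, Matrix.submatrix_one_equiv]

/-- The Kronecker product as a homomorphism. -/
def kronHom (e : Fin n ≃ Fin d × Fin k) : GL (Fin d) F × GL (Fin k) F →* GL (Fin n) F where
  toFun p := kronE e p.1 p.2
  map_one' := kronE_one e
  map_mul' p p' := (kronE_mul e p.1 p'.1 p.2 p'.2).symm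

/-- The Kronecker product conjugated. -/
def phi (e : Fin n ≃ Fin d × Fin k) (P : GL (Fin n) F) : GL (Fin d) F × GL (Fin k) F →* GL (Fin n) F :=
  (MulAut.conj P).toMonoidHom.comp (kronHom e)

theorem phi_apply (e : Fin n ≃ Fin d × Fin k) (P : GL (Fin n) F) (a : GL (Fin d) F) (b : GL (Fin k) F) :
    phi e P (a, b) = P * kronE e a b * P⁻¹ := rfl

theorem coe_phi (e : Fin n ≃ Fin d × Fin k) (P : GL (Fin n) F) (a : GL (Fin d) F) (b : GL (Fin k) F) :
    ((phi e P (a, b) : GL (Fin n) F) : Matrix (Fin n) (Fin n) F) = (P : Matrix (Fin n) (Fin n) F) *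
      ((a : Matrix (Fin d) (Fin d) F) ⊗ₖ (b : Matrix (Fin k) (Fin k) F)).submatrix e e * ((P⁻¹ : GL (Fin n) F) : Matrix (Fin n) (Fin n) F) := rfl

/-- Scalars under the Kronecker product. -/
theorem phi_scal (e : Fin n ≃ Fin d × Fin k) (P : GL (Fin n) F) {a : GL (Fin d) F} {b : GL (Fin k) F} {c c' : F}
    (ha : (a : Matrix (Fin d) (Fin d) F) = c • 1) (hb : (b : Matrix (Fin k) (Fin k) F) = c' • 1) :
    ((phi e P (a, b) : GL (Fin n) F) : Matrix (Fin n) (Fin n) F) = (c * c') • 1 := by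
  have h1 : (((a : Matrix (Fin d) (Fin d) F) ⊗ₖ (b : Matrix (Fin k) (Fin k) F)).submatrix e e) = (c * c') • (1 : Matrix (Fin n) (Fin n) F) := by
    rw [ha, hb, Matrix.smul_kronecker, Matrix.kronecker_smul, Matrix.one_kronecker_one, smul_smul]
    ext i j
    simp [Matrix.one_apply, mul_comm]
  rw [coe_phi, h1, Matrix.mul_smul, Matrix.smul_mul, mul_one, ← Units.val_mul, mul_inv_cancel, Units.val_one]

variable {ω : F}

/-- The tensor square of `3^(1+2)`. -/
def R9 (h2 : (2 : F) = 0) (hω : ω * ω = ω + 1) (e : Fin n ≃ Fin 3 × Fin 3) (P : GL (Fin n) F) : Subgroup (GL (Fin n) F) :=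
  ((NN h2 hω).prod (NN h2 hω)).map (phi e P)

theorem mem_R9 {h2 : (2 : F) = 0} {hω : ω * ω = ω + 1} {e : Fin n ≃ Fin 3 × Fin 3} {P x : GL (Fin n) F} :
    x ∈ R9 h2 hω e P ↔ ∃ a ∈ NN h2 hω, ∃ b ∈ NN h2 hω, phi e P (a, b) = x := by
  constructor
  · rintro ⟨⟨a, b⟩, ⟨ha, hb⟩, rfl⟩
    exact ⟨a, ha, b, hb, rfl⟩
  · rintro ⟨a, ha, b, hb, rfl⟩
    exact ⟨(a, b), ⟨ha, hb⟩, rfl⟩

/-- The tensor square spans the whole matrix algebra. -/
theorem R9_span (h2 : (2 : F) = 0) (hω : ω * ω = ω + 1) (e : Fin n ≃ Fin 3 × Fin 3) (P : GL (Fin n) F) (M : Matrix (Fin n) (Fin n) F) :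
    M ∈ Submodule.span F (matrixSet (R9 h2 hω e P)) := by
  classical
  set K := Submodule.span F (matrixSet (R9 h2 hω e P)) with hK
  let L : Matrix (Fin 3 × Fin 3) (Fin 3 × Fin 3) F →ₗ[F] Matrix (Fin n) (Fin n) F :=
    { toFun := fun A => (P : Matrix (Fin n) (Fin n) F) * A.submatrix e e * ((P⁻¹ : GL (Fin n) F) : Matrix (Fin n) (Fin n) F)
      map_add' := fun A B => by
        have h : (A + B).submatrix e e = A.submatrix e e + B.submatrix e e := rfl
        rw [h, mul_add, add_mul]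
      map_smul' := fun c A => by
        have h : (c • A).submatrix e e = c • A.submatrix e e := rfl
        rw [h, Matrix.mul_smul, Matrix.smul_mul]
        rfl }
  have hL : ∀ A, L A = (P : Matrix (Fin n) (Fin n) F) * A.submatrix e e * ((P⁻¹ : GL (Fin n) F) : Matrix (Fin n) (Fin n) F) := fun A => rfl
  have s1 : ∀ x y, inN x = true → inN y = true → L (lift ω x ⊗ₖ lift ω y) ∈ K := by
    intro x y hx hy
    refine Submodule.subset_span ⟨phi e P (elt h2 hω x (star_spec hx).2, elt h2 hω y (star_spec hy).2), ?_, rfl⟩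
    exact mem_R9.mpr ⟨_, elt_mem h2 hω x hx, _, elt_mem h2 hω y hy, rfl⟩
  have s2 : ∀ A y, inN y = true → L (A ⊗ₖ lift ω y) ∈ K := by
    intro A y hy
    induction span_all h2 hω A using Submodule.span_induction with
    | mem z hz =>
      obtain ⟨x, hx, rfl⟩ := hz
      exact s1 x y hx hy
    | zero =>
      rw [Matrix.zero_kronecker, map_zero]
      exact K.zero_mem
    | add a b _ _ ha hb =>
      rw [Matrix.add_kronecker, map_add]
      exact K.add_mem ha hb
    | smul c a _ ha =>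
      rw [Matrix.smul_kronecker, map_smul]
      exact K.smul_mem c ha
  have s3 : ∀ A B, L (A ⊗ₖ B) ∈ K := by
    intro A B
    induction span_all h2 hω B using Submodule.span_induction with
    | mem z hz =>
      obtain ⟨y, hy, rfl⟩ := hz
      exact s2 A y hy
    | zero =>
      rw [Matrix.kronecker_zero, map_zero]
      exact K.zero_mem
    | add a b _ _ ha hb =>
      rw [Matrix.kronecker_add, map_add]
      exact K.add_mem ha hb
    | smul c a _ ha =>
      rw [Matrix.kronecker_smul, map_smul]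
      exact K.smul_mem c ha
  have s4 : ∀ M' : Matrix (Fin 3 × Fin 3) (Fin 3 × Fin 3) F, L M' ∈ K := by
    intro M'
    rw [Matrix.matrix_eq_sum_single M', map_sum]
    refine Submodule.sum_mem _ fun p _ => ?_
    rw [map_sum]
    refine Submodule.sum_mem _ fun q _ => ?_
    have h3 : Matrix.single p q (M' p q) = M' p q • (Matrix.single p.1 q.1 (1 : F) ⊗ₖ Matrix.single p.2 q.2 (1 : F)) := by
      ext r s
      obtain ⟨p1, p2⟩ := p
      obtain ⟨q1, q2⟩ := q
      obtain ⟨r1, r2⟩ := r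
      obtain ⟨s1, s2⟩ := s
      simp only [Matrix.single_apply, Matrix.smul_apply, Matrix.kroneckerMap_apply, smul_eq_mul, Prod.mk.injEq]
      by_cases h4 : p1 = r1 <;> by_cases h5 : p2 = r2 <;> by_cases h6 : q1 = s1 <;> by_cases h7 : q2 = s2 <;> simp [h4, h5, h6, h7]
    rw [h3, map_smul]
    exact K.smul_mem _ (s3 _ _)
  have h3 : M = L ((((P⁻¹ : GL (Fin n) F) : Matrix (Fin n) (Fin n) F) * M * (P : Matrix (Fin n) (Fin n) F)).submatrix e.symm e.symm) := by
    rw [hL]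
    have h4 : (((((P⁻¹ : GL (Fin n) F) : Matrix (Fin n) (Fin n) F) * M * (P : Matrix (Fin n) (Fin n) F)).submatrix e.symm e.symm).submatrix e e) =
        ((P⁻¹ : GL (Fin n) F) : Matrix (Fin n) (Fin n) F) * M * (P : Matrix (Fin n) (Fin n) F) := by
      ext i j
      simp
    rw [h4]
    have h5 : (P : Matrix (Fin n) (Fin n) F) * ((P⁻¹ : GL (Fin n) F) : Matrix (Fin n) (Fin n) F) = 1 := by
      rw [← Units.val_mul, mul_inv_cancel, Units.val_one]
    calc M = ((P : Matrix (Fin n) (Fin n) F) * ((P⁻¹ : GL (Fin n) F) : Matrix (Fin n) (Fin n) F)) * M *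
          ((P : Matrix (Fin n) (Fin n) F) * ((P⁻¹ : GL (Fin n) F) : Matrix (Fin n) (Fin n) F)) := by rw [h5, one_mul, mul_one]
      _ = _ := by simp only [mul_assoc]
  rw [h3]
  exact s4 _

variable [Fintype F]

theorem R9_pow (h2 : (2 : F) = 0) (hω : ω * ω = ω + 1) (e : Fin n ≃ Fin 3 × Fin 3) (P : GL (Fin n) F) {x : GL (Fin n) F}
    (hx : x ∈ R9 h2 hω e P) : x ^ 3 = 1 := by
  have hcube : ∀ a ∈ NN h2 hω, a ^ 3 = 1 := by
    rintro a ⟨m, hm, ham⟩
    apply Units.ext
    rw [Units.val_pow_eq_pow_val, ham, Units.val_one, pow_succ, pow_two, mul_assoc, ← lift_mul h2 hω, ← lift_mul h2 hω, cube_spec hm, lift_one]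
  obtain ⟨a, ha, b, hb, rfl⟩ := mem_R9.mp hx
  rw [← map_pow, Prod.pow_mk, hcube a ha, hcube b hb]
  exact map_one _

theorem R9_comm (h2 : (2 : F) = 0) (hω : ω * ω = ω + 1) (e : Fin n ≃ Fin 3 × Fin 3) (P : GL (Fin n) F) {x y : GL (Fin n) F}
    (hx : x ∈ R9 h2 hω e P) (hy : y ∈ R9 h2 hω e P) : x * y * x⁻¹ * y⁻¹ ∈ scalars (Fin n) F := by
  have hc : ∀ a ∈ NN h2 hω, ∀ b ∈ NN h2 hω, ∃ c : F, ((a * b * a⁻¹ * b⁻¹ : GL (Fin 3) F) : Matrix (Fin 3) (Fin 3) F) = c • 1 := by
    rintro a ⟨m, hm, ham⟩ b ⟨m', hm', hbm⟩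
    obtain ⟨c, hc⟩ := isScal_lift (ω := ω) (comm_spec hm hm')
    refine ⟨c, ?_⟩
    rw [← hc]
    have h3 : ((a⁻¹ : GL (Fin 3) F) : Matrix (Fin 3) (Fin 3) F) = lift ω m.star := coe_inv_eq (by
      rw [ham, ← lift_mul h2 hω, (star_spec hm).2, lift_one])
    have h4 : ((b⁻¹ : GL (Fin 3) F) : Matrix (Fin 3) (Fin 3) F) = lift ω m'.star := coe_inv_eq (by
      rw [hbm, ← lift_mul h2 hω, (star_spec hm').2, lift_one])
    rw [lift_mul h2 hω, lift_mul h2 hω, lift_mul h2 hω, Units.val_mul, Units.val_mul, Units.val_mul, ham, hbm, h3, h4]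
    simp only [mul_assoc]
  obtain ⟨a, ha, b, hb, rfl⟩ := mem_R9.mp hx
  obtain ⟨a', ha', b', hb', rfl⟩ := mem_R9.mp hy
  rw [← map_inv, ← map_inv, ← map_mul, ← map_mul, ← map_mul]
  obtain ⟨c, hc1⟩ := hc a ha a' ha'
  obtain ⟨c', hc2⟩ := hc b hb b' hb'
  exact (mem_scalars_iff' _).mpr ⟨c * c', phi_scal e P hc1 hc2⟩

end Kron


section Final

variable {F : Type*} [Field F] [Fintype F] {n : ℕ} {ω : F}

theorem phi_eq_left {e : Fin n ≃ Fin 3 × Fin 3} {P : GL (Fin n) F} {a a' b : GL (Fin 3) F} (h : phi e P (a, b) = phi e P (a', b)) :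
    (a : Matrix (Fin 3) (Fin 3) F) = a' := by
  have h1 : kronE e a b = kronE e a' b := by
    have h3 : P * kronE e a b * P⁻¹ = P * kronE e a' b * P⁻¹ := h
    exact mul_left_cancel (mul_right_cancel h3)
  have h2 : (a : Matrix (Fin 3) (Fin 3) F) ⊗ₖ (b : Matrix (Fin 3) (Fin 3) F) = (a' : Matrix (Fin 3) (Fin 3) F) ⊗ₖ (b : Matrix (Fin 3) (Fin 3) F) := by
    ext p q
    have h3 := congrArg (fun z : GL (Fin n) F => (z : Matrix (Fin n) (Fin n) F) (e.symm p) (e.symm q)) h1
    simpa [coe_kronE] using h3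
  exact kron_left_inj (gl_ne_zero b) h2

theorem phi_eq_right {e : Fin n ≃ Fin 3 × Fin 3} {P : GL (Fin n) F} {a b b' : GL (Fin 3) F} (h : phi e P (a, b) = phi e P (a, b')) :
    (b : Matrix (Fin 3) (Fin 3) F) = b' := by
  have h1 : kronE e a b = kronE e a b' := by
    have h3 : P * kronE e a b * P⁻¹ = P * kronE e a b' * P⁻¹ := h
    exact mul_left_cancel (mul_right_cancel h3)
  have h2 : (a : Matrix (Fin 3) (Fin 3) F) ⊗ₖ (b : Matrix (Fin 3) (Fin 3) F) = (a : Matrix (Fin 3) (Fin 3) F) ⊗ₖ (b' : Matrix (Fin 3) (Fin 3) F) := by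
    ext p q
    have h3 := congrArg (fun z : GL (Fin n) F => (z : Matrix (Fin n) (Fin n) F) (e.symm p) (e.symm q)) h1
    simpa [coe_kronE] using h3
  exact kron_right_inj (gl_ne_zero a) h2

theorem phi_normalizer (hF : Fintype.card F = 2 ^ 2) (h2 : (2 : F) = 0) (hω : ω * ω = ω + 1) (e : Fin n ≃ Fin 3 × Fin 3) (P : GL (Fin n) F)
    {a b : GL (Fin 3) F} (ha : a ∈ GU 3 F 2) (hb : b ∈ GU 3 F 2) : phi e P (a, b) ∈ subgroupNormalizer (R9 h2 hω e P) := by
  have key : ∀ a ∈ GU 3 F 2, ∀ b ∈ GU 3 F 2, ∀ x ∈ R9 h2 hω e P, phi e P (a, b) * x * (phi e P (a, b))⁻¹ ∈ R9 h2 hω e P := by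
    rintro a ha b hb x hx
    obtain ⟨a', ha', b', hb', rfl⟩ := mem_R9.mp hx
    refine mem_R9.mpr ⟨a * a' * a⁻¹, conj_mem hF h2 hω ha ha', b * b' * b⁻¹, conj_mem hF h2 hω hb hb', ?_⟩
    rw [← map_inv, ← map_mul, ← map_mul]
    rfl
  unfold subgroupNormalizer
  rw [Subgroup.mem_normalizer_iff]
  intro x
  refine ⟨key a ha b hb x, fun h => ?_⟩
  have h3 := key a⁻¹ (inv_mem ha) b⁻¹ (inv_mem hb) _ h
  have h4 : phi e P (a⁻¹, b⁻¹) = (phi e P (a, b))⁻¹ := by
    rw [← map_inv]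
    rfl
  rw [h4] at h3
  simpa [mul_assoc] using h3

theorem kron_mem_GU (hF : Fintype.card F = 2 ^ 2) {e : Fin n ≃ Fin 3 × Fin 3} {P : GL (Fin n) F}
    (hform : ∀ u v, hermForm n F 2 ((P : Matrix (Fin n) (Fin n) F) *ᵥ u) ((P : Matrix (Fin n) (Fin n) F) *ᵥ v) =
      sesqM ((sigE hF : F ≃+* F) : F →+* F) 1 u v)
    {a b : GL (Fin 3) F} (ha : a ∈ GU 3 F 2) (hb : b ∈ GU 3 F 2) : phi e P (a, b) ∈ GU n F 2 := by
  intro w w'
  change hermForm n F 2 (((phi e P (a, b) : GL (Fin n) F) : Matrix (Fin n) (Fin n) F) *ᵥ w) (((phi e P (a, b) : GL (Fin n) F) : Matrix (Fin n) (Fin n) F) *ᵥ w') =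
    hermForm n F 2 w w'
  have h1 : ∀ z : Fin n → F, ((phi e P (a, b) : GL (Fin n) F) : Matrix (Fin n) (Fin n) F) *ᵥ z =
      (P : Matrix (Fin n) (Fin n) F) *ᵥ (((kronE e a b : GL (Fin n) F) : Matrix (Fin n) (Fin n) F) *ᵥ (((P⁻¹ : GL (Fin n) F) : Matrix (Fin n) (Fin n) F) *ᵥ z)) := by
    intro z
    rw [Matrix.mulVec_mulVec, Matrix.mulVec_mulVec]
    rfl
  have h3 : ∀ z : Fin n → F, z = (P : Matrix (Fin n) (Fin n) F) *ᵥ (((P⁻¹ : GL (Fin n) F) : Matrix (Fin n) (Fin n) F) *ᵥ z) :=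
    fun z => (mulVec_inv_mulVec P z).symm
  rw [h1, h1, hform, sesqM_mulVec]
  conv_rhs => rw [h3 w, h3 w', hform]
  congr 1
  have h4 : ((kronE e a b : GL (Fin n) F) : Matrix (Fin n) (Fin n) F).map ((sigE hF : F ≃+* F) : F →+* F) =
      (((a : Matrix (Fin 3) (Fin 3) F).map (sigE hF)) ⊗ₖ ((b : Matrix (Fin 3) (Fin 3) F).map (sigE hF))).submatrix e e := by
    rw [coe_kronE, ← map_kron]
    rfl
  rw [h4, mul_one, coe_kronE, Matrix.transpose_submatrix, Matrix.submatrix_mul_equiv, transpose_kron, ← Matrix.mul_kronecker_mul,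
    gram_of_mem_GU hF ha, gram_of_mem_GU hF hb, Matrix.one_kronecker_one, Matrix.submatrix_one_equiv]

/-- In characteristic two with `q = 2` similarities of the unit form are isometries. -/
theorem mu_one (hF : Fintype.card F = 2 ^ 2) {a : GL (Fin 3) F} {μ : F} (hμ0 : μ ≠ 0)
    (h : (a : Matrix (Fin 3) (Fin 3) F)ᵀ * ((1 : GL (Fin 3) F) : Matrix (Fin 3) (Fin 3) F) * (a : Matrix (Fin 3) (Fin 3) F).map (sigE hF) =
      μ • ((1 : GL (Fin 3) F) : Matrix (Fin 3) (Fin 3) F)) : μ = 1 := by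
  set σ := sigE hF with hσ
  have hinv : ∀ x, σ (σ x) = x := (refl_hermForm (n := 3) hF).invol
  rw [Units.val_one, mul_one] at h
  have hmap : ∀ x y : Matrix (Fin 3) (Fin 3) F, (x * y).map σ = x.map σ * y.map σ := by
    intro x y
    ext i j
    simp [Matrix.mul_apply, map_sum]
  have h1 : ((((a : Matrix (Fin 3) (Fin 3) F)ᵀ * (a : Matrix (Fin 3) (Fin 3) F).map σ).map σ))ᵀ = (a : Matrix (Fin 3) (Fin 3) F)ᵀ * (a : Matrix (Fin 3) (Fin 3) F).map σ := by
    rw [hmap, Matrix.transpose_mul]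
    congr 1
    ext i j
    simp [hinv]
  rw [h] at h1
  have h3 := congrFun (congrFun h1 0) 0
  simp only [Matrix.transpose_apply, Matrix.map_apply, Matrix.smul_apply, Matrix.one_apply_eq, smul_eq_mul, mul_one] at h3
  have h4 : μ ^ 2 = μ := by
    rw [← sigE_apply hF]
    exact h3
  have h5 : μ * (μ - 1) = 0 := by
    linear_combination h4
  exact sub_eq_zero.mp ((mul_eq_zero.mp h5).resolve_left hμ0)

/-- The data of the symplectic type group `R9`. -/
theorem sympData9 [Nonempty (Fin n)] (h2 : (2 : F) = 0) (hω : ω * ω = ω + 1) (e : Fin n ≃ Fin 3 × Fin 3) (P : GL (Fin n) F) :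
    SympData (subgroupNormalizer (R9 h2 hω e P)) (R9 h2 hω e P) 3 3 where
  prime := Nat.prime_three
  hs := by decide
  hchar := by
    intro h
    have h3 : (1 : F) = 0 := by
      have h4 : ((3 : ℕ) : F) = 3 := by norm_num
      rw [h4] at h
      linear_combination h - h2
    exact one_ne_zero h3
  norm := fun g hg x hx => (Subgroup.mem_normalizer_iff.mp hg x).mp hx
  irr := (irr_cs_of_span (R9_span h2 hω e P)).1
  cs := (irr_cs_of_span (R9_span h2 hω e P)).2
  notZ := by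
    intro hle
    have hD : inN D4 = true := rfl
    have hC : inN C4 = true := rfl
    set D := elt (ω := ω) h2 hω D4 (star_spec hD).2 with hDdef
    set C := elt (ω := ω) h2 hω C4 (star_spec hC).2 with hCdef
    have hx : phi e P (D, 1) ∈ R9 h2 hω e P := mem_R9.mpr ⟨D, elt_mem h2 hω _ hD, 1, one_mem _, rfl⟩
    have hy : phi e P (C, 1) ∈ R9 h2 hω e P := mem_R9.mpr ⟨C, elt_mem h2 hω _ hC, 1, one_mem _, rfl⟩
    obtain ⟨c, hc⟩ := (mem_scalars_iff' _).mp (hle hx)
    have hcomm : phi e P (D * C, 1) = phi e P (C * D, 1) := by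
      have h3 : phi e P (D * C, 1) = phi e P (D, 1) * phi e P (C, 1) := by
        rw [← map_mul]
        simp
      have h4 : phi e P (C * D, 1) = phi e P (C, 1) * phi e P (D, 1) := by
        rw [← map_mul]
        simp
      rw [h3, h4]
      apply Units.ext
      rw [Units.val_mul, Units.val_mul, hc]
      simp
    have h5 := phi_eq_left hcomm
    rw [Units.val_mul, Units.val_mul] at h5
    have h6 : lift ω (D4.mul C4) = lift ω (C4.mul D4) := by
      rw [lift_mul h2 hω, lift_mul h2 hω]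
      exact h5
    exact D4_star (lift_injective h2 hω h6)
  pow_s := fun x hx => R9_pow h2 hω e P hx
  le := Subgroup.le_normalizer
  comm := fun x hx y hy => R9_comm h2 hω e P hx hy
  comm_pow := fun x hx y hy => R9_pow h2 hω e P (mul_mem (mul_mem (mul_mem hx hy) (inv_mem hx)) (inv_mem hy))

/-- Symplectic type. -/
theorem symp9 [Nonempty (Fin n)] (hF : Fintype.card F = 2 ^ 2) (h2 : (2 : F) = 0) (hω : ω * ω = ω + 1) (e : Fin n ≃ Fin 3 × Fin 3) (P : GL (Fin n) F) :
    IsSymplecticTypeGroup 3 (R9 h2 hω e P) := by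
  refine isSymplecticTypeGroup_of_moves (sympData9 h2 hω e P) ?_
  intro x hx hxZ
  obtain ⟨a, ⟨m₁, hm₁, ham⟩, b, ⟨m₂, hm₂, hbm⟩, rfl⟩ := mem_R9.mp hx
  set W := elt (ω := ω) h2 hω W4 W4_unitary with hW
  have hWG : W ∈ GU 3 F 2 := mem_GU_of_unitary hF h2 hω W4_unitary rfl
  have hWi : ((W⁻¹ : GL (Fin 3) F) : Matrix (Fin 3) (Fin 3) F) = lift ω W4.star := rfl
  rcases moves_spec hm₁ with h1 | h1
  · rcases moves_spec hm₂ with h3 | h3
    · exfalso
      apply hxZ
      obtain ⟨c, hc⟩ := isScal_lift (ω := ω) h1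
      obtain ⟨c', hc'⟩ := isScal_lift (ω := ω) h3
      exact (mem_scalars_iff' _).mpr ⟨c * c', phi_scal e P (ham.trans hc) (hbm.trans hc')⟩
    · refine ⟨phi e P (1, W), phi_normalizer hF h2 hω e P (one_mem _) hWG, ?_⟩
      intro hcon
      have h4 : phi e P (1, W) * phi e P (a, b) * (phi e P (1, W))⁻¹ = phi e P (a, W * b * W⁻¹) := by
        rw [← map_inv, ← map_mul, ← map_mul]
        simp
      rw [h4, ← map_mul, ← map_mul] at hcon
      have h5 : (b : Matrix (Fin 3) (Fin 3) F) * (W * b * W⁻¹ : GL (Fin 3) F) = ((W * b * W⁻¹ : GL (Fin 3) F) : Matrix (Fin 3) (Fin 3) F) * b := by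
        have h6 := phi_eq_right (a := a * a) hcon
        simpa only [Units.val_mul] using h6
      apply h3
      apply lift_injective h2 hω
      simp only [lift_mul h2 hω]
      rw [Units.val_mul, Units.val_mul, hWi, hbm] at h5
      exact h5
  · refine ⟨phi e P (W, 1), phi_normalizer hF h2 hω e P hWG (one_mem _), ?_⟩
    intro hcon
    have h4 : phi e P (W, 1) * phi e P (a, b) * (phi e P (W, 1))⁻¹ = phi e P (W * a * W⁻¹, b) := by
      rw [← map_inv, ← map_mul, ← map_mul]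
      simp
    rw [h4, ← map_mul, ← map_mul] at hcon
    have h5 : (a : Matrix (Fin 3) (Fin 3) F) * (W * a * W⁻¹ : GL (Fin 3) F) = ((W * a * W⁻¹ : GL (Fin 3) F) : Matrix (Fin 3) (Fin 3) F) * a := by
      have h6 := phi_eq_left (b := b * b) hcon
      simpa only [Units.val_mul] using h6
    apply h1
    apply lift_injective h2 hω
    simp only [lift_mul h2 hω]
    rw [Units.val_mul, Units.val_mul, hWi, ham] at h5
    exact h5

/-- The special tensor case of `SU₉(2)`. -/
theorem out_nine {H : Subgroup (GL (Fin n) F)} (hF : Fintype.card F = 2 ^ 2)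
    (hGs : H ⊔ scalars (Fin n) F ≤ similarityGroup (hermForm n F 2)) {e : Fin n ≃ Fin 3 × Fin 3} {P : GL (Fin n) F}
    {J₁ J₂ : GL (Fin 3) F} {ε₁ ε₂ c : F}
    (T : TensorData (sigE hF) 1 (hermForm n F 2) (H ⊔ scalars (Fin n) F) 3 3 e P J₁ J₂ ε₁ ε₂ c) : FormSU.Out n 2 H := by
  classical
  have hn9 : n = 9 := by
    have := Fintype.card_congr e
    simpa using this
  subst hn9
  haveI : Nonempty (Fin 9) := ⟨0⟩
  have h2 : (2 : F) = 0 := two_of_parity hF (by decide)
  haveI : CharP F 2 := CharTwo.of_one_ne_zero_of_two_eq_zero one_ne_zero h2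
  set σ := sigE hF with hσ
  have hinv : ∀ x, σ (σ x) = x := (refl_hermForm (n := 3) hF).invol
  have hF4 : ∀ x : F, x ^ 4 = x := by
    intro x
    have h3 := FiniteField.pow_card x
    rw [hF] at h3
    exact h3
  -- a primitive cube root of unity
  obtain ⟨ω, hω⟩ : ∃ ω : F, ω * ω = ω + 1 := by
    obtain ⟨x, -, hx⟩ := Finset.exists_mem_notMem_of_card_lt_card (s := ({0, 1} : Finset F)) (t := Finset.univ) (by
      rw [Finset.card_univ, hF]
      exact (Finset.card_le_two).trans_lt (by norm_num))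
    simp only [Finset.mem_insert, Finset.mem_singleton, not_or] at hx
    refine ⟨x, ?_⟩
    have h3 := hF4 x
    have h4 : x * (x + 1) * (x * x + x + 1) = 0 := by
      linear_combination h3 + (x + x ^ 2 + x ^ 3) * h2
    have h5 : x + 1 ≠ 0 := by
      intro h6
      apply hx.2
      linear_combination h6 - h2
    have h6 := (mul_eq_zero.mp h4).resolve_left (mul_ne_zero hx.1 h5)
    linear_combination h6 - (x + 1) * h2
  obtain ⟨J₁', J₂', c', T'⟩ := FormSU2.TensorData.normalize hinv (sigE_ne_refl hF) T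
  have hone : (((1 : GL (Fin 3) F) : Matrix (Fin 3) (Fin 3) F).map σ)ᵀ = (1 : F) • ((1 : GL (Fin 3) F) : Matrix (Fin 3) (Fin 3) F) := by
    rw [Units.val_one, map_one_sigma', Matrix.transpose_one, one_smul]
  obtain ⟨T₁, hT₁⟩ := exists_congruent hF 1 J₁' hone T'.herm₁
  obtain ⟨T₂, hT₂⟩ := exists_congruent hF 1 J₂' hone T'.herm₂
  have T'' := TensorData.change T' hT₁ hT₂ hone hone
  set P' := P * kronE e T₁ T₂ with hP'
  have hc1 : c' = 1 := by
    have h3 := T''.sign
    simp only [one_mul, mul_one] at h3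
    have h4 : c' ^ 2 = c' := by
      rw [← sigE_apply hF]
      exact h3.symm
    have h5 : c' * (c' - 1) = 0 := by
      linear_combination h4
    exact sub_eq_zero.mp ((mul_eq_zero.mp h5).resolve_left T''.hc)
  have hform : ∀ u v, hermForm 9 F 2 ((P' : Matrix (Fin 9) (Fin 9) F) *ᵥ u) ((P' : Matrix (Fin 9) (Fin 9) F) *ᵥ v) =
      sesqM ((sigE hF : F ≃+* F) : F →+* F) 1 u v := by
    intro u v
    rw [T''.eq, hc1, one_mul, Units.val_one, Matrix.one_kronecker_one, Matrix.submatrix_one_equiv]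
  have D := sympData9 h2 hω e P'
  have hsymp := symp9 hF h2 hω e P'
  have habs : ActsAbsolutelyIrreducibly (matrixSet (R9 h2 hω e P')) :=
    actsAbsolutelyIrreducibly_iff.mpr ⟨actsIrreducibly_iff.mpr D.irr, D.cs⟩
  have hRGU : R9 h2 hω e P' ≤ GU 9 F 2 := by
    intro x hx
    obtain ⟨a, ⟨m₁, hm₁, ham⟩, b, ⟨m₂, hm₂, hbm⟩, rfl⟩ := mem_R9.mp hx
    exact kron_mem_GU hF hform (mem_GU_of_unitary hF h2 hω (star_spec hm₁).2 ham) (mem_GU_of_unitary hF h2 hω (star_spec hm₂).2 hbm)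
  have hscal : ∀ x ∈ scalars (Fin 9) F, x ^ 3 = 1 → x ∈ R9 h2 hω e P' := by
    rintro x ⟨u, rfl⟩ -
    have hs := emb_surjective h2 hω hF4
    obtain ⟨a, ha⟩ := hs (u : F)
    have hmem : scal (Fin 3) F u ∈ NN h2 hω := by
      cases a with
      | z => exact absurd ha.symm u.ne_zero
      | o =>
        refine ⟨one4, rfl, ?_⟩
        rw [coe_scal, ← ha, lift_one]
        simp [emb]
      | w =>
        refine ⟨sW, rfl, ?_⟩
        rw [coe_scal, ← ha, lift_sW]
        rfl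
      | v =>
        refine ⟨sV, rfl, ?_⟩
        rw [coe_scal, ← ha, lift_sV]
        rfl
    refine mem_R9.mpr ⟨_, hmem, 1, one_mem _, ?_⟩
    apply Units.ext
    rw [phi_scal e P' (coe_scal u) (c' := 1) (by rw [Units.val_one, one_smul]), mul_one]
    exact (coe_scal (ι := Fin 9) u).symm
  have hz : Nat.card (Subgroup.center ↥(R9 h2 hω e P')) = 3 := by
    rw [SympData.card_center D hscal, Nat.card_eq_fintype_card, Fintype.card_units, hF]
    decide
  obtain ⟨k, hk, hquot⟩ := SympData.exists_card D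
  rw [Fintype.card_fin] at hk
  have hk1 : 1 ≤ k := by
    rcases Nat.eq_zero_or_pos k with h | h
    · rw [h, pow_zero] at hk
      omega
    · exact h
  have hmin : IsMinimalFieldFor (Nat.card (Subgroup.center ↥(R9 h2 hω e P'))) 2 2 F := by
    rw [hz]
    refine ⟨Nat.prime_two, inferInstance, hF, by decide, ?_⟩
    intro d hd0 hd1
    have hd : d = 1 := by omega
    subst hd
    decide
  refine out_type hsymp habs (hRGU.trans GU_le_similarity) (by decide) hmin (Or.inl ⟨by decide, hz, hk1, ?_⟩) ?_ hk hRGU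
  · rw [SympData.card_eq D, hz, hquot, pow_add, pow_one]
  · intro g hg
    have hg' : g ∈ H ⊔ scalars (Fin 9) F := le_sup_left (a := H) hg
    obtain ⟨a, b, μ₁, μ₂, h0₁, h0₂, hab, h₁, h₂⟩ := FormSim.TensorData.sim_factors T'' hGs hg'
    have hμ₁ := mu_one hF h0₁ h₁
    have hμ₂ := mu_one hF h0₂ h₂
    subst hμ₁ hμ₂
    rw [Units.val_one, mul_one, one_smul] at h₁ h₂
    have hgeq : g = phi e P' (a, b) := by
      have h3 : P'⁻¹ * g * P' = kronE e a b := by
        apply Units.ext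
        ext i j
        rw [hab, coe_kronE]
        rfl
      rw [phi_apply, ← h3]
      group
    rw [hgeq]
    exact phi_normalizer hF h2 hω e P' (mem_GU_of_gram hF h₁) (mem_GU_of_gram hF h₂)

end Final

/-- **Aschbacher's theorem for the unitary groups.** -/
theorem su_main {F : Type*} [Field F] [Fintype F] {n q : ℕ} {H : Subgroup (GL (Fin n) F)} (hF : Fintype.card F = q ^ 2) (hn : 3 ≤ n)
    (hH : H ≤ GU n F q) : FormSU.Out n q H ∨ InUnitaryResidualClass H := by
  refine su_mainF hF hn hH ?_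
  rintro e P J₁ J₂ ε₁ ε₂ c rfl T
  exact out_nine hF (sup_le (hH.trans GU_le_similarity) (FormSp.scalars_le_similarity (refl_hermForm hF))) T

end Cfsg.Agent.Lib.Classical.Asch.SUNine
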