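import Mathlib
import Cfsg.Agent.Lib.Classical.Asch.SUNine
import Cfsg.Agent.Lib.Classical.Asch.NotSp
import Cfsg.Agent.Lib.Classical.Geo.HermBridge
import Cfsg.Agent.Lib.Classical.Herm.Simple

/-!
# The special unitary group lies in no member of the geometric classes
-/

set_option autoImplicit false
set_option linter.style.haveILetI false
set_option linter.unusedSectionVars false

namespace Cfsg.Agent.Lib.Classical.Asch.NotSU

open scoped MatrixGroups Matrix commutatorElement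
open Cfsg Cfsg.Geo Cfsg.Agent.Lib.Classical.Asch.Basic
open Cfsg.Agent.Lib.Classical.Herm.Basic
open Cfsg.Agent.Lib.Classical.Geo.HermTv
open Cfsg.Agent.Lib.Classical.Asch

variable {F : Type*} [Field F] [Fintype F] {n q : ℕ}

local notation "⟪" x ", " y "⟫" => hermForm _ _ q x y

/-- The special unitary group inside `GL`. -/
abbrev II (n : ℕ) (F : Type*) [Field F] [Fintype F] (q : ℕ) : Subgroup (GL (Fin n) F) :=
  GU n F q ⊓ specialLinear (Fin n) F

theorem tv_mem (hF : Fintype.card F = q ^ 2) {a : Fin n → F} (ha : ⟪a, a⟫ = 0) {c : F} (hc : c + c ^ q = 0) :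
    hT q c a ha ∈ II n F q :=
  ⟨hT_mem_GU hF c hc a ha, hT_mem_specialLinear c a ha⟩

theorem exists_tz (hF : Fintype.card F = q ^ 2) : ∃ c : F, c ≠ 0 ∧ c + c ^ q = 0 := by
  obtain ⟨e, h0, h⟩ := Cfsg.Agent.Lib.Classical.Herm.Subfield.exists_trace_zero hF
  exact ⟨e, h0, by rw [h]; ring⟩

theorem exists_two_theta (hF : Fintype.card F = q ^ 2) :
    ∃ θ θ' : F, θ ^ (q + 1) = -1 ∧ θ' ^ (q + 1) = -1 ∧ θ ≠ θ' := by
  have hq := two_le_q hF
  have h := Cfsg.Agent.S0754.result hF (-1 : F) (by simp) (by rw [pow_q_neg hF, one_pow])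
  have h1 : 1 < Nat.card {x : F // x ^ (q + 1) = -1} := by omega
  haveI := (Finite.one_lt_card_iff_nontrivial).mp h1
  obtain ⟨⟨x, hx⟩, ⟨y, hy⟩, hne⟩ := exists_pair_ne {x : F // x ^ (q + 1) = -1}
  exact ⟨x, y, hx, hy, fun h => hne (Subtype.ext h)⟩

theorem herm_single (hF : Fintype.card F = q ^ 2) (i j : Fin n) :
    ⟪(Pi.single i 1 : Fin n → F), (Pi.single j 1 : Fin n → F)⟫ = if i = j then 1 else 0 := by
  have hq := two_le_q hF
  by_cases hij : i = j
  · subst hij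
    rw [if_pos rfl, hermForm_apply, Finset.sum_eq_single i]
    · simp
    · intro k _ hk
      simp [hk]
    · simp
  · rw [if_neg hij, hermForm_apply]
    refine Finset.sum_eq_zero fun k _ => ?_
    by_cases hk : k = i
    · subst hk
      simp [Pi.single_apply, hij, zero_pow_q hF]
    · simp [hk]

theorem iso_vec (hF : Fintype.card F = q ^ 2) {i j : Fin n} (hij : i ≠ j) {θ : F} (hθ : θ ^ (q + 1) = -1) :
    ⟪(Pi.single i 1 + θ • Pi.single j 1 : Fin n → F), (Pi.single i 1 + θ • Pi.single j 1 : Fin n → F)⟫ = 0 := by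
  rw [hermForm_add_left, hermForm_add_right hF, hermForm_add_right hF, hermForm_smul_left,
    hermForm_smul_right, hermForm_smul_right, hermForm_smul_left, herm_single hF, herm_single hF, herm_single hF,
    herm_single hF]
  simp only [if_true, if_neg hij, if_neg hij.symm]
  rw [pow_succ] at hθ
  linear_combination hθ

theorem eq_top_of_iso (hF : Fintype.card F = q ^ 2) (hn : 2 ≤ n) {W : Submodule F (Fin n → F)}
    (h : ∀ v : Fin n → F, ⟪v, v⟫ = 0 → v ∈ W) : W = ⊤ := by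
  obtain ⟨θ, θ', hθ, hθ', hne⟩ := exists_two_theta hF
  have hs : ∀ j : Fin n, (Pi.single j 1 : Fin n → F) ∈ W := by
    intro j
    obtain ⟨i, hij⟩ : ∃ i : Fin n, i ≠ j := by
      haveI : Nontrivial (Fin n) := Fin.nontrivial_iff_two_le.mpr hn
      exact exists_ne j
    have h1 := h _ (iso_vec hF hij hθ)
    have h2 := h _ (iso_vec hF hij hθ')
    have h3 := W.sub_mem h1 h2
    have h4 : (Pi.single i 1 + θ • Pi.single j 1 : Fin n → F) - (Pi.single i 1 + θ' • Pi.single j 1) =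
        (θ - θ') • (Pi.single j 1 : Fin n → F) := by
      rw [sub_smul]
      abel
    rw [h4] at h3
    exact (W.smul_mem_iff (sub_ne_zero.mpr hne)).mp h3
  rw [Submodule.eq_top_iff']
  intro x
  have hx : x = ∑ j, x j • (Pi.single j 1 : Fin n → F) := by
    funext i
    simp [Finset.sum_apply, Pi.single_apply]
  rw [hx]
  exact W.sum_mem fun j _ => W.smul_mem _ (hs j)

theorem exists_iso_not_perp' (hF : Fintype.card F = q ^ 2) (hn : 2 ≤ n) {x : Fin n → F} (hx : x ≠ 0) :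
    ∃ v : Fin n → F, ⟪v, v⟫ = 0 ∧ ⟪x, v⟫ ≠ 0 := by
  by_contra hc
  push Not at hc
  have h1 : LinearMap.ker (hLin q x) = ⊤ := by
    refine eq_top_of_iso hF hn fun v hv => ?_
    rw [LinearMap.mem_ker, hLin_apply, ← hermForm_pow_q hF n x v, hc v hv, zero_pow_q hF]
  apply hx
  refine hermForm_nondegenerate_right hF n x fun y => ?_
  have : y ∈ LinearMap.ker (hLin q x) := by rw [h1]; trivial
  simpa using this

theorem exists_iso_ne_zero' (hF : Fintype.card F = q ^ 2) (hn : 2 ≤ n) : ∃ v : Fin n → F, ⟪v, v⟫ = 0 ∧ v ≠ 0 := by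
  obtain ⟨θ, -, hθ, -, -⟩ := exists_two_theta hF
  have h0 : (⟨0, by omega⟩ : Fin n) ≠ ⟨1, by omega⟩ := by simp [Fin.ext_iff]
  refine ⟨_, iso_vec hF h0 hθ, fun h => ?_⟩
  have := congrFun h ⟨0, by omega⟩
  simp [Pi.single_apply, Fin.ext_iff] at this

theorem exists_not_perp (hF : Fintype.card F = q ^ 2) {a : Fin n → F} (ha : a ≠ 0) : ∃ x : Fin n → F, ⟪x, a⟫ ≠ 0 := by
  by_contra hc
  push Not at hc
  exact ha (hermForm_nondegenerate_right hF n a hc)

/-- **Irreducibility**: a non-zero subspace stable under the transvections is everything. -/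
theorem eq_top_of_stable (hF : Fintype.card F = q ^ 2) (hn : 2 ≤ n) {W : Submodule F (Fin n → F)} (h0 : W ≠ ⊥)
    (hst : ∀ (a : Fin n → F) (c : F) (ha : ⟪a, a⟫ = 0), a ≠ 0 → c ≠ 0 → c + c ^ q = 0 → ∀ x ∈ W,
      ((hT q c a ha : GL (Fin n) F) : Matrix (Fin n) (Fin n) F) *ᵥ x ∈ W) : W = ⊤ := by
  obtain ⟨x, hx, hx0⟩ := Submodule.exists_mem_ne_zero_of_ne_bot h0
  obtain ⟨c, hc0, hc⟩ := exists_tz hF
  have hC : ∀ v : Fin n → F, ⟪v, v⟫ = 0 → ⟪x, v⟫ ≠ 0 → v ∈ W := by
    intro v hv hxv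
    have hv0 : v ≠ 0 := by
      rintro rfl
      exact hxv (hermForm_zero_right hF n x)
    have h1 := hst v c hv hv0 hc0 hc x hx
    rw [hT_mulVec] at h1
    have h2 : (c * ⟪x, v⟫) • v ∈ W := by
      have := W.sub_mem h1 hx
      simpa using this
    exact (W.smul_mem_iff (mul_ne_zero hc0 hxv)).mp h2
  obtain ⟨y, hyy, hxy⟩ := exists_iso_not_perp' hF hn hx0
  have hy := hC y hyy hxy
  refine eq_top_of_iso hF hn fun z hz => ?_
  by_cases hxz : ⟪x, z⟫ = 0
  swap
  · exact hC z hz hxz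
  by_cases hzy : ⟪z, y⟫ = 0
  · have hyz : ⟪y, z⟫ = 0 := by rw [← hermForm_pow_q hF n z y, hzy, zero_pow_q hF]
    have h3 : y + z ∈ W := by
      refine hC _ ?_ ?_
      · rw [hermForm_add_left, hermForm_add_right hF, hermForm_add_right hF, hyy, hz, hyz, hzy]
        ring
      · rw [hermForm_add_right hF, hxz, add_zero]
        exact hxy
    have := W.sub_mem h3 hy
    simpa using this
  · set a : F := c / ⟪z, y⟫ with ha
    have ha1 : a * ⟪z, y⟫ = c := by
      rw [ha]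
      field_simp
    have ha0 : a ≠ 0 := by
      rw [ha]
      exact div_ne_zero hc0 hzy
    have hyz : ⟪y, z⟫ = ⟪z, y⟫ ^ q := (hermForm_pow_q hF n z y).symm
    have ha2 : a ^ q * ⟪y, z⟫ = c ^ q := by
      rw [hyz, ← mul_pow, ha1]
    have h3 : y + a • z ∈ W := by
      refine hC _ ?_ ?_
      · rw [hermForm_add_left, hermForm_add_right hF, hermForm_add_right hF, hermForm_smul_left, hermForm_smul_right,
          hermForm_smul_right, hermForm_smul_left, hyy, hz, ha2, ha1]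
        linear_combination hc
      · rw [hermForm_add_right hF, hermForm_smul_right, hxz, mul_zero, add_zero]
        exact hxy
    have h4 := W.sub_mem h3 hy
    have h5 : a • z ∈ W := by simpa using h4
    exact (W.smul_mem_iff ha0).mp h5

theorem not_le_subspaceStabilizer_su (hF : Fintype.card F = q ^ 2) (hn : 2 ≤ n) {W : Submodule F (Fin n → F)} (h₁ : W ≠ ⊥)
    (h₂ : W ≠ ⊤) : ¬ II n F q ≤ subspaceStabilizer W := by
  intro hle
  refine h₂ (eq_top_of_stable hF hn h₁ fun a c ha _ _ hc x hx => ?_)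
  exact (hle (tv_mem hF ha hc) x).mp hx

/-- Decompositions into blocks of dimension at least two. -/
theorem not_le_decomp_of_two_le (hF : Fintype.card F = q ^ 2) (hn : 2 ≤ n) {t k : ℕ} {D : Fin t → Submodule F (Fin n → F)}
    (hD : IsMDecomposition k D) (hk : 2 ≤ k) : ¬ II n F q ≤ decompositionStabilizer D := by
  intro hle
  have hbot : ∀ i, D i ≠ ⊥ := by
    intro i h
    have := hD.finrank_eq i
    rw [h, finrank_bot] at this
    omega
  have hstab : ∀ i, ∀ (a : Fin n → F) (c : F) (ha : ⟪a, a⟫ = 0), a ≠ 0 → c ≠ 0 → c + c ^ q = 0 → ∀ x ∈ D i,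
      ((hT q c a ha : GL (Fin n) F) : Matrix (Fin n) (Fin n) F) *ᵥ x ∈ D i := by
    intro i a c ha _ _ hc x hx
    obtain ⟨σ, hσ⟩ := hle (tv_mem hF ha hc)
    -- a non-zero vector of the block in the hyperplane
    obtain ⟨y, hy, hy0, hya⟩ : ∃ y ∈ D i, y ≠ 0 ∧ ⟪y, a⟫ = 0 := by
      let φ : D i →ₗ[F] F := (hLin q a).domRestrict (D i)
      have h1 := LinearMap.finrank_range_add_finrank_ker φ
      have h2 : Module.finrank F (LinearMap.range φ) ≤ 1 := by
        simpa using Submodule.finrank_le (LinearMap.range φ)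
      rw [hD.finrank_eq i] at h1
      have h3 : LinearMap.ker φ ≠ ⊥ := by
        intro h
        rw [h, finrank_bot] at h1
        omega
      obtain ⟨y, hy, hy0⟩ := Submodule.exists_mem_ne_zero_of_ne_bot h3
      exact ⟨y.1, y.2, fun h => hy0 (Subtype.ext h), hy⟩
    have h1 : ((hT q c a ha : GL (Fin n) F) : Matrix (Fin n) (Fin n) F) *ᵥ y = y := by
      rw [hT_mulVec, hya]
      simp
    have h2 : y ∈ D (σ i) := by
      rw [← hσ i]
      exact ⟨y, hy, by rw [Matrix.toLin'_apply]; exact h1⟩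
    have h3 : σ i = i := by
      by_contra hne
      exact hy0 ((Submodule.disjoint_def.mp (hD.indep.pairwiseDisjoint hne)) y h2 hy)
    have h4 := hσ i
    rw [h3] at h4
    rw [← h4]
    exact ⟨x, hx, by rw [Matrix.toLin'_apply]⟩
  have ht := hD.two_le
  let i₀ : Fin t := ⟨0, by omega⟩
  let i₁ : Fin t := ⟨1, by omega⟩
  have h01 : i₀ ≠ i₁ := by simp [i₀, i₁, Fin.ext_iff]
  have htop := eq_top_of_stable hF hn (hbot i₀) (hstab i₀)
  obtain ⟨y, hy, hy0⟩ := Submodule.exists_mem_ne_zero_of_ne_bot (hbot i₁)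
  refine hy0 ((Submodule.disjoint_def.mp (hD.indep.pairwiseDisjoint h01)) y ?_ hy)
  rw [htop]
  trivial

theorem not_mem_of_two {t : ℕ} {D : Fin t → Submodule F (Fin n → F)} (hind : iSupIndep D) {i₁ i₂ : Fin t} (h12 : i₁ ≠ i₂)
    {w w₁ w₂ : Fin n → F} (h₁ : w₁ ∈ D i₁) (h₁0 : w₁ ≠ 0) (h₂ : w₂ ∈ D i₂) (h₂0 : w₂ ≠ 0)
    (hw₁ : w - w₁ ∈ ⨆ j, ⨆ (_ : j ≠ i₁), D j) (hw₂ : w - w₂ ∈ ⨆ j, ⨆ (_ : j ≠ i₂), D j) (l : Fin t) : w ∉ D l := by
  intro hl
  have key : ∀ (i : Fin t) (wi : Fin n → F), wi ∈ D i → wi ≠ 0 → w - wi ∈ (⨆ j, ⨆ (_ : j ≠ i), D j) → l ≠ i → False := by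
    intro i wi hi hi0 hw hli
    have h3 : w ∈ ⨆ j, ⨆ (_ : j ≠ i), D j := Submodule.mem_iSup_of_mem l (Submodule.mem_iSup_of_mem hli hl)
    have h4 : wi ∈ ⨆ j, ⨆ (_ : j ≠ i), D j := by
      have := Submodule.sub_mem _ h3 hw
      simpa using this
    exact hi0 ((Submodule.disjoint_def.mp (hind i)) wi hi h4)
  by_cases hl1 : l = i₁
  · exact key i₂ w₂ h₂ h₂0 hw₂ (by rw [hl1]; exact h12)
  · exact key i₁ w₁ h₁ h₁0 hw₁ hl1

/-- Orthogonal frames. -/
theorem not_le_frame (hF : Fintype.card F = q ^ 2) (hn : 3 ≤ n) (h32 : ¬ (n = 3 ∧ q = 2)) {t : ℕ}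
    {D : Fin t → Submodule F (Fin n → F)} (hD : IsNondegenerateMDecomposition (hermForm n F q) 1 D) :
    ¬ II n F q ≤ decompositionStabilizer D := by
  classical
  intro hle
  have hcard : n = t := by
    have := Block.card_eq_mul hD.decomp
    simpa using this
  have hbot : ∀ i, D i ≠ ⊥ := by
    intro i h
    have := hD.decomp.finrank_eq i
    rw [h, finrank_bot] at this
    omega
  have hex : ∀ i, ∃ d ∈ D i, d ≠ 0 := fun i => Submodule.exists_mem_ne_zero_of_ne_bot (hbot i)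
  choose d hd hd0 using hex
  have hspan : ∀ i, ∀ y ∈ D i, ∃ c : F, y = c • d i := by
    intro i y hy
    have hne : (⟨d i, hd i⟩ : D i) ≠ 0 := fun h => hd0 i (congrArg Subtype.val h)
    obtain ⟨c, hc⟩ := (finrank_eq_one_iff_of_nonzero' _ hne).mp (hD.decomp.finrank_eq i) ⟨y, hy⟩
    exact ⟨c, (congrArg Subtype.val hc).symm⟩
  have hnorm : ∀ i, ⟪d i, d i⟫ ≠ 0 := by
    intro i h0
    obtain ⟨-, x, hx, hx0⟩ := hD.nondegenerate i (d i) (hd i) (hd0 i)
    obtain ⟨c, rfl⟩ := hspan i x hx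
    rw [hermForm_smul_right, h0, mul_zero] at hx0
    exact hx0 rfl
  have horth : ∀ i j, i ≠ j → ⟪d i, d j⟫ = 0 := fun i j h => hD.orthogonal i j h _ (hd i) _ (hd j)
  have hmem : ∀ (i j : Fin t), j ≠ i → ∀ x ∈ D j, x ∈ ⨆ k, ⨆ (_ : k ≠ i), D k := fun i j h x hx =>
    Submodule.mem_iSup_of_mem j (Submodule.mem_iSup_of_mem h hx)
  have main : ∀ (i₀ i₁ i₂ : Fin t), i₀ ≠ i₁ → i₀ ≠ i₂ → i₁ ≠ i₂ → ∀ w₁ w₂ w₃ : Fin n → F,
      w₁ ∈ D i₁ → w₁ ≠ 0 → w₂ ∈ D i₂ → w₂ ≠ 0 → (w₃ ∈ ⨆ k, ⨆ (_ : k ≠ i₁), D k) → (w₃ ∈ ⨆ k, ⨆ (_ : k ≠ i₂), D k) →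
      ⟪d i₀, w₁⟫ = 0 → ⟪d i₀, w₂⟫ = 0 → ⟪d i₀, w₃⟫ = 0 → ⟪d i₀ + w₁ + w₂ + w₃, d i₀ + w₁ + w₂ + w₃⟫ = 0 → False := by
    intro i₀ i₁ i₂ h01 h02 h12 w₁ w₂ w₃ h1 h10 h2 h20 h3 h3' o1 o2 o3 hv
    obtain ⟨c, hc0, hc⟩ := exists_tz hF
    obtain ⟨σ, hσ⟩ := hle (tv_mem hF hv hc)
    set v := d i₀ + w₁ + w₂ + w₃ with hvdef
    have h4 : ((hT q c v hv : GL (Fin n) F) : Matrix (Fin n) (Fin n) F) *ᵥ d i₀ ∈ D (σ i₀) := by
      rw [← hσ i₀]
      exact ⟨d i₀, hd i₀, by rw [Matrix.toLin'_apply]⟩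
    rw [hT_mulVec] at h4
    have h5 : ⟪d i₀, v⟫ = ⟪d i₀, d i₀⟫ := by
      rw [hvdef, hermForm_add_right hF, hermForm_add_right hF, hermForm_add_right hF, o1, o2, o3]
      ring
    rw [h5] at h4
    set u := c * ⟪d i₀, d i₀⟫ with hu
    have hu0 : u ≠ 0 := mul_ne_zero hc0 (hnorm i₀)
    refine not_mem_of_two hD.decomp.indep h12 (w₁ := u • w₁) (w₂ := u • w₂) ((D i₁).smul_mem _ h1) (smul_ne_zero hu0 h10)
      ((D i₂).smul_mem _ h2) (smul_ne_zero hu0 h20) ?_ ?_ (σ i₀) h4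
    · have h6 : d i₀ + u • v - u • w₁ = ((1 + u) • d i₀) + u • w₂ + u • w₃ := by
        rw [hvdef]
        module
      rw [h6]
      refine Submodule.add_mem _ (Submodule.add_mem _ ?_ ?_) (Submodule.smul_mem _ _ h3)
      · exact hmem i₁ i₀ h01 _ ((D i₀).smul_mem _ (hd i₀))
      · exact hmem i₁ i₂ h12.symm _ ((D i₂).smul_mem _ h2)
    · have h6 : d i₀ + u • v - u • w₂ = ((1 + u) • d i₀) + u • w₁ + u • w₃ := by
        rw [hvdef]
        module
      rw [h6]
      refine Submodule.add_mem _ (Submodule.add_mem _ ?_ ?_) (Submodule.smul_mem _ _ h3')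
      · exact hmem i₂ i₀ h02 _ ((D i₀).smul_mem _ (hd i₀))
      · exact hmem i₂ i₁ h12 _ ((D i₁).smul_mem _ h1)
  by_cases hq2 : q = 2
  · have hn4 : 4 ≤ n := by
      by_contra hc
      exact h32 ⟨by omega, hq2⟩
    have h2F : (2 : F) = 0 := by
      apply Forms.two_eq_zero_of_not_odd
      rw [hF, hq2]
      decide
    have hone : ∀ i, ⟪d i, d i⟫ = 1 := by
      intro i
      have h1 := hermForm_self_pow_q hF n (d i)
      have h2 := hnorm i
      rw [hq2] at h1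
      have h3 : ⟪d i, d i⟫ * (⟪d i, d i⟫ - 1) = 0 := by
        rw [hq2]
        linear_combination h1
      exact sub_eq_zero.mp ((mul_eq_zero.mp h3).resolve_left h2)
    let j₀ : Fin t := ⟨0, by omega⟩
    let j₁ : Fin t := ⟨1, by omega⟩
    let j₂ : Fin t := ⟨2, by omega⟩
    let j₃ : Fin t := ⟨3, by omega⟩
    have a01 : j₀ ≠ j₁ := by simp [j₀, j₁, Fin.ext_iff]
    have a02 : j₀ ≠ j₂ := by simp [j₀, j₂, Fin.ext_iff]
    have a03 : j₀ ≠ j₃ := by simp [j₀, j₃, Fin.ext_iff]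
    have a12 : j₁ ≠ j₂ := by simp [j₁, j₂, Fin.ext_iff]
    have a13 : j₁ ≠ j₃ := by simp [j₁, j₃, Fin.ext_iff]
    have a23 : j₂ ≠ j₃ := by simp [j₂, j₃, Fin.ext_iff]
    refine main j₀ j₁ j₂ a01 a02 a12 (d j₁) (d j₂) (d j₃) (hd _) (hd0 _) (hd _) (hd0 _) (hmem _ _ a13.symm _ (hd _))
      (hmem _ _ a23.symm _ (hd _)) (horth _ _ a01) (horth _ _ a02) (horth _ _ a03) ?_
    simp only [hermForm_add_left, hermForm_add_right hF, hone, horth _ _ a01, horth _ _ a02, horth _ _ a03, horth _ _ a12, horth _ _ a13,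
      horth _ _ a23, horth _ _ a01.symm, horth _ _ a02.symm, horth _ _ a03.symm, horth _ _ a12.symm, horth _ _ a13.symm, horth _ _ a23.symm]
    linear_combination 2 * h2F
  · have hq3 : 3 ≤ q := by
      have := two_le_q hF
      omega
    let j₀ : Fin t := ⟨0, by omega⟩
    let j₁ : Fin t := ⟨1, by omega⟩
    let j₂ : Fin t := ⟨2, by omega⟩
    have a01 : j₀ ≠ j₁ := by simp [j₀, j₁, Fin.ext_iff]
    have a02 : j₀ ≠ j₂ := by simp [j₀, j₂, Fin.ext_iff]
    have a12 : j₁ ≠ j₂ := by simp [j₁, j₂, Fin.ext_iff]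
    have hfix : ∀ i, ⟪d i, d i⟫ ^ q = ⟪d i, d i⟫ := fun i => hermForm_self_pow_q hF n (d i)
    -- an element of the fixed field avoiding two values
    obtain ⟨y, hyq, hy0, hy1⟩ : ∃ y : F, y ^ q = y ∧ y ≠ 0 ∧ y ≠ -⟪d j₀, d j₀⟫ := by
      by_contra hc
      push Not at hc
      let E := Cfsg.Agent.Lib.Classical.Herm.Descent.fixF (Cfsg.Agent.Lib.Classical.Herm.PSLGraphField.sigE hF)
      have h1 : (E : Set F) ⊆ {0, -⟪d j₀, d j₀⟫} := by
        intro x hx
        have hx' : x ^ q = x := by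
          have := (Cfsg.Agent.Lib.Classical.Herm.Descent.mem_fixF).mp hx
          rwa [Cfsg.Agent.Lib.Classical.Herm.PSLGraphField.sigE_apply] at this
        by_cases h0 : x = 0
        · left
          exact h0
        · right
          exact hc x hx' h0
      have h2 : Nat.card E ≤ 2 := by
        calc Nat.card E = Set.ncard (E : Set F) := Nat.card_coe_set_eq _
          _ ≤ Set.ncard ({0, -⟪d j₀, d j₀⟫} : Set F) := Set.ncard_le_ncard h1 (Set.toFinite _)
          _ ≤ 2 := (Set.ncard_insert_le _ _).trans (by simp)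
      rw [FormSU.fix_card hF] at h2
      omega
    have hz0 : -⟪d j₀, d j₀⟫ - y ≠ 0 := by
      intro h
      apply hy1
      linear_combination -h
    have hzq : (-⟪d j₀, d j₀⟫ - y) ^ q = -⟪d j₀, d j₀⟫ - y := by
      rw [pow_q_sub hF, pow_q_neg hF, hfix, hyq]
    obtain ⟨a₁, ha₁⟩ := exists_norm_eq hF (y / ⟪d j₁, d j₁⟫) (div_ne_zero hy0 (hnorm _)) (by rw [div_pow, hfix, hyq])
    obtain ⟨a₂, ha₂⟩ := exists_norm_eq hF ((-⟪d j₀, d j₀⟫ - y) / ⟪d j₂, d j₂⟫) (div_ne_zero hz0 (hnorm _))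
      (by rw [div_pow, hfix, hzq])
    have ha₁0 : a₁ ≠ 0 := by
      rintro rfl
      rw [zero_pow (by omega)] at ha₁
      exact div_ne_zero hy0 (hnorm _) ha₁.symm
    have ha₂0 : a₂ ≠ 0 := by
      rintro rfl
      rw [zero_pow (by omega)] at ha₂
      exact div_ne_zero hz0 (hnorm _) ha₂.symm
    refine main j₀ j₁ j₂ a01 a02 a12 (a₁ • d j₁) (a₂ • d j₂) 0 ((D _).smul_mem _ (hd _)) (smul_ne_zero ha₁0 (hd0 _))
      ((D _).smul_mem _ (hd _)) (smul_ne_zero ha₂0 (hd0 _)) (Submodule.zero_mem _) (Submodule.zero_mem _) ?_ ?_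
      (hermForm_zero_right hF n _) ?_
    · rw [hermForm_smul_right, horth _ _ a01, mul_zero]
    · rw [hermForm_smul_right, horth _ _ a02, mul_zero]
    · rw [add_zero]
      simp only [hermForm_add_left, hermForm_add_right hF, hermForm_smul_left, hermForm_smul_right, horth _ _ a01, horth _ _ a02, horth _ _ a12,
        horth _ _ a01.symm, horth _ _ a02.symm, horth _ _ a12.symm]
      have h1 : a₁ ^ q * a₁ * ⟪d j₁, d j₁⟫ = y := by
        rw [← pow_succ, ha₁]
        field_simp [hnorm j₁]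
      have h2 : a₂ ^ q * a₂ * ⟪d j₂, d j₂⟫ = -⟪d j₀, d j₀⟫ - y := by
        rw [← pow_succ, ha₂]
        field_simp [hnorm j₂]
      linear_combination h1 + h2

/-- Commuting with the transvections means being scalar. -/
theorem exists_scalar_of_comm_tv (hF : Fintype.card F = q ^ 2) (hn : 2 ≤ n) {k : Matrix (Fin n) (Fin n) F}
    (h : ∀ (a : Fin n → F) (c : F) (ha : ⟪a, a⟫ = 0), a ≠ 0 → c ≠ 0 → c + c ^ q = 0 →
      ((hT q c a ha : GL (Fin n) F) : Matrix (Fin n) (Fin n) F) * k = k * ((hT q c a ha : GL (Fin n) F) : Matrix (Fin n) (Fin n) F)) :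
    ∃ l : F, k = l • (1 : Matrix (Fin n) (Fin n) F) := by
  obtain ⟨a₀, ha₀, ha₀0⟩ := exists_iso_ne_zero' (q := q) hF hn
  obtain ⟨c, hc0, hc⟩ := exists_tz hF
  obtain ⟨x, hx⟩ := exists_not_perp (q := q) hF ha₀0
  have h1 : k *ᵥ a₀ = (⟪k *ᵥ x, a₀⟫ / ⟪x, a₀⟫) • a₀ := by
    have h2 := congrArg (fun M => M *ᵥ x) (h a₀ c ha₀ ha₀0 hc0 hc)
    simp only [← Matrix.mulVec_mulVec, hT_mulVec, Matrix.mulVec_add, Matrix.mulVec_smul] at h2
    have h3 : (c * ⟪x, a₀⟫) • (k *ᵥ a₀) = (c * ⟪k *ᵥ x, a₀⟫) • a₀ := (add_left_cancel h2).symm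
    have h4 : c * ⟪x, a₀⟫ ≠ 0 := mul_ne_zero hc0 hx
    rw [← (smul_right_injective (Fin n → F) h4).eq_iff, h3, smul_smul]
    congr 1
    field_simp
  set l : F := ⟪k *ᵥ x, a₀⟫ / ⟪x, a₀⟫ with hl
  let W : Submodule F (Fin n → F) := LinearMap.ker (k.mulVecLin - l • LinearMap.id)
  have hW : ∀ y, y ∈ W ↔ k *ᵥ y = l • y := by
    intro y
    simp [W, LinearMap.mem_ker, sub_eq_zero]
  have hWt : W = ⊤ := by
    refine eq_top_of_stable hF hn (Submodule.ne_bot_iff _ |>.mpr ⟨a₀, (hW _).mpr h1, ha₀0⟩) fun a c' ha ha0 hc'0 hc' y hy => ?_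
    rw [hW] at hy ⊢
    have h2 := congrArg (fun M => M *ᵥ y) (h a c' ha ha0 hc'0 hc')
    simp only [← Matrix.mulVec_mulVec] at h2
    rw [← h2, hy, Matrix.mulVec_smul]
  refine ⟨l, ?_⟩
  ext i j
  have h2 : (Pi.single j 1 : Fin n → F) ∈ W := by
    rw [hWt]
    trivial
  have h3 := congrFun ((hW _).mp h2) i
  simpa [Matrix.smul_apply, Matrix.one_apply, Pi.single_apply, Matrix.mulVec_single] using h3

/-- Transvections differ from the identity by a matrix of rank one. -/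
theorem rank_tv_sub (hF : Fintype.card F = q ^ 2) (c : F) (a : Fin n → F) (ha : ⟪a, a⟫ = 0) :
    (((hT q c a ha : GL (Fin n) F) : Matrix (Fin n) (Fin n) F) - 1).rank ≤ 1 := by
  have hq := two_le_q hF
  have h1 : ((hT q c a ha : GL (Fin n) F) : Matrix (Fin n) (Fin n) F) - 1 = Matrix.vecMulVec a (fun j => c * a j ^ q) := by
    ext i j
    have h2 := congrFun (hT_mulVec c a ha (Pi.single j 1)) i
    have h3 : ⟪(Pi.single j 1 : Fin n → F), a⟫ = a j ^ q := by
      rw [hermForm_apply, Finset.sum_eq_single j]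
      · simp
      · intro k _ hk
        simp [hk]
      · simp
    rw [h3] at h2
    simp only [Matrix.mulVec_single, Pi.add_apply, Pi.smul_apply, smul_eq_mul, mul_one, MulOpposite.op_one, one_smul] at h2
    rw [Matrix.sub_apply, Matrix.vecMulVec_apply, Matrix.one_apply]
    have h4 : (Pi.single j (1 : F) : Fin n → F) i = if i = j then 1 else 0 := by
      simp [Pi.single_apply]
    rw [h4] at h2
    have h5 : ((hT q c a ha : GL (Fin n) F) : Matrix (Fin n) (Fin n) F) i j = _ := h2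
    rw [h5]
    ring
  rw [h1]
  exact Matrix.rank_vecMulVec_le _ _

/-- Field subalgebras. -/
theorem not_le_subalgebraNormalizer_su (hF : Fintype.card F = q ^ 2) (hn : 3 ≤ n) {r : ℕ} (hr : 2 ≤ r)
    {K : Subalgebra F (Matrix (Fin n) (Fin n) F)} (hK : IsFieldSubalgebra r K) : ¬ II n F q ≤ subalgebraNormalizer K := by
  intro hle
  have hscal : ∀ k ∈ K, ∃ c : F, k = c • 1 := by
    intro k hk
    refine exists_scalar_of_comm_tv (q := q) hF (by omega) fun a c ha _ _ hc => ?_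
    have h1 := NotSp.comm_of_low_rank hK (t := hT q c a ha) (N := ((hT q c a ha : GL (Fin n) F) : Matrix (Fin n) (Fin n) F) - 1) (s := 1)
      (by rw [add_sub_cancel]) (rank_tv_sub hF c a ha) (by simp; omega) (hle (tv_mem hF ha hc)) k hk
    rw [sub_mul, mul_sub, one_mul, mul_one] at h1
    exact sub_left_injective h1
  have h1 : Subalgebra.toSubmodule K ≤ Submodule.span F {(1 : Matrix (Fin n) (Fin n) F)} := by
    intro k hk
    obtain ⟨c, rfl⟩ := hscal k hk
    exact Submodule.smul_mem _ _ (Submodule.mem_span_singleton_self _)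
  have h2 := Submodule.finrank_mono h1
  have h3 : Module.finrank F (Submodule.span F {(1 : Matrix (Fin n) (Fin n) F)}) = 1 := by
    haveI : Nonempty (Fin n) := ⟨⟨0, by omega⟩⟩
    exact finrank_span_singleton one_ne_zero
  have h4 : Module.finrank F (Subalgebra.toSubmodule K) = r := hK.finrank_eq
  omega

section Sub

variable {F₀ : Subfield F}

/-- A semilinear map attached to a rational structure. -/
noncomputable def Psi (sig : F →+* F) (P : GL (Fin n) F) (x : Fin n → F) : Fin n → F :=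
  (P : Matrix (Fin n) (Fin n) F) *ᵥ (fun i => sig ((((P⁻¹ : GL (Fin n) F) : Matrix (Fin n) (Fin n) F) *ᵥ x) i))

theorem Psi_add (sig : F →+* F) (P : GL (Fin n) F) (x y : Fin n → F) : Psi sig P (x + y) = Psi sig P x + Psi sig P y := by
  unfold Psi
  rw [← Matrix.mulVec_add]
  congr 1
  funext i
  simp [Matrix.mulVec_add, map_add]

theorem Psi_smul (sig : F →+* F) (P : GL (Fin n) F) (c : F) (x : Fin n → F) : Psi sig P (c • x) = sig c • Psi sig P x := by
  unfold Psi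
  rw [← Matrix.mulVec_smul]
  congr 1
  funext i
  simp [Matrix.mulVec_smul, map_mul]

theorem Psi_inj (sig : F →+* F) (P : GL (Fin n) F) : Function.Injective (Psi sig P) := by
  intro x y h
  have h1 := mulVec_injective P h
  have h2 : ((P⁻¹ : GL (Fin n) F) : Matrix (Fin n) (Fin n) F) *ᵥ x = ((P⁻¹ : GL (Fin n) F) : Matrix (Fin n) (Fin n) F) *ᵥ y := by
    funext i
    exact sig.injective (congrFun h1 i)
  exact mulVec_injective P⁻¹ h2

theorem Psi_zero (sig : F →+* F) (P : GL (Fin n) F) : Psi sig P 0 = 0 := by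
  have := Psi_smul sig P 0 0
  simpa using this

/-- Elements of the subfield subgroup commute with the semilinear map up to scalars. -/
theorem Psi_mem {sig : F →+* F} (hsig : ∀ x ∈ F₀, sig x = x) {P g : GL (Fin n) F} (hn : 0 < n)
    (hg : g ∈ subfieldSubgroup F₀ P) :
    ∃ ρ : F, ρ ≠ 0 ∧ ∀ x, Psi sig P ((g : Matrix (Fin n) (Fin n) F) *ᵥ x) = ρ • ((g : Matrix (Fin n) (Fin n) F) *ᵥ Psi sig P x) := by
  classical
  obtain ⟨y, hy, rfl⟩ := hg
  obtain ⟨g₀, ⟨h₀, rfl⟩, z, hz, rfl⟩ := Subgroup.mem_sup_of_normal_right.mp hy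
  obtain ⟨d, hd⟩ := (mem_scalars_iff' z).mp hz
  haveI : Nonempty (Fin n) := ⟨⟨0, hn⟩⟩
  have hd0 : d ≠ 0 := by
    rintro rfl
    have h1 := z.val_inv
    rw [hd, zero_smul, zero_mul] at h1
    exact zero_ne_one h1
  set A : Matrix (Fin n) (Fin n) F := ((Matrix.GeneralLinearGroup.map (F₀.subtype : F₀ →+* F) h₀ : GL (Fin n) F) : Matrix (Fin n) (Fin n) F) with hA
  have hAs : ∀ i j, sig (A i j) = A i j := by
    intro i j
    apply hsig
    change ((h₀ : Matrix (Fin n) (Fin n) F₀) i j : F) ∈ F₀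
    exact Subtype.coe_prop _
  have hAv : ∀ u : Fin n → F, (fun i => sig ((A *ᵥ u) i)) = A *ᵥ (fun i => sig (u i)) := by
    intro u
    funext i
    simp [Matrix.mulVec, dotProduct, map_sum, map_mul, hAs]
  set E : GL (Fin n) F := (MulAut.conj P).toMonoidHom (Matrix.GeneralLinearGroup.map (F₀.subtype : F₀ →+* F) h₀ * z) with hE
  have hP1 : ∀ x, ((P⁻¹ : GL (Fin n) F) : Matrix (Fin n) (Fin n) F) *ᵥ ((E : Matrix (Fin n) (Fin n) F) *ᵥ x) =
      d • (A *ᵥ (((P⁻¹ : GL (Fin n) F) : Matrix (Fin n) (Fin n) F) *ᵥ x)) := by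
    intro x
    have h1 : ((P⁻¹ : GL (Fin n) F) : Matrix (Fin n) (Fin n) F) *ᵥ ((E : Matrix (Fin n) (Fin n) F) *ᵥ x) =
        ((Matrix.GeneralLinearGroup.map (F₀.subtype : F₀ →+* F) h₀ * z : GL (Fin n) F) : Matrix (Fin n) (Fin n) F) *ᵥ
          (((P⁻¹ : GL (Fin n) F) : Matrix (Fin n) (Fin n) F) *ᵥ x) := by
      rw [Matrix.mulVec_mulVec, Matrix.mulVec_mulVec]
      congr 1
      rw [← Units.val_mul, ← Units.val_mul]
      congr 1
      simp [hE, MulAut.conj_apply, mul_assoc]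
    rw [h1, Units.val_mul, hd, Matrix.mul_smul, mul_one, Matrix.smul_mulVec]
  refine ⟨sig d / d, div_ne_zero ((map_ne_zero sig).mpr hd0) hd0, fun x => ?_⟩
  set u := ((P⁻¹ : GL (Fin n) F) : Matrix (Fin n) (Fin n) F) *ᵥ x with hu
  set v : Fin n → F := fun i => sig (u i) with hv
  have h1 : Psi sig P ((E : Matrix (Fin n) (Fin n) F) *ᵥ x) = sig d • ((P : Matrix (Fin n) (Fin n) F) *ᵥ (A *ᵥ v)) := by
    have h3 : (fun i => sig ((d • (A *ᵥ u)) i)) = sig d • (A *ᵥ v) := by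
      funext i
      have h4 := congrFun (hAv u) i
      simp only [Pi.smul_apply, smul_eq_mul, map_mul]
      rw [h4]
    unfold Psi
    rw [hP1, ← hu, h3, Matrix.mulVec_smul]
  have h2 : (E : Matrix (Fin n) (Fin n) F) *ᵥ Psi sig P x = d • ((P : Matrix (Fin n) (Fin n) F) *ᵥ (A *ᵥ v)) := by
    have h3 : Psi sig P x = (P : Matrix (Fin n) (Fin n) F) *ᵥ v := rfl
    rw [h3]
    have h4 := hP1 ((P : Matrix (Fin n) (Fin n) F) *ᵥ v)
    rw [inv_mulVec_mulVec P] at h4
    have h5 := mulVec_inv_mulVec P ((E : Matrix (Fin n) (Fin n) F) *ᵥ ((P : Matrix (Fin n) (Fin n) F) *ᵥ v))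
    rw [← h5, h4, Matrix.mulVec_smul]
  rw [h1, h2, smul_smul]
  congr 1
  field_simp

theorem Psi_iso (hF : Fintype.card F = q ^ 2) {sig : F →+* F} (hsig : ∀ x ∈ F₀, sig x = x) {P : GL (Fin n) F} (hn : 0 < n)
    (hle : II n F q ≤ subfieldSubgroup F₀ P) {a : Fin n → F} (ha : ⟪a, a⟫ = 0) (ha0 : a ≠ 0) :
    ∃ κ : F, Psi sig P a = κ • a := by
  obtain ⟨c, hc0, hc⟩ := exists_tz hF
  obtain ⟨ρ, hρ0, hρ⟩ := Psi_mem hsig hn (hle (tv_mem hF ha hc))
  have h1 := hρ a
  rw [hT_mulVec, hT_mulVec, ha, mul_zero, zero_smul, add_zero] at h1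
  by_cases hρ1 : ρ = 1
  · subst hρ1
    obtain ⟨x, hx⟩ := exists_not_perp (q := q) hF ha0
    have h2 := hρ x
    rw [hT_mulVec, hT_mulVec, Psi_add, Psi_smul, one_smul] at h2
    have h3 := add_left_cancel h2
    have h4 : sig (c * ⟪x, a⟫) ≠ 0 := (map_ne_zero sig).mpr (mul_ne_zero hc0 hx)
    refine ⟨(sig (c * ⟪x, a⟫))⁻¹ * (c * ⟪Psi sig P x, a⟫), ?_⟩
    rw [mul_smul, ← h3, smul_smul, inv_mul_cancel₀ h4, one_smul]
  · have h2 : (1 - ρ) ≠ 0 := sub_ne_zero.mpr (Ne.symm hρ1)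
    refine ⟨(1 - ρ)⁻¹ * (ρ * (c * ⟪Psi sig P a, a⟫)), ?_⟩
    have h3 : (1 - ρ) • Psi sig P a = (ρ * (c * ⟪Psi sig P a, a⟫)) • a := by
      rw [sub_smul, one_smul]
      nth_rewrite 1 [h1]
      rw [smul_add, add_sub_cancel_left, smul_smul]
    rw [mul_smul, ← h3, smul_smul, inv_mul_cancel₀ h2, one_smul]

theorem poly_contra {Q : ℕ} (hQ : 2 ≤ Q) (hQF : Q + 1 < Fintype.card F) {A B C : F}
    (h : ∀ s : F, A * s + B * s ^ (Q + 1) - C * s ^ Q = 0) : A = 0 := by
  classical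
  let p : Polynomial F := Polynomial.C A * Polynomial.X + Polynomial.C B * Polynomial.X ^ (Q + 1) - Polynomial.C C * Polynomial.X ^ Q
  have hdeg : p.natDegree ≤ Q + 1 := by
    simp only [p]
    compute_degree
  have hp : p = 0 := Polynomial.eq_zero_of_natDegree_lt_card_of_eval_eq_zero p (f := id) Function.injective_id
    (fun s => by simpa [p] using h s) (lt_of_le_of_lt hdeg hQF)
  have h1 := congrArg (fun p => Polynomial.coeff p 1) hp
  simp only [p, Polynomial.coeff_sub, Polynomial.coeff_add, Polynomial.coeff_C_mul, Polynomial.coeff_X_pow, Polynomial.coeff_X_one,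
    Polynomial.coeff_zero] at h1
  rw [if_neg (by omega), if_neg (by omega)] at h1
  simpa using h1

/-- Subfield subgroups. -/
theorem not_le_subfieldSubgroup_su (hF : Fintype.card F = q ^ 2) (hn : 3 ≤ n) {r : ℕ} (hr : 2 ≤ r)
    (hc : Fintype.card F = Nat.card F₀ ^ r) (P : GL (Fin n) F) : ¬ II n F q ≤ subfieldSubgroup F₀ P := by
  classical
  intro hle
  have hn0 : 0 < n := by omega
  set Q := Nat.card F₀ with hQ
  have hQ2 : 2 ≤ Q := Finite.one_lt_card
  have hQF : Q + 1 < Fintype.card F := by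
    rw [hc]
    have h1 : Q ^ 2 ≤ Q ^ r := Nat.pow_le_pow_right (by omega) hr
    nlinarith
  -- the Frobenius map
  obtain ⟨p, hp⟩ := CharP.exists F
  obtain ⟨m, hprime, hm⟩ := FiniteField.card F p
  haveI : Fact p.Prime := ⟨hprime⟩
  have hdvd : Q ∣ p ^ (m : ℕ) := by
    rw [← hm, hc]
    exact dvd_pow_self _ (by omega)
  obtain ⟨l, -, hl⟩ := (Nat.dvd_prime_pow hprime).1 hdvd
  let sig : F →+* F := iterateFrobenius F p l
  have hsig' : ∀ x, sig x = x ^ Q := by
    intro x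
    rw [hl]
    exact iterateFrobenius_def p l x
  have hsig : ∀ x ∈ F₀, sig x = x := by
    intro x hx
    rw [hsig']
    exact (Subfield.mem_subfield_iff F₀ hc x).mp hx
  -- the explicit vectors
  obtain ⟨θ, θ', hθ, hθ', hne⟩ := exists_two_theta hF
  let i₀ : Fin n := ⟨0, by omega⟩
  let i₁ : Fin n := ⟨1, by omega⟩
  let i₂ : Fin n := ⟨2, by omega⟩
  have a01 : i₀ ≠ i₁ := by simp [i₀, i₁, Fin.ext_iff]
  have a02 : i₀ ≠ i₂ := by simp [i₀, i₂, Fin.ext_iff]
  have a12 : i₁ ≠ i₂ := by simp [i₁, i₂, Fin.ext_iff]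
  let e : Fin n → F := Pi.single i₀ 1 + θ • Pi.single i₁ 1
  let f : Fin n → F := Pi.single i₀ 1 + θ' • Pi.single i₁ 1
  let w : Fin n → F := Pi.single i₂ 1
  have he : ⟪e, e⟫ = 0 := iso_vec hF a01 hθ
  have hf : ⟪f, f⟫ = 0 := iso_vec hF a01 hθ'
  have hww : ⟪w, w⟫ = 1 := by
    rw [herm_single hF, if_pos rfl]
  have hzero : (0 : F) ^ q = 0 := zero_pow_q hF
  have hwe : ⟪w, e⟫ = 0 := by
    simp only [w, e, hermForm_add_right hF, hermForm_smul_right, herm_single hF, if_neg a02.symm, if_neg a12.symm]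
    ring
  have hwf : ⟪w, f⟫ = 0 := by
    simp only [w, f, hermForm_add_right hF, hermForm_smul_right, herm_single hF, if_neg a02.symm, if_neg a12.symm]
    ring
  have hew : ⟪e, w⟫ = 0 := by
    rw [← hermForm_pow_q hF n w e, hwe, hzero]
  have hfw : ⟪f, w⟫ = 0 := by
    rw [← hermForm_pow_q hF n w f, hwf, hzero]
  have hfe : ⟪f, e⟫ ≠ 0 := by
    intro h
    have h1 : ⟪f, e⟫ = 1 + θ' * θ ^ q := by
      simp only [f, e, hermForm_add_left, hermForm_add_right hF, hermForm_smul_left, hermForm_smul_right, herm_single hF, if_neg a01, if_neg a01.symm, if_true]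
      ring
    rw [h1] at h
    apply hne
    rw [pow_succ] at hθ
    linear_combination θ * h - θ' * hθ
  have hef : ⟪e, f⟫ ≠ 0 := by
    intro h
    apply hfe
    rw [← hermForm_pow_q hF n e f, h, hzero]
  have he0 : e ≠ 0 := by
    rintro h
    apply hfe
    rw [h, hermForm_zero_right hF]
  have hf0 : f ≠ 0 := by
    rintro h
    apply hfe
    rw [h, hermForm_zero_left]
  obtain ⟨κe, hκe⟩ := Psi_iso hF hsig hn0 hle he he0
  obtain ⟨κf, hκf⟩ := Psi_iso hF hsig hn0 hle hf hf0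
  have key : ∀ s : F, (κf * ⟪f, e⟫) * s + ⟪Psi sig P w, e⟫ * s ^ (Q + 1) - (⟪Psi sig P w, w⟫ * ⟪f, e⟫) * s ^ Q = 0 := by
    intro s
    have hNq : (-(s ^ (q + 1))) ^ q = -(s ^ (q + 1)) := by
      rw [pow_q_neg hF, norm_pow_q hF]
    obtain ⟨d, hd⟩ := Cfsg.Agent.Lib.Classical.Herm.Tv.exists_trace_eq hF hNq
    set a : F := d / ⟪e, f⟫ with ha
    have ha1 : a * ⟪e, f⟫ = d := by
      rw [ha]
      field_simp
    have ha2 : a ^ q * ⟪f, e⟫ = d ^ q := by
      rw [← hermForm_pow_q hF n e f, ← mul_pow, ha1]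
    set z : Fin n → F := f + a • e + s • w with hz
    have hzz : ⟪z, z⟫ = 0 := by
      rw [hz]
      simp only [hermForm_add_left, hermForm_add_right hF, hermForm_smul_left, hermForm_smul_right, he, hf, hww, hwe, hwf, hew, hfw]
      rw [pow_succ] at hd
      linear_combination hd + ha1 + ha2
    have hze : ⟪z, e⟫ = ⟪f, e⟫ := by
      rw [hz]
      simp only [hermForm_add_left, hermForm_smul_left, he, hwe]
      ring
    have hzw : ⟪z, w⟫ = s := by
      rw [hz]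
      simp only [hermForm_add_left, hermForm_smul_left, hew, hfw, hww]
      ring
    have hz0 : z ≠ 0 := by
      intro h
      apply hfe
      rw [← hze, h, hermForm_zero_left]
    obtain ⟨κ, hκ⟩ := Psi_iso hF hsig hn0 hle hzz hz0
    have h1 : Psi sig P z = κf • f + (sig a * κe) • e + sig s • Psi sig P w := by
      rw [hz, Psi_add, Psi_add, Psi_smul, Psi_smul, hκe, hκf, smul_smul]
    have h2 := congrArg (fun v => ⟪v, e⟫) (hκ.symm.trans h1)
    have h3 := congrArg (fun v => ⟪v, w⟫) (hκ.symm.trans h1)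
    simp only [hermForm_smul_left, hermForm_add_left, he, hew, hfw, hze, hzw] at h2 h3
    rw [hsig' s] at h2 h3
    rw [pow_succ]
    linear_combination (-s) * h2 + ⟪f, e⟫ * h3
  have hA := poly_contra hQ2 hQF key
  have hκ0 : κf = 0 := (mul_eq_zero.mp hA).resolve_right hfe
  rw [hκ0, zero_smul] at hκf
  exact hf0 (Psi_inj sig P (hκf.trans (Psi_zero sig P).symm))

end Sub

/-- Groups normalised by the special unitary group. -/
theorem not_le_subgroupNormalizer_su (hF : Fintype.card F = q ^ 2) (hn : 3 ≤ n) (h32 : ¬ (n = 3 ∧ q = 2))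
    {R : Subgroup (GL (Fin n) F)} (hR : R ≤ GU n F q) (hnz : ¬ R ≤ scalars (Fin n) F)
    (hnt : ∀ (a : Fin n → F) (c : F) (ha : ⟪a, a⟫ = 0), a ≠ 0 → c ≠ 0 → c + c ^ q = 0 → hT q c a ha ∉ R) :
    ¬ II n F q ≤ subgroupNormalizer R := by
  classical
  intro hle
  open Cfsg.Agent.Lib.Classical.Geo.HermBridge Cfsg.Agent.Lib.Classical.Herm.SU Cfsg.Agent.Lib.Classical.Geo.Basic in
  have hnorm : ∀ g ∈ II n F q, ∀ x ∈ R, g * x * g⁻¹ ∈ R := fun g hg x hx =>
    (Subgroup.mem_normalizer_iff.mp (hle hg) x).mp hx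
  open Cfsg.Agent.Lib.Classical.Geo.HermBridge Cfsg.Agent.Lib.Classical.Herm.SU Cfsg.Agent.Lib.Classical.Geo.Basic in
  have toI : ∀ A : SU n F q, suToGL A ∈ II n F q := by
    intro A
    refine ⟨?_, (mem_specialLinear_iff _).mpr A.1.2⟩
    exact A.2
  open Cfsg.Agent.Lib.Classical.Geo.HermBridge Cfsg.Agent.Lib.Classical.Herm.SU Cfsg.Agent.Lib.Classical.Geo.Basic in
  have hNn : (R.comap (suToGL (n := n) (F := F) (q := q))).Normal := ⟨fun x hx g => by
    change suToGL (g * x * g⁻¹) ∈ R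
    rw [map_mul, map_mul, map_inv]
    exact hnorm _ (toI g) _ hx⟩
  open Cfsg.Agent.Lib.Classical.Geo.HermBridge Cfsg.Agent.Lib.Classical.Herm.SU Cfsg.Agent.Lib.Classical.Geo.Basic in
  have hsc : ∀ A : SU n F q, suToGL A ∈ R → ∃ μ : F, ∀ x, Cfsg.Agent.Lib.Classical.Herm.Tv.act A x = μ • x := by
    intro A hA
    by_contra hc
    have htop := Cfsg.Agent.Lib.Classical.Herm.Simple.normal_eq_top hF hn h32 _ hNn A hA hc
    obtain ⟨a, ha, ha0⟩ := exists_iso_ne_zero' (q := q) hF (by omega : 2 ≤ n)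
    obtain ⟨c, hc0, hc'⟩ := exists_tz hF
    let B : SU n F q := mkSU ((hT q c a ha : GL (Fin n) F) : Matrix (Fin n) (Fin n) F)
      ((mem_specialLinear_iff _).mp (hT_mem_specialLinear c a ha)) (hT_mem_GU hF c hc' a ha)
    have h1 : B ∈ R.comap (suToGL (n := n) (F := F) (q := q)) := by
      rw [htop]
      trivial
    have e : suToGL B = hT q c a ha := Units.ext rfl
    refine hnt a c ha ha0 hc0 hc' ?_
    rw [← e]
    exact h1
  open Cfsg.Agent.Lib.Classical.Geo.HermBridge Cfsg.Agent.Lib.Classical.Herm.SU Cfsg.Agent.Lib.Classical.Geo.Basic in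
  have hcomm : ∀ x ∈ R, ∀ (a : Fin n → F) (c : F) (ha : ⟪a, a⟫ = 0), a ≠ 0 → c ≠ 0 → c + c ^ q = 0 →
      ((hT q c a ha : GL (Fin n) F) : Matrix (Fin n) (Fin n) F) * (x : Matrix (Fin n) (Fin n) F) =
        (x : Matrix (Fin n) (Fin n) F) * ((hT q c a ha : GL (Fin n) F) : Matrix (Fin n) (Fin n) F) := by
    intro x hx a c ha ha0 hc0 hc
    set t := hT q c a ha with ht
    have htI : t ∈ II n F q := tv_mem hF ha hc
    set y : GL (Fin n) F := ⁅x, t⁆ with hy
    have hyR : y ∈ R := by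
      have h1 := hnorm t htI _ (R.inv_mem hx)
      have h2 : y = x * (t * x⁻¹ * t⁻¹) := by
        rw [hy, commutatorElement_def]
        group
      rw [h2]
      exact R.mul_mem hx h1
    have hyI : y ∈ II n F q := by
      refine ⟨?_, ?_⟩
      · rw [hy, commutatorElement_def]
        exact (GU n F q).mul_mem ((GU n F q).mul_mem ((GU n F q).mul_mem (hR hx) htI.1) ((GU n F q).inv_mem (hR hx))) ((GU n F q).inv_mem htI.1)
      · rw [hy]
        change Matrix.GeneralLinearGroup.det _ = 1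
        rw [map_commutatorElement, commutatorElement_eq_one_iff_mul_comm]
        exact mul_comm _ _
    let A : SU n F q := mkSU (y : Matrix (Fin n) (Fin n) F) ((mem_specialLinear_iff _).mp hyI.2) hyI.1
    have e : suToGL A = y := Units.ext rfl
    obtain ⟨μ, hμ⟩ := hsc A (by rw [e]; exact hyR)
    have hμ' : ∀ u, (y : Matrix (Fin n) (Fin n) F) *ᵥ u = μ • u := hμ
    set b := (x : Matrix (Fin n) (Fin n) F) *ᵥ a with hb
    have hb0 : b ≠ 0 := by
      intro h
      apply ha0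
      exact Cfsg.Agent.Lib.Classical.Asch.Basic.mulVec_injective x (h.trans (Matrix.mulVec_zero _).symm)
    have hta : (t : Matrix (Fin n) (Fin n) F) *ᵥ a = a := by
      rw [ht, hT_mulVec, ha]
      simp
    have h1 : b = μ • ((t : Matrix (Fin n) (Fin n) F) *ᵥ b) := by
      rw [← hμ', Matrix.mulVec_mulVec]
      have h2 : (y : Matrix (Fin n) (Fin n) F) * (t : Matrix (Fin n) (Fin n) F) =
          (x : Matrix (Fin n) (Fin n) F) * (t : Matrix (Fin n) (Fin n) F) * ((x⁻¹ : GL (Fin n) F) : Matrix (Fin n) (Fin n) F) := by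
        rw [← Units.val_mul, ← Units.val_mul, ← Units.val_mul]
        congr 1
        rw [hy, commutatorElement_def]
        group
      have h3 : ((x : Matrix (Fin n) (Fin n) F) * (t : Matrix (Fin n) (Fin n) F) * ((x⁻¹ : GL (Fin n) F) : Matrix (Fin n) (Fin n) F)) *ᵥ
          ((x : Matrix (Fin n) (Fin n) F) *ᵥ a) = (x : Matrix (Fin n) (Fin n) F) *ᵥ ((t : Matrix (Fin n) (Fin n) F) *ᵥ
            (((x⁻¹ : GL (Fin n) F) : Matrix (Fin n) (Fin n) F) *ᵥ ((x : Matrix (Fin n) (Fin n) F) *ᵥ a))) := by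
        simp only [Matrix.mulVec_mulVec, mul_assoc]
      rw [h2, hb, h3, Cfsg.Agent.Lib.Classical.Asch.Basic.inv_mulVec_mulVec x a, hta]
    rw [ht, hT_mulVec] at h1
    have hμ1 : μ = 1 := by
      by_contra hne
      have h2 : (1 - μ) ≠ 0 := sub_ne_zero.mpr (Ne.symm hne)
      have h3 : (1 - μ) • b = (μ * (c * ⟪b, a⟫)) • a := by
        rw [sub_smul, one_smul]
        nth_rewrite 1 [h1]
        rw [smul_add, add_sub_cancel_left, smul_smul]
      have h4 : b = ((1 - μ)⁻¹ * (μ * (c * ⟪b, a⟫))) • a := by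
        rw [mul_smul, ← h3, smul_smul, inv_mul_cancel₀ h2, one_smul]
      have h5 : ⟪b, a⟫ = 0 := by
        rw [h4, hermForm_smul_left, ha, mul_zero]
      rw [h5, mul_zero, zero_smul, add_zero] at h1
      have h6 : (1 - μ) • b = 0 := by
        rw [sub_smul, one_smul]
        nth_rewrite 1 [h1]
        rw [sub_self]
      exact hb0 ((smul_eq_zero.mp h6).resolve_left h2)
    have hy1 : y = 1 := by
      apply Units.ext
      ext i j
      have h2 := congrFun (hμ' (Pi.single j 1)) i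
      rw [hμ1, one_smul] at h2
      simpa [Matrix.one_apply, Pi.single_apply, Matrix.mulVec_single] using h2
    have h7 := commutatorElement_eq_one_iff_mul_comm.mp hy1
    have h8 := congrArg (fun g : GL (Fin n) F => (g : Matrix (Fin n) (Fin n) F)) h7
    simp only [Units.val_mul] at h8
    exact h8.symm
  apply hnz
  intro x hx
  obtain ⟨l, hl⟩ := exists_scalar_of_comm_tv (q := q) hF (by omega : 2 ≤ n) (hcomm x hx)
  exact (mem_scalars_iff' x).mpr ⟨l, hl⟩

end Cfsg.Agent.Lib.Classical.Asch.NotSU
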