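import Mathlib
import Cfsg.Agent.Lib.Classical.Asch.NotSU

/-!
# The special unitary group lies in no member of the geometric classes: tensor classes and the list of maximal subgroups
-/

set_option autoImplicit false
set_option linter.style.haveILetI false
set_option linter.unusedSectionVars false

namespace Cfsg.Agent.Lib.Classical.Asch.NotSU2

open scoped MatrixGroups Matrix commutatorElement Kronecker
open Cfsg Cfsg.Geo Cfsg.Agent.Lib.Classical.Asch.Basic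
open Cfsg.Agent.Lib.Classical.Herm.Basic
open Cfsg.Agent.Lib.Classical.Geo.HermTv
open Cfsg.Agent.Lib.Classical.Asch Cfsg.Agent.Lib.Classical.Asch.NotSU
open Cfsg.Agent.Lib.Classical.Asch.FormSU2 Cfsg.Agent.Lib.Classical.Asch.Forms
open Cfsg.Agent.Lib.Classical.Asch.FormSim Cfsg.Agent.Lib.Classical.Asch.FormDich
open Cfsg.Agent.Lib.Classical.Herm.PSLGraphField (sigE sigE_apply)

variable {F : Type*} [Field F] [Fintype F] {n q : ℕ}

local notation "⟪" x ", " y "⟫" => hermForm _ _ q x y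

/-- Transitivity on isotropic vectors: a set obstruction. -/
theorem not_le_of_set_iso (hF : Fintype.card F = q ^ 2) (hn : 3 ≤ n) {M : Subgroup (GL (Fin n) F)} (S : Set (Fin n → F))
    (hS : ∀ g ∈ M, ∀ w ∈ S, (g : Matrix (Fin n) (Fin n) F) *ᵥ w ∈ S) {w₀ w₁ : Fin n → F} (h₀ : w₀ ∈ S) (h₁ : w₁ ∉ S)
    (h₀i : ⟪w₀, w₀⟫ = 0) (h₁i : ⟪w₁, w₁⟫ = 0) (h₀0 : w₀ ≠ 0) (h₁0 : w₁ ≠ 0) : ¬ II n F q ≤ M := by
  intro hle
  obtain ⟨t, -, ht⟩ := Cfsg.Agent.Lib.Classical.Herm.Tv.reach_iso hF hn h₀i h₁i h₀0 h₁0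
  open Cfsg.Agent.Lib.Classical.Geo.HermBridge Cfsg.Agent.Lib.Classical.Geo.Basic in
  have h1 : suToGL t ∈ II n F q := ⟨t.2, (mem_specialLinear_iff _).mpr t.1.2⟩
  apply h₁
  rw [← ht]
  exact hS _ (hle h1) w₀ h₀

/-- The form on pure vectors. -/
theorem herm_pure (hF : Fintype.card F = q ^ 2) {d k : ℕ} (e : Fin n ≃ Fin d × Fin k) (x x' : Fin d → F) (y y' : Fin k → F) :
    ⟪(fun i => x (e i).1 * y (e i).2 : Fin n → F), (fun i => x' (e i).1 * y' (e i).2 : Fin n → F)⟫ = ⟪x, x'⟫ * ⟪y, y'⟫ := by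
  rw [hermForm_apply, hermForm_apply, hermForm_apply, Finset.sum_mul_sum]
  have h1 := Equiv.sum_comp e (fun p : Fin d × Fin k => x p.1 * y p.2 * (x' p.1 * y' p.2) ^ q)
  rw [h1, Fintype.sum_prod_type]
  refine Finset.sum_congr rfl fun a _ => Finset.sum_congr rfl fun b _ => ?_
  rw [mul_pow]
  ring

theorem exists_vectors (hF : Fintype.card F = q ^ 2) {d k : ℕ} (hd : 2 ≤ d) (hk : 2 ≤ k) (e : Fin n ≃ Fin d × Fin k) :
    ∃ u₀ u₁ : Fin n → F, ⟪u₀, u₀⟫ = 0 ∧ ⟪u₁, u₁⟫ = 0 ∧ u₀ ≠ 0 ∧ u₁ ≠ 0 ∧ (∃ (x : Fin d → F) (y : Fin k → F), ∀ i, u₀ i = x (e i).1 * y (e i).2) ∧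
      ¬ (∃ (x : Fin d → F) (y : Fin k → F), ∀ i, u₁ i = x (e i).1 * y (e i).2) := by
  classical
  obtain ⟨θ, θ', hθ, hθ', hne⟩ := exists_two_theta hF
  let d₀ : Fin d := ⟨0, by omega⟩
  let d₁ : Fin d := ⟨1, by omega⟩
  let k₀ : Fin k := ⟨0, by omega⟩
  let k₁ : Fin k := ⟨1, by omega⟩
  have hd01 : d₀ ≠ d₁ := by simp [d₀, d₁, Fin.ext_iff]
  have hk01 : k₀ ≠ k₁ := by simp [k₀, k₁, Fin.ext_iff]
  let x₀ : Fin d → F := Pi.single d₀ 1 + θ • Pi.single d₁ 1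
  let x₁ : Fin d → F := Pi.single d₀ 1 + θ' • Pi.single d₁ 1
  let y₀ : Fin k → F := Pi.single k₀ 1
  let y₁ : Fin k → F := Pi.single k₁ 1
  have hx₀ : ⟪x₀, x₀⟫ = 0 := iso_vec hF hd01 hθ
  have hx₁ : ⟪x₁, x₁⟫ = 0 := iso_vec hF hd01 hθ'
  have hy01 : ⟪y₀, y₁⟫ = 0 := by
    rw [herm_single hF, if_neg hk01]
  have hy10 : ⟪y₁, y₀⟫ = 0 := by
    rw [herm_single hF, if_neg hk01.symm]
  let A : Fin n → F := fun i => x₀ (e i).1 * y₀ (e i).2
  let B : Fin n → F := fun i => x₁ (e i).1 * y₁ (e i).2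
  have hAA : ⟪A, A⟫ = 0 := by
    rw [herm_pure hF, hx₀, zero_mul]
  have hBB : ⟪B, B⟫ = 0 := by
    rw [herm_pure hF, hx₁, zero_mul]
  have hAB : ⟪A, B⟫ = 0 := by
    rw [herm_pure hF, hy01, mul_zero]
  have hBA : ⟪B, A⟫ = 0 := by
    rw [herm_pure hF, hy10, mul_zero]
  have hd10 : d₁ ≠ d₀ := hd01.symm
  have hk10 : k₁ ≠ k₀ := hk01.symm
  have hx00 : x₀ d₀ = 1 := by simp [x₀, Pi.single_apply, hd01]
  have hx01 : x₀ d₁ = θ := by simp [x₀, Pi.single_apply, hd10]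
  have hx10 : x₁ d₀ = 1 := by simp [x₁, Pi.single_apply, hd01]
  have hx11 : x₁ d₁ = θ' := by simp [x₁, Pi.single_apply, hd10]
  have hy00 : y₀ k₀ = 1 := by simp [y₀]
  have hy0k : y₀ k₁ = 0 := by simp [y₀, hk10]
  have hy1k : y₁ k₀ = 0 := by simp [y₁, hk01]
  have hy11 : y₁ k₁ = 1 := by simp [y₁]
  refine ⟨A, A + B, hAA, ?_, ?_, ?_, ⟨x₀, y₀, fun i => rfl⟩, ?_⟩
  · rw [hermForm_add_left, hermForm_add_right hF, hermForm_add_right hF, hAA, hBB, hAB, hBA]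
    ring
  · intro h
    have := congrFun h (e.symm (d₀, k₀))
    simp [A, hx00, hy00] at this
  · intro h
    have := congrFun h (e.symm (d₀, k₀))
    simp [A, B, hx00, hx10, hy00, hy1k] at this
  · rintro ⟨x, y, hxy⟩
    have h00 := hxy (e.symm (d₀, k₀))
    have h10 := hxy (e.symm (d₁, k₀))
    have h01 := hxy (e.symm (d₀, k₁))
    have h11 := hxy (e.symm (d₁, k₁))
    simp only [Pi.add_apply, A, B, Equiv.apply_symm_apply, hx00, hx01, hx10, hx11, hy00, hy0k, hy1k, hy11] at h00 h10 h01 h11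
    apply hne
    have e1 : x d₀ * y k₀ = 1 := by linear_combination -h00
    have e2 : x d₁ * y k₀ = θ := by linear_combination -h10
    have e3 : x d₀ * y k₁ = 1 := by linear_combination -h01
    have e4 : x d₁ * y k₁ = θ' := by linear_combination -h11
    linear_combination (-(x d₀ * y k₁)) * e2 - θ * e3 + (x d₁ * y k₁) * e1 + e4

/-- A unitary form has an orthonormal basis. -/
theorem exists_gram_normal (hF : Fintype.card F = q ^ 2) {d : ℕ} {f₁ : (Fin d → F) → (Fin d → F) → F} (hf : IsUnitaryFormPow q f₁) :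
    ∃ T : GL (Fin d) F, (T : Matrix (Fin d) (Fin d) F)ᵀ * gramMatrix f₁ * (T : Matrix (Fin d) (Fin d) F).map (sigE hF) = 1 := by
  classical
  have hs : IsSesq ((sigE hF : F ≃+* F) : F →+* F) f₁ :=
    { add_left := hf.add_left
      smul_left := hf.smul_left
      add_right := fun v x y => by
        rw [hf.herm v (x + y), hf.add_left, pow_q_add hF, ← hf.herm, ← hf.herm]
      smul_right := fun c v x => by
        rw [hf.herm v (c • x), hf.smul_left, mul_pow, ← hf.herm]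
        rfl }
  have hu := isUnit_gram (sigE hF).surjective hs hf.nondegenerate
  let J : GL (Fin d) F := hu.unit
  have hJ : (J : Matrix (Fin d) (Fin d) F) = gramMatrix f₁ := rfl
  have hJh : ((J : Matrix (Fin d) (Fin d) F).map (sigE hF))ᵀ = (1 : F) • (J : Matrix (Fin d) (Fin d) F) := by
    rw [one_smul, hJ]
    ext i j
    simp only [Matrix.transpose_apply, Matrix.map_apply, gramMatrix, sigE_apply]
    exact (hf.herm _ _).symm
  have h1 : (((1 : GL (Fin d) F) : Matrix (Fin d) (Fin d) F).map (sigE hF))ᵀ = (1 : F) • ((1 : GL (Fin d) F) : Matrix (Fin d) (Fin d) F) := by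
    rw [one_smul, Units.val_one, map_one_sigma', Matrix.transpose_one]
  obtain ⟨T, hT⟩ := exists_congruent hF 1 J h1 hJh
  exact ⟨T, by rw [← hJ, hT, Units.val_one]⟩

/-- After the normalisation the form is the standard one up to a scalar. -/
theorem tensor_normal (hF : Fintype.card F = q ^ 2) {d k : ℕ} {e : Fin n ≃ Fin d × Fin k} {P : GL (Fin n) F}
    {f₁ : (Fin d → F) → (Fin d → F) → F} {f₂ : (Fin k → F) → (Fin k → F) → F}
    (hs : IsTensorFormStructure (fun x : F => x ^ q) (hermForm n F q) f₁ f₂ e P) {T₁ : GL (Fin d) F} {T₂ : GL (Fin k) F}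
    (h₁ : (T₁ : Matrix (Fin d) (Fin d) F)ᵀ * gramMatrix f₁ * (T₁ : Matrix (Fin d) (Fin d) F).map (sigE hF) = 1)
    (h₂ : (T₂ : Matrix (Fin k) (Fin k) F)ᵀ * gramMatrix f₂ * (T₂ : Matrix (Fin k) (Fin k) F).map (sigE hF) = 1) :
    ∃ c : F, c ≠ 0 ∧ ∀ u v : Fin n → F, ⟪((P * kronE e T₁ T₂ : GL (Fin n) F) : Matrix (Fin n) (Fin n) F) *ᵥ u,
      ((P * kronE e T₁ T₂ : GL (Fin n) F) : Matrix (Fin n) (Fin n) F) *ᵥ v⟫ = c * ⟪u, v⟫ := by
  classical
  obtain ⟨c, hc, h⟩ := hs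
  refine ⟨c, hc, fun u v => ?_⟩
  set τ : F →+* F := ((sigE hF : F ≃+* F) : F →+* F) with hτ
  have h0 : ∀ u v : Fin n → F, ⟪(P : Matrix (Fin n) (Fin n) F) *ᵥ u, (P : Matrix (Fin n) (Fin n) F) *ᵥ v⟫ =
      c * sesqM τ ((gramMatrix f₁ ⊗ₖ gramMatrix f₂).submatrix e e) u v := by
    intro u v
    have h1 := h (u ∘ e.symm) (v ∘ e.symm)
    have h2 : (u ∘ e.symm) ∘ e = u := by
      funext i
      simp
    have h3 : (v ∘ e.symm) ∘ e = v := by
      funext i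
      simp
    rw [h2, h3, pow_eq_sigE hF] at h1
    rw [h1, ← sesqM_submatrix τ e (gramMatrix f₁ ⊗ₖ gramMatrix f₂), h2, h3]
  rw [Units.val_mul, ← Matrix.mulVec_mulVec, ← Matrix.mulVec_mulVec, h0, Forms.sesqM_mulVec τ, coe_kronE]
  congr 1
  have h4 : (((T₁ : Matrix (Fin d) (Fin d) F) ⊗ₖ (T₂ : Matrix (Fin k) (Fin k) F)).submatrix e e).map τ =
      (((T₁ : Matrix (Fin d) (Fin d) F).map τ) ⊗ₖ ((T₂ : Matrix (Fin k) (Fin k) F).map τ)).submatrix e e := by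
    ext i j
    simp [Matrix.kroneckerMap_apply, map_mul]
  rw [h4, Matrix.transpose_submatrix, Matrix.submatrix_mul_equiv, Matrix.submatrix_mul_equiv, transpose_kron,
    ← Matrix.mul_kronecker_mul, ← Matrix.mul_kronecker_mul]
  have h5 : (T₁ : Matrix (Fin d) (Fin d) F)ᵀ * gramMatrix f₁ * (T₁ : Matrix (Fin d) (Fin d) F).map τ = 1 := h₁
  have h6 : (T₂ : Matrix (Fin k) (Fin k) F)ᵀ * gramMatrix f₂ * (T₂ : Matrix (Fin k) (Fin k) F).map τ = 1 := h₂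
  rw [h5, h6, Matrix.one_kronecker_one, Matrix.submatrix_one_equiv, hermForm_eq_sesqM hF]

/-- **Tensor products**. -/
theorem not_le_tensor_su (hF : Fintype.card F = q ^ 2) (hn : 3 ≤ n) {d k : ℕ} (hd : 2 ≤ d) (hk : 2 ≤ k) {e : Fin n ≃ Fin d × Fin k}
    {P : GL (Fin n) F} {f₁ : (Fin d → F) → (Fin d → F) → F} {f₂ : (Fin k → F) → (Fin k → F) → F}
    (hf₁ : IsUnitaryFormPow q f₁) (hf₂ : IsUnitaryFormPow q f₂)
    (hs : IsTensorFormStructure (fun x : F => x ^ q) (hermForm n F q) f₁ f₂ e P) : ¬ II n F q ≤ tensorProductSubgroup d k e P := by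
  classical
  obtain ⟨T₁, h₁⟩ := exists_gram_normal hF hf₁
  obtain ⟨T₂, h₂⟩ := exists_gram_normal hF hf₂
  obtain ⟨c, hc, hform⟩ := tensor_normal hF hs h₁ h₂
  set P' : GL (Fin n) F := P * kronE e T₁ T₂ with hP'
  intro hle
  obtain ⟨u₀, u₁, h0, h1, hu₀, hu₁, hp₀, hp₁⟩ := exists_vectors (q := q) hF hd hk e
  have hPP : ∀ w, ((P'⁻¹ : GL (Fin n) F) : Matrix (Fin n) (Fin n) F) *ᵥ ((P' : Matrix (Fin n) (Fin n) F) *ᵥ w) = w := inv_mulVec_mulVec P'
  have hinj : Function.Injective (fun x : Fin n → F => (P' : Matrix (Fin n) (Fin n) F) *ᵥ x) := Cfsg.Agent.Lib.Classical.Asch.Basic.mulVec_injective P'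
  let S : Set (Fin n → F) := {w | ∃ (x : Fin d → F) (y : Fin k → F), ∀ i,
    (((P'⁻¹ : GL (Fin n) F) : Matrix (Fin n) (Fin n) F) *ᵥ w) i = x (e i).1 * y (e i).2}
  refine not_le_of_set_iso hF hn (M := tensorProductSubgroup d k e P') S ?_ (w₀ := (P' : Matrix (Fin n) (Fin n) F) *ᵥ u₀)
    (w₁ := (P' : Matrix (Fin n) (Fin n) F) *ᵥ u₁) ?_ ?_ ?_ ?_ ?_ ?_ (hle.trans (tensorProductSubgroup_change e P T₁ T₂))
  · intro g hg w ⟨x, y, hxy⟩
    obtain ⟨a, b, hab⟩ := Main.mem_tensorProductSubgroup_iff.mp hg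
    refine ⟨(a : Matrix _ _ F) *ᵥ x, (b : Matrix _ _ F) *ᵥ y, fun i => ?_⟩
    have h1 : ((P'⁻¹ : GL (Fin n) F) : Matrix (Fin n) (Fin n) F) *ᵥ ((g : Matrix (Fin n) (Fin n) F) *ᵥ w) =
        ((P'⁻¹ * g * P' : GL (Fin n) F) : Matrix (Fin n) (Fin n) F) *ᵥ (((P'⁻¹ : GL (Fin n) F) : Matrix (Fin n) (Fin n) F) *ᵥ w) := by
      rw [Matrix.mulVec_mulVec, Matrix.mulVec_mulVec]
      congr 1
      simp only [Units.val_mul, mul_assoc]
      rw [← Units.val_mul P', mul_inv_cancel, Units.val_one, mul_one]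
    rw [h1]
    have h2 : (((P'⁻¹ * g * P' : GL (Fin n) F) : Matrix (Fin n) (Fin n) F) *ᵥ (((P'⁻¹ : GL (Fin n) F) : Matrix (Fin n) (Fin n) F) *ᵥ w)) i =
        ∑ j, ((P'⁻¹ * g * P' : GL (Fin n) F) : Matrix (Fin n) (Fin n) F) i j * (((P'⁻¹ : GL (Fin n) F) : Matrix (Fin n) (Fin n) F) *ᵥ w) j := rfl
    rw [h2]
    simp only [hab, hxy]
    have h3 := Equiv.sum_comp e (fun p : Fin d × Fin k =>
      ((a : Matrix (Fin d) (Fin d) F) (e i).1 p.1 * (b : Matrix (Fin k) (Fin k) F) (e i).2 p.2) * (x p.1 * y p.2))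
    rw [h3, Fintype.sum_prod_type]
    simp only [Matrix.mulVec, dotProduct]
    rw [Finset.sum_mul_sum]
    apply Finset.sum_congr rfl
    intro c _
    apply Finset.sum_congr rfl
    intro c' _
    ring
  · obtain ⟨x, y, hxy⟩ := hp₀
    exact ⟨x, y, fun i => by rw [hPP]; exact hxy i⟩
  · rintro ⟨x, y, hxy⟩
    exact hp₁ ⟨x, y, fun i => by rw [← hxy i, hPP]⟩
  · rw [hform, h0, mul_zero]
  · rw [hform, h1, mul_zero]
  · intro h
    exact hu₀ (hinj (by simpa using h))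
  · intro h
    exact hu₁ (hinj (by simpa using h))

/-- **Tensor squares**. -/
theorem not_le_wreath_two_su (hF : Fintype.card F = q ^ 2) (hn : 3 ≤ n) {k : ℕ} (hk : 2 ≤ k) {e : Fin n ≃ (Fin 2 → Fin k)}
    {P : GL (Fin n) F} {f₁ : (Fin k → F) → (Fin k → F) → F} (hf₁ : IsUnitaryFormPow q f₁)
    (hs : IsTensorPowerFormStructure (fun x : F => x ^ q) (hermForm n F q) f₁ e P) : ¬ II n F q ≤ tensorWreathSubgroup k 2 e P := by
  classical
  obtain ⟨T, hT⟩ := exists_gram_normal hF hf₁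
  set e₂ : Fin n ≃ Fin k × Fin k := e.trans (finTwoArrowEquiv (Fin k)) with he₂
  have hs' : IsTensorFormStructure (fun x : F => x ^ q) (hermForm n F q) f₁ f₁ e₂ P := by
    obtain ⟨c, hc, h⟩ := hs
    refine ⟨c, hc, fun x y => ?_⟩
    have h1 := h (x ∘ finTwoArrowEquiv (Fin k)) (y ∘ finTwoArrowEquiv (Fin k))
    have h2 : (x ∘ finTwoArrowEquiv (Fin k)) ∘ e = x ∘ e₂ := rfl
    have h3 : (y ∘ finTwoArrowEquiv (Fin k)) ∘ e = y ∘ e₂ := rfl
    rw [h2, h3] at h1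
    rw [h1]
    congr 1
    unfold formOfGram
    rw [← Equiv.sum_comp (finTwoArrowEquiv (Fin k))]
    refine Finset.sum_congr rfl fun a _ => ?_
    rw [← Equiv.sum_comp (finTwoArrowEquiv (Fin k))]
    refine Finset.sum_congr rfl fun b _ => ?_
    simp [Fin.prod_univ_two, Matrix.kroneckerMap_apply]
  obtain ⟨c, hc, hform⟩ := tensor_normal hF hs' hT hT
  have hPE : kronE e₂ T T = pureE e T := by
    apply Units.ext
    ext i j
    rw [coe_kronE, coe_pureE]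
    simp [e₂, Fin.prod_univ_two, Matrix.kroneckerMap_apply]
  rw [hPE] at hform
  set P' : GL (Fin n) F := P * pureE e T with hP'
  intro hle
  obtain ⟨u₀, u₁, h0, h1, hu₀, hu₁, hp₀, hp₁⟩ := exists_vectors (q := q) hF hk hk e₂
  have hPP : ∀ w, ((P'⁻¹ : GL (Fin n) F) : Matrix (Fin n) (Fin n) F) *ᵥ ((P' : Matrix (Fin n) (Fin n) F) *ᵥ w) = w := inv_mulVec_mulVec P'
  have hinj : Function.Injective (fun x : Fin n → F => (P' : Matrix (Fin n) (Fin n) F) *ᵥ x) := Cfsg.Agent.Lib.Classical.Asch.Basic.mulVec_injective P'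
  let S : Set (Fin n → F) := {w | (fun f => (((P'⁻¹ : GL (Fin n) F) : Matrix (Fin n) (Fin n) F) *ᵥ w) (e.symm f)) ∈ NotSL.Pure0 F 2 k}
  refine not_le_of_set_iso hF hn (M := tensorWreathSubgroup k 2 e P') S ?_ (w₀ := (P' : Matrix (Fin n) (Fin n) F) *ᵥ u₀)
    (w₁ := (P' : Matrix (Fin n) (Fin n) F) *ᵥ u₁) ?_ ?_ ?_ ?_ ?_ ?_ (hle.trans (tensorWreathSubgroup_change e P T))
  · rintro g ⟨_, ⟨y, hy, rfl⟩, rfl⟩ w hw
    have h0 := NotSL.standard_preserves_pure hy _ hw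
    change (fun f => (((P'⁻¹ : GL (Fin n) F) : Matrix (Fin n) (Fin n) F) *ᵥ ((MulAut.conj P' (glReindex e.symm y) : GL (Fin n) F) : Matrix (Fin n) (Fin n) F) *ᵥ w)
      (e.symm f)) ∈ NotSL.Pure0 F 2 k
    convert h0 using 1
    funext f
    have h1 : ((P'⁻¹ : GL (Fin n) F) : Matrix (Fin n) (Fin n) F) *ᵥ ((MulAut.conj P' (glReindex e.symm y) : GL (Fin n) F) : Matrix (Fin n) (Fin n) F) *ᵥ w =
        ((glReindex e.symm y : GL (Fin n) F) : Matrix (Fin n) (Fin n) F) *ᵥ (((P'⁻¹ : GL (Fin n) F) : Matrix (Fin n) (Fin n) F) *ᵥ w) := by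
      rw [Matrix.mulVec_mulVec, Matrix.mulVec_mulVec]
      congr 1
      rw [← Units.val_mul, ← Units.val_mul]
      congr 1
      simp [MulAut.conj_apply, mul_assoc]
    rw [h1]
    change ∑ j, (y : Matrix (Fin 2 → Fin k) (Fin 2 → Fin k) F) (e (e.symm f)) (e j) *
      (((P'⁻¹ : GL (Fin n) F) : Matrix (Fin n) (Fin n) F) *ᵥ w) j = _
    rw [Equiv.apply_symm_apply, ← Equiv.sum_comp e.symm]
    simp only [Equiv.apply_symm_apply]
    rfl
  · obtain ⟨x, y, hxy⟩ := hp₀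
    refine ⟨![x, y], fun f => ?_⟩
    change (((P'⁻¹ : GL (Fin n) F) : Matrix (Fin n) (Fin n) F) *ᵥ ((P' : Matrix (Fin n) (Fin n) F) *ᵥ u₀)) (e.symm f) = _
    rw [hPP, hxy, Fin.prod_univ_two]
    simp [e₂]
  · rintro ⟨xs, hxs⟩
    refine hp₁ ⟨xs 0, xs 1, fun i => ?_⟩
    have h2 := hxs (e i)
    change (((P'⁻¹ : GL (Fin n) F) : Matrix (Fin n) (Fin n) F) *ᵥ ((P' : Matrix (Fin n) (Fin n) F) *ᵥ u₁)) (e.symm (e i)) = _ at h2
    rw [hPP, Equiv.symm_apply_apply, Fin.prod_univ_two] at h2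
    rw [h2]
    simp [e₂]
  · rw [hform, h0, mul_zero]
  · rw [hform, h1, mul_zero]
  · intro h
    exact hu₀ (hinj (by simpa using h))
  · intro h
    exact hu₁ (hinj (by simpa using h))

end Cfsg.Agent.Lib.Classical.Asch.NotSU2
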