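import Mathlib
import Cfsg.Agent.Lib.Classical.Asch.FormO3
import Cfsg.Agent.Lib.Classical.Asch.NotSU2
import Cfsg.Agent.Lib.Classical.Geo.OPts

/-!
# The commutator subgroup of an orthogonal group lies in no member of the geometric classes
-/

set_option autoImplicit false
set_option linter.style.haveILetI false
set_option linter.unusedSectionVars false

namespace Cfsg.Agent.Lib.Classical.Asch.NotO

open scoped MatrixGroups Matrix Kronecker
open Module Cfsg Cfsg.Geo QuadraticMap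
open Cfsg.Agent.Lib.Classical.Asch.Basic
open Cfsg.Agent.Lib.Classical.Orth.Basic
open Cfsg.Agent.Lib.Classical.Orth.Siegel
open Cfsg.Agent.Lib.Classical.Witt.Hyp
open Cfsg.Agent.Lib.Classical.Geo.OPts

variable {ι : Type} [Fintype ι] [DecidableEq ι] {F : Type*} [Field F] [Fintype F]
variable {Q : QuadraticForm F (ι → F)}

set_option quotPrecheck false in
local notation "𝔣" => polar (⇑Q)

theorem pol_self {z : ι → F} (hz : Q z = 0) : 𝔣 z z = 0 := by
  rw [polar_self_eq, hz, mul_zero]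

omit [DecidableEq ι] in
theorem three_le_finrank (hn : 5 ≤ Fintype.card ι) : 3 ≤ finrank F (ι → F) := by
  rw [Module.finrank_fintype_fun_eq_card]
  omega

/-- A hyperbolic partner and a hyperbolic pair in the orthogonal complement. -/
theorem exists_hyp_perp (hQ : (polarBilin Q).Nondegenerate) (hn : 5 ≤ Fintype.card ι) {t : ι → F} (ht : t ≠ 0) (hQt : Q t = 0) :
    ∃ t' b₀ b₁ : ι → F, Q t' = 0 ∧ 𝔣 t t' = 1 ∧ Q b₀ = 0 ∧ Q b₁ = 0 ∧ 𝔣 b₀ b₁ = 1 ∧ 𝔣 t b₀ = 0 ∧ 𝔣 t b₁ = 0 ∧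
      𝔣 t' b₀ = 0 ∧ 𝔣 t' b₁ = 0 := by
  have hP := polarNondeg_of_nondeg Q hQ
  obtain ⟨t', hQt', htt'⟩ := exists_partner hP ht hQt
  have hU := polarNondeg_perpPair hP hQt hQt' htt'
  have hd := finrank_perpPair hQt hQt' htt'
  rw [Module.finrank_fintype_fun_eq_card] at hd
  obtain ⟨b₀, hb₀0, hb₀⟩ := exists_singular_of_three_le (Q.comp (perpPair Q t t').subtype) (by omega)
  obtain ⟨b₁, hb₁, hb₀₁⟩ := exists_partner hU hb₀0 hb₀
  have hb₀' := mem_perpPair.mp b₀.2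
  have hb₁' := mem_perpPair.mp b₁.2
  refine ⟨t', b₀, b₁, hQt', htt', hb₀, hb₁, ?_, hb₀'.1, hb₁'.1, hb₀'.2, hb₁'.2⟩
  simpa [polar] using hb₀₁

/-- **Irreducibility**: a non-zero subspace invariant under the singular Eichler transformations is everything. -/
theorem eq_top_of_inv (hQ : (polarBilin Q).Nondegenerate) (hn : 5 ≤ Fintype.card ι) {W : Submodule F (ι → F)} (h0 : W ≠ ⊥)
    (hinv : ∀ z b, Q z = 0 → Q b = 0 → 𝔣 z b = 0 → ∀ w ∈ W, 𝔣 z w • b - 𝔣 b w • z ∈ W) : W = ⊤ := by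
  have hP := polarNondeg_of_nondeg Q hQ
  obtain ⟨w, hw, hw0⟩ := (Submodule.ne_bot_iff W).mp h0
  obtain ⟨t, hQt, ht⟩ := exists_singular_not_orth hP (three_le_finrank hn) hw0
  have ht0 : t ≠ 0 := by
    rintro rfl
    exact ht (polar_zero_right _ _)
  obtain ⟨t₁, b₀, b₁, hQt₁, h1, hb₀, hb₁, hb, h2, h3, h4, h5⟩ := exists_hyp_perp hQ hn ht0 hQt
  have ht' : 𝔣 t w ≠ 0 := by rwa [polar_comm]
  set y := 𝔣 t w • b₀ - 𝔣 b₀ w • t with hy
  have hyW : y ∈ W := hinv t b₀ hQt hb₀ h2 w hw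
  have hQy : Q y = 0 := by
    rw [hy, Q_sub, Q_smul, Q_smul, hb₀, hQt, polar_smul_left', polar_smul_right', polar_comm _ b₀ t, h2]
    ring
  have hyb : 𝔣 y b₁ = 𝔣 t w := by
    rw [hy, polar_sub_left, polar_smul_left', polar_smul_left', hb, h3]
    ring
  have hy0 : y ≠ 0 := by
    intro h
    rw [h, polar_zero_left] at hyb
    exact ht' hyb.symm
  obtain ⟨s, c₀, c₁, hQs, hys, hc₀, hc₁, hc, g1, g2, g3, g4⟩ := exists_hyp_perp hQ hn hy0 hQy
  have hsy : 𝔣 s y = 1 := by rw [polar_comm]; exact hys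
  have C1 : ∀ b, Q b = 0 → 𝔣 y b = 0 → 𝔣 s b = 0 → b ∈ W := by
    intro b hb1 hb2 hb3
    have := hinv s b hQs hb1 hb3 y hyW
    rw [hsy, polar_comm _ b y, hb2, one_smul, zero_smul, sub_zero] at this
    exact this
  have hc₀W := C1 c₀ hc₀ g1 g3
  have hc₁W := C1 c₁ hc₁ g2 g4
  have hsW : s ∈ W := by
    have := hinv c₀ s hc₀ hQs (by rw [polar_comm]; exact g3) c₁ hc₁W
    rw [hc, g4, one_smul, zero_smul, sub_zero] at this
    exact this
  have C3 : ∀ u, 𝔣 y u = 0 → 𝔣 s u = 0 → u ∈ W := by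
    intro u hu1 hu2
    set u' := u - 𝔣 c₁ u • c₀ - 𝔣 c₀ u • c₁ with hu'
    obtain ⟨p1, p2⟩ := mem_perpPair.mp (sub_mem_perpPair hc₀ hc₁ hc u)
    rw [← hu'] at p1 p2
    have p3 : 𝔣 y u' = 0 := by
      rw [hu', polar_sub_right, polar_sub_right, polar_smul_right', polar_smul_right', hu1, g1, g2]
      ring
    have p4 : 𝔣 s u' = 0 := by
      rw [hu', polar_sub_right, polar_sub_right, polar_smul_right', polar_smul_right', hu2, g3, g4]
      ring
    set s' := c₀ + u' - Q u' • c₁ with hs'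
    have q1 : Q s' = 0 := by
      rw [hs', Q_sub, Q_add, Q_smul, hc₀, hc₁, p1, polar_smul_right', polar_add_left, hc, polar_comm _ u' c₁, p2]
      ring
    have q2 : 𝔣 y s' = 0 := by
      rw [hs', polar_sub_right, polar_add_right, polar_smul_right', g1, p3, g2]
      ring
    have q3 : 𝔣 s s' = 0 := by
      rw [hs', polar_sub_right, polar_add_right, polar_smul_right', g3, p4, g4]
      ring
    have hs'W := C1 s' q1 q2 q3
    have hu'W : u' ∈ W := by
      have e : u' = s' - c₀ + Q u' • c₁ := by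
        rw [hs']
        abel
      rw [e]
      exact W.add_mem (W.sub_mem hs'W hc₀W) (W.smul_mem _ hc₁W)
    have e : u = u' + 𝔣 c₁ u • c₀ + 𝔣 c₀ u • c₁ := by
      rw [hu']
      abel
    rw [e]
    exact W.add_mem (W.add_mem hu'W (W.smul_mem _ hc₀W)) (W.smul_mem _ hc₁W)
  rw [Submodule.eq_top_iff']
  intro v
  obtain ⟨p1, p2⟩ := mem_perpPair.mp (sub_mem_perpPair hQy hQs hys v)
  have hv := C3 _ p1 p2
  have e : v = (v - 𝔣 s v • y - 𝔣 y v • s) + 𝔣 s v • y + 𝔣 y v • s := by abel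
  rw [e]
  exact W.add_mem (W.add_mem hv (W.smul_mem _ hyW)) (W.smul_mem _ hsW)

theorem eG_sub {z b : ι → F} (hz : Q z = 0) (hb : Q b = 0) (hzb : 𝔣 z b = 0) (x : ι → F) :
    (eG hz hzb : Matrix ι ι F) *ᵥ x = x + (𝔣 z x • b - 𝔣 b x • z) := by
  rw [eG_mulVec, hb, zero_mul, zero_smul, sub_zero]
  abel

/-- **Subspaces**. -/
theorem not_le_stab (hQ : (polarBilin Q).Nondegenerate) (hn : 5 ≤ Fintype.card ι) {W : Submodule F (ι → F)} (h0 : W ≠ ⊥) (h1 : W ≠ ⊤) :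
    ¬ omegaGL (⇑Q) ≤ subspaceStabilizer W := by
  intro hle
  apply h1
  refine eq_top_of_inv hQ hn h0 fun z b hz hb hzb w hw => ?_
  have hE := hle (eG_mem_omegaGL hQ hn hz hzb)
  have h2 : (eG hz hzb : Matrix ι ι F) *ᵥ w ∈ W := (hE w).mp hw
  rw [eG_sub hz hb hzb] at h2
  have h3 := W.sub_mem h2 hw
  rwa [add_sub_cancel_left] at h3

theorem eG_two {z b : ι → F} (hz : Q z = 0) (hb : Q b = 0) (hzb : 𝔣 z b = 0) (w : ι → F) :
    (eG hz hzb : Matrix ι ι F) *ᵥ ((eG hz hzb : Matrix ι ι F) *ᵥ w) = (2 : F) • ((eG hz hzb : Matrix ι ι F) *ᵥ w) - w := by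
  rw [eG_sub hz hb hzb]
  have e1 : 𝔣 z (w + (𝔣 z w • b - 𝔣 b w • z)) = 𝔣 z w := by
    rw [polar_add_right, polar_sub_right, polar_smul_right', polar_smul_right', hzb, pol_self hz]
    ring
  have e2 : 𝔣 b (w + (𝔣 z w • b - 𝔣 b w • z)) = 𝔣 b w := by
    rw [polar_add_right, polar_sub_right, polar_smul_right', polar_smul_right', polar_comm _ b z, hzb, pol_self hb]
    ring
  rw [eG_sub hz hb hzb, e1, e2, two_smul]
  abel

/-- **Decompositions** in odd characteristic. -/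
theorem not_le_decomp (h2 : (2 : F) ≠ 0) (hQ : (polarBilin Q).Nondegenerate) (hn : 5 ≤ Fintype.card ι) {t m : ℕ}
    {D : Fin t → Submodule F (ι → F)} (hD : IsMDecomposition m D) : ¬ omegaGL (⇑Q) ≤ decompositionStabilizer D := by
  intro hle
  have ht := hD.two_le
  let i₀ : Fin t := ⟨0, by omega⟩
  let i₁ : Fin t := ⟨1, by omega⟩
  have h01 : i₀ ≠ i₁ := by simp [i₀, i₁, Fin.ext_iff]
  have hne : ∀ i, D i ≠ ⊥ := by
    intro i h
    have h3 := hD.finrank_eq i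
    rw [h, finrank_bot] at h3
    have h4 := hD.pos
    omega
  have hfix : ∀ (z b : ι → F) (hz : Q z = 0) (hb : Q b = 0) (hzb : 𝔣 z b = 0), ∀ w ∈ D i₀, (eG hz hzb : Matrix ι ι F) *ᵥ w ∈ D i₀ := by
    intro z b hz hb hzb w hw
    obtain ⟨σ, hσ⟩ := hle (eG_mem_omegaGL hQ hn hz hzb)
    have hmap : ∀ i, ∀ v ∈ D i, (eG hz hzb : Matrix ι ι F) *ᵥ v ∈ D (σ i) := fun i v hv => by
      rw [← hσ i]
      exact Submodule.mem_map_of_mem (f := Matrix.toLin' (eG hz hzb : Matrix ι ι F)) hv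
    by_cases hs : σ i₀ = i₀
    · have := hmap i₀ w hw
      rwa [hs] at this
    exfalso
    obtain ⟨w₀, hw₀, hw₀0⟩ := (Submodule.ne_bot_iff _).mp (hne i₀)
    have h1 := hmap _ _ hw₀
    have h2' := hmap _ _ h1
    have hsj : σ (σ i₀) ≠ σ i₀ := fun h => hs (σ.injective h)
    have h3 : (eG hz hzb : Matrix ι ι F) *ᵥ w₀ ∈ ⨆ k, ⨆ _ : k ≠ σ i₀, D k := by
      have h4 := eG_two hz hb hzb w₀
      have h5 : (eG hz hzb : Matrix ι ι F) *ᵥ w₀ =
          (2 : F)⁻¹ • ((eG hz hzb : Matrix ι ι F) *ᵥ ((eG hz hzb : Matrix ι ι F) *ᵥ w₀) + w₀) := by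
        rw [h4, sub_add_cancel, smul_smul, inv_mul_cancel₀ h2, one_smul]
      rw [h5]
      refine Submodule.smul_mem _ _ (Submodule.add_mem _ ?_ ?_)
      · exact Submodule.mem_iSup_of_mem _ (Submodule.mem_iSup_of_mem hsj h2')
      · exact Submodule.mem_iSup_of_mem i₀ (Submodule.mem_iSup_of_mem (Ne.symm hs) hw₀)
    have h6 : (eG hz hzb : Matrix ι ι F) *ᵥ w₀ = 0 := (Submodule.disjoint_def.mp (hD.indep (σ i₀))) _ h1 h3
    apply hw₀0
    apply mulVec_injective (eG hz hzb)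
    change (eG hz hzb : Matrix ι ι F) *ᵥ w₀ = (eG hz hzb : Matrix ι ι F) *ᵥ 0
    rw [h6, Matrix.mulVec_zero]
  have htop : D i₀ = ⊤ := eq_top_of_inv hQ hn (hne i₀) fun z b hz hb hzb w hw => by
    have h3 := hfix z b hz hb hzb w hw
    rw [eG_sub hz hb hzb] at h3
    have h4 := (D i₀).sub_mem h3 hw
    rwa [add_sub_cancel_left] at h4
  obtain ⟨w₁, hw₁, hw₁0⟩ := (Submodule.ne_bot_iff _).mp (hne i₁)
  exact hw₁0 ((Submodule.disjoint_def.mp (hD.indep i₁)) w₁ hw₁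
    (Submodule.mem_iSup_of_mem i₀ (Submodule.mem_iSup_of_mem h01 (by rw [htop]; trivial))))

/-- The nilpotent part of a singular Eichler transformation has rank at most two. -/
theorem rank_eG_sub_one {z b : ι → F} (hz : Q z = 0) (hb : Q b = 0) (hzb : 𝔣 z b = 0) :
    ((eG hz hzb : Matrix ι ι F) - 1).rank ≤ 2 := by
  have h1 : LinearMap.range ((eG hz hzb : Matrix ι ι F) - 1).mulVecLin ≤ Submodule.span F (Set.range ![b, z]) := by
    rintro _ ⟨x, rfl⟩
    rw [Matrix.mulVecLin_apply, Matrix.sub_mulVec, Matrix.one_mulVec, eG_sub hz hb hzb, add_sub_cancel_left]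
    exact Submodule.sub_mem _ (Submodule.smul_mem _ _ (Submodule.subset_span ⟨0, rfl⟩))
      (Submodule.smul_mem _ _ (Submodule.subset_span ⟨1, rfl⟩))
  refine (Submodule.finrank_mono h1).trans ((finrank_range_le_card (R := F) ![b, z]).trans ?_)
  simp

/-- Commutation with a field subalgebra. -/
theorem comm_of_mem {r : ℕ} {K : Subalgebra F (Matrix ι ι F)} (hK : IsFieldSubalgebra r K) (hn : 5 ≤ Fintype.card ι)
    {z b : ι → F} (hz : Q z = 0) (hb : Q b = 0) (hzb : 𝔣 z b = 0) (hE : eG hz hzb ∈ subalgebraNormalizer K)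
    {k : Matrix ι ι F} (hk : k ∈ K) (x : ι → F) :
    k *ᵥ (𝔣 z x • b - 𝔣 b x • z) = 𝔣 z (k *ᵥ x) • b - 𝔣 b (k *ᵥ x) • z := by
  have h1 := NotSp.comm_of_low_rank hK (t := eG hz hzb) (N := (eG hz hzb : Matrix ι ι F) - 1) (s := 2)
    (by rw [add_sub_cancel]) (rank_eG_sub_one hz hb hzb) (by omega) hE k hk
  have hN : ∀ y, ((eG hz hzb : Matrix ι ι F) - 1) *ᵥ y = 𝔣 z y • b - 𝔣 b y • z := by
    intro y
    rw [Matrix.sub_mulVec, Matrix.one_mulVec, eG_sub hz hb hzb, add_sub_cancel_left]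
  rw [← hN, ← hN, Matrix.mulVec_mulVec, Matrix.mulVec_mulVec, h1]

/-- Two expressions force an eigenvector. -/
theorem eig_of_two {v z b₀ b₁ : ι → F} {α β α' β' : F} (h1 : v = α • b₀ - β • z) (h2 : v = α' • b₁ - β' • z)
    (hb₁ : Q b₁ = 0) (hb : 𝔣 b₀ b₁ = 1) (h3 : 𝔣 z b₁ = 0) : v = (-β) • z := by
  have e1 : 𝔣 v b₁ = α := by
    rw [h1, polar_sub_left, polar_smul_left', polar_smul_left', hb, h3]
    ring
  have e2 : 𝔣 v b₁ = 0 := by
    rw [h2, polar_sub_left, polar_smul_left', polar_smul_left', pol_self hb₁, h3]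
    ring
  have hα : α = 0 := e1.symm.trans e2
  rw [h1, hα, zero_smul, zero_sub, neg_smul]

/-- **Field subalgebras**. -/
theorem not_le_normalizer (hQ : (polarBilin Q).Nondegenerate) (hn : 5 ≤ Fintype.card ι) {r : ℕ} (hr : 2 ≤ r)
    {K : Subalgebra F (Matrix ι ι F)} (hK : IsFieldSubalgebra r K) : ¬ omegaGL (⇑Q) ≤ subalgebraNormalizer K := by
  classical
  intro hle
  haveI : Nonempty ι := Fintype.card_pos_iff.mp (by omega)
  have hC := fun (z b : ι → F) (hz : Q z = 0) (hb : Q b = 0) (hzb : 𝔣 z b = 0) (k : Matrix ι ι F) (hk : k ∈ K) (x : ι → F) =>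
    comm_of_mem hK hn hz hb hzb (hle (eG_mem_omegaGL hQ hn hz hzb)) hk x
  have hscal : ∀ k ∈ K, ∃ c : F, k = c • 1 := by
    intro k hk
    obtain ⟨z, hz0, hz⟩ := exists_singular_of_three_le Q (three_le_finrank hn)
    obtain ⟨t', b₀, b₁, hQt', ht', hb₀, hb₁, hb, h2, h3, h4, h5⟩ := exists_hyp_perp hQ hn hz0 hz
    have e1 := hC z b₀ hz hb₀ h2 k hk ((-1 : F) • b₁)
    have e2 := hC z b₁ hz hb₁ h3 k hk ((-1 : F) • b₀)
    have a1 : 𝔣 z ((-1 : F) • b₁) • b₀ - 𝔣 b₀ ((-1 : F) • b₁) • z = z := by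
      rw [polar_smul_right', polar_smul_right', h3, hb]
      simp
    have hb' : 𝔣 b₁ b₀ = 1 := by rw [polar_comm]; exact hb
    have a2 : 𝔣 z ((-1 : F) • b₀) • b₁ - 𝔣 b₁ ((-1 : F) • b₀) • z = z := by
      rw [polar_smul_right', polar_smul_right', h2, hb']
      simp
    rw [a1] at e1
    rw [a2] at e2
    have e3 := eig_of_two e1 e2 hb₁ hb h3
    set c := -𝔣 b₀ (k *ᵥ (-1 : F) • b₁) with hc
    let W : Submodule F (ι → F) := LinearMap.ker (k - c • 1).mulVecLin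
    have hW : ∀ w, w ∈ W ↔ k *ᵥ w = c • w := by
      intro w
      change (k - c • 1).mulVecLin w = 0 ↔ _
      rw [Matrix.mulVecLin_apply, Matrix.sub_mulVec, Matrix.smul_mulVec, Matrix.one_mulVec, sub_eq_zero]
    have htop : W = ⊤ := by
      refine eq_top_of_inv hQ hn ?_ fun z' b' hz' hb'' hzb' w hw => ?_
      · rw [Submodule.ne_bot_iff]
        exact ⟨z, (hW z).mpr e3, hz0⟩
      · rw [hW] at hw ⊢
        rw [hC z' b' hz' hb'' hzb' k hk w, hw, polar_smul_right', polar_smul_right', smul_sub, smul_smul, smul_smul]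
    refine ⟨c, ?_⟩
    obtain ⟨c', hc'⟩ := NotSp.exists_scalar_of_eigen (k := k) fun w _ => ⟨c, (hW w).mp (by rw [htop]; trivial)⟩
    have hzc : c' • z = c • z := by
      rw [← e3, hc']
      rw [Matrix.smul_mulVec, Matrix.one_mulVec]
    have : c' = c := by
      by_contra hne
      exact hz0 ((smul_right_inj (sub_ne_zero.mpr hne)).mp (by rw [sub_smul, hzc, sub_self, smul_zero]) )
    rw [hc', this]
  have h1 : Subalgebra.toSubmodule K ≤ Submodule.span F {(1 : Matrix ι ι F)} := by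
    intro k hk
    obtain ⟨c, rfl⟩ := hscal k hk
    exact Submodule.smul_mem _ _ (Submodule.mem_span_singleton_self _)
  have h2 := Submodule.finrank_mono h1
  have h3 : Module.finrank F (Submodule.span F {(1 : Matrix ι ι F)}) = 1 := finrank_span_singleton one_ne_zero
  have h4 : Module.finrank F (Subalgebra.toSubmodule K) = r := hK.finrank_eq
  omega

section Sub

variable {F₀ : Subfield F}

/-- A semilinear map attached to a rational structure. -/
noncomputable def Psi (sig : F →+* F) (P : GL ι F) (x : ι → F) : ι → F :=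
  (P : Matrix ι ι F) *ᵥ (fun i => sig ((((P⁻¹ : GL ι F) : Matrix ι ι F) *ᵥ x) i))

theorem Psi_add (sig : F →+* F) (P : GL ι F) (x y : ι → F) : Psi sig P (x + y) = Psi sig P x + Psi sig P y := by
  unfold Psi
  rw [← Matrix.mulVec_add]
  congr 1
  funext i
  simp [Matrix.mulVec_add, map_add]

theorem Psi_smul (sig : F →+* F) (P : GL ι F) (c : F) (x : ι → F) : Psi sig P (c • x) = sig c • Psi sig P x := by
  unfold Psi
  rw [← Matrix.mulVec_smul]
  congr 1
  funext i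
  simp [Matrix.mulVec_smul, map_mul]

theorem Psi_inj (sig : F →+* F) (P : GL ι F) : Function.Injective (Psi sig P) := by
  intro x y h
  have h1 := mulVec_injective P h
  have h2 : ((P⁻¹ : GL ι F) : Matrix ι ι F) *ᵥ x = ((P⁻¹ : GL ι F) : Matrix ι ι F) *ᵥ y := by
    funext i
    exact sig.injective (congrFun h1 i)
  exact mulVec_injective P⁻¹ h2

theorem Psi_zero (sig : F →+* F) (P : GL ι F) : Psi sig P 0 = 0 := by
  have := Psi_smul sig P 0 0
  simpa using this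

theorem Psi_sub (sig : F →+* F) (P : GL ι F) (x y : ι → F) : Psi sig P (x - y) = Psi sig P x - Psi sig P y := by
  have h := Psi_add sig P (x - y) y
  rw [sub_add_cancel] at h
  rw [h, add_sub_cancel_right]

/-- Elements of the subfield subgroup commute with the semilinear map up to scalars. -/
theorem Psi_mem [Nonempty ι] {sig : F →+* F} (hsig : ∀ x ∈ F₀, sig x = x) {P g : GL ι F}
    (hg : g ∈ subfieldSubgroup F₀ P) :
    ∃ ρ : F, ρ ≠ 0 ∧ ∀ x, Psi sig P ((g : Matrix ι ι F) *ᵥ x) = ρ • ((g : Matrix ι ι F) *ᵥ Psi sig P x) := by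
  classical
  obtain ⟨y, hy, rfl⟩ := hg
  obtain ⟨g₀, ⟨h₀, rfl⟩, z, hz, rfl⟩ := Subgroup.mem_sup_of_normal_right.mp hy
  obtain ⟨d, hd⟩ := (mem_scalars_iff' z).mp hz
  have hd0 : d ≠ 0 := by
    rintro rfl
    have h1 := z.val_inv
    rw [hd, zero_smul, zero_mul] at h1
    exact zero_ne_one h1
  set A : Matrix ι ι F := ((Matrix.GeneralLinearGroup.map (F₀.subtype : F₀ →+* F) h₀ : GL ι F) : Matrix ι ι F) with hA
  have hAs : ∀ i j, sig (A i j) = A i j := by
    intro i j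
    apply hsig
    change ((h₀ : Matrix ι ι F₀) i j : F) ∈ F₀
    exact Subtype.coe_prop _
  have hAv : ∀ u : ι → F, (fun i => sig ((A *ᵥ u) i)) = A *ᵥ (fun i => sig (u i)) := by
    intro u
    funext i
    simp [Matrix.mulVec, dotProduct, map_sum, map_mul, hAs]
  set E : GL ι F := (MulAut.conj P).toMonoidHom (Matrix.GeneralLinearGroup.map (F₀.subtype : F₀ →+* F) h₀ * z) with hE
  have hP1 : ∀ x, ((P⁻¹ : GL ι F) : Matrix ι ι F) *ᵥ ((E : Matrix ι ι F) *ᵥ x) =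
      d • (A *ᵥ (((P⁻¹ : GL ι F) : Matrix ι ι F) *ᵥ x)) := by
    intro x
    have h1 : ((P⁻¹ : GL ι F) : Matrix ι ι F) *ᵥ ((E : Matrix ι ι F) *ᵥ x) =
        ((Matrix.GeneralLinearGroup.map (F₀.subtype : F₀ →+* F) h₀ * z : GL ι F) : Matrix ι ι F) *ᵥ
          (((P⁻¹ : GL ι F) : Matrix ι ι F) *ᵥ x) := by
      rw [Matrix.mulVec_mulVec, Matrix.mulVec_mulVec]
      congr 1
      rw [← Units.val_mul, ← Units.val_mul]
      congr 1
      simp [hE, MulAut.conj_apply, mul_assoc]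
    rw [h1, Units.val_mul, hd, Matrix.mul_smul, mul_one, Matrix.smul_mulVec]
  refine ⟨sig d / d, div_ne_zero ((map_ne_zero sig).mpr hd0) hd0, fun x => ?_⟩
  set u := ((P⁻¹ : GL ι F) : Matrix ι ι F) *ᵥ x with hu
  set v : ι → F := fun i => sig (u i) with hv
  have h1 : Psi sig P ((E : Matrix ι ι F) *ᵥ x) = sig d • ((P : Matrix ι ι F) *ᵥ (A *ᵥ v)) := by
    have h3 : (fun i => sig ((d • (A *ᵥ u)) i)) = sig d • (A *ᵥ v) := by
      funext i
      have h4 := congrFun (hAv u) i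
      simp only [Pi.smul_apply, smul_eq_mul, map_mul]
      rw [h4]
    unfold Psi
    rw [hP1, ← hu, h3, Matrix.mulVec_smul]
  have h2 : (E : Matrix ι ι F) *ᵥ Psi sig P x = d • ((P : Matrix ι ι F) *ᵥ (A *ᵥ v)) := by
    have h3 : Psi sig P x = (P : Matrix ι ι F) *ᵥ v := rfl
    rw [h3]
    have h4 := hP1 ((P : Matrix ι ι F) *ᵥ v)
    rw [inv_mulVec_mulVec P] at h4
    have h5 := mulVec_inv_mulVec P ((E : Matrix ι ι F) *ᵥ ((P : Matrix ι ι F) *ᵥ v))
    rw [← h5, h4, Matrix.mulVec_smul]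
  rw [h1, h2, smul_smul]
  congr 1
  field_simp

/-- The semilinear map commutes with the nilpotent part of a singular Eichler transformation. -/
theorem Psi_comm (hQ : (polarBilin Q).Nondegenerate) (hn : 5 ≤ Fintype.card ι) {sig : F →+* F} (hsig : ∀ x ∈ F₀, sig x = x)
    {P : GL ι F} (hle : omegaGL (⇑Q) ≤ subfieldSubgroup F₀ P) {z b : ι → F} (hz : Q z = 0) (hb : Q b = 0) (hzb : 𝔣 z b = 0)
    (hz0 : z ≠ 0) (x : ι → F) :
    Psi sig P (𝔣 z x • b - 𝔣 b x • z) = 𝔣 z (Psi sig P x) • b - 𝔣 b (Psi sig P x) • z := by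
  haveI : Nonempty ι := Fintype.card_pos_iff.mp (by omega)
  obtain ⟨ρ, hρ0, hρ⟩ := Psi_mem hsig (hle (eG_mem_omegaGL hQ hn hz hzb))
  have hbz : 𝔣 b z = 0 := by rw [polar_comm]; exact hzb
  have hEz : (eG hz hzb : Matrix ι ι F) *ᵥ z = z := by
    rw [eG_sub hz hb hzb, pol_self hz, hbz]
    simp
  have hρ1 : ρ = 1 := by
    by_contra hne
    set u := Psi sig P z with hu
    have hu0 : u ≠ 0 := fun h => hz0 (Psi_inj sig P (h.trans (Psi_zero sig P).symm))
    have h1 := hρ z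
    rw [hEz, ← hu, eG_sub hz hb hzb] at h1
    have hne' : 1 - ρ ≠ 0 := sub_ne_zero.mpr (Ne.symm hne)
    have h2 : (1 - ρ) • u = ρ • (𝔣 z u • b - 𝔣 b u • z) := by
      rw [sub_smul, one_smul]
      nth_rewrite 1 [h1]
      rw [smul_add, add_sub_cancel_left]
    have h3 : 𝔣 z u = 0 := by
      have h4 := congrArg (fun v => 𝔣 z v) h2
      simp only [polar_smul_right', polar_sub_right, hzb, pol_self hz, mul_zero, sub_self] at h4
      exact (mul_eq_zero.mp h4).resolve_left hne'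
    have h4 : 𝔣 b u = 0 := by
      have h4 := congrArg (fun v => 𝔣 b v) h2
      simp only [polar_smul_right', polar_sub_right, hbz, pol_self hb, mul_zero, sub_self] at h4
      exact (mul_eq_zero.mp h4).resolve_left hne'
    rw [h3, h4, zero_smul, zero_smul, sub_zero, smul_zero] at h2
    exact hu0 ((smul_eq_zero.mp h2).resolve_left hne')
  subst hρ1
  have h1 := hρ x
  rw [one_smul, eG_sub hz hb hzb, eG_sub hz hb hzb, Psi_add] at h1
  exact add_left_cancel h1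

theorem Psi_sing (hQ : (polarBilin Q).Nondegenerate) (hn : 5 ≤ Fintype.card ι) {sig : F →+* F} (hsig : ∀ x ∈ F₀, sig x = x)
    {P : GL ι F} (hle : omegaGL (⇑Q) ≤ subfieldSubgroup F₀ P) {z : ι → F} (hz : Q z = 0) (hz0 : z ≠ 0) :
    ∃ κ : F, Psi sig P z = κ • z := by
  obtain ⟨t', b₀, b₁, hQt', ht', hb₀, hb₁, hb, h2, h3, h4, h5⟩ := exists_hyp_perp hQ hn hz0 hz
  have e1 := Psi_comm hQ hn hsig hle hz hb₀ h2 hz0 ((-1 : F) • b₁)
  have e2 := Psi_comm hQ hn hsig hle hz hb₁ h3 hz0 ((-1 : F) • b₀)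
  have a1 : 𝔣 z ((-1 : F) • b₁) • b₀ - 𝔣 b₀ ((-1 : F) • b₁) • z = z := by
    rw [polar_smul_right', polar_smul_right', h3, hb]
    simp
  have hb' : 𝔣 b₁ b₀ = 1 := by rw [polar_comm]; exact hb
  have a2 : 𝔣 z ((-1 : F) • b₀) • b₁ - 𝔣 b₁ ((-1 : F) • b₀) • z = z := by
    rw [polar_smul_right', polar_smul_right', h2, hb']
    simp
  rw [a1] at e1
  rw [a2] at e2
  exact ⟨_, eig_of_two e1 e2 hb₁ hb h3⟩

/-- **Subfield subgroups**. -/
theorem not_le_subfield (hQ : (polarBilin Q).Nondegenerate) (hn : 5 ≤ Fintype.card ι) {r : ℕ} (hr : 2 ≤ r)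
    (hc : Fintype.card F = Nat.card F₀ ^ r) (P : GL ι F) : ¬ omegaGL (⇑Q) ≤ subfieldSubgroup F₀ P := by
  classical
  intro hle
  obtain ⟨p, hp⟩ := CharP.exists F
  obtain ⟨m, hprime, hm⟩ := FiniteField.card F p
  haveI : Fact p.Prime := ⟨hprime⟩
  have hdvd : Nat.card F₀ ∣ p ^ (m : ℕ) := by
    rw [← hm, hc]
    exact dvd_pow_self _ (by omega)
  obtain ⟨l, -, hl⟩ := (Nat.dvd_prime_pow hprime).1 hdvd
  let sig : F →+* F := iterateFrobenius F p l
  have hsig' : ∀ x, sig x = x ^ Nat.card F₀ := by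
    intro x
    rw [hl]
    exact iterateFrobenius_def p l x
  have hsig : ∀ x ∈ F₀, sig x = x := by
    intro x hx
    rw [hsig']
    exact (Subfield.mem_subfield_iff F₀ hc x).mp hx
  obtain ⟨z, hz0, hz⟩ := exists_singular_of_three_le Q (three_le_finrank hn)
  obtain ⟨t', b₀, b₁, hQt', ht', hb₀, hb₁, hb, h2, h3, h4, h5⟩ := exists_hyp_perp hQ hn hz0 hz
  have hb₀0 : b₀ ≠ 0 := by
    rintro rfl
    rw [polar_zero_left] at hb
    exact zero_ne_one hb
  obtain ⟨κ, hκ⟩ := Psi_sing hQ hn hsig hle hz hz0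
  obtain ⟨κ', hκ'⟩ := Psi_sing hQ hn hsig hle hb₀ hb₀0
  have hκ0 : κ ≠ 0 := by
    rintro rfl
    rw [zero_smul] at hκ
    exact hz0 (Psi_inj sig P (hκ.trans (Psi_zero sig P).symm))
  have key0 : ∀ s : F, κ * s = sig s * κ' := by
    intro s
    set zs := z + s • b₀ with hzs
    have q1 : Q zs = 0 := by
      rw [hzs, Q_add, Q_smul, hz, hb₀, polar_smul_right', h2]
      ring
    have q2 : 𝔣 zs t' = 1 := by
      rw [hzs, polar_add_left, polar_smul_left', ht', polar_comm _ b₀, h4]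
      ring
    have q0 : zs ≠ 0 := by
      intro h
      rw [h, polar_zero_left] at q2
      exact zero_ne_one q2
    obtain ⟨κs, hκs⟩ := Psi_sing hQ hn hsig hle q1 q0
    have h6 : Psi sig P zs = κ • z + (sig s * κ') • b₀ := by
      rw [hzs, Psi_add, Psi_smul, hκ, hκ', smul_smul]
    have h7 := hκs.symm.trans h6
    have h8 := congrArg (fun v => 𝔣 v t') h7
    have h9 := congrArg (fun v => 𝔣 v b₁) h7
    simp only [polar_smul_left', polar_add_left, q2, ht', polar_comm _ b₀ t', h4, hb, h3, hzs] at h8 h9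
    simp only [mul_one, mul_zero, add_zero] at h8
    simp only [mul_one, mul_zero, zero_add] at h9
    rw [← h8, ← h9]
  have h1 := key0 1
  rw [mul_one, map_one, one_mul] at h1
  have key : ∀ s : F, sig s = s := by
    intro s
    have h6 := key0 s
    rw [← h1] at h6
    have h7 : κ * (sig s - s) = 0 := by
      linear_combination -h6
    exact sub_eq_zero.mp ((mul_eq_zero.mp h7).resolve_left hκ0)
  have hall : ∀ x : F, x ∈ F₀ := fun x => (Subfield.mem_subfield_iff F₀ hc x).mpr ((hsig' x).symm.trans (key x))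
  have hcard : Nat.card F₀ = Fintype.card F := by
    rw [← Nat.card_eq_fintype_card]
    exact Nat.card_congr (Equiv.subtypeUnivEquiv hall)
  rw [hcard] at hc
  have h2F : 2 ≤ Fintype.card F := Fintype.one_lt_card
  have h6 : Fintype.card F ^ 2 ≤ Fintype.card F ^ r := Nat.pow_le_pow_right (by omega) hr
  nlinarith

end Sub

section Wreath

open Cfsg.Agent.Lib.Classical.Asch.SpThree

/-- A hyperbolic pair and a common orthogonal vector for a symmetric form in at least three variables. -/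
theorem exists_sing_triple (h2 : (2 : F) ≠ 0) {k : ℕ} (hk : 3 ≤ k) {f₁ : (Fin k → F) → (Fin k → F) → F} (hf₁ : IsSymmetricForm f₁) :
    ∃ u₀ u₁ u₂ : Fin k → F, f₁ u₀ u₀ = 0 ∧ f₁ u₁ u₁ = 0 ∧ f₁ u₀ u₁ ≠ 0 ∧ f₁ u₀ u₂ = 0 ∧ f₁ u₁ u₂ = 0 ∧ u₂ ≠ 0 := by
  let B : LinearMap.BilinForm F (Fin k → F) := LinearMap.mk₂ F f₁ hf₁.bilinear.add_left
    (fun c x y => by rw [hf₁.bilinear.smul_left, smul_eq_mul]) hf₁.bilinear.add_right
    (fun c x y => by rw [hf₁.bilinear.smul_right, smul_eq_mul])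
  let Q₁ : QuadraticForm F (Fin k → F) := B.toQuadraticMap
  have hQ₁ : ∀ x, Q₁ x = f₁ x x := fun x => rfl
  have hp : ∀ x y, polar (⇑Q₁) x y = 2 * f₁ x y := by
    intro x y
    rw [polar, hQ₁, hQ₁, hQ₁, hf₁.bilinear.add_left, hf₁.bilinear.add_right, hf₁.bilinear.add_right, hf₁.symm y x]
    ring
  have hP : PolarNondeg Q₁ := by
    intro x hx
    by_contra h0
    obtain ⟨y, hy⟩ := (hf₁.nondegenerate x h0).2
    apply hy
    have := hx y
    rw [hp] at this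
    exact (mul_eq_zero.mp this).resolve_left h2
  obtain ⟨e, he0, he⟩ := exists_singular_of_three_le Q₁ (by rw [finrank_fintype_fun_eq_card, Fintype.card_fin]; exact hk)
  obtain ⟨f, hf, hef⟩ := exists_partner hP he0 he
  have hd := finrank_perpPair he hf hef
  rw [finrank_fintype_fun_eq_card, Fintype.card_fin] at hd
  have hne : perpPair Q₁ e f ≠ ⊥ := by
    intro h
    rw [h, finrank_bot] at hd
    omega
  obtain ⟨u, hu, hu0⟩ := (Submodule.ne_bot_iff _).mp hne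
  obtain ⟨h1, h3⟩ := mem_perpPair.mp hu
  rw [hp] at h1 h3 hef
  refine ⟨e, f, u, he, hf, ?_, (mul_eq_zero.mp h1).resolve_left h2, (mul_eq_zero.mp h3).resolve_left h2, hu0⟩
  intro h
  rw [h, mul_zero] at hef
  exact zero_ne_one hef

/-- The tensor power group preserves the pure vectors. -/
theorem wreath_preserves {k t : ℕ} {e : ι ≃ (Fin t → Fin k)} {P g : GL ι F} (hg : g ∈ tensorWreathSubgroup k t e P) {w : ι → F}
    (hw : (fun f => (((P⁻¹ : GL ι F) : Matrix ι ι F) *ᵥ w) (e.symm f)) ∈ NotSL.Pure0 F t k) :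
    (fun f => (((P⁻¹ : GL ι F) : Matrix ι ι F) *ᵥ ((g : Matrix ι ι F) *ᵥ w)) (e.symm f)) ∈ NotSL.Pure0 F t k := by
  obtain ⟨_, ⟨y, hy, rfl⟩, rfl⟩ := hg
  have h0 := NotSL.standard_preserves_pure hy _ hw
  change (fun f => (((P⁻¹ : GL ι F) : Matrix ι ι F) *ᵥ ((MulAut.conj P (glReindex e.symm y) : GL ι F) : Matrix ι ι F) *ᵥ w)
    (e.symm f)) ∈ NotSL.Pure0 F t k
  convert h0 using 1
  funext f
  have h1 : ((P⁻¹ : GL ι F) : Matrix ι ι F) *ᵥ ((MulAut.conj P (glReindex e.symm y) : GL ι F) : Matrix ι ι F) *ᵥ w =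
      ((glReindex e.symm y : GL ι F) : Matrix ι ι F) *ᵥ (((P⁻¹ : GL ι F) : Matrix ι ι F) *ᵥ w) := by
    rw [Matrix.mulVec_mulVec, Matrix.mulVec_mulVec]
    congr 1
    rw [← Units.val_mul, ← Units.val_mul]
    congr 1
    simp [MulAut.conj_apply, mul_assoc]
  rw [h1]
  change ∑ j, (y : Matrix (Fin t → Fin k) (Fin t → Fin k) F) (e (e.symm f)) (e j) *
    (((P⁻¹ : GL ι F) : Matrix ι ι F) *ᵥ w) j = _
  rw [Equiv.apply_symm_apply, ← Equiv.sum_comp e.symm]
  simp only [Equiv.apply_symm_apply]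
  rfl

/-- **Tensor squares**. -/
theorem not_le_wreath_two (h2 : (2 : F) ≠ 0) (hQ : (polarBilin Q).Nondegenerate) (hn : 5 ≤ Fintype.card ι) {k : ℕ} (hk : 3 ≤ k)
    {e : ι ≃ (Fin 2 → Fin k)} {P : GL ι F} {f₁ : (Fin k → F) → (Fin k → F) → F} (hf₁ : IsSymmetricForm f₁)
    (hs : IsTensorPowerFormStructure id (𝔣) f₁ e P) : ¬ omegaGL (⇑Q) ≤ tensorWreathSubgroup k 2 e P := by
  classical
  intro hle
  set e₂ : ι ≃ Fin k × Fin k := e.trans (finTwoArrowEquiv (Fin k)) with he₂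
  obtain ⟨c, hc, heq⟩ := hs
  have heq' : ∀ x y : Fin k × Fin k → F, 𝔣 ((P : Matrix ι ι F) *ᵥ (x ∘ e₂)) ((P : Matrix ι ι F) *ᵥ (y ∘ e₂)) =
      c * formOfGram id (gramMatrix f₁ ⊗ₖ gramMatrix f₁) x y := by
    intro x y
    have h1 := heq (x ∘ finTwoArrowEquiv (Fin k)) (y ∘ finTwoArrowEquiv (Fin k))
    have h3 : (x ∘ finTwoArrowEquiv (Fin k)) ∘ e = x ∘ e₂ := rfl
    have h4 : (y ∘ finTwoArrowEquiv (Fin k)) ∘ e = y ∘ e₂ := rfl
    rw [h3, h4] at h1
    rw [h1]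
    congr 1
    unfold formOfGram
    rw [← Equiv.sum_comp (finTwoArrowEquiv (Fin k))]
    refine Finset.sum_congr rfl fun a _ => ?_
    rw [← Equiv.sum_comp (finTwoArrowEquiv (Fin k))]
    refine Finset.sum_congr rfl fun b _ => ?_
    simp [Fin.prod_univ_two, Matrix.kroneckerMap_apply]
  have R : ∀ x x' y y' : Fin k → F, 𝔣 ((P : Matrix ι ι F) *ᵥ kr e₂ x y) ((P : Matrix ι ι F) *ᵥ kr e₂ x' y') = c * (f₁ x x' * f₁ y y') := by
    intro x x' y y'
    have h3 := heq' (fun p => x p.1 * y p.2) (fun p => x' p.1 * y' p.2)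
    rw [SpThree.form_kr hf₁.bilinear hf₁.bilinear] at h3
    exact h3
  have hQv : ∀ x y : Fin k → F, f₁ x x * f₁ y y = 0 → Q ((P : Matrix ι ι F) *ᵥ kr e₂ x y) = 0 := by
    intro x y hxy
    have h3 := R x x y y
    rw [polar_self_eq, hxy, mul_zero] at h3
    exact (mul_eq_zero.mp h3).resolve_left h2
  obtain ⟨u₀, u₁, u₂, h00, h11, h01, h02, h12, hu₂⟩ := exists_sing_triple h2 hk hf₁
  have h10 : f₁ u₁ u₀ ≠ 0 := by rwa [hf₁.symm]
  have hz := hQv u₁ u₁ (by rw [h11, mul_zero])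
  have hb := hQv u₁ u₂ (by rw [h11, zero_mul])
  have hzb : 𝔣 ((P : Matrix ι ι F) *ᵥ kr e₂ u₁ u₁) ((P : Matrix ι ι F) *ᵥ kr e₂ u₁ u₂) = 0 := by
    rw [R, h11]
    ring
  have hE := hle (eG_mem_omegaGL hQ hn hz hzb)
  set a := f₁ u₁ u₀ with ha
  set d := c * (a * a) with hd
  have hd0 : d ≠ 0 := mul_ne_zero hc (mul_ne_zero h10 h10)
  have hw : (fun f => (((P⁻¹ : GL ι F) : Matrix ι ι F) *ᵥ ((P : Matrix ι ι F) *ᵥ kr e₂ u₀ u₀)) (e.symm f)) ∈ NotSL.Pure0 F 2 k := by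
    refine ⟨![u₀, u₀], fun f => ?_⟩
    rw [inv_mulVec_mulVec, Fin.prod_univ_two]
    simp [kr, e₂]
  obtain ⟨xs, hxs⟩ := wreath_preserves hE hw
  have hEw : (eG hz hzb : Matrix ι ι F) *ᵥ ((P : Matrix ι ι F) *ᵥ kr e₂ u₀ u₀) =
      (P : Matrix ι ι F) *ᵥ (kr e₂ u₀ u₀ + d • kr e₂ u₁ u₂) := by
    rw [eG_sub hz hb hzb, R, R, Matrix.mulVec_add, Matrix.mulVec_smul]
    have h3 : f₁ u₂ u₀ = 0 := by rw [hf₁.symm]; exact h02
    rw [h3, mul_zero, mul_zero, zero_smul, sub_zero]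
  have key : ∀ p q : Fin k, u₀ p * u₀ q + d * (u₁ p * u₂ q) = xs 0 p * xs 1 q := by
    intro p q
    have h3 := hxs ((finTwoArrowEquiv (Fin k)).symm (p, q))
    simp only [hEw, inv_mulVec_mulVec] at h3
    rw [Fin.prod_univ_two] at h3
    simpa [kr, e₂] using h3
  have hvec : ∀ q, xs 1 q • xs 0 = u₀ q • u₀ + (d * u₂ q) • u₁ := by
    intro q
    funext p
    have h3 := key p q
    simp only [Pi.add_apply, Pi.smul_apply, smul_eq_mul]
    linear_combination -h3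
  have hA : ∀ q, xs 1 q * f₁ u₁ (xs 0) = u₀ q * a := by
    intro q
    have h3 := congrArg (fun v => f₁ u₁ v) (hvec q)
    simp only [hf₁.bilinear.smul_right, hf₁.bilinear.add_right, h11] at h3
    rw [h3]
    ring
  have hB : ∀ q, xs 1 q * f₁ u₀ (xs 0) = d * f₁ u₀ u₁ * u₂ q := by
    intro q
    have h3 := congrArg (fun v => f₁ u₀ v) (hvec q)
    simp only [hf₁.bilinear.smul_right, hf₁.bilinear.add_right, h00] at h3
    rw [h3]
    ring
  set A := f₁ u₁ (xs 0) with hAd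
  set B := f₁ u₀ (xs 0) with hBd
  have hu₀ : u₀ ≠ 0 := by
    rintro rfl
    apply h01
    have := hf₁.bilinear.smul_left 0 0 u₁
    simpa using this
  have hA0 : A ≠ 0 := by
    intro h
    apply hu₀
    funext q
    have h3 := hA q
    rw [h, mul_zero] at h3
    exact (mul_eq_zero.mp h3.symm).resolve_right h10
  have h4 : ∀ q, (A * (d * f₁ u₀ u₁)) * u₂ q = (B * a) * u₀ q := by
    intro q
    have h3 := hA q
    have h5 := hB q
    linear_combination B * h3 - A * h5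
  -- apply `f₁ u₁` to the relation
  have h5 : (A * (d * f₁ u₀ u₁)) • u₂ = (B * a) • u₀ := by
    funext q
    simpa using h4 q
  have h6 := congrArg (fun v => f₁ u₁ v) h5
  simp only [hf₁.bilinear.smul_right, h12, mul_zero] at h6
  have hB0 : B = 0 := by
    have h7 : B * a * a = 0 := h6.symm
    exact (mul_eq_zero.mp ((mul_eq_zero.mp h7).resolve_right h10)).resolve_right h10
  rw [hB0, zero_mul, zero_smul] at h5
  exact hu₂ ((smul_eq_zero.mp h5).resolve_left (mul_ne_zero hA0 (mul_ne_zero hd0 h01)))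

end Wreath

end Cfsg.Agent.Lib.Classical.Asch.NotO
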