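import Mathlib
import Cfsg.Agent.Lib.Classical.Asch.NotO

/-!
# The maximal subgroups of the commutator subgroup of an orthogonal group in odd dimension
-/

set_option autoImplicit false
set_option linter.style.haveILetI false
set_option linter.unusedSectionVars false

namespace Cfsg.Agent.Lib.Classical.Asch.OMax

open scoped MatrixGroups Matrix Kronecker
open Module Cfsg Cfsg.Geo QuadraticMap
open Cfsg.Agent.Lib.Classical.Asch.Basic
open Cfsg.Agent.Lib.Classical.Orth.Basic
open Cfsg.Agent.Lib.Classical.Orth.Siegel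
open Cfsg.Agent.Lib.Classical.Witt.Hyp
open Cfsg.Agent.Lib.Classical.Geo.OPts
open Cfsg.Agent.Lib.Classical.Asch.NotO
open Cfsg.Agent.Lib.Classical.Asch.FormO3
open Cfsg.Agent.Lib.Classical.Asch.FormO2
open Cfsg.Agent.Lib.Classical.Asch.FormO (isometry_le_isomG Q_act_eq)
open Cfsg.Agent.Lib.Classical.Asch.FormPerp
open Cfsg.Agent.Lib.Classical.Asch.Adj
open Cfsg.Agent.Lib.Classical.Asch.FormSympType (isomG isomG_le_similarity)
open Cfsg.Agent.Lib.Classical.Asch.NotSp (eq_inf_of_le')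
open Cfsg.Agent.Lib.Classical.Asch.SpThree

variable {ι : Type} [Fintype ι] [DecidableEq ι] {F : Type*} [Field F] [Fintype F]
variable {Q : QuadraticForm F (ι → F)}

set_option quotPrecheck false in
local notation "𝔣" => polar (⇑Q)

theorem omega_le_sim : omegaGL (⇑Q) ≤ similarityGroup (𝔣) :=
  (omegaGL_le_iso (Q := Q)).trans ((isometry_le_isomG).trans isomG_le_similarity)

theorem reflForm (hQ : (polarBilin Q).Nondegenerate) : ReflForm (RingEquiv.refl F) 1 (𝔣) where
  add_left := fun x y v => polar_add_left Q x y v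
  smul_left := fun c x v => polar_smul_left' Q c x v
  herm := fun u v => by
    rw [polar_comm]
    simp
  invol := fun _ => rfl
  nondeg := fun v hv => by
    have h1 : ∃ x, 𝔣 v x ≠ 0 := by
      by_contra hcon
      push Not at hcon
      exact hv (polarNondeg_of_nondeg Q hQ v hcon)
    obtain ⟨x, hx⟩ := h1
    exact ⟨⟨x, by rwa [polar_comm]⟩, ⟨x, hx⟩⟩

/-- **A plus-type plane over the field with three elements** is not the stabiliser of a maximal subgroup. -/
theorem not_plus_three (hQ : (polarBilin Q).Nondegenerate) (hn : 5 ≤ Fintype.card ι) {H : Subgroup (GL ι F)} {W : Submodule F (ι → F)}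
    (hH : IsMaximalIn (omegaGL (⇑Q)) H) (hle : H ≤ subspaceStabilizer W) (hW : IsNondegenerateOn (𝔣) W)
    (hq : Fintype.card F = 3) (hd : finrank F W = 2) (hp : IsPlusTypeOn (⇑Q) W) : False := by
  classical
  have h2F : (2 : F) ≠ 0 := two_ne_zero_three hq
  obtain ⟨U, hUW, hUts, hUd⟩ := hp
  rw [hd] at hUd
  have hU1 : finrank F U = 1 := by omega
  have hUne : U ≠ ⊥ := by
    intro h
    rw [h, finrank_bot] at hU1
    omega
  obtain ⟨e, heU, he0⟩ := (Submodule.ne_bot_iff _).mp hUne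
  have heW := hUW heU
  have hQe : Q e = 0 := hUts e heU
  obtain ⟨x, hx, hex⟩ := (hW e heW he0).2
  have hee := pol_self hQe
  obtain ⟨f₀, hf₀W, hef₀⟩ : ∃ f₀ ∈ W, 𝔣 e f₀ = 1 :=
    ⟨(𝔣 e x)⁻¹ • x, W.smul_mem _ hx, by rw [polar_smul_right']; exact inv_mul_cancel₀ hex⟩
  obtain ⟨f, hfW, hef, hQf⟩ : ∃ f ∈ W, 𝔣 e f = 1 ∧ Q f = 0 := by
    refine ⟨f₀ - Q f₀ • e, W.sub_mem hf₀W (W.smul_mem _ heW), ?_, ?_⟩
    · rw [polar_sub_right, polar_smul_right', hef₀, hee]
      ring
    · rw [Q_sub, Q_smul, hQe, polar_smul_right', polar_comm, hef₀]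
      ring
  have hfe : 𝔣 f e = 1 := by rw [polar_comm]; exact hef
  have hff := pol_self hQf
  -- the plane
  have hli : LinearIndependent F ![e, f] := by
    rw [LinearIndependent.pair_iff]
    intro a b hab
    have h1 := congrArg (fun v => 𝔣 v f) hab
    have h3 := congrArg (fun v => 𝔣 v e) hab
    simp only [polar_add_left, polar_smul_left', hef, hff, hfe, hee, polar_zero_left, mul_one, mul_zero, add_zero, zero_add] at h1 h3
    exact ⟨h1, h3⟩
  have hspan : ∀ w ∈ W, ∃ a b : F, w = a • e + b • f := by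
    have hsub : Submodule.span F (Set.range ![e, f]) ≤ W := by
      rw [Submodule.span_le]
      rintro _ ⟨i, rfl⟩
      fin_cases i
      · exact heW
      · exact hfW
    have hrank : finrank F (Submodule.span F (Set.range ![e, f])) = finrank F W := by
      rw [finrank_span_eq_card hli, hd]
      simp
    have heq := Submodule.eq_of_le_of_finrank_eq hsub hrank
    intro w hw
    rw [← heq, Submodule.mem_span_range_iff_exists_fun] at hw
    obtain ⟨c, hc⟩ := hw
    rw [Fin.sum_univ_two] at hc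
    exact ⟨c 0, c 1, by simpa using hc.symm⟩
  set v := e + f with hv
  have hQv : Q v = 1 := by
    rw [hv, Q_add, hQe, hQf, hef]
    ring
  have hvW : v ∈ W := W.add_mem heW hfW
  have hv0 : v ≠ 0 := by
    intro h
    rw [h] at hQv
    simp at hQv
  let L : Submodule F (ι → F) := Submodule.span F {v}
  have hHiso : ∀ g ∈ H, g ∈ isometryGroup F (⇑Q) := fun g hg => omegaGL_le_iso (Q := Q) (hH.1.le hg)
  have hInv : Inv H L := by
    intro g hg y hy
    obtain ⟨c, rfl⟩ := Submodule.mem_span_singleton.mp hy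
    rw [Matrix.mulVec_smul]
    refine Submodule.smul_mem _ _ ?_
    have h1 : (g : Matrix ι ι F) *ᵥ v ∈ W := (hle hg v).mp hvW
    obtain ⟨a, b, hab⟩ := hspan _ h1
    have h3 : Q ((g : Matrix ι ι F) *ᵥ v) = 1 := by
      rw [FormO.Q_act_eq (hHiso g hg), hQv]
    have h4 : a * b = 1 := by
      rw [hab, Q_add, Q_smul, Q_smul, hQe, hQf, polar_smul_left', polar_smul_right', hef] at h3
      linear_combination h3
    rw [hab]
    rcases val_three hq a with rfl | rfl | rfl
    · simp at h4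
    · have hb : b = 1 := by simpa using h4
      rw [hb, one_smul, one_smul]
      exact Submodule.mem_span_singleton_self _
    · have hb : b = -1 := by linear_combination -h4
      rw [hb]
      have : (-1 : F) • e + (-1 : F) • f = (-1 : F) • v := by
        rw [hv, smul_add]
      rw [this]
      exact Submodule.smul_mem _ _ (Submodule.mem_span_singleton_self _)
  -- a singular vector in the complement
  have hd' := finrank_perpPair hQe hQf hef
  rw [Module.finrank_fintype_fun_eq_card] at hd'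
  obtain ⟨a, ha0, ha⟩ := exists_singular_of_three_le (Q.comp (perpPair Q e f).subtype) (by omega)
  obtain ⟨hea, hfa⟩ := mem_perpPair.mp a.2
  have ha' : Q (a : ι → F) = 0 := ha
  have ha0' : (a : ι → F) ≠ 0 := fun h => ha0 (Subtype.ext h)
  set v' := e - f with hv'
  have hav' : 𝔣 (a : ι → F) v' = 0 := by
    rw [hv', polar_sub_right, polar_comm _ (a : ι → F) e, polar_comm _ (a : ι → F) f, hea, hfa]
    ring
  have hv'v : 𝔣 v' v = 0 := by
    rw [hv', hv, polar_sub_left, polar_add_right, polar_add_right, hee, hef, hfe, hff]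
    ring
  have hav : 𝔣 (a : ι → F) v = 0 := by
    rw [hv, polar_add_right, polar_comm _ (a : ι → F) e, polar_comm _ (a : ι → F) f, hea, hfa]
    ring
  have hEmem := eG_mem_omegaGL hQ hn ha' hav'
  set E := eG ha' hav' with hE
  have hEv : (E : Matrix ι ι F) *ᵥ v = v := by
    rw [hE, eG_mulVec, hav, hv'v]
    simp
  have hEL : E ∈ subspaceStabilizer L := by
    intro y
    constructor
    · intro hy
      obtain ⟨c, rfl⟩ := Submodule.mem_span_singleton.mp hy
      change (E : Matrix ι ι F) *ᵥ (c • v) ∈ L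
      rw [Matrix.mulVec_smul, hEv]
      exact Submodule.smul_mem _ _ (Submodule.mem_span_singleton_self _)
    · intro hy
      have hy' : (E : Matrix ι ι F) *ᵥ y ∈ L := hy
      obtain ⟨c, hc⟩ := Submodule.mem_span_singleton.mp hy'
      have h1 : (E : Matrix ι ι F) *ᵥ y = (E : Matrix ι ι F) *ᵥ (c • v) := by
        rw [Matrix.mulVec_smul, hEv, hc]
      have h3 : y = c • v := mulVec_injective E h1
      rw [h3]
      exact Submodule.smul_mem _ _ (Submodule.mem_span_singleton_self _)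
  have hEW : E ∉ subspaceStabilizer W := by
    intro h
    have h1 : (E : Matrix ι ι F) *ᵥ v' ∈ W := (h v').mp (W.sub_mem heW hfW)
    have hav'2 : 𝔣 (a : ι → F) v' = 0 := hav'
    have h3 : 𝔣 v' v' = -2 := by
      rw [hv', polar_sub_left, polar_sub_right, polar_sub_right, hee, hef, hfe, hff]
      ring
    rw [hE, eG_mulVec, hav'2, h3] at h1
    have h4 : (a : ι → F) ∈ W := by
      have h5 : v' + (0 : F) • v' - (-2 : F) • (a : ι → F) - (Q v' * 0) • (a : ι → F) = v' + (2 : F) • (a : ι → F) := by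
        simp
      rw [h5] at h1
      have h6 := W.sub_mem h1 (W.sub_mem heW hfW)
      rw [add_sub_cancel_left] at h6
      have h7 := W.smul_mem (2 : F)⁻¹ h6
      rwa [smul_smul, inv_mul_cancel₀ h2F, one_smul] at h7
    obtain ⟨α, β, hαβ⟩ := hspan _ h4
    have h5 := congrArg (fun w => 𝔣 e w) hαβ
    have h6 := congrArg (fun w => 𝔣 f w) hαβ
    simp only [polar_add_right, polar_smul_right', hea, hfa, hee, hef, hfe, hff, mul_one, mul_zero, add_zero, zero_add] at h5 h6
    apply ha0'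
    rw [hαβ, ← h5, ← h6]
    simp
  have hM : H ≤ subspaceStabilizer L ⊓ omegaGL (⇑Q) := le_inf (le_subspaceStabilizer hInv) hH.1.le
  rcases hH.2 _ hM inf_le_right with h | h
  · have h1 : E ∈ H := by
      rw [← h]
      exact ⟨hEL, hEmem⟩
    exact hEW (hle h1)
  · refine not_le_stab hQ hn (W := L) ?_ ?_ (inf_eq_right.mp h)
    · intro h0
      rw [Submodule.span_singleton_eq_bot] at h0
      exact hv0 h0
    · intro h0
      have h1 : finrank F L = 1 := finrank_span_singleton hv0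
      rw [h0, finrank_top, Module.finrank_fintype_fun_eq_card] at h1
      omega

/-- **Decompositions into three-dimensional spaces over the field with three elements** refine to frames. -/
theorem frame_of_three (hq : Fintype.card F = 3) (hQ : (polarBilin Q).Nondegenerate) {t n' : ℕ} (hn' : n' = t * 3)
    {D : Fin t → Submodule F (ι → F)} (hD : IsOrthogonalMDecomposition (⇑Q) 3 D) :
    ∃ D' : Fin n' → Submodule F (ι → F), IsOrthogonalMDecomposition (⇑Q) 1 D' ∧
      ∀ g ∈ isometryGroup F (⇑Q), g ∈ decompositionStabilizer D → g ∈ decompositionStabilizer D' := by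
  classical
  subst hn'
  have hdec := hD.decomp.decomp
  have hcd := Block.card_eq_mul hdec
  have ht := hdec.two_le
  let i₀ : Fin t := ⟨0, by omega⟩
  have h2F : (2 : F) ≠ 0 := two_ne_zero_three hq
  have hfr : finrank F (Fin 3 → F) = finrank F (D i₀) := by
    rw [hdec.finrank_eq, finrank_fintype_fun_eq_card, Fintype.card_fin]
  let φ₀ : (Fin 3 → F) ≃ₗ[F] D i₀ := LinearEquiv.ofFinrankEq _ _ hfr
  have hiso := fun i => hD.isometric i₀ i
  choose ee hee using hiso
  let φ : ∀ i, (Fin 3 → F) ≃ₗ[F] D i := fun i => φ₀.trans (ee i)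
  have hQφ : ∀ i y, Q (φ i y : ι → F) = Q (φ₀ y : ι → F) := fun i y => hee i (φ₀ y)
  let f₂ : (Fin 3 → F) → (Fin 3 → F) → F := fun x y => 𝔣 (φ₀ x : ι → F) (φ₀ y : ι → F)
  have hpol : ∀ i x y, 𝔣 (φ i x : ι → F) (φ i y : ι → F) = f₂ x y := by
    intro i x y
    have h1 : (φ i x : ι → F) + (φ i y : ι → F) = (φ i (x + y) : ι → F) := by rw [map_add]; rfl
    have h3 : (φ₀ x : ι → F) + (φ₀ y : ι → F) = (φ₀ (x + y) : ι → F) := by rw [map_add]; rfl
    simp only [f₂, polar]
    rw [h1, h3, hQφ, hQφ, hQφ]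
  have hf₂ : IsSymmetricForm f₂ := by
    refine ⟨⟨?_, ?_, ?_, ?_⟩, ?_, ?_⟩
    · intro x y v
      simp only [f₂, map_add, Submodule.coe_add, polar_add_left]
    · intro c x v
      simp only [f₂, map_smul, Submodule.coe_smul, polar_smul_left']
    · intro v x y
      simp only [f₂, map_add, Submodule.coe_add, polar_add_right]
    · intro c v x
      simp only [f₂, map_smul, Submodule.coe_smul, polar_smul_right']
    · intro u v
      exact polar_comm _ _ _
    · intro v hv
      have h0 : (φ₀ v : ι → F) ≠ 0 := by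
        intro h
        apply hv
        apply φ₀.injective
        rw [map_zero]
        exact Subtype.ext h
      obtain ⟨⟨x, hx, hxv⟩, ⟨x', hx', hxv'⟩⟩ := hD.decomp.nondegenerate i₀ _ (φ₀ v).2 h0
      refine ⟨⟨φ₀.symm ⟨x, hx⟩, ?_⟩, ⟨φ₀.symm ⟨x', hx'⟩, ?_⟩⟩
      · simpa [f₂] using hxv
      · simpa [f₂] using hxv'
  obtain ⟨c, x, hc, hx⟩ := exists_ortho_triple hq hf₂
  let a : Fin t × Fin 3 → ι → F := fun p => (φ p.1 (x p.2) : ι → F)
  have hamem : ∀ p, a p ∈ D p.1 := fun p => (φ p.1 (x p.2)).2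
  have haa : ∀ p p', 𝔣 (a p) (a p') = if p = p' then c else 0 := by
    rintro ⟨i, j⟩ ⟨i', j'⟩
    by_cases hii : i = i'
    · subst hii
      rw [hpol, hx]
      simp
    · rw [if_neg (by simp [hii])]
      exact hD.decomp.orthogonal i i' hii _ (hamem (i, j)) _ (hamem (i', j'))
  have hane : ∀ p, a p ≠ 0 := by
    intro p h
    have h1 := haa p p
    rw [h, polar_zero_left, if_pos rfl] at h1
    exact hc h1.symm
  have hQa : ∀ p p', Q (a p) = Q (a p') := by
    intro p p'
    have h1 := haa p p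
    have h3 := haa p' p'
    rw [polar_self_eq, if_pos rfl] at h1 h3
    exact mul_left_cancel₀ h2F (h1.trans h3.symm)
  let E : Fin (t * 3) ≃ Fin t × Fin 3 := finProdFinEquiv.symm
  let D' : Fin (t * 3) → Submodule F (ι → F) := fun j => Submodule.span F {a (E j)}
  have hmemD' : ∀ j, ∀ w ∈ D' j, ∃ s : F, w = s • a (E j) := by
    intro j w hw
    obtain ⟨s, rfl⟩ := Submodule.mem_span_singleton.mp hw
    exact ⟨s, rfl⟩
  have hnd : ∀ j, IsNondegenerateOn (𝔣) (D' j) := by
    intro j w hw hw0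
    obtain ⟨s, rfl⟩ := hmemD' j w hw
    have hs : s ≠ 0 := by
      rintro rfl
      exact hw0 (zero_smul _ _)
    refine ⟨⟨a (E j), Submodule.mem_span_singleton_self _, ?_⟩, ⟨a (E j), Submodule.mem_span_singleton_self _, ?_⟩⟩
    · rw [polar_smul_right', haa, if_pos rfl]
      exact mul_ne_zero hs hc
    · rw [polar_smul_left', haa, if_pos rfl]
      exact mul_ne_zero hs hc
  have horth : ∀ i j, i ≠ j → AreOrthogonalFor (𝔣) (D' i) (D' j) := by
    intro i j hij u hu v hv
    obtain ⟨s, rfl⟩ := hmemD' i u hu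
    obtain ⟨s', rfl⟩ := hmemD' j v hv
    rw [polar_smul_left', polar_smul_right', haa, if_neg (fun h => hij (E.injective h))]
    ring
  have hbil : IsBilinearForm (𝔣) :=
    ⟨fun x y v => polar_add_left Q x y v, fun c x v => polar_smul_left' Q c x v, fun v x y => polar_add_right Q v x y,
      fun c v x => polar_smul_right' Q c v x⟩
  have hli : LinearIndependent F (fun j => a (E j)) := by
    rw [Fintype.linearIndependent_iff]
    intro β hβ j
    have h1 := congrArg (fun w => 𝔣 w (a (E j))) hβ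
    simp only [polar_zero_left] at h1
    rw [(Forms.isSesq_of_bilinear hbil).sum_left] at h1
    rw [Finset.sum_eq_single j] at h1
    · have h3 := haa (E j) (E j)
      rw [if_pos rfl] at h3
      have h4 : β j * c = 0 := by
        have h5 := hbil.smul_left (β j) (a (E j)) (a (E j))
        rw [h3] at h5
        rw [← h5]
        exact h1
      exact (mul_eq_zero.mp h4).resolve_right hc
    · intro k _ hk
      have h5 := hbil.smul_left (β k) (a (E k)) (a (E j))
      rw [haa, if_neg (fun h => hk (E.injective h)), mul_zero] at h5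
      exact h5
    · intro h
      exact absurd (Finset.mem_univ _) h
  have htop : iSup D' = ⊤ := by
    have h1 := hli.span_eq_top_of_card_eq_finrank' (by
      rw [Fintype.card_fin, finrank_fintype_fun_eq_card, hcd])
    rw [eq_top_iff, ← h1, Submodule.span_le]
    rintro _ ⟨j, rfl⟩
    exact Submodule.mem_iSup_of_mem j (Submodule.mem_span_singleton_self _)
  refine ⟨D', ⟨⟨⟨by omega, one_pos, fun j => finrank_span_singleton (hane _), indep_of_orth hbil hnd horth, htop⟩, hnd, horth⟩, ?_⟩, ?_⟩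
  · intro j j'
    let L₁ := LinearEquiv.toSpanNonzeroSingleton F (ι → F) (a (E j)) (hane _)
    let L₂ := LinearEquiv.toSpanNonzeroSingleton F (ι → F) (a (E j')) (hane _)
    refine ⟨L₁.symm.trans L₂, fun w => ?_⟩
    obtain ⟨s, rfl⟩ := L₁.surjective w
    simp only [LinearEquiv.trans_apply, LinearEquiv.symm_apply_apply]
    have h1 : ∀ (p) (hp : a p ≠ 0) (s : F), ((LinearEquiv.toSpanNonzeroSingleton F (ι → F) (a p) hp s : Submodule.span F {a p}) : ι → F) = s • a p :=
      fun p hp s => by simp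
    change Q ((LinearEquiv.toSpanNonzeroSingleton F (ι → F) (a (E j')) (hane _) s : Submodule.span F {a (E j')}) : ι → F) =
      Q ((LinearEquiv.toSpanNonzeroSingleton F (ι → F) (a (E j)) (hane _) s : Submodule.span F {a (E j)}) : ι → F)
    rw [h1, h1, Q_smul, Q_smul, hQa (E j') (E j)]
  · rintro g hgI ⟨σ, hσ⟩
    have hisom : ∀ u v, 𝔣 ((g : Matrix ι ι F) *ᵥ u) ((g : Matrix ι ι F) *ᵥ v) = 𝔣 u v := isometry_le_isomG hgI
    have himg : ∀ p, ∃ (z : Fin t × Fin 3) (s : F), s ≠ 0 ∧ (g : Matrix ι ι F) *ᵥ a p = s • a z := by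
      intro p
      have h1 : (g : Matrix ι ι F) *ᵥ a p ∈ D (σ p.1) := by
        rw [← hσ p.1]
        exact ⟨a p, hamem p, rfl⟩
      obtain ⟨y, hy⟩ := (φ (σ p.1)).surjective ⟨_, h1⟩
      have hy' : (φ (σ p.1) y : ι → F) = (g : Matrix ι ι F) *ᵥ a p := congrArg Subtype.val hy
      have h3 : f₂ y y = c := by
        rw [← hpol (σ p.1) y y, hy', hisom, haa, if_pos rfl]
      obtain ⟨j', s, hs, rfl⟩ := eq_smul_of_norm hq hf₂ hc hx h3
      refine ⟨(σ p.1, j'), s, hs, ?_⟩
      rw [← hy', map_smul]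
      rfl
    choose ρ s hs hρ using himg
    have hinj : Function.Injective ρ := by
      intro p p' hpp
      by_contra hne
      have h1 := hisom (a p) (a p')
      rw [hρ, hρ, hpp, polar_smul_left', polar_smul_right', haa, haa, if_pos rfl, if_neg hne] at h1
      exact mul_ne_zero (hs p) (mul_ne_zero (hs p') hc) h1
    let R : Equiv.Perm (Fin t × Fin 3) := Equiv.ofBijective ρ (Finite.injective_iff_bijective.mp hinj)
    refine ⟨E.trans (R.trans E.symm), fun j => ?_⟩
    change (Submodule.span F {a (E j)}).map _ = Submodule.span F {a (E (E.symm (ρ (E j))))}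
    rw [Submodule.map_span, Set.image_singleton, Matrix.toLin'_apply, hρ, E.apply_symm_apply]
    exact Submodule.span_singleton_smul_eq (IsUnit.mk0 _ (hs _)) _

/-- The output of the theorem with equalities. -/
def OutE (Q : (ι → F) → F) (H : Subgroup (GL ι F)) : Prop :=
  (∃ W : Submodule F (ι → F), W ≠ ⊥ ∧ IsTotallySingularQuad Q W ∧ H = subspaceStabilizer W ⊓ omegaGL Q) ∨
  (∃ W : Submodule F (ι → F), W ≠ ⊥ ∧ Even (finrank F W) ∧ IsNondegenerateOn (QuadraticMap.polar Q) W ∧
    ¬ (Fintype.card F = 3 ∧ finrank F W = 2 ∧ IsPlusTypeOn Q W) ∧ H = subspaceStabilizer W ⊓ omegaGL Q) ∨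
  (∃ (t k : ℕ) (D : Fin t → Submodule F (ι → F)), 1 < k ∧ IsOrthogonalMDecomposition Q k D ∧ H = decompositionStabilizer D ⊓ omegaGL Q) ∨
  (∃ (t : ℕ) (D : Fin t → Submodule F (ι → F)), (Fintype.card F).Prime ∧ IsOrthogonalMDecomposition Q 1 D ∧
    H = decompositionStabilizer D ⊓ omegaGL Q) ∨
  (∃ (r : ℕ) (K : Subalgebra F (Matrix ι ι F)), r.Prime ∧ Fintype.card ι ≠ r ∧ IsFieldSubalgebra r K ∧
    IsSelfAdjointFor (QuadraticMap.polar Q) K ∧ H = subalgebraNormalizer K ⊓ omegaGL Q) ∨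
  (∃ (n₁ n₂ : ℕ) (e : ι ≃ Fin n₁ × Fin n₂) (P : GL ι F) (f₁ : (Fin n₁ → F) → (Fin n₁ → F) → F) (f₂ : (Fin n₂ → F) → (Fin n₂ → F) → F),
    3 ≤ n₁ ∧ n₁ < n₂ ∧ IsSymmetricForm f₁ ∧ IsSymmetricForm f₂ ∧ IsTensorFormStructure id (QuadraticMap.polar Q) f₁ f₂ e P ∧
    H ≤ tensorProductSubgroup n₁ n₂ e P) ∨
  (∃ (F₀ : Subfield F) (r : ℕ) (P : GL ι F), r.Prime ∧ Fintype.card F = Nat.card F₀ ^ r ∧ IsQuadFormRationalStructure Q F₀ P ∧
    H = subfieldSubgroup F₀ P ⊓ omegaGL Q) ∨
  (∃ (k t : ℕ) (e : ι ≃ (Fin t → Fin k)) (P : GL ι F) (f₁ : (Fin k → F) → (Fin k → F) → F), 3 ≤ k ∧ 2 ≤ t ∧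
    ¬ (Fintype.card F = 3 ∧ k = 3) ∧ IsSymmetricForm f₁ ∧ IsTensorPowerFormStructure id (QuadraticMap.polar Q) f₁ e P ∧
    H ≤ tensorWreathSubgroup k t e P)

theorem outE_of_outO (h2 : (2 : F) ≠ 0) (hQ : (polarBilin Q).Nondegenerate) (hn : 5 ≤ Fintype.card ι) (hodd : Odd (Fintype.card ι))
    {H : Subgroup (GL ι F)} (hH : IsMaximalIn (omegaGL (⇑Q)) H) (hO : OutO (⇑Q) H) : OutE (⇑Q) H := by
  classical
  rcases hO with ⟨W, h0, hts, hle⟩ | ⟨W, h0, h1, hnd, hle⟩ | ⟨t, k, D, hk, hD, hle⟩ | ⟨t, D, hp, hD, hle⟩ | ⟨r, K, hr, hne, hK, hs, hle⟩ |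
    ⟨n₁, n₂, e, P, f₁, f₂, h3, hlt, h1, h2', hs, hle⟩ | ⟨F₀, r, P, hr, hc, hR, hle⟩ | ⟨k, t, e, P, f₁, hk, ht, hne, h1, hs, hle⟩
  · refine Or.inl ⟨W, h0, hts, eq_inf_of_le' hH hle (not_le_stab hQ hn h0 ?_)⟩
    rintro rfl
    obtain ⟨z, hz0, -⟩ := exists_singular_of_three_le Q (three_le_finrank hn)
    apply hz0
    apply polarNondeg_of_nondeg Q hQ
    intro y
    rw [polar, hts _ trivial, hts _ trivial, hts _ trivial]
    ring
  · refine Or.inr (Or.inl ?_)
    have hf := reflForm hQ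
    have hrad : W ⊓ perpF hf W = ⊥ := by
      rw [Submodule.eq_bot_iff]
      rintro w ⟨hw, hw'⟩
      by_contra hw0
      obtain ⟨⟨x, hx, hxw⟩, -⟩ := hnd w hw hw0
      exact hxw (hw' x hx)
    have hdim := finrank_perpF hf W
    have hW0 : 0 < finrank F W := Module.finrank_pos_iff.mpr (Submodule.nontrivial_iff_ne_bot.mpr h0)
    have hWt : finrank F W < Fintype.card ι := by
      have h3 := Submodule.finrank_lt h1
      rwa [Module.finrank_fintype_fun_eq_card] at h3
    by_cases he : Even (finrank F W)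
    · exact ⟨W, h0, he, hnd, fun ⟨hq, hd, hp⟩ => not_plus_three hQ hn hH hle hnd hq hd hp,
        eq_inf_of_le' hH hle (not_le_stab hQ hn h0 h1)⟩
    · have hP0 : perpF hf W ≠ ⊥ := by
        intro h
        rw [h, finrank_bot] at hdim
        omega
      have hPt : perpF hf W ≠ ⊤ := by
        intro h
        rw [h, finrank_top, Module.finrank_fintype_fun_eq_card] at hdim
        omega
      have hInv : Inv H W := fun g hg v hv => (hle hg v).mp hv
      have hle' : H ≤ subspaceStabilizer (perpF hf W) :=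
        le_subspaceStabilizer (inv_perpF hf (hH.1.le.trans omega_le_sim) hInv)
      have hnd' := isNondegenerateOn_perpF hf hrad
      have hev : Even (finrank F (perpF hf W)) := by
        obtain ⟨c, hc⟩ := hodd
        obtain ⟨d, hd⟩ := Nat.not_even_iff_odd.mp he
        exact ⟨c - d, by omega⟩
      exact ⟨_, hP0, hev, hnd', fun ⟨hq, hd, hp⟩ => not_plus_three hQ hn hH hle' hnd' hq hd hp,
        eq_inf_of_le' hH hle' (not_le_stab hQ hn hP0 hPt)⟩
  · exact Or.inr (Or.inr (Or.inl ⟨t, k, D, hk, hD, eq_inf_of_le' hH hle (not_le_decomp h2 hQ hn hD.decomp.decomp)⟩))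
  · exact Or.inr (Or.inr (Or.inr (Or.inl ⟨t, D, hp, hD, eq_inf_of_le' hH hle (not_le_decomp h2 hQ hn hD.decomp.decomp)⟩)))
  · exact Or.inr (Or.inr (Or.inr (Or.inr (Or.inl ⟨r, K, hr, hne, hK, hs, eq_inf_of_le' hH hle (not_le_normalizer hQ hn hr.two_le hK)⟩))))
  · exact Or.inr (Or.inr (Or.inr (Or.inr (Or.inr (Or.inl ⟨n₁, n₂, e, P, f₁, f₂, h3, hlt, h1, h2', hs, hle⟩)))))
  · exact Or.inr (Or.inr (Or.inr (Or.inr (Or.inr (Or.inr (Or.inl ⟨F₀, r, P, hr, hc, hR, eq_inf_of_le' hH hle (not_le_subfield hQ hn hr.two_le hc P)⟩))))))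
  · exact Or.inr (Or.inr (Or.inr (Or.inr (Or.inr (Or.inr (Or.inr ⟨k, t, e, P, f₁, hk, ht, hne, h1, hs, hle⟩))))))

/-- **The maximal subgroups of the commutator subgroup of the standard orthogonal group in odd dimension.** -/
theorem o_rows {m : ℕ} (hq : Odd (Fintype.card F)) (hm : 2 ≤ m) {H : Subgroup (GL (Unit ⊕ (Fin m ⊕ Fin m)) F)}
    (hH : IsMaximalIn (omegaGL (quadFormOdd m F)) H) : OutE (quadFormOdd m F) H ∨ InOrthogonalResidualClass H := by
  have h2 := Forms.two_ne_zero_of_odd hq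
  obtain ⟨Q, hQ₀, hQ⟩ := exists_quadraticForm (isNondeg_quadFormOdd (m := m) h2)
  have hc : Fintype.card (Unit ⊕ (Fin m ⊕ Fin m)) = 2 * m + 1 := card_odd_index
  have hle : H ≤ isometryGroup F (quadFormOdd m F) := by
    rw [← hQ₀]
    rw [← hQ₀] at hH
    exact hH.1.le.trans omegaGL_le_iso
  rcases omega_odd_mainF hq (by omega) hle with h | h
  · left
    rw [← hQ₀] at h hH ⊢
    exact outE_of_outO h2 hQ (by omega) (by rw [hc]; exact odd_two_mul_add_one m) hH h
  · exact Or.inr h

end Cfsg.Agent.Lib.Classical.Asch.OMax
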