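import Mathlib
import Cfsg.Agent.Lib.Classical.Asch.OMax

/-!
# Aschbacher's theorem for the orthogonal groups in even dimension, all characteristics
-/

set_option autoImplicit false
set_option linter.style.haveILetI false
set_option linter.unusedSectionVars false

namespace Cfsg.Agent.Lib.Classical.Asch.FormOE

open scoped MatrixGroups Matrix Kronecker
open Module Cfsg Cfsg.Geo Cfsg.Agent.Lib.Classical.Asch.Basic Cfsg.Agent.Lib.Classical.Asch.Forms
open Cfsg.Agent.Lib.Classical.Asch.Adj Cfsg.Agent.Lib.Classical.Asch.FormDich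
open Cfsg.Agent.Lib.Classical.Asch.FormTensor Cfsg.Agent.Lib.Classical.Asch.FormSim
open Cfsg.Agent.Lib.Classical.Asch.FormComm Cfsg.Agent.Lib.Classical.Asch.Gram
open Cfsg.Agent.Lib.Classical.Asch.FormPerp Cfsg.Agent.Lib.Classical.Asch.FormField
open Cfsg.Agent.Lib.Classical.Asch.FormSympType
open Cfsg.Agent.Lib.Classical.Asch.FormReal Cfsg.Agent.Lib.Classical.Asch.FormDescent
open Cfsg.Agent.Lib.Classical.Asch.SympType Cfsg.Agent.Lib.Classical.Asch.SympStruct
open Cfsg.Agent.Lib.Classical.Asch.Dichotomy Cfsg.Agent.Lib.Classical.Asch.Subfield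
open Cfsg.Agent.Lib.Classical.Asch.CaseA Cfsg.Agent.Lib.Classical.Asch.Main
open Cfsg.Agent.Lib.Classical.Asch.PureTensor Cfsg.Agent.Lib.Classical.Asch.FormSU2
open Cfsg.Agent.Lib.Classical.Asch.FormO Cfsg.Agent.Lib.Classical.Asch.FormO2
open Cfsg.Agent.Lib.Classical.Asch.FormO3 Cfsg.Agent.Lib.Classical.Asch.SpThree
open Cfsg.Agent.Lib.Classical.Asch.FormSp (scalars_le_similarity IsMDecomposition.two_mul_eq)
open Cfsg.Agent.Lib.Classical.Herm.Descent (fixF mem_fixF card_eq_pow_fix)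

variable {ι : Type} [Fintype ι] [DecidableEq ι] {F : Type*} [Field F] [Fintype F] {Q : (ι → F) → F}

theorem Q_add' (Q : (ι → F) → F) (x y : ι → F) : Q (x + y) = Q x + Q y + QuadraticMap.polar Q x y := by
  simp only [QuadraticMap.polar]
  ring

section Zero

/-- The zero set of an additive semilinear function. -/
def zeroSub (L : (ι → F) → F) (hadd : ∀ u v, L (u + v) = L u + L v) (τ : F → F) (hs : ∀ (c : F) v, L (c • v) = τ c * L v) :
    Submodule F (ι → F) where
  carrier := {v | L v = 0}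
  add_mem' := fun {a b} ha hb => by
    change L (a + b) = 0
    rw [hadd, show L a = 0 from ha, show L b = 0 from hb, add_zero]
  zero_mem' := by
    have h := hadd 0 0
    rw [add_zero] at h
    change L 0 = 0
    linear_combination -h
  smul_mem' := fun c a ha => by
    change L (c • a) = 0
    rw [hs, show L a = 0 from ha, mul_zero]

/-- An additive function on a space of dimension at least two has a non-trivial zero. -/
theorem exists_zero (L : (ι → F) → F) (hadd : ∀ u v, L (u + v) = L u + L v) (h2 : 2 ≤ Fintype.card ι) :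
    ∃ v, v ≠ 0 ∧ L v = 0 := by
  classical
  by_contra hcon
  push Not at hcon
  have h0 : L 0 = 0 := by
    have h := hadd 0 0
    rw [add_zero] at h
    linear_combination -h
  have hinj : Function.Injective L := by
    intro u v huv
    by_contra hne
    apply hcon (u - v) (sub_ne_zero.mpr hne)
    have h := hadd (u - v) v
    rw [sub_add_cancel, huv] at h
    linear_combination -h
  have h1 := Fintype.card_le_of_injective L hinj
  rw [Fintype.card_fun] at h1
  have h3 : 2 ≤ Fintype.card F := Fintype.one_lt_card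
  have h4 : Fintype.card F ^ 2 ≤ Fintype.card F ^ Fintype.card ι := Nat.pow_le_pow_right (by omega) h2
  nlinarith

/-- An additive semilinear function invariant under an irreducible group vanishes. -/
theorem eq_zero_of_irr {X : Subgroup (GL ι F)} (hX : ∀ W : Submodule F (ι → F), Inv X W → W = ⊥ ∨ W = ⊤) (P : GL ι F)
    (L : (ι → F) → F) (hadd : ∀ u v, L (u + v) = L u + L v) (τ : F → F) (hs : ∀ (c : F) v, L (c • v) = τ c * L v)
    (h2 : 2 ≤ Fintype.card ι) (hinv : ∀ x ∈ X, ∀ v, L (((P⁻¹ * x * P : GL ι F) : Matrix ι ι F) *ᵥ v) = L v) (v : ι → F) : L v = 0 := by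
  classical
  set Z := zeroSub L hadd τ hs with hZ
  let W : Submodule F (ι → F) := Z.map (Matrix.toLin' (P : Matrix ι ι F))
  have hW : Inv X W := by
    rintro x hx _ ⟨w, hw, rfl⟩
    refine ⟨((P⁻¹ * x * P : GL ι F) : Matrix ι ι F) *ᵥ w, ?_, ?_⟩
    · change L _ = 0
      rw [hinv x hx]
      exact hw
    · rw [Matrix.toLin'_apply, Matrix.toLin'_apply]
      exact (conj_mulVec_P w).symm
  obtain ⟨v₀, hv₀, hLv₀⟩ := exists_zero L hadd h2
  rcases hX W hW with h | h
  · exfalso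
    apply hv₀
    apply mulVec_injective P
    have h1 : (P : Matrix ι ι F) *ᵥ v₀ ∈ W := ⟨v₀, hLv₀, rfl⟩
    rw [h] at h1
    change (P : Matrix ι ι F) *ᵥ v₀ = (P : Matrix ι ι F) *ᵥ 0
    rw [(Submodule.mem_bot F).mp h1, Matrix.mulVec_zero]
  · have h1 : (P : Matrix ι ι F) *ᵥ v ∈ W := by
      rw [h]
      trivial
    obtain ⟨w, hw, hwv⟩ := h1
    rw [Matrix.toLin'_apply] at hwv
    have h3 := mulVec_injective P hwv
    rw [← h3]
    exact hw

end Zero

section Rational

variable {F₀ : Subfield F}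

/-- The Frobenius map of a subfield. -/
theorem exists_sig {s : ℕ} (hs : Fintype.card F = Nat.card F₀ ^ s) :
    ∃ sig : F →+* F, (∀ x, sig x = x ^ Nat.card F₀) ∧ ∀ x, sig x = x ↔ x ∈ F₀ := by
  classical
  obtain ⟨p, hp⟩ := CharP.exists F
  obtain ⟨m, hprime, hm⟩ := FiniteField.card F p
  haveI : Fact p.Prime := ⟨hprime⟩
  have hs0 : s ≠ 0 := by
    rintro rfl
    rw [pow_zero] at hs
    have : 2 ≤ Fintype.card F := Fintype.one_lt_card
    omega
  have hdvd : Nat.card F₀ ∣ p ^ (m : ℕ) := by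
    rw [← hm, hs]
    exact dvd_pow_self _ hs0
  obtain ⟨l, -, hl⟩ := (Nat.dvd_prime_pow hprime).1 hdvd
  let sig : F →+* F := iterateFrobenius F p l
  have hsig' : ∀ x, sig x = x ^ Nat.card F₀ := by
    intro x
    rw [hl]
    exact iterateFrobenius_def p l x
  refine ⟨sig, hsig', fun x => ?_⟩
  rw [hsig']
  exact (mem_subfield_iff F₀ hs x).symm

/-- **Descent of the quadratic form**: a form whose polar form is rational for an irreducible rational group is rational. -/
theorem quad_rational (hQ : IsNondegenerateQuadraticForm Q) (h2c : 2 ≤ Fintype.card ι) {s : ℕ}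
    (hs : Fintype.card F = Nat.card F₀ ^ s) {P : GL ι F} {ζ : F} (hζ : ∀ i j, ζ * gramP (QuadraticMap.polar Q) P i j ∈ F₀)
    {X : Subgroup (GL ι F)} (hXH : X ≤ isometryGroup F Q) (hXi : ∀ W : Submodule F (ι → F), Inv X W → W = ⊥ ∨ W = ⊤)
    (hXr : ∀ x ∈ X, ∀ i j, ((P⁻¹ * x * P : GL ι F) : Matrix ι ι F) i j ∈ F₀) :
    IsQuadFormRationalStructure (fun v => ζ * Q v) F₀ P := by
  classical
  obtain ⟨sig, -, hsigF⟩ := exists_sig hs
  let Q₁ : (ι → F) → F := fun u => ζ * Q ((P : Matrix ι ι F) *ᵥ u)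
  let f₁ : (ι → F) → (ι → F) → F := fun u v => ζ * QuadraticMap.polar Q ((P : Matrix ι ι F) *ᵥ u) ((P : Matrix ι ι F) *ᵥ v)
  have hf₁ : IsBilinearForm f₁ := by
    refine ⟨fun x y v => ?_, fun c x v => ?_, fun v x y => ?_, fun c v x => ?_⟩
    · simp only [f₁, Matrix.mulVec_add, hQ.polar_bilinear.add_left]
      ring
    · simp only [f₁, Matrix.mulVec_smul, hQ.polar_bilinear.smul_left]
      ring
    · simp only [f₁, Matrix.mulVec_add, hQ.polar_bilinear.add_right]
      ring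
    · simp only [f₁, Matrix.mulVec_smul, hQ.polar_bilinear.smul_right]
      ring
  have hG : ∀ a b, sig (gramMatrix f₁ a b) = gramMatrix f₁ a b := by
    intro a b
    rw [hsigF]
    exact hζ a b
  let bar : (ι → F) → (ι → F) := fun u i => sig (u i)
  have hbar : ∀ u v, f₁ (bar u) (bar v) = sig (f₁ u v) := by
    intro u v
    rw [bilinear_expand hf₁ (bar u), bilinear_expand hf₁ u v]
    simp only [map_sum, map_mul, hG, bar]
  have hQ₁add : ∀ u v, Q₁ (u + v) = Q₁ u + Q₁ v + f₁ u v := by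
    intro u v
    simp only [Q₁, f₁, Matrix.mulVec_add]
    rw [Q_add' Q]
    ring
  have hQ₁sm : ∀ (c : F) u, Q₁ (c • u) = c ^ 2 * Q₁ u := by
    intro c u
    simp only [Q₁, Matrix.mulVec_smul, hQ.smul]
    ring
  let L : (ι → F) → F := fun u => Q₁ (bar u) - sig (Q₁ u)
  have hbaradd : ∀ u v, bar (u + v) = bar u + bar v := by
    intro u v
    funext i
    simp [bar]
  have hbarsm : ∀ (c : F) u, bar (c • u) = sig c • bar u := by
    intro c u
    funext i
    simp [bar]
  have hLadd : ∀ u v, L (u + v) = L u + L v := by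
    intro u v
    simp only [L, hbaradd, hQ₁add, map_add, hbar]
    ring
  have hLsm : ∀ (c : F) v, L (c • v) = (sig c) ^ 2 * L v := by
    intro c v
    simp only [L, hbarsm, hQ₁sm, map_mul, map_pow]
    ring
  have hinv : ∀ x ∈ X, ∀ v, L (((P⁻¹ * x * P : GL ι F) : Matrix ι ι F) *ᵥ v) = L v := by
    intro x hx v
    set A : Matrix ι ι F := ((P⁻¹ * x * P : GL ι F) : Matrix ι ι F) with hA
    have hAs : ∀ i j, sig (A i j) = A i j := fun i j => (hsigF _).mpr (hXr x hx i j)
    have hbarA : ∀ u, bar (A *ᵥ u) = A *ᵥ bar u := by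
      intro u
      funext i
      simp [bar, Matrix.mulVec, dotProduct, map_sum, map_mul, hAs]
    have hQA : ∀ u, Q₁ (A *ᵥ u) = Q₁ u := by
      intro u
      simp only [Q₁]
      rw [hA, ← conj_mulVec_P, Q_act_eq (hXH hx)]
    simp only [L, hbarA, hQA]
  intro u hu
  have h0 := eq_zero_of_irr hXi P L hLadd _ hLsm h2c hinv u
  have hbaru : bar u = u := by
    funext i
    exact (hsigF _).mpr (hu i)
  simp only [L, hbaru] at h0
  exact (hsigF _).mp (sub_eq_zero.mp h0).symm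

/-- Descent of the quadratic form in odd characteristic, for any group. -/
theorem quad_rational_odd (hQ : IsNondegenerateQuadraticForm Q) (h2 : (2 : F) ≠ 0) {P : GL ι F} {ζ : F}
    (hζ : ∀ i j, ζ * gramP (QuadraticMap.polar Q) P i j ∈ F₀) : IsQuadFormRationalStructure (fun v => ζ * Q v) F₀ P := by
  classical
  let f₁ : (ι → F) → (ι → F) → F := fun u v => ζ * QuadraticMap.polar Q ((P : Matrix ι ι F) *ᵥ u) ((P : Matrix ι ι F) *ᵥ v)
  have hf₁ : IsBilinearForm f₁ := by
    refine ⟨fun x y v => ?_, fun c x v => ?_, fun v x y => ?_, fun c v x => ?_⟩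
    · simp only [f₁, Matrix.mulVec_add, hQ.polar_bilinear.add_left]
      ring
    · simp only [f₁, Matrix.mulVec_smul, hQ.polar_bilinear.smul_left]
      ring
    · simp only [f₁, Matrix.mulVec_add, hQ.polar_bilinear.add_right]
      ring
    · simp only [f₁, Matrix.mulVec_smul, hQ.polar_bilinear.smul_right]
      ring
  intro u hu
  have h1 : ζ * Q ((P : Matrix ι ι F) *ᵥ u) = (2 : F)⁻¹ * f₁ u u := by
    simp only [f₁]
    rw [Q_eq_half hQ h2]
    ring
  simp only
  rw [h1, bilinear_expand hf₁ u u]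
  have h3 : (2 : F)⁻¹ ∈ F₀ := F₀.inv_mem (by
    have := F₀.add_mem F₀.one_mem F₀.one_mem
    rwa [one_add_one_eq_two] at this)
  refine F₀.mul_mem h3 (F₀.sum_mem fun a _ => F₀.sum_mem fun b _ => F₀.mul_mem (F₀.mul_mem (hu a) (hζ a b)) (hu b))

end Rational

section Iso

/-- The singular vectors of a polar-isotropic subspace. -/
def radKer (hQ : IsNondegenerateQuadraticForm Q) (W : Submodule F (ι → F)) (hW : ∀ u ∈ W, ∀ v ∈ W, QuadraticMap.polar Q u v = 0) :
    Submodule F (ι → F) where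
  carrier := {w | w ∈ W ∧ Q w = 0}
  add_mem' := fun {a b} ha hb => ⟨W.add_mem ha.1 hb.1, by rw [Q_add' Q, ha.2, hb.2, hW a ha.1 b hb.1]; ring⟩
  zero_mem' := ⟨W.zero_mem, Q_zero hQ⟩
  smul_mem' := fun c a ha => ⟨W.smul_mem c ha.1, by rw [hQ.smul, ha.2, mul_zero]⟩

/-- In characteristic two, a polar-isotropic subspace without singular vectors is a line. -/
theorem exists_span_of_rad (hQ : IsNondegenerateQuadraticForm Q) (h2 : (2 : F) = 0) {W : Submodule F (ι → F)}
    (hW : ∀ u ∈ W, ∀ v ∈ W, QuadraticMap.polar Q u v = 0) (hrad : radKer hQ W hW = ⊥) {v : ι → F} (hv : v ∈ W) (hv0 : v ≠ 0) :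
    Q v ≠ 0 ∧ W = Submodule.span F {v} := by
  have hQv : Q v ≠ 0 := by
    intro h
    have h1 : v ∈ radKer hQ W hW := ⟨hv, h⟩
    rw [hrad] at h1
    exact hv0 h1
  refine ⟨hQv, le_antisymm (fun w hw => ?_) ((Submodule.span_singleton_le_iff_mem _ _).mpr hv)⟩
  haveI : CharP F 2 := CharTwo.of_one_ne_zero_of_two_eq_zero one_ne_zero h2
  have hsq : IsSquare (Q w / Q v) := FiniteField.isSquare_of_char_two (ringChar.eq F 2) _
  obtain ⟨c, hc⟩ := hsq
  have hcc : c ^ 2 * Q v = Q w := by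
    rw [pow_two, ← hc]
    field_simp
  have h1 : w + c • v ∈ radKer hQ W hW := by
    refine ⟨W.add_mem hw (W.smul_mem _ hv), ?_⟩
    rw [Q_add' Q, hQ.smul, hcc, hW w hw _ (W.smul_mem _ hv)]
    linear_combination (Q w) * h2
  rw [hrad] at h1
  have h3 : w + c • v = 0 := h1
  have h4 : w = (-c) • v := by
    rw [neg_smul]
    exact eq_neg_of_add_eq_zero_left h3
  rw [h4]
  exact Submodule.smul_mem _ _ (Submodule.mem_span_singleton_self _)

/-- A polar-isotropic invariant subspace gives an invariant totally singular subspace or a non-singular line. -/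
theorem out_of_polar_iso (hQ : IsNondegenerateQuadraticForm Q) {H : Subgroup (GL ι F)} (hH : H ≤ isometryGroup F Q)
    {W : Submodule F (ι → F)} (h0 : W ≠ ⊥) (hW : ∀ u ∈ W, ∀ v ∈ W, QuadraticMap.polar Q u v = 0) (hinv : Inv H W) :
    (∃ W' : Submodule F (ι → F), W' ≠ ⊥ ∧ IsTotallySingularQuad Q W' ∧ Inv H W') ∨
    ((2 : F) = 0 ∧ ∃ v, Q v ≠ 0 ∧ Inv H (Submodule.span F {v})) := by
  by_cases h2 : (2 : F) = 0
  · by_cases hrad : radKer hQ W hW = ⊥
    · right
      obtain ⟨v, hv, hv0⟩ := (Submodule.ne_bot_iff _).mp h0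
      obtain ⟨h1, h3⟩ := exists_span_of_rad hQ h2 hW hrad hv hv0
      refine ⟨h2, v, h1, ?_⟩
      rw [← h3]
      exact hinv
    · left
      refine ⟨_, hrad, fun w hw => hw.2, fun g hg v hv => ⟨hinv g hg v hv.1, ?_⟩⟩
      rw [Q_act_eq (hH hg)]
      exact hv.2
  · left
    refine ⟨W, h0, fun w hw => ?_, hinv⟩
    rw [Q_eq_half hQ h2, hW w hw w hw, mul_zero]

/-- A polar-isotropic pair for an irreducible group is totally singular. -/
theorem pair_ts (hQ : IsNondegenerateQuadraticForm Q) {H : Subgroup (GL ι F)} (hH : H ≤ isometryGroup F Q)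
    (hirr : ∀ W : Submodule F (ι → F), Inv H W → W = ⊥ ∨ W = ⊤) {k : ℕ} (hk : 2 ≤ k) {D : Fin 2 → Submodule F (ι → F)}
    (hD : IsMDecomposition k D) (hpol : ∀ i, IsTotallySingularFor (QuadraticMap.polar Q) (D i)) (hle : H ≤ decompositionStabilizer D)
    (i : Fin 2) : IsTotallySingularQuad Q (D i) := by
  classical
  by_cases h2 : (2 : F) = 0
  · let E : Fin 2 → Submodule F (ι → F) := fun j => radKer hQ (D j) (hpol j)
    let W : Submodule F (ι → F) := E 0 ⊔ E 1
    have hEinv : ∀ g ∈ H, ∀ j, ∀ v ∈ E j, ∃ j', (g : Matrix ι ι F) *ᵥ v ∈ E j' := by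
      intro g hg j v hv
      obtain ⟨σ, hσ⟩ := hle hg
      refine ⟨σ j, ?_, ?_⟩
      · rw [← hσ j]
        exact ⟨v, hv.1, rfl⟩
      · rw [Q_act_eq (hH hg)]
        exact hv.2
    have hEW : ∀ j, E j ≤ W := by
      intro j
      fin_cases j
      · exact le_sup_left
      · exact le_sup_right
    have hWinv : Inv H W := by
      intro g hg v hv
      obtain ⟨a, ha, b, hb, rfl⟩ := Submodule.mem_sup.mp hv
      rw [Matrix.mulVec_add]
      obtain ⟨j, hj⟩ := hEinv g hg 0 a ha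
      obtain ⟨j', hj'⟩ := hEinv g hg 1 b hb
      exact W.add_mem (hEW j hj) (hEW j' hj')
    have hE0 : E 0 ≠ ⊥ := by
      intro h
      have h1 := hD.finrank_eq 0
      have h3 : D 0 ≠ ⊥ := by
        intro h3
        rw [h3, finrank_bot] at h1
        omega
      obtain ⟨v, hv, hv0⟩ := (Submodule.ne_bot_iff _).mp h3
      obtain ⟨-, h4⟩ := exists_span_of_rad hQ h2 (hpol 0) h hv hv0
      rw [h4, finrank_span_singleton hv0] at h1
      omega
    rcases hirr W hWinv with h | h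
    · exfalso
      apply hE0
      rw [eq_bot_iff, ← h]
      exact hEW 0
    · intro x hx
      have h3 : x ∈ W := by
        rw [h]
        trivial
      obtain ⟨a, ha, b, hb, rfl⟩ := Submodule.mem_sup.mp h3
      have hdis : ∀ j j' : Fin 2, j ≠ j' → Disjoint (D j) (D j') := fun j j' hjj =>
        (hD.indep j).mono_right (le_iSup₂_of_le j' hjj.symm le_rfl)
      fin_cases i
      · have h4 : b ∈ D 0 := by
          have := (D 0).sub_mem hx ha.1
          rwa [add_sub_cancel_left] at this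
        have h5 : b = 0 := Submodule.disjoint_def.mp (hdis 0 1 (by decide)) b h4 hb.1
        rw [h5, add_zero]
        exact ha.2
      · have h4 : a ∈ D 1 := by
          have := (D 1).sub_mem hx hb.1
          rwa [add_sub_cancel_right] at this
        have h5 : a = 0 := Submodule.disjoint_def.mp (hdis 1 0 (by decide)) a h4 ha.1
        rw [h5, zero_add]
        exact hb.2
  · intro x hx
    rw [Q_eq_half hQ h2, hpol i x hx x hx, mul_zero]

end Iso

section Pure

/-- A sum of pairwise polar-orthogonal vectors. -/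
theorem Q_sum_iso {κ : Type*} (hQ : IsNondegenerateQuadraticForm Q) (s : Finset κ) (z : κ → ι → F) (c : κ → F)
    (h : ∀ a ∈ s, ∀ b ∈ s, QuadraticMap.polar Q (z a) (z b) = 0) :
    Q (∑ a ∈ s, c a • z a) = ∑ a ∈ s, c a ^ 2 * Q (z a) := by
  classical
  induction s using Finset.induction_on with
  | empty => simp [Q_zero hQ]
  | insert a s ha ih =>
    rw [Finset.sum_insert ha, Finset.sum_insert ha, Q_add' Q, hQ.smul, ih (fun x hx y hy => h x (Finset.mem_insert_of_mem hx) y (Finset.mem_insert_of_mem hy))]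
    have h1 : QuadraticMap.polar Q (c a • z a) (∑ b ∈ s, c b • z b) = 0 := by
      rw [hQ.polar_bilinear.smul_left, (isSesq_of_bilinear hQ.polar_bilinear).sum_right]
      rw [Finset.sum_eq_zero, mul_zero]
      intro b hb
      have := hQ.polar_bilinear.smul_right (c b) (z a) (z b)
      rw [this, h a (Finset.mem_insert_self _ _) b (Finset.mem_insert_of_mem hb), mul_zero]
    rw [h1]
    ring

theorem kr_sum_left {d k : ℕ} (e : ι ≃ Fin d × Fin k) (x : Fin d → F) (y : Fin k → F) :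
    kr e x y = ∑ i, x i • kr e (Pi.single i 1) y := by
  funext p
  simp only [kr, Finset.sum_apply, Pi.smul_apply, smul_eq_mul, Pi.single_apply]
  rw [Finset.sum_eq_single (e p).1]
  · simp
  · intro b _ hb
    simp [Ne.symm hb]
  · simp

theorem kr_sum_right {d k : ℕ} (e : ι ≃ Fin d × Fin k) (x : Fin d → F) (y : Fin k → F) :
    kr e x y = ∑ j, y j • kr e x (Pi.single j 1) := by
  funext p
  simp only [kr, Finset.sum_apply, Pi.smul_apply, smul_eq_mul, Pi.single_apply]
  rw [Finset.sum_eq_single (e p).2]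
  · simp
    ring
  · intro b _ hb
    simp [Ne.symm hb]
  · simp

/-- **The quadratic form vanishes on the pure tensors** of a tensor product of two alternating forms for an irreducible
group. -/
theorem pure_vanish (hQ : IsNondegenerateQuadraticForm Q) (h2c : 2 ≤ Fintype.card ι) {H : Subgroup (GL ι F)} (hH : H ≤ isometryGroup F Q)
    (hirr : ∀ W : Submodule F (ι → F), Inv H W → W = ⊥ ∨ W = ⊤) {d k : ℕ} {e : ι ≃ Fin d × Fin k} {P : GL ι F}
    {f₁ : (Fin d → F) → (Fin d → F) → F} {f₂ : (Fin k → F) → (Fin k → F) → F} (b₁ : IsBilinearForm f₁) (b₂ : IsBilinearForm f₂)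
    (a₁ : ∀ x, f₁ x x = 0) (a₂ : ∀ y, f₂ y y = 0) (hst : IsTensorFormStructure id (QuadraticMap.polar Q) f₁ f₂ e P)
    (hle : H ≤ tensorProductSubgroup d k e P) (x : Fin d → F) (y : Fin k → F) : Q ((P : Matrix ι ι F) *ᵥ kr e x y) = 0 := by
  classical
  by_cases h2 : (2 : F) = 0
  swap
  · obtain ⟨c₀, hc₀, heq⟩ := hst
    have h3 := heq (fun p => x p.1 * y p.2) (fun p => x p.1 * y p.2)
    rw [form_kr b₁ b₂, a₁, zero_mul, mul_zero] at h3
    rw [Q_eq_half hQ h2]
    change _ * QuadraticMap.polar Q ((P : Matrix ι ι F) *ᵥ ((fun p : Fin d × Fin k => x p.1 * y p.2) ∘ e)) ((P : Matrix ι ι F) *ᵥ ((fun p : Fin d × Fin k => x p.1 * y p.2) ∘ e)) = 0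
    rw [h3, mul_zero]
  obtain ⟨c₀, hc₀, heq⟩ := hst
  have R1 : ∀ z z' u u', QuadraticMap.polar Q ((P : Matrix ι ι F) *ᵥ kr e z u) ((P : Matrix ι ι F) *ᵥ kr e z' u') = c₀ * (f₁ z z' * f₂ u u') := by
    intro z z' u u'
    have h3 := heq (fun p => z p.1 * u p.2) (fun p => z' p.1 * u' p.2)
    rw [form_kr b₁ b₂] at h3
    exact h3
  let Φ : (ι → F) → F := fun v => Q ((P : Matrix ι ι F) *ᵥ v)
  let R : Fin d → Fin k → F := fun i j => Φ (kr e (Pi.single i 1) (Pi.single j 1))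
  let L : (ι → F) → F := fun v => ∑ p, R (e p).1 (e p).2 * v p ^ 2
  have hsq : ∀ a b : F, (a + b) ^ 2 = a ^ 2 + b ^ 2 := by
    intro a b
    linear_combination (a * b) * h2
  have hLadd : ∀ u v, L (u + v) = L u + L v := by
    intro u v
    simp only [L, Pi.add_apply, hsq, mul_add, Finset.sum_add_distrib]
  have hLsm : ∀ (c : F) v, L (c • v) = c ^ 2 * L v := by
    intro c v
    simp only [L, Pi.smul_apply, smul_eq_mul, Finset.mul_sum]
    refine Finset.sum_congr rfl fun p _ => ?_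
    ring
  -- the values on pure vectors
  have hPhi : ∀ z u, Φ (kr e z u) = L (kr e z u) := by
    intro z u
    have h1 : Φ (kr e z u) = ∑ j, u j ^ 2 * Φ (kr e z (Pi.single j 1)) := by
      simp only [Φ]
      conv_lhs => rw [kr_sum_right e z u, Matrix.mulVec_sum]
      simp only [Matrix.mulVec_smul]
      rw [Q_sum_iso hQ]
      intro a _ b _
      rw [R1, a₁, zero_mul, mul_zero]
    have h3 : ∀ j, Φ (kr e z (Pi.single j 1)) = ∑ i, z i ^ 2 * R i j := by
      intro j
      simp only [Φ, R]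
      conv_lhs => rw [kr_sum_left e z (Pi.single j 1), Matrix.mulVec_sum]
      simp only [Matrix.mulVec_smul]
      rw [Q_sum_iso hQ]
      intro a _ b _
      rw [R1, a₂, mul_zero, mul_zero]
    rw [h1]
    simp only [h3]
    simp only [L, kr]
    rw [← Equiv.sum_comp e.symm, Fintype.sum_prod_type]
    simp only [Equiv.apply_symm_apply, Finset.mul_sum]
    rw [Finset.sum_comm]
    refine Finset.sum_congr rfl fun i _ => Finset.sum_congr rfl fun j _ => ?_
    ring
  have hinv : ∀ g ∈ H, ∀ v, L (((P⁻¹ * g * P : GL ι F) : Matrix ι ι F) *ᵥ v) = L v := by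
    intro g hg v
    obtain ⟨a, b, hab⟩ := Main.mem_tensorProductSubgroup_iff.mp (hle hg)
    set A : Matrix ι ι F := ((P⁻¹ * g * P : GL ι F) : Matrix ι ι F) with hA
    let D : (ι → F) → F := fun v => L (A *ᵥ v) - L v
    have hDadd : ∀ u v, D (u + v) = D u + D v := by
      intro u v
      simp only [D, Matrix.mulVec_add, hLadd]
      ring
    have hDsm : ∀ (c : F) v, D (c • v) = c ^ 2 * D v := by
      intro c v
      simp only [D, Matrix.mulVec_smul, hLsm]
      ring
    let Z := zeroSub D hDadd _ hDsm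
    have hZ : Z = ⊤ := by
      rw [eq_top_iff, ← FormEven.span_prod_vectors e, Submodule.span_le]
      rintro _ ⟨u, w, rfl⟩
      change L (A *ᵥ kr e u w) - L (kr e u w) = 0
      rw [tensor_action hab, ← hPhi, ← hPhi]
      have h1 : Φ (kr e ((a : Matrix (Fin d) (Fin d) F) *ᵥ u) ((b : Matrix (Fin k) (Fin k) F) *ᵥ w)) = Φ (kr e u w) := by
        simp only [Φ]
        rw [← tensor_action hab, hA, ← conj_mulVec_P, Q_act_eq (hH hg)]
      rw [h1, sub_self]
    have h1 : v ∈ Z := by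
      rw [hZ]
      trivial
    exact sub_eq_zero.mp h1
  have h0 := eq_zero_of_irr hirr P L hLadd _ hLsm h2c hinv (kr e x y)
  rw [← hPhi] at h0
  exact h0

end Pure

/-! ### The main theorem -/

section Main

variable {H : Subgroup (GL ι F)}

/-- The output of the theorem. -/
def OutOE (Q : (ι → F) → F) (H : Subgroup (GL ι F)) : Prop :=
  (∃ W : Submodule F (ι → F), W ≠ ⊥ ∧ IsTotallySingularQuad Q W ∧ H ≤ subspaceStabilizer W) ∨
  (∃ W : Submodule F (ι → F), W ≠ ⊥ ∧ W ≠ ⊤ ∧ IsNondegenerateOn (QuadraticMap.polar Q) W ∧ H ≤ subspaceStabilizer W) ∨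
  ((2 : F) = 0 ∧ ∃ v, Q v ≠ 0 ∧ H ≤ subspaceStabilizer (Submodule.span F {v})) ∨
  (∃ (t k : ℕ) (D : Fin t → Submodule F (ι → F)), IsOrthogonalMDecomposition Q k D ∧ H ≤ decompositionStabilizer D) ∨
  (∃ (k : ℕ) (D : Fin 2 → Submodule F (ι → F)), IsMDecomposition k D ∧ (∀ i, IsTotallySingularQuad Q (D i)) ∧
    H ≤ decompositionStabilizer D) ∨
  (∃ (r : ℕ) (K : Subalgebra F (Matrix ι ι F)), r.Prime ∧ IsFieldSubalgebra r K ∧ AdjClosed (RingEquiv.refl F) (QuadraticMap.polar Q) K ∧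
    H ≤ subalgebraNormalizer K) ∨
  (∃ (d k : ℕ) (e : ι ≃ Fin d × Fin k) (P : GL ι F) (f₁ : (Fin d → F) → (Fin d → F) → F) (f₂ : (Fin k → F) → (Fin k → F) → F),
    2 ≤ d ∧ 2 ≤ k ∧ (2 : F) ≠ 0 ∧ IsSymmetricForm f₁ ∧ IsSymmetricForm f₂ ∧ IsTensorFormStructure id (QuadraticMap.polar Q) f₁ f₂ e P ∧
    (∀ W : Submodule F (ι → F), Inv (H ⊔ scalars ι F) W → W = ⊥ ∨ W = ⊤) ∧ H ≤ tensorProductSubgroup d k e P) ∨
  (∃ (d k : ℕ) (e : ι ≃ Fin d × Fin k) (P : GL ι F) (f₁ : (Fin d → F) → (Fin d → F) → F) (f₂ : (Fin k → F) → (Fin k → F) → F),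
    2 ≤ d ∧ 2 ≤ k ∧ IsSymplecticForm f₁ ∧ IsSymplecticForm f₂ ∧ IsTensorFormStructure id (QuadraticMap.polar Q) f₁ f₂ e P ∧
    (∀ x y, Q ((P : Matrix ι ι F) *ᵥ kr e x y) = 0) ∧ H ≤ tensorProductSubgroup d k e P) ∨
  (∃ (F₀ : Subfield F) (r : ℕ) (P : GL ι F) (ζ : F), r.Prime ∧ Fintype.card F = Nat.card F₀ ^ r ∧ ζ ≠ 0 ∧
    IsQuadFormRationalStructure (fun v => ζ * Q v) F₀ P ∧ H ≤ subfieldSubgroup F₀ P) ∨
  (∃ (d t : ℕ) (e : ι ≃ (Fin t → Fin d)) (P : GL ι F) (J₀ : GL (Fin d) F) (ε₀ c : F),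
    WreathForm (RingEquiv.refl F) 1 (QuadraticMap.polar Q) (H ⊔ scalars ι F) d t e P J₀ ε₀ c ∧
    (∀ W : Submodule F (ι → F), Inv (H ⊔ scalars ι F) W → W = ⊥ ∨ W = ⊤) ∧
    ∃ X : Subgroup (GL (Fin d) F), ⁅X, X⁆ = X ∧ X ≠ ⊥ ∧ ∀ a ∈ X, ∃ μ : F, μ ≠ 0 ∧
        (a : Matrix (Fin d) (Fin d) F)ᵀ * (J₀ : Matrix (Fin d) (Fin d) F) * (a : Matrix (Fin d) (Fin d) F).map (RingEquiv.refl F) = μ • (J₀ : Matrix (Fin d) (Fin d) F)) ∨
  (∃ (R : Subgroup (GL ι F)) (r s : ℕ), SympData (H ⊔ scalars ι F) R r s ∧ R ≤ isomG (QuadraticMap.polar Q))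

/-- The tensor outcome. -/
theorem out_tensor [Nonempty ι] (hQ : IsNondegenerateQuadraticForm Q) (hn2 : 2 ≤ Fintype.card ι) (hH : H ≤ isometryGroup F Q)
    (hG : ∀ W : Submodule F (ι → F), Inv (H ⊔ scalars ι F) W → W = ⊥ ∨ W = ⊤) {d k : ℕ}
    {e : ι ≃ Fin d × Fin k} {P : GL ι F} {J₁ : GL (Fin d) F} {J₂ : GL (Fin k) F} {ε₁ ε₂ c : F}
    (T : TensorData (RingEquiv.refl F) 1 (QuadraticMap.polar Q) (H ⊔ scalars ι F) d k e P J₁ J₂ ε₁ ε₂ c) : OutOE Q H := by
  classical
  have hsym := symm_polar hQ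
  have hr := reflForm_symmetric hsym
  have hHi : H ≤ isomG (QuadraticMap.polar Q) := hH.trans isometry_le_isomG
  have hGs : H ⊔ scalars ι F ≤ similarityGroup (QuadraticMap.polar Q) :=
    sup_le (hHi.trans isomG_le_similarity) (scalars_le_similarity hr)
  have hirr : ∀ W : Submodule F (ι → F), Inv H W → W = ⊥ ∨ W = ⊤ := fun W hW => hG W (inv_sup hW)
  have hd := T.hd
  have hk := T.hk
  haveI : Nonempty (Fin d) := ⟨⟨0, by omega⟩⟩
  haveI : Nonempty (Fin k) := ⟨⟨0, by omega⟩⟩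
  obtain ⟨hJ₁, he₁⟩ := refl_sign_facts (gl_ne_zero J₁) T.herm₁
  obtain ⟨hJ₂, he₂⟩ := refl_sign_facts (gl_ne_zero J₂) T.herm₂
  have hs : ε₁ * ε₂ = 1 := by
    have h1 := T.sign
    have h3 : c * (ε₁ * ε₂ - 1) = 0 := by
      simp only [RingEquiv.refl_apply, one_mul] at h1
      linear_combination -h1
    exact sub_eq_zero.mp ((mul_eq_zero.mp h3).resolve_left T.hc)
  have he : ε₂ = ε₁ := by
    have h1 : ε₁ * ε₂ = ε₁ * ε₁ := hs.trans he₁.symm
    exact mul_left_cancel₀ T.ne₁ h1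
  obtain rfl : ε₁ = ε₂ := he.symm
  have hHle : H ≤ tensorProductSubgroup d k e P := le_sup_left.trans T.le
  have hst : IsTensorFormStructure id (QuadraticMap.polar Q) (bil (J₁ : Matrix (Fin d) (Fin d) F)) (bil (J₂ : Matrix (Fin k) (Fin k) F)) e P :=
    isTensorFormStructure_of T.hc ((RingEquiv.refl F : F ≃+* F) : F →+* F) T.eq (gramMatrix_bil _) (gramMatrix_bil _)
  have halt : ∀ {J₁' : GL (Fin d) F} {J₂' : GL (Fin k) F}, IsSymplecticForm (bil (J₁' : Matrix (Fin d) (Fin d) F)) →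
      IsSymplecticForm (bil (J₂' : Matrix (Fin k) (Fin k) F)) →
      IsTensorFormStructure id (QuadraticMap.polar Q) (bil (J₁' : Matrix (Fin d) (Fin d) F)) (bil (J₂' : Matrix (Fin k) (Fin k) F)) e P → OutOE Q H := by
    intro J₁' J₂' h1 h3 h4
    exact Or.inr (Or.inr (Or.inr (Or.inr (Or.inr (Or.inr (Or.inr (Or.inl ⟨d, k, e, P, _, _, hd, hk, h1, h3, h4,
      pure_vanish hQ hn2 hH hirr h1.bilinear h3.bilinear h1.alternating h3.alternating h4 hHle, hHle⟩)))))))
  by_cases h2 : (2 : F) = 0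
  · -- characteristic two
    have hε : ε₁ = 1 := by
      rcases FormSp.eq_one_or_of_mul_self he₁ with h | h
      · exact h
      · rw [h]
        linear_combination (-1 : F) * h2
    subst hε
    rw [one_smul] at hJ₁ hJ₂
    have hd₁ : ∀ α, (J₁ : Matrix (Fin d) (Fin d) F) α α = 0 := by
      by_contra hcon
      push Not at hcon
      obtain ⟨α₀, hα₀⟩ := hcon
      exact FormEven.TensorData.not_irr h2 T hGs hJ₁ hα₀ hG
    have hd₂ : ∀ β, (J₂ : Matrix (Fin k) (Fin k) F) β β = 0 := by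
      by_contra hcon
      push Not at hcon
      obtain ⟨β₀, hβ₀⟩ := hcon
      exact FormEven.TensorData.not_irr h2 (TensorData.swap T) hGs hJ₂ hβ₀ hG
    have hneg : ∀ {κ : Type} [Fintype κ] [DecidableEq κ] (A : Matrix κ κ F), Aᵀ = A → Aᵀ = -A := by
      intro κ _ _ A hA
      rw [hA]
      ext i j
      have : A i j + A i j = 0 := by
        rw [← two_mul, h2, zero_mul]
      simp only [Matrix.neg_apply]
      exact eq_neg_of_add_eq_zero_left this
    exact halt (bil_symplectic J₁ (hneg _ hJ₁) hd₁) (bil_symplectic J₂ (hneg _ hJ₂) hd₂) hst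
  · rcases FormSp.eq_one_or_of_mul_self he₁ with h | h
    · subst h
      rw [one_smul] at hJ₁ hJ₂
      exact Or.inr (Or.inr (Or.inr (Or.inr (Or.inr (Or.inr (Or.inl ⟨d, k, e, P, _, _, hd, hk, h2, bil_symmetric J₁ hJ₁, bil_symmetric J₂ hJ₂, hst, hG, hHle⟩))))))
    · subst h
      have hneg : ∀ {κ : Type} [Fintype κ] [DecidableEq κ] (A : Matrix κ κ F), Aᵀ = (-1 : F) • A → Aᵀ = -A := by
        intro κ _ _ A hA
        rw [hA, neg_smul, one_smul]
      have hdiag : ∀ {κ : Type} [Fintype κ] [DecidableEq κ] (A : Matrix κ κ F), Aᵀ = (-1 : F) • A → ∀ i, A i i = 0 := by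
        intro κ _ _ A hA i
        have h3 := congrFun (congrFun hA i) i
        simp only [Matrix.transpose_apply, Matrix.smul_apply, smul_eq_mul] at h3
        have h4 : (2 : F) * A i i = 0 := by linear_combination h3
        exact (mul_eq_zero.mp h4).resolve_left h2
      exact halt (bil_symplectic J₁ (hneg _ hJ₁) (hdiag _ hJ₁)) (bil_symplectic J₂ (hneg _ hJ₂) (hdiag _ hJ₂)) hst

/-- The commutative outcome. -/
theorem out_comm [Nonempty ι] (hQ : IsNondegenerateQuadraticForm Q) (hn2 : 4 ≤ Fintype.card ι) (hH : H ≤ isometryGroup F Q)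
    (hG : ∀ W : Submodule F (ι → F), Inv (H ⊔ scalars ι F) W → W = ⊥ ∨ W = ⊤)
    (hO : CommOutcome (RingEquiv.refl F) (QuadraticMap.polar Q) (H ⊔ scalars ι F)) : OutOE Q H := by
  classical
  have hHG : H ≤ H ⊔ scalars ι F := le_sup_left
  have hirr : ∀ W : Submodule F (ι → F), Inv H W → W = ⊥ ∨ W = ⊤ := fun W hW => hG W (inv_sup hW)
  rcases hO with ⟨t, k, D, hD, hle⟩ | ⟨k, D, hD, hts, hle⟩ | ⟨r, K, hrp, hK, hA, hle⟩
  · exact Or.inr (Or.inr (Or.inr (Or.inl ⟨t, k, D, isOrthogonal_of hH hG hD hle, hHG.trans hle⟩)))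
  · have hk : 2 ≤ k := by
      have := IsMDecomposition.two_mul_eq hD
      omega
    exact Or.inr (Or.inr (Or.inr (Or.inr (Or.inl ⟨k, D, hD, fun i => pair_ts hQ hH hirr hk hD hts (hHG.trans hle) i, hHG.trans hle⟩))))
  · exact Or.inr (Or.inr (Or.inr (Or.inr (Or.inr (Or.inl ⟨r, K, hrp, hK, hA, hHG.trans hle⟩)))))

/-- The residual core. -/
theorem out_core [Nonempty ι] (hQ : IsNondegenerateQuadraticForm Q) (hn2 : 2 ≤ Fintype.card ι) (hH : H ≤ isometryGroup F Q)
    {P : Subgroup (GL ι F)} (hP : IsResidualCore H P) (hN : Normalizes (H ⊔ scalars ι F) P) :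
    OutOE Q H ∨ InOrthogonalResidualClass H := by
  classical
  have hsym := symm_polar hQ
  have hr := reflForm_symmetric hsym
  have hHi : H ≤ isomG (QuadraticMap.polar Q) := hH.trans isometry_le_isomG
  obtain ⟨hirr, hcs⟩ := actsAbsolutelyIrreducibly_iff.mp hP.absIrred
  have hPf : FixesForm (matrixSet P) (QuadraticMap.polar Q) := by
    rintro _ ⟨x, hx, rfl⟩ u v
    exact hHi (hP.le hx) u v
  have hbil := isSesq_of_bilinear hsym.bilinear
  by_cases hU : ∃ (σ : F ≃+* F) (u : (ι → F) → (ι → F) → F), IsUnitaryForm σ u ∧ FixesForm (matrixSet P) u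
  · left
    obtain ⟨σ, u, hu, huP⟩ := hU
    obtain ⟨B, hB⟩ := realize_of_two_forms hcs hu.involutive hu.ne_refl hbil hsym.nondegenerate hPf (isSesq_of_unitary hu)
      hu.nondegenerate huP
    have hord : orderOf σ = 2 := by
      refine orderOf_eq_prime ?_ hu.ne_refl
      ext a
      rw [pow_two]
      exact hu.involutive a
    have hcard : Fintype.card F = Nat.card (fixF σ) ^ 2 := by
      rw [← Nat.card_eq_fintype_card, card_eq_pow_fix σ, hord]
    have hB' : ∀ x ∈ P, ∀ i j, ((B : Matrix ι ι F) * (x : Matrix ι ι F) * ((B⁻¹ : GL ι F) : Matrix ι ι F)) i j ∈ fixF σ :=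
      fun x hx i j => mem_fixF.mpr (hB x hx i j)
    obtain ⟨ζ, hζ0, hζ⟩ := exists_rational hr hcs hPf _ hcard B hB'
    refine Or.inr (Or.inr (Or.inr (Or.inr (Or.inr (Or.inr (Or.inr (Or.inr (Or.inl ⟨fixF σ, 2, B⁻¹, ζ, Nat.prime_two, hcard, hζ0, ?_, ?_⟩))))))))
    · refine quad_rational hQ hn2 hcard hζ (fun x hx => hH (hP.le hx)) (actsIrreducibly_iff.mp hirr) fun x hx i j => ?_
      have h1 : ((B⁻¹⁻¹ * x * B⁻¹ : GL ι F) : Matrix ι ι F) = (B : Matrix ι ι F) * (x : Matrix ι ι F) * ((B⁻¹ : GL ι F) : Matrix ι ι F) := by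
        rw [inv_inv]
        rfl
      rw [h1]
      exact hB' x hx i j
    · exact fun g hg => mem_subfieldSubgroup_of_normalizes _ hcard hcs B hB' (hN g (le_sup_left (a := H) hg))
  · right
    exact ⟨P, hP, hU⟩

/-- **Aschbacher's theorem for the orthogonal groups in even dimension.** -/
theorem oe_mainF [Nonempty ι] (hQ : IsNondegenerateQuadraticForm Q) (hn2 : 4 ≤ Fintype.card ι) (hH : H ≤ isometryGroup F Q) :
    OutOE Q H ∨ InOrthogonalResidualClass H := by
  classical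
  have hsym := symm_polar hQ
  have hr := reflForm_symmetric hsym
  have hHi : H ≤ isomG (QuadraticMap.polar Q) := hH.trans isometry_le_isomG
  have hGs : H ⊔ scalars ι F ≤ similarityGroup (QuadraticMap.polar Q) :=
    sup_le (hHi.trans isomG_le_similarity) (scalars_le_similarity hr)
  have hHG : H ≤ H ⊔ scalars ι F := le_sup_left
  have hn1 : 2 ≤ Fintype.card ι := by omega
  by_cases hG : ∀ W : Submodule F (ι → F), Inv (H ⊔ scalars ι F) W → W = ⊥ ∨ W = ⊤
  · rcases geom_or_dich hr hG hGs with hO | ⟨d, k, e, P, J₁, J₂, ε₁, ε₂, c, T⟩ | hD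
    · exact Or.inl (out_comm hQ hn2 hH hG hO)
    · exact Or.inl (out_tensor hQ hn1 hH hG T)
    · rcases raw_of_dich hn1 hG hD with ⟨K, d, t, e, P, φ, gs, hW⟩ | ⟨R, r, s, D, hs⟩ |
        ⟨F₀, r, B, X, hrp, hc, hle, hXH, hXc, hXi, hXr⟩ | ⟨P, hP, hN⟩
      · obtain ⟨J₀, ε₀, c, T, hX⟩ := WreathData.exists_form hr hW hGs
        exact Or.inl (Or.inr (Or.inr (Or.inr (Or.inr (Or.inr (Or.inr (Or.inr (Or.inr (Or.inr (Or.inl ⟨d, t, e, P, J₀, ε₀, c, T, hG, hX⟩))))))))))
      · have D₀ := SympData.isomData hr D hGs hD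
        exact Or.inl (Or.inr (Or.inr (Or.inr (Or.inr (Or.inr (Or.inr (Or.inr (Or.inr (Or.inr (Or.inr ⟨_, r, s, D₀, inf_le_right⟩))))))))))
      · left
        have hfix : FixesForm (matrixSet X) (QuadraticMap.polar Q) := by
          rintro _ ⟨x, hx, rfl⟩ u v
          exact hHi (hXH hx) u v
        obtain ⟨ζ, hζ0, hζ⟩ := exists_rational hr hXc hfix F₀ hc B hXr
        refine Or.inr (Or.inr (Or.inr (Or.inr (Or.inr (Or.inr (Or.inr (Or.inr (Or.inl ⟨F₀, r, B⁻¹, ζ, hrp, hc, hζ0, ?_, hHG.trans hle⟩))))))))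
        refine quad_rational hQ hn1 hc hζ (fun x hx => hH (hXH hx)) hXi fun x hx i j => ?_
        have h1 : ((B⁻¹⁻¹ * x * B⁻¹ : GL ι F) : Matrix ι ι F) = (B : Matrix ι ι F) * (x : Matrix ι ι F) * ((B⁻¹ : GL ι F) : Matrix ι ι F) := by
          rw [inv_inv]
          rfl
        rw [h1]
        exact hXr x hx i j
      · exact out_core hQ hn1 hH hP hN
  · left
    push Not at hG
    obtain ⟨W, hW, h0, h1⟩ := hG
    have hWH : Inv H W := fun g hg v hv => hW g (hHG hg) v hv
    by_cases hrad : W ⊓ perpF hr W = ⊥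
    · exact Or.inr (Or.inl ⟨W, h0, h1, isNondegenerateOn_of_rad hr hrad, le_subspaceStabilizer hWH⟩)
    · have h3 := out_of_polar_iso hQ hH hrad (fun u hu v hv => isTotallySingular_rad hr W u hu v hv)
        (inv_inf hWH (inv_perpF hr (hHi.trans isomG_le_similarity) hWH))
      rcases h3 with ⟨W', h4, h5, h6⟩ | ⟨h4, v, h5, h6⟩
      · exact Or.inl ⟨W', h4, h5, le_subspaceStabilizer h6⟩
      · exact Or.inr (Or.inr (Or.inl ⟨h4, v, h5, le_subspaceStabilizer h6⟩))

end Main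

end Cfsg.Agent.Lib.Classical.Asch.FormOE
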