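import Mathlib
import Cfsg.Agent.Lib.Classical.Asch.FormOE
import Cfsg.Agent.Lib.Classical.Witt.Lagrangian
import Cfsg.Agent.Lib.Classical.Witt.HypEven

/-!
# The type of an orthogonal space from its structure
-/

set_option autoImplicit false
set_option linter.style.haveILetI false
set_option linter.unusedSectionVars false

namespace Cfsg.Agent.Lib.Classical.Asch.OType

open scoped MatrixGroups Matrix Kronecker
open Module Cfsg Cfsg.Geo QuadraticMap
open Cfsg.Agent.Lib.Classical.Asch.Basic Cfsg.Agent.Lib.Classical.Asch.Forms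
open Cfsg.Agent.Lib.Classical.Asch.FormO Cfsg.Agent.Lib.Classical.Asch.FormOE
open Cfsg.Agent.Lib.Classical.Asch.SpThree
open Cfsg.Agent.Lib.Classical.Geo.OPts
open Cfsg.Agent.Lib.Classical.Witt.Lagrangian
open Cfsg.Agent.Lib.Classical.Witt.Disc (isSquare_sq_mul_iff)

variable {ι : Type} [Fintype ι] [DecidableEq ι] {F : Type*} [Field F] [Fintype F] {Q : (ι → F) → F}

/-- A family of singular orthogonal vectors spanning half the space. -/
theorem plus_of_family (hQ : IsNondegenerateQuadraticForm Q) {κ : Type} [Fintype κ] (z : κ → ι → F) (hli : LinearIndependent F z)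
    (h0 : ∀ a, Q (z a) = 0) (hp : ∀ a b, polar Q (z a) (z b) = 0) (hc : 2 * Fintype.card κ = Fintype.card ι) :
    IsPlusTypeOn Q ⊤ := by
  classical
  refine ⟨Submodule.span F (Set.range z), le_top, fun w hw => ?_, ?_⟩
  · obtain ⟨c, rfl⟩ := (Submodule.mem_span_range_iff_exists_fun F).mp hw
    rw [Q_sum_iso hQ _ _ _ fun a _ b _ => hp a b]
    exact Finset.sum_eq_zero fun a _ => by rw [h0, mul_zero]
  · rw [finrank_span_eq_card hli, finrank_top, finrank_fintype_fun_eq_card]
    exact hc

/-- The Witt criterion in terms of the discriminant. -/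
theorem plus_iff_disc (h2 : (2 : F) ≠ 0) (hQ : IsNondegenerateQuadraticForm Q) {m : ℕ} (hm : 1 ≤ m) (hc : Fintype.card ι = 2 * m)
    {κ : Type} [Fintype κ] [DecidableEq κ] (b : Basis κ F (ι → F)) :
    IsPlusTypeOn Q ⊤ ↔ IsSquare ((-1 : F) ^ m * (Matrix.of fun i j => polar Q (b i) (b j)).det) := by
  classical
  obtain ⟨Q', rfl, hQ'⟩ := exists_quadraticForm hQ
  have hS : LinearMap.BilinForm.IsSymm (polarBilin Q') := by
    refine ⟨fun x y => ?_⟩
    simp only [polarBilin_apply_apply, RingHom.id_apply]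
    exact polar_comm _ _ _
  have h1 := exists_lagrangian_iff h2 (polarBilin Q') hS hQ' hm (by rw [finrank_fintype_fun_eq_card, hc]) b
  have h3 : (Matrix.of fun i j => (polarBilin Q') (b i) (b j)) = (Matrix.of fun i j => polar (⇑Q') (b i) (b j)) := rfl
  rw [← h3, ← h1]
  constructor
  · rintro ⟨X, -, hX, hd⟩
    refine ⟨X, ?_, fun x hx y hy => ?_⟩
    · rw [finrank_top, finrank_fintype_fun_eq_card, hc] at hd
      omega
    · change polar (⇑Q') x y = 0
      rw [polar, hX _ (X.add_mem hx hy), hX _ hx, hX _ hy]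
      ring
  · rintro ⟨X, hd, hX⟩
    refine ⟨X, le_top, fun x hx => ?_, ?_⟩
    · have h5 := hX x hx x hx
      have h6 : polar (⇑Q') x x = 2 * Q' x := FormO.polar_self_eq hQ x
      change polar (⇑Q') x x = 0 at h5
      rw [h5] at h6
      exact (mul_eq_zero.mp h6.symm).resolve_left h2
    · rw [finrank_top, finrank_fintype_fun_eq_card, hc, hd]

/-- A basis adapted to an isometric orthogonal decomposition. -/
theorem exists_block_basis {t k : ℕ} {D : Fin t → Submodule F (ι → F)} (hQ : IsNondegenerateQuadraticForm Q)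
    (hD : IsOrthogonalMDecomposition Q k D) :
    ∃ (b : Basis (Fin k × Fin t) F (ι → F)) (G₀ : Matrix (Fin k) (Fin k) F) (q₀ : Fin k → F), (∀ p, b p ∈ D p.2) ∧
      (∀ p p', polar Q (b p) (b p') = if p.2 = p'.2 then G₀ p.1 p'.1 else 0) ∧ ∀ p, Q (b p) = q₀ p.1 := by
  classical
  have hdec := hD.decomp.decomp
  have ht := hdec.two_le
  let i₀ : Fin t := ⟨0, by omega⟩
  have hfr : finrank F (Fin k → F) = finrank F (D i₀) := by
    rw [hdec.finrank_eq, finrank_fintype_fun_eq_card, Fintype.card_fin]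
  let φ₀ : (Fin k → F) ≃ₗ[F] D i₀ := LinearEquiv.ofFinrankEq _ _ hfr
  have hiso := fun i => hD.isometric i₀ i
  choose ee hee using hiso
  let φ : ∀ i, (Fin k → F) ≃ₗ[F] D i := fun i => φ₀.trans (ee i)
  have hQφ : ∀ i y, Q (φ i y : ι → F) = Q (φ₀ y : ι → F) := fun i y => hee i (φ₀ y)
  have hpol : ∀ i x y, polar Q (φ i x : ι → F) (φ i y : ι → F) = polar Q (φ₀ x : ι → F) (φ₀ y : ι → F) := by
    intro i x y
    have h1 : (φ i x : ι → F) + (φ i y : ι → F) = (φ i (x + y) : ι → F) := by rw [map_add]; rfl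
    have h3 : (φ₀ x : ι → F) + (φ₀ y : ι → F) = (φ₀ (x + y) : ι → F) := by rw [map_add]; rfl
    simp only [polar]
    rw [h1, h3, hQφ, hQφ, hQφ]
  have hint := DirectSum.isInternal_submodule_of_iSupIndep_of_iSup_eq_top hdec.indep hdec.iSup_eq_top
  let v : ∀ i, Basis (Fin k) F (D i) := fun i => (Pi.basisFun F (Fin k)).map (φ i)
  let b₀ := hint.collectedBasis v
  let E : (Fin k × Fin t) ≃ (Σ _ : Fin t, Fin k) := (Equiv.prodComm _ _).trans (Equiv.sigmaEquivProd _ _).symm
  let b := b₀.reindex E.symm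
  have hb : ∀ p, b p = (φ p.2 (Pi.single p.1 1) : ι → F) := by
    intro p
    simp only [b, Basis.reindex_apply, Equiv.symm_symm]
    change (hint.collectedBasis v) (E p) = _
    rw [DirectSum.IsInternal.collectedBasis_coe]
    obtain ⟨j, i⟩ := p
    simp only [E, v]
    change (((Pi.basisFun F (Fin k)).map (φ i)) j : ι → F) = _
    rw [Basis.map_apply, Pi.basisFun_apply]
  refine ⟨b, Matrix.of fun j j' => polar Q (φ₀ (Pi.single j 1) : ι → F) (φ₀ (Pi.single j' 1) : ι → F),
    fun j => Q (φ₀ (Pi.single j 1) : ι → F), fun p => ?_, fun p p' => ?_, fun p => ?_⟩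
  · rw [hb]
    exact (φ p.2 _).2
  · rw [hb, hb]
    by_cases hi : p.2 = p'.2
    · rw [if_pos hi]
      obtain ⟨j, i⟩ := p
      obtain ⟨j', i'⟩ := p'
      obtain rfl : i = i' := hi
      exact hpol _ _ _
    · rw [if_neg hi]
      exact hD.decomp.orthogonal _ _ hi _ (φ p.2 _).2 _ (φ p'.2 _).2
  · rw [hb]
    exact hQφ _ _

/-- The discriminant of an isometric decomposition. -/
theorem plus_iff_block (h2 : (2 : F) ≠ 0) (hQ : IsNondegenerateQuadraticForm Q) {t k m : ℕ} {D : Fin t → Submodule F (ι → F)}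
    (hD : IsOrthogonalMDecomposition Q k D) (hm : 1 ≤ m) (hc : Fintype.card ι = 2 * m) :
    ∃ δ : F, δ ≠ 0 ∧ (IsPlusTypeOn Q ⊤ ↔ IsSquare ((-1 : F) ^ m * δ ^ t)) := by
  classical
  obtain ⟨b, G₀, q₀, hb, hG, -⟩ := exists_block_basis hQ hD
  have h1 := plus_iff_disc h2 hQ hm hc b
  have h3 : (Matrix.of fun i j => polar Q (b i) (b j)) = Matrix.blockDiagonal fun _ : Fin t => G₀ := by
    ext p p'
    rw [Matrix.of_apply, hG, Matrix.blockDiagonal_apply]
  rw [h3, Matrix.det_blockDiagonal, Finset.prod_const, Finset.card_univ, Fintype.card_fin] at h1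
  refine ⟨G₀.det, ?_, h1⟩
  -- nondegeneracy
  intro h0
  have h4 : (Matrix.of fun i j => polar Q (b i) (b j)).det = 0 := by
    rw [h3, Matrix.det_blockDiagonal, Finset.prod_const, h0, zero_pow]
    rw [Finset.card_univ, Fintype.card_fin]
    have := hD.decomp.decomp.two_le
    omega
  obtain ⟨w, hw0, hw⟩ := Matrix.exists_vecMul_eq_zero_iff.mpr h4
  let u : ι → F := ∑ p, w p • b p
  have hu : u ≠ 0 := by
    intro hu0
    apply hw0
    funext p
    exact Fintype.linearIndependent_iff.mp b.linearIndependent w hu0 p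
  obtain ⟨y, hy⟩ := (hQ.nondegenerate u hu).2
  apply hy
  have hy' : y = ∑ p, (b.repr y p) • b p := (b.sum_repr y).symm
  rw [hy', (isSesq_of_bilinear hQ.polar_bilinear).sum_right, Finset.sum_eq_zero]
  intro p _
  have h5 := hQ.polar_bilinear.smul_right (b.repr y p) u (b p)
  rw [h5]
  have h6 : polar Q u (b p) = ∑ p', w p' * polar Q (b p') (b p) := by
    simp only [u]
    rw [(isSesq_of_bilinear hQ.polar_bilinear).sum_left]
    exact Finset.sum_congr rfl fun p' _ => hQ.polar_bilinear.smul_left _ _ _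
  have h7 := congrFun hw p
  simp only [Matrix.vecMul, dotProduct, Matrix.of_apply, Pi.zero_apply] at h7
  rw [h6, h7, mul_zero]

/-- An even number of isometric summands in odd characteristic. -/
theorem plus_of_even_block (h2 : (2 : F) ≠ 0) (hQ : IsNondegenerateQuadraticForm Q) {t k m : ℕ} {D : Fin t → Submodule F (ι → F)}
    (hD : IsOrthogonalMDecomposition Q k D) (hm : 1 ≤ m) (hc : Fintype.card ι = 2 * m) (ht : Even t) (hmE : Even m) :
    IsPlusTypeOn Q ⊤ := by
  obtain ⟨δ, -, h⟩ := plus_iff_block h2 hQ hD hm hc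
  rw [h, hmE.neg_one_pow, one_mul]
  exact ht.isSquare_pow δ

/-- An even number of isometric summands in characteristic two. -/
theorem plus_of_even_block_two (h2 : (2 : F) = 0) (hQ : IsNondegenerateQuadraticForm Q) {t k : ℕ} {D : Fin t → Submodule F (ι → F)}
    (hD : IsOrthogonalMDecomposition Q k D) (ht : Even t) : IsPlusTypeOn Q ⊤ := by
  classical
  obtain ⟨b, G₀, q₀, hb, hG, hq⟩ := exists_block_basis hQ hD
  obtain ⟨s, rfl⟩ := ht
  let l : Fin s → Fin (s + s) := fun i => ⟨i, by omega⟩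
  let r : Fin s → Fin (s + s) := fun i => ⟨s + i, by omega⟩
  have hlr : ∀ i i', l i ≠ r i' := by
    intro i i' h
    have := congrArg Fin.val h
    simp only [l, r] at this
    omega
  have hl : ∀ i i', l i = l i' ↔ i = i' := by
    intro i i'
    simp only [l, Fin.mk.injEq]
    exact Fin.val_inj
  have hr : ∀ i i', r i = r i' ↔ i = i' := by
    intro i i'
    simp only [r, Fin.mk.injEq]
    rw [Nat.add_right_inj]
    exact Fin.val_inj
  let z : Fin k × Fin s → ι → F := fun a => b (a.1, l a.2) + b (a.1, r a.2)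
  have hcard := Block.card_eq_mul hD.decomp.decomp
  refine plus_of_family hQ z ?_ ?_ ?_ ?_
  · rw [Fintype.linearIndependent_iff]
    intro c hc a
    have h3 := congrArg (fun v => b.repr v (a.1, l a.2)) hc
    simp only [z, map_sum, map_smul, map_add, Finsupp.coe_finsetSum, Finset.sum_apply, Finsupp.coe_smul, Pi.smul_apply,
      Finsupp.coe_add, Pi.add_apply, Basis.repr_self, map_zero, Finsupp.coe_zero, Pi.zero_apply, smul_eq_mul] at h3
    rw [Finset.sum_eq_single a] at h3
    · rw [Finsupp.single_apply, if_pos rfl, Finsupp.single_apply, if_neg (by simp [(hlr _ _).symm]), add_zero, mul_one] at h3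
      exact h3
    · intro a' _ ha'
      rw [Finsupp.single_apply, if_neg, Finsupp.single_apply, if_neg (by simp [(hlr _ _).symm]), add_zero, mul_zero]
      simp only [Prod.mk.injEq, hl]
      intro h5
      exact ha' (Prod.ext h5.1 h5.2)
    · intro h
      exact absurd (Finset.mem_univ _) h
  · intro a
    simp only [z]
    rw [Q_add' Q, hq, hq, hG, if_neg (fun h => hlr _ _ h)]
    simp only
    linear_combination (q₀ a.1) * h2
  · intro a a'
    simp only [z]
    have hadd := hQ.polar_bilinear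
    rw [hadd.add_left, hadd.add_right, hadd.add_right, hG, hG, hG, hG]
    simp only [hl, hr, if_neg (hlr _ _), if_neg ((hlr _ _).symm)]
    by_cases h : a.2 = a'.2
    · simp only [h, if_true]
      linear_combination (G₀ a.1 a'.1) * h2
    · simp [h]
  · rw [Fintype.card_prod, Fintype.card_fin, Fintype.card_fin, hcard]
    ring

/-- An even number of isometric summands. -/
theorem plus_of_even_block' (hQ : IsNondegenerateQuadraticForm Q) {t k m : ℕ} {D : Fin t → Submodule F (ι → F)}
    (hD : IsOrthogonalMDecomposition Q k D) (hm : 1 ≤ m) (hc : Fintype.card ι = 2 * m) (ht : Even t) (hmE : Even m) :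
    IsPlusTypeOn Q ⊤ := by
  by_cases h2 : (2 : F) = 0
  · exact plus_of_even_block_two h2 hQ hD ht
  · exact plus_of_even_block h2 hQ hD hm hc ht hmE


/-- The dimension of an independent sum. -/
theorem finrank_iSup_indep {κ : Type} [Fintype κ] [DecidableEq κ] {V : Type*} [AddCommGroup V] [Module F V] [FiniteDimensional F V]
    {U : κ → Submodule F V} (h : iSupIndep U) : finrank F ↥(⨆ i, U i) = ∑ i, finrank F (U i) := by
  classical
  rw [Submodule.iSup_eq_range_dfinsupp_lsum, LinearMap.finrank_range_of_inj h.dfinsupp_lsum_injective]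
  exact Module.finrank_directSum F (fun i => U i)

/-- If all the members of a decomposition are of plus type then so is the whole space. -/
theorem plus_of_all_plus (hQ : IsNondegenerateQuadraticForm Q) {t k : ℕ} {D : Fin t → Submodule F (ι → F)}
    (hD : IsNondegenerateMDecomposition (polar Q) k D) (hp : ∀ i, IsPlusTypeOn Q (D i)) : IsPlusTypeOn Q ⊤ := by
  classical
  choose U hUD hUts hUd using hp
  have hb := hQ.polar_bilinear
  have hU0 : ∀ i, ∀ u ∈ U i, ∀ v ∈ U i, polar Q u v = 0 := by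
    intro i u hu v hv
    rw [polar, hUts i _ ((U i).add_mem hu hv), hUts i _ hu, hUts i _ hv]
    ring
  have hpol1 : ∀ i, ∀ u ∈ U i, ∀ v ∈ ⨆ j, U j, polar Q u v = 0 := by
    intro i u hu v hv
    refine Submodule.iSup_induction U (motive := fun v => polar Q u v = 0) hv ?_ ?_ ?_
    · intro j v hv
      by_cases hij : i = j
      · subst hij
        exact hU0 i u hu v hv
      · exact hD.orthogonal i j hij _ (hUD i hu) _ (hUD j hv)
    · have := hb.smul_right 0 u 0
      simpa using this
    · intro x y hx hy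
      rw [hb.add_right, hx, hy, add_zero]
  have hpol2 : ∀ u ∈ ⨆ j, U j, ∀ v ∈ ⨆ j, U j, polar Q u v = 0 := by
    intro u hu v hv
    refine Submodule.iSup_induction U (motive := fun u => polar Q u v = 0) hu ?_ ?_ ?_
    · intro j u hu
      exact hpol1 j u hu v hv
    · have := hb.smul_left 0 0 v
      simpa using this
    · intro x y hx hy
      rw [hb.add_left, hx, hy, add_zero]
  have hle : (⨆ j, U j) ≤ radKer hQ (⨆ j, U j) hpol2 := by
    refine iSup_le fun i u hu => ⟨Submodule.mem_iSup_of_mem i hu, hUts i u hu⟩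
  refine ⟨⨆ j, U j, le_top, fun w hw => (hle hw).2, ?_⟩
  rw [finrank_iSup_indep (hD.decomp.indep.mono hUD), finrank_top, finrank_fintype_fun_eq_card, Block.card_eq_mul hD.decomp, Finset.mul_sum]
  have h1 : ∀ i, 2 * finrank F (U i) = k := fun i => by rw [hUd i, hD.decomp.finrank_eq i]
  simp only [h1, Finset.sum_const, Finset.card_univ, Fintype.card_fin, smul_eq_mul]

section Pure

/-- The polar form on pure vectors. -/
theorem pol_kr {d k : ℕ} {e : ι ≃ Fin d × Fin k} {P : GL ι F} {f₁ : (Fin d → F) → (Fin d → F) → F} {f₂ : (Fin k → F) → (Fin k → F) → F}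
    (b₁ : IsBilinearForm f₁) (b₂ : IsBilinearForm f₂) (hs : IsTensorFormStructure id (polar Q) f₁ f₂ e P) :
    ∃ c : F, c ≠ 0 ∧ ∀ z z' y y', polar Q ((P : Matrix ι ι F) *ᵥ kr e z y) ((P : Matrix ι ι F) *ᵥ kr e z' y') = c * (f₁ z z' * f₂ y y') := by
  obtain ⟨c, hc, heq⟩ := hs
  refine ⟨c, hc, fun z z' y y' => ?_⟩
  have h3 := heq (fun p => z p.1 * y p.2) (fun p => z' p.1 * y' p.2)
  rw [form_kr b₁ b₂] at h3
  exact h3

/-- The swap of a tensor structure. -/
theorem tensor_swap {d k : ℕ} {e : ι ≃ Fin d × Fin k} {P : GL ι F} {f : (ι → F) → (ι → F) → F} {f₁ : (Fin d → F) → (Fin d → F) → F}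
    {f₂ : (Fin k → F) → (Fin k → F) → F} (hs : IsTensorFormStructure id f f₁ f₂ e P) :
    IsTensorFormStructure id f f₂ f₁ (e.trans (Equiv.prodComm _ _)) P := by
  obtain ⟨c, hc, heq⟩ := hs
  refine ⟨c, hc, fun x y => ?_⟩
  have h1 := heq (x ∘ Equiv.prodComm _ _) (y ∘ Equiv.prodComm _ _)
  have h3 : ∀ z : Fin k × Fin d → F, (z ∘ Equiv.prodComm _ _) ∘ e = z ∘ (e.trans (Equiv.prodComm _ _)) := fun z => rfl
  rw [h3, h3] at h1
  rw [h1]
  congr 1
  unfold formOfGram
  rw [← Equiv.sum_comp (Equiv.prodComm (Fin k) (Fin d))]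
  refine Finset.sum_congr rfl fun a _ => ?_
  rw [← Equiv.sum_comp (Equiv.prodComm (Fin k) (Fin d))]
  refine Finset.sum_congr rfl fun b _ => ?_
  simp only [Function.comp_apply, Equiv.prodComm_apply, Matrix.kroneckerMap_apply, id, Prod.fst_swap, Prod.snd_swap, Prod.swap_swap]
  ring

/-- The pure vectors from independent families are independent. -/
theorem li_kr {d k : ℕ} (e : ι ≃ Fin d × Fin k) {A B : Type} [Fintype A] [Fintype B] {x : A → Fin d → F} {y : B → Fin k → F}
    (hx : LinearIndependent F x) (hy : LinearIndependent F y) : LinearIndependent F (fun a : A × B => kr e (x a.1) (y a.2)) := by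
  classical
  rw [Fintype.linearIndependent_iff]
  intro c hc ⟨a, b⟩
  have h1 : ∀ p q, ∑ a, ∑ b, c (a, b) * (x a p * y b q) = 0 := by
    intro p q
    have h3 := congrFun hc (e.symm (p, q))
    simp only [Finset.sum_apply, Pi.smul_apply, smul_eq_mul, kr, Equiv.apply_symm_apply, Pi.zero_apply, Fintype.sum_prod_type] at h3
    exact h3
  have h3 : ∀ q a, ∑ b, c (a, b) * y b q = 0 := by
    intro q a
    have h4 : ∑ a, (∑ b, c (a, b) * y b q) • x a = 0 := by
      funext p
      simp only [Finset.sum_apply, Pi.smul_apply, smul_eq_mul, Pi.zero_apply, Finset.sum_mul]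
      rw [← h1 p q]
      refine Finset.sum_congr rfl fun a _ => Finset.sum_congr rfl fun b _ => ?_
      ring
    exact Fintype.linearIndependent_iff.mp hx _ h4 a
  have h4 : ∑ b, c (a, b) • y b = 0 := by
    funext q
    simpa using h3 q a
  exact Fintype.linearIndependent_iff.mp hy _ h4 b

theorem li_single {k : ℕ} : LinearIndependent F (fun j : Fin k => (Pi.single j 1 : Fin k → F)) := by
  have h : (fun j : Fin k => (Pi.single j 1 : Fin k → F)) = ⇑(Pi.basisFun F (Fin k)) := by
    funext j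
    simp
  rw [h]
  exact (Pi.basisFun F (Fin k)).linearIndependent

/-- Totally singular pure vectors. -/
theorem plus_of_pure (hQ : IsNondegenerateQuadraticForm Q) {d k : ℕ} {e : ι ≃ Fin d × Fin k} {P : GL ι F} {A B : Type} [Fintype A] [Fintype B]
    {x : A → Fin d → F} {y : B → Fin k → F} (hx : LinearIndependent F x) (hy : LinearIndependent F y)
    (h0 : ∀ a b, Q ((P : Matrix ι ι F) *ᵥ kr e (x a) (y b)) = 0)
    (hp : ∀ a b a' b', polar Q ((P : Matrix ι ι F) *ᵥ kr e (x a) (y b)) ((P : Matrix ι ι F) *ᵥ kr e (x a') (y b')) = 0)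
    (hc : 2 * (Fintype.card A * Fintype.card B) = Fintype.card ι) : IsPlusTypeOn Q ⊤ := by
  classical
  refine plus_of_family hQ (κ := A × B) (fun a => (P : Matrix ι ι F) *ᵥ kr e (x a.1) (y a.2)) ?_ (fun a => h0 _ _) (fun a a' => hp _ _ _ _) ?_
  · have h1 := (li_kr e hx hy).map' (Matrix.toLin' (P : Matrix ι ι F)) (LinearMap.ker_eq_bot.mpr fun u v huv => mulVec_injective P (by simpa using huv))
    have h3 : (fun a : A × B => (P : Matrix ι ι F) *ᵥ kr e (x a.1) (y a.2)) = (Matrix.toLin' (P : Matrix ι ι F)) ∘ fun a : A × B => kr e (x a.1) (y a.2) := by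
      funext a
      simp [Matrix.toLin'_apply]
    rw [h3]
    exact h1
  · rw [Fintype.card_prod]
    exact hc

/-- The quadratic form on pure vectors in odd characteristic. -/
theorem Q_kr_odd (h2 : (2 : F) ≠ 0) (hQ : IsNondegenerateQuadraticForm Q) {d k : ℕ} {e : ι ≃ Fin d × Fin k} {P : GL ι F}
    {f₁ : (Fin d → F) → (Fin d → F) → F} {f₂ : (Fin k → F) → (Fin k → F) → F} {c : F}
    (hc : ∀ z z' y y', polar Q ((P : Matrix ι ι F) *ᵥ kr e z y) ((P : Matrix ι ι F) *ᵥ kr e z' y') = c * (f₁ z z' * f₂ y y'))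
    {x : Fin d → F} {y : Fin k → F} (h0 : f₁ x x * f₂ y y = 0) : Q ((P : Matrix ι ι F) *ᵥ kr e x y) = 0 := by
  have h3 := hc x x y y
  rw [FormO.polar_self_eq hQ, h0, mul_zero] at h3
  exact (mul_eq_zero.mp h3).resolve_left h2

/-- The form on the left tensor factor is isotropic: then the whole space is of plus type. -/
theorem plus_of_left_singular (h2 : (2 : F) ≠ 0) (hQ : IsNondegenerateQuadraticForm Q) {d k : ℕ} {e : ι ≃ Fin d × Fin k} {P : GL ι F}
    {f₁ : (Fin d → F) → (Fin d → F) → F} {f₂ : (Fin k → F) → (Fin k → F) → F} (b₁ : IsBilinearForm f₁) (b₂ : IsBilinearForm f₂)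
    (hs : IsTensorFormStructure id (polar Q) f₁ f₂ e P) (hd : d = 2) {u : Fin d → F} (hu : u ≠ 0) (hu0 : f₁ u u = 0) : IsPlusTypeOn Q ⊤ := by
  classical
  obtain ⟨c, hc, hR⟩ := pol_kr b₁ b₂ hs
  have hcard : Fintype.card ι = d * k := by
    rw [Fintype.card_congr e, Fintype.card_prod, Fintype.card_fin, Fintype.card_fin]
  refine plus_of_pure hQ (e := e) (P := P) (A := Unit) (B := Fin k) (x := fun _ => u) (y := fun j => Pi.single j 1) ?_ ?_ ?_ ?_ ?_
  · rw [Fintype.linearIndependent_iff]
    intro g hg a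
    simp only [Fintype.sum_unique] at hg
    obtain rfl : a = default := Subsingleton.elim _ _
    exact (smul_eq_zero.mp hg).resolve_right hu
  · exact li_single
  · intro a b
    exact Q_kr_odd h2 hQ hR (by rw [hu0, zero_mul])
  · intro a b a' b'
    rw [hR, hu0]
    ring
  · rw [hcard, hd]
    simp

/-- A totally isotropic subspace of the right factor of half its dimension. -/
theorem plus_of_right_half (h2 : (2 : F) ≠ 0) (hQ : IsNondegenerateQuadraticForm Q) {d k : ℕ} {e : ι ≃ Fin d × Fin k} {P : GL ι F}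
    {f₁ : (Fin d → F) → (Fin d → F) → F} {f₂ : (Fin k → F) → (Fin k → F) → F} (b₁ : IsBilinearForm f₁) (b₂ : IsBilinearForm f₂)
    (hs : IsTensorFormStructure id (polar Q) f₁ f₂ e P) {U : Submodule F (Fin k → F)} (hU : ∀ u ∈ U, ∀ v ∈ U, f₂ u v = 0)
    (hd : 2 * finrank F U = k) : IsPlusTypeOn Q ⊤ := by
  classical
  obtain ⟨c, hc, hR⟩ := pol_kr b₁ b₂ hs
  have hcard : Fintype.card ι = d * k := by
    rw [Fintype.card_congr e, Fintype.card_prod, Fintype.card_fin, Fintype.card_fin]
  let bU := finBasis F U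
  refine plus_of_pure hQ (e := e) (P := P) (A := Fin d) (B := Fin (finrank F U)) (x := fun j => Pi.single j 1) (y := fun j => (bU j : Fin k → F)) ?_ ?_ ?_ ?_ ?_
  · exact li_single
  · exact bU.linearIndependent.map' U.subtype (Submodule.ker_subtype U)
  · intro a b
    exact Q_kr_odd h2 hQ hR (by rw [hU _ (bU b).2 _ (bU b).2, mul_zero])
  · intro a b a' b'
    rw [hR, hU _ (bU b).2 _ (bU b').2]
    ring
  · rw [hcard, Fintype.card_fin, Fintype.card_fin]
    calc 2 * (d * finrank F U) = d * (2 * finrank F U) := by ring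
      _ = d * k := by rw [hd]

end Pure

end Cfsg.Agent.Lib.Classical.Asch.OType
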