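import Mathlib
import Cfsg.Agent.Lib.Classical.Asch.OType
import Cfsg.Agent.Lib.Classical.Geo.OPlane

/-!
# Degree two field structures on orthogonal spaces; subfield forms of index two
-/

set_option autoImplicit false
set_option linter.style.haveILetI false
set_option linter.unusedSectionVars false

namespace Cfsg.Agent.Lib.Classical.Asch.OField

open scoped MatrixGroups Matrix Kronecker
open Module Cfsg Cfsg.Geo QuadraticMap
open Cfsg.Agent.Lib.Classical.Asch.Basic Cfsg.Agent.Lib.Classical.Asch.Forms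
open Cfsg.Agent.Lib.Classical.Asch.FormO Cfsg.Agent.Lib.Classical.Asch.FormOE
open Cfsg.Agent.Lib.Classical.Asch.SpThree Cfsg.Agent.Lib.Classical.Asch.OType
open Cfsg.Agent.Lib.Classical.Witt.Hyp
open Cfsg.Agent.Lib.Classical.Witt.HypEven
open Cfsg.Agent.Lib.Classical.Asch
open Cfsg.Agent.Lib.Classical

variable {ι : Type} [Fintype ι] [DecidableEq ι] {F : Type*} [Field F] [Fintype F] {Q : (ι → F) → F}

section QuadAlg

theorem quad_mul (N : Matrix ι ι F) (a b c d : F) :
    (a • (1 : Matrix ι ι F) + b • N) * (c • 1 + d • N) = (a * c) • 1 + (a * d + b * c) • N + (b * d) • (N * N) := by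
  simp only [add_mul, mul_add, smul_mul_assoc, mul_smul_comm, one_mul, mul_one, smul_add, add_smul, smul_smul]
  rw [show b * c = c * b from mul_comm _ _, show a * c = c * a from mul_comm _ _, show a * d = d * a from mul_comm _ _, show b * d = d * b from mul_comm _ _]
  abel

/-- The algebra generated by a matrix satisfying a quadratic equation. -/
def quadAlg (N : Matrix ι ι F) {β₀ γ₀ : F} (hN : N * N = β₀ • N + γ₀ • 1) : Subalgebra F (Matrix ι ι F) where
  carrier := {x | ∃ α β : F, x = α • 1 + β • N}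
  mul_mem' := by
    rintro _ _ ⟨a, b, rfl⟩ ⟨c, d, rfl⟩
    refine ⟨a * c + b * d * γ₀, a * d + b * c + b * d * β₀, ?_⟩
    rw [quad_mul, hN]
    simp only [smul_add, add_smul, smul_smul]
    abel
  add_mem' := by
    rintro _ _ ⟨a, b, rfl⟩ ⟨c, d, rfl⟩
    refine ⟨a + c, b + d, ?_⟩
    simp only [add_smul]
    abel
  algebraMap_mem' := fun c => ⟨c, 0, by simp [Algebra.algebraMap_eq_smul_one]⟩
  one_mem' := ⟨1, 0, by simp⟩
  zero_mem' := ⟨0, 0, by simp⟩

theorem mem_quadAlg {N : Matrix ι ι F} {β₀ γ₀ : F} {hN : N * N = β₀ • N + γ₀ • 1} {x : Matrix ι ι F} :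
    x ∈ quadAlg N hN ↔ ∃ α β : F, x = α • 1 + β • N := Iff.rfl

/-- The algebra generated by a matrix with irreducible quadratic equation is a field. -/
theorem quadAlg_field [Nonempty ι] (N : Matrix ι ι F) {β₀ γ₀ : F} (hN : N * N = β₀ • N + γ₀ • 1)
    (hroot : ∀ t : F, t * t ≠ β₀ * t + γ₀) : IsFieldSubalgebra 2 (quadAlg N hN) := by
  classical
  have h10 : (1 : Matrix ι ι F) ≠ 0 := one_ne_zero
  have hnorm : ∀ α β : F, (α ≠ 0 ∨ β ≠ 0) → α * α + α * β * β₀ - β * β * γ₀ ≠ 0 := by
    intro α β hab h0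
    by_cases hβ : β = 0
    · subst hβ
      have hα : α ≠ 0 := by simpa using hab
      apply hα
      have h1 : α * α = 0 := by linear_combination h0
      exact mul_self_eq_zero.mp h1
    · apply hroot (-α / β)
      field_simp
      linear_combination h0
  refine ⟨?_, ?_, ?_⟩
  · rintro _ ⟨a, b, rfl⟩ _ ⟨c, d, rfl⟩
    rw [quad_mul, quad_mul]
    rw [show c * a = a * c from mul_comm _ _, show d * b = b * d from mul_comm _ _, show c * b + d * a = a * d + b * c by ring]
  · rintro _ ⟨a, b, rfl⟩ hx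
    have hab : a ≠ 0 ∨ b ≠ 0 := by
      by_contra hcon
      push Not at hcon
      apply hx
      rw [hcon.1, hcon.2]
      simp
    have hn := hnorm a b hab
    refine ⟨(a * a + a * b * β₀ - b * b * γ₀)⁻¹ • (((a + b * β₀) • (1 : Matrix ι ι F)) + (-b) • N), ?_, ?_⟩
    · refine ⟨(a * a + a * b * β₀ - b * b * γ₀)⁻¹ * (a + b * β₀), (a * a + a * b * β₀ - b * b * γ₀)⁻¹ * (-b), ?_⟩
      simp only [smul_add, smul_smul]
    · rw [mul_smul_comm, quad_mul, hN]
      have h1 : (a * (a + b * β₀)) • (1 : Matrix ι ι F) + (a * -b + b * (a + b * β₀)) • N + (b * -b) • (β₀ • N + γ₀ • 1)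
          = (a * a + a * b * β₀ - b * b * γ₀) • 1 := by
        simp only [smul_add, smul_smul]
        have h3 : ∀ (x y z w : F), x • (1 : Matrix ι ι F) + y • N + (z • N + w • 1) = (x + w) • 1 + (y + z) • N := by
          intro x y z w
          simp only [add_smul]
          abel
        rw [h3]
        have h4 : a * -b + b * (a + b * β₀) + b * -b * β₀ = 0 := by ring
        rw [h4, zero_smul, add_zero]
        congr 1
        ring
      rw [h1, smul_smul, inv_mul_cancel₀ hn, one_smul]
  · -- the dimension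
    have hli : LinearIndependent F ![(1 : Matrix ι ι F), N] := by
      rw [LinearIndependent.pair_iff]
      intro s t hst
      have ht : t = 0 := by
        by_contra ht
        have hN' : N = (-s / t) • (1 : Matrix ι ι F) := by
          have h1 : t • N = (-s) • 1 := by
            rw [neg_smul]
            exact eq_neg_of_add_eq_zero_right hst
          calc N = t⁻¹ • (t • N) := by rw [smul_smul, inv_mul_cancel₀ ht, one_smul]
            _ = _ := by rw [h1, smul_smul]; congr 1; field_simp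
        apply hroot (-s / t)
        have h3 := hN
        rw [hN'] at h3
        simp only [smul_mul_assoc, mul_smul_comm, mul_one, smul_smul, ← add_smul] at h3
        by_contra hne
        have h5 : ((-s / t) * (-s / t) - (β₀ * (-s / t) + γ₀)) • (1 : Matrix ι ι F) = 0 := by
          rw [sub_smul, h3, sub_self]
        rcases smul_eq_zero.mp h5 with h6 | h6
        · exact hne (sub_eq_zero.mp h6)
        · exact h10 h6
      subst ht
      refine ⟨?_, rfl⟩
      rw [zero_smul, add_zero] at hst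
      exact (smul_eq_zero.mp hst).resolve_right h10
    have hsub : Subalgebra.toSubmodule (quadAlg N hN) = Submodule.span F (Set.range ![(1 : Matrix ι ι F), N]) := by
      ext x
      rw [Submodule.mem_span_range_iff_exists_fun]
      constructor
      · rintro ⟨a, b, rfl⟩
        exact ⟨![a, b], by simp [Fin.sum_univ_two]⟩
      · rintro ⟨c, rfl⟩
        exact ⟨c 0, c 1, by simp [Fin.sum_univ_two]⟩
    rw [← Subalgebra.finrank_toSubmodule, hsub, finrank_span_eq_card hli]
    simp

/-- The normaliser of the algebra. -/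
theorem mem_normalizer_quadAlg (N : Matrix ι ι F) {β₀ γ₀ : F} (hN : N * N = β₀ • N + γ₀ • 1) (g : GL ι F) {l κ : F} (hl : l ≠ 0)
    (hg : (g : Matrix ι ι F) * N = l • (N * (g : Matrix ι ι F)) + κ • (g : Matrix ι ι F)) :
    g ∈ subalgebraNormalizer (quadAlg N hN) := by
  classical
  set G : Matrix ι ι F := (g : Matrix ι ι F) with hG
  set I : Matrix ι ι F := ((g⁻¹ : GL ι F) : Matrix ι ι F) with hI
  have hGI : G * I = 1 := by
    rw [hG, hI, ← Units.val_mul, mul_inv_cancel, Units.val_one]
  have hIG : I * G = 1 := by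
    rw [hG, hI, ← Units.val_mul, inv_mul_cancel, Units.val_one]
  have h1 : G * N * I = l • N + κ • 1 := by
    rw [hg, add_mul, smul_mul_assoc, smul_mul_assoc, mul_assoc, hGI, mul_one]
  have h3 : I * N * G = l⁻¹ • N + (-(κ * l⁻¹)) • 1 := by
    have h4 : N = l • (I * N * G) + κ • 1 := by
      calc N = I * (G * N) := by rw [← mul_assoc, hIG, one_mul]
        _ = I * (l • (N * G) + κ • G) := by rw [hg]
        _ = _ := by
          rw [mul_add, mul_smul_comm, mul_smul_comm, hIG, mul_assoc]
    have h5 : l • (I * N * G) = N - κ • 1 := eq_sub_of_add_eq h4.symm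
    calc I * N * G = l⁻¹ • (l • (I * N * G)) := by rw [smul_smul, inv_mul_cancel₀ hl, one_smul]
      _ = _ := by
        rw [h5, smul_sub, smul_smul, neg_smul, sub_eq_add_neg, mul_comm l⁻¹ κ]
  intro k
  constructor
  · rintro ⟨a, b, rfl⟩
    refine ⟨a + b * κ, b * l, ?_⟩
    have h4 : G * (a • (1 : Matrix ι ι F) + b • N) * I = a • (G * I) + b • (G * N * I) := by
      simp only [mul_add, add_mul, mul_smul_comm, smul_mul_assoc, mul_one]
    rw [h4, hGI, h1, smul_add, smul_smul, smul_smul, add_smul]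
    abel
  · rintro ⟨a, b, hab⟩
    refine ⟨a + b * (-(κ * l⁻¹)), b * l⁻¹, ?_⟩
    have h4 : k = I * (G * k * I) * G := by
      calc k = (I * G) * k * (I * G) := by rw [hIG, one_mul, mul_one]
        _ = _ := by simp only [mul_assoc]
    rw [h4, hab]
    have h5 : I * (a • (1 : Matrix ι ι F) + b • N) * G = a • (I * G) + b • (I * N * G) := by
      simp only [mul_add, add_mul, mul_smul_comm, smul_mul_assoc, mul_one]
    rw [h5, hIG, h3, smul_add, smul_smul, smul_smul, add_smul]
    abel

end QuadAlg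

section Two

/-- The generator of the even Clifford algebra of a binary form. -/
def jG (G : Matrix (Fin 2) (Fin 2) F) : Matrix (Fin 2) (Fin 2) F := !![G 0 1, G 1 1; -G 0 0, -G 0 1]

/-- The alternating matrix. -/
def altA : Matrix (Fin 2) (Fin 2) F := !![0, 1; -1, 0]

theorem gram_mul_j {G : Matrix (Fin 2) (Fin 2) F} (hS : G 1 0 = G 0 1) : G * jG G = G.det • altA := by
  ext i j
  fin_cases i <;> fin_cases j <;> simp [jG, altA, Matrix.mul_apply, Fin.sum_univ_two, Matrix.det_fin_two, hS] <;> ring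

theorem alt_conj (M : Matrix (Fin 2) (Fin 2) F) : Mᵀ * altA * M = M.det • altA := by
  ext i j
  fin_cases i <;> fin_cases j <;> simp [altA, Matrix.mul_apply, Fin.sum_univ_two, Matrix.det_fin_two] <;> ring

theorem j_mul_j (G : Matrix (Fin 2) (Fin 2) F) (hS : G 1 0 = G 0 1) : jG G * jG G = (G 0 1 * G 0 1 - G 0 0 * G 1 1) • (1 : Matrix (Fin 2) (Fin 2) F) := by
  ext i j
  fin_cases i <;> fin_cases j <;> simp [jG, Matrix.mul_apply, Fin.sum_univ_two] <;> ring

theorem j_conj {G M : Matrix (Fin 2) (Fin 2) F} (hS : G 1 0 = G 0 1) (hG : IsUnit G) (hM : IsUnit M) {μ : F} (h : Mᵀ * G * M = μ • G) :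
    μ • (jG G * M) = M.det • (M * jG G) := by
  have hU : IsUnit (Mᵀ * G) := by
    refine IsUnit.mul ?_ hG
    rw [Matrix.isUnit_iff_isUnit_det, Matrix.det_transpose]
    exact (Matrix.isUnit_iff_isUnit_det _).mp hM
  apply hU.mul_right_injective
  change (Mᵀ * G) * _ = (Mᵀ * G) * _
  have h1 : (Mᵀ * G) * (μ • (jG G * M)) = μ • (G.det • (M.det • altA)) := by
    rw [mul_smul_comm, ← mul_assoc, mul_assoc Mᵀ G, gram_mul_j hS, Matrix.mul_smul, Matrix.smul_mul, alt_conj]
  have h3 : (Mᵀ * G) * (M.det • (M * jG G)) = M.det • (μ • (G.det • altA)) := by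
    rw [mul_smul_comm, ← mul_assoc, h, Matrix.smul_mul, gram_mul_j hS]
  rw [h1, h3]
  simp only [smul_smul]
  congr 1
  ring

/-- The tensor factors of an isometry are similarities. -/
theorem factor_sim {d k : ℕ} [Nonempty (Fin d)] [Nonempty (Fin k)] {e : ι ≃ Fin d × Fin k} {P g : GL ι F} {f₁ : (Fin d → F) → (Fin d → F) → F}
    {f₂ : (Fin k → F) → (Fin k → F) → F} (b₁ : IsBilinearForm f₁) (b₂ : IsBilinearForm f₂) (n₁ : IsNondegenerateForm f₁)
    (n₂ : IsNondegenerateForm f₂) (hs : IsTensorFormStructure id (polar Q) f₁ f₂ e P) (hg : g ∈ isometryGroup F Q)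
    {a : GL (Fin d) F} {b : GL (Fin k) F}
    (hab : ∀ i j, ((P⁻¹ * g * P : GL ι F) : Matrix ι ι F) i j =
      (a : Matrix (Fin d) (Fin d) F) (e i).1 (e j).1 * (b : Matrix (Fin k) (Fin k) F) (e i).2 (e j).2) :
    ∃ μ : F, μ ≠ 0 ∧ ∀ x y, f₁ ((a : Matrix (Fin d) (Fin d) F) *ᵥ x) ((a : Matrix (Fin d) (Fin d) F) *ᵥ y) = μ * f₁ x y := by
  classical
  obtain ⟨c, hc, hR⟩ := pol_kr b₁ b₂ hs
  have hiso : ∀ x x' y y', f₁ ((a : Matrix (Fin d) (Fin d) F) *ᵥ x) ((a : Matrix (Fin d) (Fin d) F) *ᵥ x') *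
      f₂ ((b : Matrix (Fin k) (Fin k) F) *ᵥ y) ((b : Matrix (Fin k) (Fin k) F) *ᵥ y') = f₁ x x' * f₂ y y' := by
    intro x x' y y'
    have h1 := isometry_le_isomG hg ((P : Matrix ι ι F) *ᵥ kr e x y) ((P : Matrix ι ι F) *ᵥ kr e x' y')
    rw [conj_mulVec_P (g := g) (P := P) (kr e x y), conj_mulVec_P (g := g) (P := P) (kr e x' y'), tensor_action hab, tensor_action hab, hR, hR] at h1
    exact mul_left_cancel₀ hc h1
  obtain ⟨w₀, hw₀⟩ : ∃ w₀ : Fin k → F, w₀ ≠ 0 := ⟨Pi.single (Classical.arbitrary _) 1, fun h => by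
    have := congrFun h (Classical.arbitrary _)
    simp at this⟩
  obtain ⟨w₁, hw₁⟩ := (n₂ w₀ hw₀).2
  have hb1 : ∀ w, (b : Matrix (Fin k) (Fin k) F) *ᵥ (((b⁻¹ : GL _ F) : Matrix (Fin k) (Fin k) F) *ᵥ w) = w := fun w => mulVec_inv_mulVec b w
  set y := ((b⁻¹ : GL _ F) : Matrix (Fin k) (Fin k) F) *ᵥ w₀ with hy
  set y' := ((b⁻¹ : GL _ F) : Matrix (Fin k) (Fin k) F) *ᵥ w₁ with hy'
  have h2 : ∀ x x', f₁ ((a : Matrix (Fin d) (Fin d) F) *ᵥ x) ((a : Matrix (Fin d) (Fin d) F) *ᵥ x') * f₂ w₀ w₁ = f₁ x x' * f₂ y y' := by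
    intro x x'
    have h3 := hiso x x' y y'
    rwa [hy, hy', hb1, hb1] at h3
  refine ⟨f₂ y y' / f₂ w₀ w₁, ?_, fun x x' => ?_⟩
  · intro h0
    have hm : f₂ y y' = 0 := by
      rcases div_eq_zero_iff.mp h0 with h | h
      · exact h
      · exact absurd h hw₁
    obtain ⟨v₀, hv₀⟩ : ∃ v₀ : Fin d → F, v₀ ≠ 0 := ⟨Pi.single (Classical.arbitrary _) 1, fun h => by
      have := congrFun h (Classical.arbitrary _)
      simp at this⟩
    obtain ⟨v₁, hv₁⟩ := (n₁ v₀ hv₀).2
    have h3 := h2 (((a⁻¹ : GL _ F) : Matrix (Fin d) (Fin d) F) *ᵥ v₀) (((a⁻¹ : GL _ F) : Matrix (Fin d) (Fin d) F) *ᵥ v₁)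
    rw [mulVec_inv_mulVec, mulVec_inv_mulVec, hm, mul_zero] at h3
    exact (mul_ne_zero hv₁ hw₁) h3
  · have h3 := h2 x x'
    field_simp
    linear_combination h3

theorem gram_sim {d : ℕ} {f₁ : (Fin d → F) → (Fin d → F) → F} (b₁ : IsBilinearForm f₁) {a : Matrix (Fin d) (Fin d) F} {μ : F}
    (h : ∀ x y, f₁ (a *ᵥ x) (a *ᵥ y) = μ * f₁ x y) : aᵀ * gramMatrix f₁ * a = μ • gramMatrix f₁ := by
  ext i j
  have h1 := h (Pi.single i 1) (Pi.single j 1)
  rw [bilinear_expand b₁] at h1
  simp only [Matrix.smul_apply, smul_eq_mul]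
  change _ = μ * f₁ (Pi.single i 1) (Pi.single j 1)
  rw [← h1, Matrix.mul_apply]
  simp only [Matrix.mul_apply, Matrix.transpose_apply, Matrix.mulVec_single_one, Finset.sum_mul]
  rw [Finset.sum_comm]
  refine Finset.sum_congr rfl fun r _ => Finset.sum_congr rfl fun s _ => ?_
  simp [Matrix.col_apply]

theorem isUnit_gram_of_nondeg {d : ℕ} {f₁ : (Fin d → F) → (Fin d → F) → F} (b₁ : IsBilinearForm f₁) (n₁ : IsNondegenerateForm f₁) :
    IsUnit (gramMatrix f₁) := by
  rw [← Matrix.mulVec_injective_iff_isUnit]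
  intro x x' hxx
  by_contra hne
  have h0 : x - x' ≠ 0 := sub_ne_zero.mpr hne
  have hv : gramMatrix f₁ *ᵥ (x - x') = 0 := by
    rw [Matrix.mulVec_sub]
    exact sub_eq_zero.mpr hxx
  obtain ⟨y, hy⟩ := (n₁ _ h0).1
  apply hy
  rw [bilinear_expand b₁]
  refine Finset.sum_eq_zero fun a _ => ?_
  have h1 := congrFun hv a
  simp only [Matrix.mulVec, dotProduct, Pi.zero_apply] at h1
  calc ∑ b, y a * gramMatrix f₁ a b * (x - x') b = y a * ∑ b, gramMatrix f₁ a b * (x - x') b := by
        rw [Finset.mul_sum]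
        exact Finset.sum_congr rfl fun b _ => mul_assoc _ _ _
    _ = 0 := by rw [h1, mul_zero]

/-- **A symmetric tensor factor of dimension two which is anisotropic** gives a normalised field. -/
theorem exists_field_of_sym_two [Nonempty ι] (hQ : IsNondegenerateQuadraticForm Q) {k : ℕ} [Nonempty (Fin k)] {e : ι ≃ Fin 2 × Fin k} {P : GL ι F}
    {f₁ : (Fin 2 → F) → (Fin 2 → F) → F} {f₂ : (Fin k → F) → (Fin k → F) → F} (h1 : IsSymmetricForm f₁) (h3 : IsSymmetricForm f₂)
    (hs : IsTensorFormStructure id (polar Q) f₁ f₂ e P) (han : ∀ u, u ≠ 0 → f₁ u u ≠ 0) {H : Subgroup (GL ι F)}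
    (hH : H ≤ isometryGroup F Q) (hle : H ≤ tensorProductSubgroup 2 k e P) :
    ∃ K : Subalgebra F (Matrix ι ι F), IsFieldSubalgebra 2 K ∧ H ≤ subalgebraNormalizer K := by
  classical
  set G := gramMatrix f₁ with hG
  have hS : G 1 0 = G 0 1 := h1.symm _ _
  have hGu : IsUnit G := isUnit_gram_of_nondeg h1.bilinear h1.nondegenerate
  set j := jG G with hj
  set δ := G 0 1 * G 0 1 - G 0 0 * G 1 1 with hδ
  have hjj : j * j = δ • (1 : Matrix (Fin 2) (Fin 2) F) := j_mul_j G hS
  set X : Matrix ι ι F := (j ⊗ₖ (1 : Matrix (Fin k) (Fin k) F)).submatrix e e with hX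
  have hXX : X * X = δ • (1 : Matrix ι ι F) := by
    rw [hX, Matrix.submatrix_mul_equiv, ← Matrix.mul_kronecker_mul, hjj, mul_one, Matrix.smul_kronecker, Matrix.one_kronecker_one]
    ext a b
    simp [Matrix.smul_apply, Matrix.one_apply, e.injective.eq_iff]
  set Pm : Matrix ι ι F := (P : Matrix ι ι F) with hPm
  set Pi' : Matrix ι ι F := ((P⁻¹ : GL ι F) : Matrix ι ι F) with hPi'
  have hPP : Pi' * Pm = 1 := by
    rw [hPm, hPi', ← Units.val_mul, inv_mul_cancel, Units.val_one]
  have hPP' : Pm * Pi' = 1 := by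
    rw [hPm, hPi', ← Units.val_mul, mul_inv_cancel, Units.val_one]
  set N : Matrix ι ι F := Pm * X * Pi' with hNd
  have hN : N * N = (0 : F) • N + δ • 1 := by
    calc N * N = Pm * (X * (Pi' * Pm) * X) * Pi' := by simp only [hNd, mul_assoc]
      _ = Pm * (δ • (1 : Matrix ι ι F)) * Pi' := by rw [hPP, mul_one, hXX]
      _ = _ := by
        rw [mul_smul_comm, mul_one, smul_mul_assoc, hPP', zero_smul, zero_add]
  have hroot : ∀ t : F, t * t ≠ 0 * t + δ := by
    intro t ht
    have hs0 : (Pi.single 0 1 : Fin 2 → F) ≠ 0 := fun h => by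
      have := congrFun h 0
      simp at this
    have ha : G 0 0 ≠ 0 := han (Pi.single 0 1) hs0
    let x : Fin 2 → F := ![t - G 0 1, G 0 0]
    have hx0 : x ≠ 0 := fun h => ha (by simpa [x] using congrFun h 1)
    apply han x hx0
    rw [bilinear_expand h1.bilinear]
    simp only [Fin.sum_univ_two, x, Matrix.cons_val_zero, Matrix.cons_val_one, ← hG]
    rw [hS]
    rw [hδ] at ht
    linear_combination (G 0 0) * ht
  refine ⟨quadAlg N hN, quadAlg_field N hN hroot, fun g hg => ?_⟩
  obtain ⟨a, b, hab⟩ := Main.mem_tensorProductSubgroup_iff.mp (hle hg)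
  haveI : Nonempty (Fin 2) := ⟨0⟩
  obtain ⟨μ, hμ, hsim⟩ := factor_sim h1.bilinear h3.bilinear h1.nondegenerate h3.nondegenerate hs (hH hg) hab
  have hgm := gram_sim h1.bilinear hsim
  have hc := j_conj hS hGu a.isUnit hgm
  set B : Matrix ι ι F := ((P⁻¹ * g * P : GL ι F) : Matrix ι ι F) with hB
  have hBe : B = ((a : Matrix (Fin 2) (Fin 2) F) ⊗ₖ (b : Matrix (Fin k) (Fin k) F)).submatrix e e := by
    ext i i'
    rw [hab]
    rfl
  have hdet : (a : Matrix (Fin 2) (Fin 2) F).det ≠ 0 :=
    ((Matrix.isUnit_iff_isUnit_det _).mp a.isUnit).ne_zero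
  have hcomm : μ • (X * B) = (a : Matrix (Fin 2) (Fin 2) F).det • (B * X) := by
    rw [hX, hBe, Matrix.submatrix_mul_equiv, Matrix.submatrix_mul_equiv, ← Matrix.mul_kronecker_mul, ← Matrix.mul_kronecker_mul,
      one_mul, mul_one]
    have h4 : ∀ (c : F) (A : Matrix (Fin 2) (Fin 2) F), c • (A ⊗ₖ (b : Matrix (Fin k) (Fin k) F)).submatrix e e = ((c • A) ⊗ₖ (b : Matrix (Fin k) (Fin k) F)).submatrix e e := by
      intro c A
      ext r r'
      simp [mul_assoc]
    rw [h4, h4, hc]
  have hBX : B * X = (μ / (a : Matrix (Fin 2) (Fin 2) F).det) • (X * B) := by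
    rw [div_eq_mul_inv, mul_comm, mul_smul, hcomm, smul_smul, inv_mul_cancel₀ hdet, one_smul]
  have hgB : (g : Matrix ι ι F) = Pm * B * Pi' := by
    rw [hB, hPm, hPi', ← Units.val_mul, ← Units.val_mul]
    congr 1
    group
  refine mem_normalizer_quadAlg N hN g (l := μ / (a : Matrix (Fin 2) (Fin 2) F).det) (κ := 0) (div_ne_zero hμ hdet) ?_
  rw [zero_smul, add_zero]
  calc (g : Matrix ι ι F) * N = Pm * (B * (Pi' * Pm) * X) * Pi' := by
        rw [hgB, hNd]
        simp only [mul_assoc]
    _ = Pm * (B * X) * Pi' := by rw [hPP, mul_one]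
    _ = (μ / (a : Matrix (Fin 2) (Fin 2) F).det) • (Pm * (X * (Pi' * Pm) * B) * Pi') := by
        rw [hBX, hPP, mul_one, mul_smul_comm, smul_mul_assoc]
    _ = _ := by
        rw [hgB, hNd]
        simp only [mul_assoc]

end Two

section Subfield

open Polynomial in
/-- **Quadratic equations over a subfield of index two have roots.** -/
theorem exists_root_quad {F₀ : Subfield F} (hc : Fintype.card F = Nat.card F₀ ^ 2) (ζ₀ : F₀) : ∃ t : F, t ^ 2 + t + (ζ₀ : F) = 0 := by
  classical
  by_contra hno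
  push Not at hno
  letI : Fintype F₀ := Fintype.ofFinite _
  set p : F₀[X] := X ^ 2 + X + C ζ₀ with hp
  have hdeg : p.natDegree = 2 := by
    rw [hp]
    compute_degree!
  have hmon : p.Monic := by
    rw [hp]
    monicity!
  have hirr : Irreducible p := by
    refine (Polynomial.Monic.irreducible_iff_roots_eq_zero_of_degree_le_three hmon (by omega) (by omega)).mpr ?_
    rw [Multiset.eq_zero_iff_forall_notMem]
    intro t ht
    have h1 := (Polynomial.mem_roots'.mp ht).2
    have h3 : t ^ 2 + t + ζ₀ = 0 := by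
      simpa [hp, IsRoot.def] using h1
    apply hno (t : F)
    have := congrArg (fun x : F₀ => (x : F)) h3
    simpa using this
  haveI : Fact (Irreducible p) := ⟨hirr⟩
  let L := AdjoinRoot p
  haveI : Module.Finite F₀ L := (AdjoinRoot.powerBasis hirr.ne_zero).finite
  haveI : Finite L := Module.finite_of_finite F₀
  letI : Fintype L := Fintype.ofFinite _
  have hcardL : Fintype.card L = Fintype.card F := by
    rw [hc, Module.card_eq_pow_finrank (K := F₀) (V := L), (AdjoinRoot.powerBasis hirr.ne_zero).finrank, AdjoinRoot.powerBasis_dim, hdeg,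
      Nat.card_eq_fintype_card]
  set q := Fintype.card F with hq
  have h1q : 1 < q := Fintype.one_lt_card
  have hdvd : p ∣ X ^ q - X := by
    rw [← AdjoinRoot.mk_eq_zero]
    rw [map_sub, map_pow, AdjoinRoot.mk_X, ← hcardL, FiniteField.pow_card, sub_self]
  obtain ⟨s, hs⟩ := hdvd
  have hs' : (X ^ q - X : F[X]) = (X ^ 2 + X + C (ζ₀ : F)) * s.map F₀.subtype := by
    have h1 := congrArg (Polynomial.map F₀.subtype) hs
    simpa [hp, Polynomial.map_mul, Polynomial.map_sub, Polynomial.map_add, Polynomial.map_pow] using h1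
  have hne : (X ^ q - X : F[X]) ≠ 0 := FiniteField.X_pow_card_sub_X_ne_zero F h1q
  have hmon' : (X ^ 2 + X + C (ζ₀ : F) : F[X]).Monic := by monicity!
  have hdeg' : (X ^ 2 + X + C (ζ₀ : F) : F[X]).natDegree = 2 := by compute_degree!
  have hs0 : s.map F₀.subtype ≠ 0 := by
    intro h
    rw [h, mul_zero] at hs'
    exact hne hs'
  have hd := congrArg natDegree hs'
  rw [FiniteField.X_pow_card_sub_X_natDegree_eq F h1q, hmon'.natDegree_mul' hs0, hdeg'] at hd
  have hall : ∀ a : F, (s.map F₀.subtype).eval a = 0 := by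
    intro a
    have h1 := congrArg (Polynomial.eval a) hs'
    rw [Polynomial.eval_sub, Polynomial.eval_pow, Polynomial.eval_X, FiniteField.pow_card, sub_self, Polynomial.eval_mul] at h1
    have h3 : (X ^ 2 + X + C (ζ₀ : F) : F[X]).eval a ≠ 0 := by
      simpa using hno a
    exact (mul_eq_zero.mp h1.symm).resolve_left h3
  apply hs0
  refine Polynomial.eq_zero_of_natDegree_lt_card_of_eval_eq_zero _ (f := fun a : F => a) Function.injective_id hall ?_
  omega

/-- **A form with a rational structure over a subfield of index two is of plus type.** -/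
theorem plus_of_subfield_two (hQ : IsNondegenerateQuadraticForm Q) {k : ℕ} (hn : Fintype.card ι = 2 * (k + 1)) {F₀ : Subfield F}
    (hc : Fintype.card F = Nat.card F₀ ^ 2) {P : GL ι F} {ζ : F} (hζ : ζ ≠ 0)
    (hR : IsQuadFormRationalStructure (fun v => ζ * Q v) F₀ P) : IsPlusTypeOn Q ⊤ := by
  classical
  have hb := hQ.polar_bilinear
  let incl : (ι → F₀) → (ι → F) := fun u i => (u i : F)
  have incl_add : ∀ u v, incl (u + v) = incl u + incl v := fun u v => by
    funext i
    simp [incl]
  have incl_smul : ∀ (c : F₀) u, incl (c • u) = (c : F) • incl u := fun c u => by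
    funext i
    simp [incl]
  have incl_mem : ∀ u i, incl u i ∈ F₀ := fun u i => (u i).2
  let ψ : (ι → F₀) → (ι → F) := fun u => (P : Matrix ι ι F) *ᵥ incl u
  have ψ_add : ∀ u v, ψ (u + v) = ψ u + ψ v := fun u v => by
    simp only [ψ, incl_add, Matrix.mulVec_add]
  have ψ_smul : ∀ (c : F₀) u, ψ (c • u) = (c : F) • ψ u := fun c u => by
    simp only [ψ, incl_smul, Matrix.mulVec_smul]
  have hval : ∀ u, ζ * Q (ψ u) ∈ F₀ := fun u => hR _ (incl_mem u)
  have hpolmem : ∀ u v, ζ * polar Q (ψ u) (ψ v) ∈ F₀ := by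
    intro u v
    have h1 : ζ * polar Q (ψ u) (ψ v) = ζ * Q (ψ (u + v)) - ζ * Q (ψ u) - ζ * Q (ψ v) := by
      rw [ψ_add, polar]
      ring
    rw [h1]
    exact F₀.sub_mem (F₀.sub_mem (hval _) (hval _)) (hval _)
  let B : LinearMap.BilinForm F₀ (ι → F₀) := LinearMap.mk₂ F₀ (fun u v => (⟨ζ * polar Q (ψ u) (ψ v), hpolmem u v⟩ : F₀))
    (fun x y v => Subtype.ext (by
      simp only [ψ_add, hb.add_left, Subfield.coe_add]
      ring))
    (fun c x v => Subtype.ext (by
      simp only [ψ_smul, hb.smul_left, Subfield.coe_mul, smul_eq_mul]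
      ring))
    (fun v x y => Subtype.ext (by
      simp only [ψ_add, hb.add_right, Subfield.coe_add]
      ring))
    (fun c v x => Subtype.ext (by
      simp only [ψ_smul, hb.smul_right, Subfield.coe_mul, smul_eq_mul]
      ring))
  let Q₀ : QuadraticForm F₀ (ι → F₀) :=
    { toFun := fun u => ⟨ζ * Q (ψ u), hval u⟩
      toFun_smul := fun c u => Subtype.ext (by
        simp only [ψ_smul, hQ.smul, smul_eq_mul, Subfield.coe_mul]
        ring)
      exists_companion' := ⟨B, fun x y => Subtype.ext (by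
        change ζ * Q (ψ (x + y)) = ζ * Q (ψ x) + ζ * Q (ψ y) + ζ * polar Q (ψ x) (ψ y)
        rw [ψ_add, polar]
        ring)⟩ }
  have hQ₀ : ∀ u, ((Q₀ u : F₀) : F) = ζ * Q (ψ u) := fun u => rfl
  have hpol₀ : ∀ u v, ((polar Q₀ u v : F₀) : F) = ζ * polar Q (ψ u) (ψ v) := by
    intro u v
    simp only [polar, Subfield.coe_sub, hQ₀, ψ_add]
    ring
  have hψ0 : ∀ u, ψ u = 0 → u = 0 := by
    intro u hu
    have h1 : incl u = 0 := by
      apply mulVec_injective P
      change (P : Matrix ι ι F) *ᵥ incl u = (P : Matrix ι ι F) *ᵥ 0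
      rw [Matrix.mulVec_zero]
      exact hu
    funext i
    exact Subtype.ext (congrFun h1 i)
  have hP : PolarNondeg Q₀ := by
    intro u hu
    by_contra h0
    have hu0 : ψ u ≠ 0 := fun h => h0 (hψ0 u h)
    apply hu0
    by_contra h1
    obtain ⟨y, hy⟩ := (hQ.nondegenerate _ h1).2
    apply hy
    obtain ⟨z, rfl⟩ : ∃ z, y = (P : Matrix ι ι F) *ᵥ z := ⟨((P⁻¹ : GL ι F) : Matrix ι ι F) *ᵥ y, (mulVec_inv_mulVec P y).symm⟩
    have h3 : z = ∑ i, z i • (Pi.single i 1 : ι → F) := by
      funext j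
      simp [Finset.sum_apply, Pi.single_apply]
    rw [h3, Matrix.mulVec_sum, (isSesq_of_bilinear hb).sum_right, Finset.sum_eq_zero]
    intro i _
    rw [Matrix.mulVec_smul, hb.smul_right]
    have h4 := hu (Pi.single i 1)
    have h5 := hpol₀ u (Pi.single i 1)
    rw [h4] at h5
    have h6 : incl (Pi.single i 1) = Pi.single i 1 := by
      funext j
      simp [incl, Pi.single_apply, apply_ite]
    simp only [ψ, h6] at h5
    have h7 : polar Q (↑P *ᵥ incl u) (↑P *ᵥ Pi.single i 1) = 0 := by
      have h8 : ζ * polar Q (↑P *ᵥ incl u) (↑P *ᵥ Pi.single i 1) = 0 := by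
        rw [← h5]
        simp
      exact (mul_eq_zero.mp h8).resolve_left hζ
    change z i * polar Q (↑P *ᵥ incl u) (↑P *ᵥ Pi.single i 1) = 0
    rw [h7, mul_zero]
  have hfr : finrank F₀ (ι → F₀) = 2 * (k + 1) := by
    rw [finrank_fintype_fun_eq_card, hn]
  have hQ0 : ∀ u, Q₀ u = 0 → Q (ψ u) = 0 := by
    intro u hu
    have h1 := hQ₀ u
    rw [hu] at h1
    have h3 : ζ * Q (ψ u) = 0 := by
      rw [← h1]
      simp
    exact (mul_eq_zero.mp h3).resolve_left hζ
  have hP0 : ∀ u v, polar Q₀ u v = 0 → polar Q (ψ u) (ψ v) = 0 := by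
    intro u v huv
    have h1 := hpol₀ u v
    rw [huv] at h1
    have h3 : ζ * polar Q (ψ u) (ψ v) = 0 := by
      rw [← h1]
      simp
    exact (mul_eq_zero.mp h3).resolve_left hζ
  rcases exists_even_family k Q₀ hP hfr with ⟨e, f, hF⟩ | ⟨e, f, x, y, ζ₀, hF, hno, horth, hx, hxy, hy⟩
  · refine plus_of_family hQ (fun i => ψ (e i)) ?_ (fun i => hQ0 _ (hF.Qe i)) (fun i j => hP0 _ _ (hF.ee i j)) ?_
    · rw [Fintype.linearIndependent_iff]
      intro c hc' i
      have h1 := congrArg (fun w => polar Q w (ψ (f i))) hc'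
      beta_reduce at h1
      rw [(isSesq_of_bilinear hb).sum_left, Finset.sum_eq_single i] at h1
      · have h3 : polar Q 0 (ψ (f i)) = 0 := by
          have := hb.smul_left 0 0 (ψ (f i))
          simpa using this
        rw [h3, hb.smul_left] at h1
        have h4 := hpol₀ (e i) (f i)
        rw [hF.ef i i, if_pos rfl] at h4
        have h5 : polar Q (ψ (e i)) (ψ (f i)) ≠ 0 := by
          intro h
          rw [h, mul_zero] at h4
          simp at h4
        exact (mul_eq_zero.mp h1).resolve_right h5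
      · intro j _ hj
        rw [hb.smul_left, hP0 _ _ (by rw [hF.ef j i, if_neg hj]), mul_zero]
      · intro h
        exact absurd (Finset.mem_univ _) h
    · rw [hn, Fintype.card_fin]
  · obtain ⟨t, ht⟩ := exists_root_quad hc ζ₀
    set w : ι → F := t • ψ x + ψ y with hw
    have hQx : ζ * Q (ψ x) = 1 := by
      rw [← hQ₀, hx]
      simp
    have hQy : ζ * Q (ψ y) = ζ₀ := by
      rw [← hQ₀, hy]
    have hpxy : ζ * polar Q (ψ x) (ψ y) = 1 := by
      rw [← hpol₀, hxy]
      simp
    have hQw : Q w = 0 := by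
      have h1 : ζ * Q w = 0 := by
        rw [hw, Q_add' Q, hQ.smul, hb.smul_left]
        linear_combination t ^ 2 * hQx + hQy + t * hpxy + ht
      exact (mul_eq_zero.mp h1).resolve_left hζ
    have hw0 : w ≠ 0 := by
      intro h
      have hx0 : x ≠ 0 := by
        rintro rfl
        have : Q₀ 0 = 0 := map_zero _
        rw [this] at hx
        exact zero_ne_one hx
      obtain ⟨i, hi⟩ := Function.ne_iff.mp hx0
      have h1 : (t • incl x + incl y) = 0 := by
        apply mulVec_injective P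
        change (P : Matrix ι ι F) *ᵥ (t • incl x + incl y) = (P : Matrix ι ι F) *ᵥ 0
        rw [Matrix.mulVec_add, Matrix.mulVec_smul, Matrix.mulVec_zero]
        exact h
      have h3 := congrFun h1 i
      simp only [Pi.add_apply, Pi.smul_apply, smul_eq_mul, Pi.zero_apply] at h3
      have hi' : incl x i ≠ 0 := fun h => hi (Subtype.ext h)
      have htm : t ∈ F₀ := by
        have h4 : t = -(incl y i) / incl x i := by
          field_simp
          linear_combination h3
        rw [h4]
        exact F₀.div_mem (F₀.neg_mem (incl_mem y i)) (incl_mem x i)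
      apply hno ⟨t, htm⟩
      apply Subtype.ext
      simpa using ht
    let z : Option (Fin k) → ι → F := fun a => a.elim w (fun i => ψ (e i))
    have hQP : ∀ i, polar Q w (ψ (e i)) = 0 ∧ polar Q w (ψ (f i)) = 0 := by
      intro i
      have h1 := hP0 _ _ (horth i).1
      have h3 := hP0 _ _ (horth i).2.2.1
      have h4 := hP0 _ _ (horth i).2.1
      have h5 := hP0 _ _ (horth i).2.2.2
      constructor
      · rw [hw, hb.add_left, hb.smul_left, polar_comm _ (ψ x), h1, polar_comm _ (ψ y), h3]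
        ring
      · rw [hw, hb.add_left, hb.smul_left, polar_comm _ (ψ x), h4, polar_comm _ (ψ y), h5]
        ring
    have hww : polar Q w w = 0 := by
      rw [FormO.polar_self_eq hQ, hQw, mul_zero]
    refine plus_of_family hQ z ?_ ?_ ?_ ?_
    · rw [Fintype.linearIndependent_iff]
      intro c hc'
      rw [Fintype.sum_option] at hc'
      simp only [z, Option.elim] at hc'
      have hci : ∀ i, c (some i) = 0 := by
        intro i
        have h1 := congrArg (fun v => polar Q v (ψ (f i))) hc'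
        beta_reduce at h1
        have h0 : polar Q 0 (ψ (f i)) = 0 := by
          have := hb.smul_left 0 0 (ψ (f i))
          simpa using this
        rw [h0, hb.add_left, hb.smul_left, (hQP i).2, mul_zero, zero_add, (isSesq_of_bilinear hb).sum_left, Finset.sum_eq_single i] at h1
        · rw [hb.smul_left] at h1
          have h4 := hpol₀ (e i) (f i)
          rw [hF.ef i i, if_pos rfl] at h4
          have h5 : polar Q (ψ (e i)) (ψ (f i)) ≠ 0 := by
            intro h
            rw [h, mul_zero] at h4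
            simp at h4
          exact (mul_eq_zero.mp h1).resolve_right h5
        · intro j _ hj
          rw [hb.smul_left, hP0 _ _ (by rw [hF.ef j i, if_neg hj]), mul_zero]
        · intro h
          exact absurd (Finset.mem_univ _) h
      have hc0 : c none = 0 := by
        simp only [hci, zero_smul, Finset.sum_const_zero, add_zero] at hc'
        exact (smul_eq_zero.mp hc').resolve_right hw0
      rintro (_ | i)
      · exact hc0
      · exact hci i
    · rintro (_ | i)
      · exact hQw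
      · exact hQ0 _ (hF.Qe i)
    · rintro (_ | i) (_ | j)
      · exact hww
      · exact (hQP j).1
      · change polar Q (ψ (e i)) w = 0
        rw [polar_comm]
        exact (hQP i).1
      · exact hP0 _ _ (hF.ee i j)
    · rw [Fintype.card_option, Fintype.card_fin, hn]

end Subfield

/-- **A hyperbolic plane over the field with two elements** has a unique non-singular vector. -/
theorem stab_of_plus_two (hQ : IsNondegenerateQuadraticForm Q) (hq : Fintype.card F = 2) {W : Submodule F (ι → F)} (hd : finrank F W = 2)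
    (hW : IsNondegenerateOn (polar Q) W) (hp : IsPlusTypeOn Q W) :
    ∃ v, Q v ≠ 0 ∧ ∀ g ∈ isometryGroup F Q, g ∈ subspaceStabilizer W → g ∈ subspaceStabilizer (Submodule.span F {v}) := by
  classical
  obtain ⟨Q', rfl, hQ'⟩ := Cfsg.Agent.Lib.Classical.Geo.OPts.exists_quadraticForm hQ
  obtain ⟨e, he, f, hf, hQe, hQf, hef, hWe⟩ := Cfsg.Agent.Lib.Classical.Geo.OPlane.exists_basis hQ' hd hW hp
  have hv : ∀ c : F, c = 0 ∨ c = 1 := by
    intro c
    by_contra hcon
    push Not at hcon
    have h1 : ({0, 1, c} : Finset F).card ≤ Fintype.card F := Finset.card_le_univ _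
    rw [hq, Finset.card_insert_of_notMem (by
      simp only [Finset.mem_insert, Finset.mem_singleton, not_or]
      exact ⟨zero_ne_one, hcon.1.symm⟩), Finset.card_insert_of_notMem (by
      simp only [Finset.mem_singleton]
      exact hcon.2.symm), Finset.card_singleton] at h1
    omega
  refine ⟨e + f, ?_, fun g hg hgW => ?_⟩
  · rw [Q_add' (⇑Q'), hQe, hQf, hef]
    simp
  · have hQv : Q' (e + f) = 1 := by
      rw [Q_add' (⇑Q'), hQe, hQf, hef]
      simp
    have h1 : (g : Matrix ι ι F) *ᵥ (e + f) ∈ W := (hgW (e + f)).mp (W.add_mem he hf)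
    rw [hWe, Submodule.mem_span_pair] at h1
    obtain ⟨a, b, hab⟩ := h1
    have h3 : Q' ((g : Matrix ι ι F) *ᵥ (e + f)) = 1 := by
      rw [Q_act_eq hg, hQv]
    rw [← hab, Q_add' (⇑Q')] at h3
    have hcoe : ∀ (x : F) (u : ι → F), Q' (x • u) = x ^ 2 * Q' u := fun x u => hQ.smul x u
    rw [hcoe, hcoe, hQe, hQf, (FormO.symm_polar hQ).bilinear.smul_left, (FormO.symm_polar hQ).bilinear.smul_right, hef] at h3
    have h4 : a = 1 ∧ b = 1 := by
      rcases hv a with rfl | rfl <;> rcases hv b with rfl | rfl <;> simp_all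
    have hfix : (g : Matrix ι ι F) *ᵥ (e + f) = e + f := by
      rw [← hab, h4.1, h4.2, one_smul, one_smul]
    have hvs : ∀ y, y ∈ Submodule.span F {e + f} ↔ (g : Matrix ι ι F) *ᵥ y ∈ Submodule.span F {e + f} := by
      intro y
      constructor
      · intro hy
        obtain ⟨c, rfl⟩ := Submodule.mem_span_singleton.mp hy
        rw [Matrix.mulVec_smul, hfix]
        exact Submodule.smul_mem _ _ (Submodule.mem_span_singleton_self _)
      · intro hy
        obtain ⟨c, hc⟩ := Submodule.mem_span_singleton.mp hy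
        have h5 : (g : Matrix ι ι F) *ᵥ y = (g : Matrix ι ι F) *ᵥ (c • (e + f)) := by
          rw [Matrix.mulVec_smul, hfix, hc]
        have h6 : y = c • (e + f) := mulVec_injective g h5
        rw [h6]
        exact Submodule.smul_mem _ _ (Submodule.mem_span_singleton_self _)
    exact hvs

end Cfsg.Agent.Lib.Classical.Asch.OField
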