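import Mathlib
import Cfsg.Agent.Lib.Classical.Asch.OField

/-!
# The commutator subgroup of an orthogonal group is not contained in the geometric subgroups: all characteristics
-/

set_option autoImplicit false
set_option linter.style.haveILetI false
set_option linter.unusedSectionVars false

namespace Cfsg.Agent.Lib.Classical.Asch.NotO2

open scoped MatrixGroups Matrix Kronecker
open Module Cfsg Cfsg.Geo QuadraticMap
open Cfsg.Agent.Lib.Classical.Asch.Basic
open Cfsg.Agent.Lib.Classical.Orth.Basic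
open Cfsg.Agent.Lib.Classical.Orth.Siegel
open Cfsg.Agent.Lib.Classical.Witt.Hyp
open Cfsg.Agent.Lib.Classical.Geo.OPts
open Cfsg.Agent.Lib.Classical.Asch.NotO
open Cfsg.Agent.Lib.Classical.Asch.SpThree
open Cfsg.Agent.Lib.Classical.Asch.OType

variable {ι : Type} [Fintype ι] [DecidableEq ι] {F : Type*} [Field F] [Fintype F]
variable {Q : QuadraticForm F (ι → F)}

set_option quotPrecheck false in
local notation "𝔣" => polar (⇑Q)

/-- Decompositions into spaces of dimension at least three: any characteristic. -/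
theorem not_le_decomp_of_three_le (hQ : (polarBilin Q).Nondegenerate) (hn : 5 ≤ Fintype.card ι) {t m : ℕ}
    {D : Fin t → Submodule F (ι → F)} (hD : IsMDecomposition m D) (hm : 3 ≤ m) : ¬ omegaGL (⇑Q) ≤ decompositionStabilizer D := by
  classical
  intro hle
  have ht := hD.two_le
  let i₀ : Fin t := ⟨0, by omega⟩
  let i₁ : Fin t := ⟨1, by omega⟩
  have h01 : i₀ ≠ i₁ := by
    intro h
    have := congrArg Fin.val h
    simp [i₀, i₁] at this
  have hdis : ∀ j j' : Fin t, j ≠ j' → Disjoint (D j) (D j') := fun j j' hjj =>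
    (hD.indep j).mono_right (le_iSup₂_of_le j' hjj.symm le_rfl)
  have h0 : D i₀ ≠ ⊥ := by
    intro h
    have h1 := hD.finrank_eq i₀
    rw [h, finrank_bot] at h1
    omega
  have h1 : D i₀ ≠ ⊤ := by
    intro h
    have h3 := hdis i₀ i₁ h01
    rw [h, top_disjoint] at h3
    have h4 := hD.finrank_eq i₁
    rw [h3, finrank_bot] at h4
    omega
  apply h1
  refine eq_top_of_inv hQ hn h0 fun z b hz hb hzb w hw => ?_
  have hE := eG_mem_omegaGL hQ hn hz hzb
  obtain ⟨σ, hσ⟩ := hle hE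
  set E := eG hz hzb with hEd
  by_cases hs : σ i₀ = i₀
  · have h3 : (E : Matrix ι ι F) *ᵥ w ∈ D i₀ := by
      have h4 : (E : Matrix ι ι F) *ᵥ w ∈ (D i₀).map (Matrix.toLin' (E : Matrix ι ι F)) := ⟨w, hw, by simp [Matrix.toLin'_apply]⟩
      rwa [hσ, hs] at h4
    rw [hEd, eG_sub hz hb hzb] at h3
    have h4 := (D i₀).sub_mem h3 hw
    rwa [add_sub_cancel_left] at h4
  · exfalso
    -- `E - 1` is injective on `D i₀`
    let A : Matrix ι ι F := (E : Matrix ι ι F) - 1
    have hr : A.rank ≤ 2 := rank_eG_sub_one hz hb hzb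
    let L : D i₀ →ₗ[F] (ι → F) := A.mulVecLin.comp (D i₀).subtype
    have hinj : Function.Injective L := by
      rw [injective_iff_map_eq_zero]
      rintro ⟨x, hx⟩ hx0
      have h3 : A *ᵥ x = 0 := hx0
      have h4 : (E : Matrix ι ι F) *ᵥ x = x := by
        have h5 : A *ᵥ x = (E : Matrix ι ι F) *ᵥ x - x := by
          simp only [A, Matrix.sub_mulVec, Matrix.one_mulVec]
        rw [h5] at h3
        exact sub_eq_zero.mp h3
      have h5 : x ∈ D (σ i₀) := by
        have h6 : (E : Matrix ι ι F) *ᵥ x ∈ (D i₀).map (Matrix.toLin' (E : Matrix ι ι F)) := ⟨x, hx, by simp [Matrix.toLin'_apply]⟩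
        rw [hσ, h4] at h6
        exact h6
      have h6 := Submodule.disjoint_def.mp (hdis i₀ (σ i₀) (Ne.symm hs)) x hx h5
      exact Subtype.ext h6
    have hrank : finrank F (D i₀) ≤ A.rank := by
      have h3 := LinearMap.finrank_range_of_inj hinj
      rw [← h3]
      exact Submodule.finrank_mono (LinearMap.range_comp_le_range _ _)
    have := hD.finrank_eq i₀
    omega

/-- **Tensor decompositions**: a criterion in terms of vectors in the factors. -/
theorem not_le_tensor (hQ : (polarBilin Q).Nondegenerate) (hn : 5 ≤ Fintype.card ι) {d k : ℕ} {e : ι ≃ Fin d × Fin k} {P : GL ι F}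
    {f₁ : (Fin d → F) → (Fin d → F) → F} {f₂ : (Fin k → F) → (Fin k → F) → F} (b₁ : IsBilinearForm f₁) (b₂ : IsBilinearForm f₂)
    (hs : IsTensorFormStructure id (𝔣) f₁ f₂ e P) {u₀ u₁ : Fin d → F} {v₀ v₁ v₂ : Fin k → F}
    (h00 : f₁ u₀ u₀ = 0) (h11 : f₁ u₁ u₁ = 0) (h01 : f₁ u₀ u₁ ≠ 0) (h10 : f₁ u₁ u₀ ≠ 0)
    (hv10 : f₂ v₁ v₀ ≠ 0) (hv12 : f₂ v₁ v₂ = 0) (hv20 : f₂ v₂ v₀ = 0) (hv2 : v₂ ≠ 0)
    (hz : Q ((P : Matrix ι ι F) *ᵥ kr e u₁ v₁) = 0) (hb : Q ((P : Matrix ι ι F) *ᵥ kr e u₁ v₂) = 0) :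
    ¬ omegaGL (⇑Q) ≤ tensorProductSubgroup d k e P := by
  classical
  intro hle
  obtain ⟨c, hc, R⟩ := pol_kr b₁ b₂ hs
  have hzb : 𝔣 ((P : Matrix ι ι F) *ᵥ kr e u₁ v₁) ((P : Matrix ι ι F) *ᵥ kr e u₁ v₂) = 0 := by
    rw [R, h11]
    ring
  have hE := hle (eG_mem_omegaGL hQ hn hz hzb)
  obtain ⟨a, b, hab⟩ := Main.mem_tensorProductSubgroup_iff.mp hE
  set α := f₁ u₁ u₀ with hα
  set δ := c * (α * f₂ v₁ v₀) with hδ
  have hδ0 : δ ≠ 0 := mul_ne_zero hc (mul_ne_zero h10 hv10)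
  have hEw : (eG hz hzb : Matrix ι ι F) *ᵥ ((P : Matrix ι ι F) *ᵥ kr e u₀ v₀) =
      (P : Matrix ι ι F) *ᵥ (kr e u₀ v₀ + δ • kr e u₁ v₂) := by
    rw [eG_sub hz hb hzb, R, R, Matrix.mulVec_add, Matrix.mulVec_smul, hv20, mul_zero, mul_zero, zero_smul, sub_zero]
  have hact := SpThree.conj_mulVec_P (g := eG hz hzb) (P := P) (kr e u₀ v₀)
  rw [hEw, tensor_action hab] at hact
  have hinj := mulVec_injective P hact
  set x := (a : Matrix (Fin d) (Fin d) F) *ᵥ u₀ with hx
  set y := (b : Matrix (Fin k) (Fin k) F) *ᵥ v₀ with hy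
  have key : ∀ p q, u₀ p * v₀ q + δ * (u₁ p * v₂ q) = x p * y q := by
    intro p q
    have h3 := congrFun hinj (e.symm (p, q))
    simpa [kr] using h3
  have hvec : ∀ q, y q • x = v₀ q • u₀ + (δ * v₂ q) • u₁ := by
    intro q
    funext p
    have h3 := key p q
    simp only [Pi.add_apply, Pi.smul_apply, smul_eq_mul]
    linear_combination -h3
  have hA : ∀ q, y q * f₁ u₁ x = v₀ q * α := by
    intro q
    have h3 := congrArg (fun v => f₁ u₁ v) (hvec q)
    simp only [b₁.smul_right, b₁.add_right, h11] at h3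
    rw [h3]
    ring
  have hB : ∀ q, y q * f₁ u₀ x = δ * f₁ u₀ u₁ * v₂ q := by
    intro q
    have h3 := congrArg (fun v => f₁ u₀ v) (hvec q)
    simp only [b₁.smul_right, b₁.add_right, h00] at h3
    rw [h3]
    ring
  set A := f₁ u₁ x with hAd
  set B := f₁ u₀ x with hBd
  have hv0 : v₀ ≠ 0 := by
    rintro rfl
    apply hv10
    have := b₂.smul_right 0 v₁ 0
    simpa using this
  have hA0 : A ≠ 0 := by
    intro h
    apply hv0
    funext q
    have h3 := hA q
    rw [h, mul_zero] at h3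
    exact (mul_eq_zero.mp h3.symm).resolve_right h10
  have h5 : (A * (δ * f₁ u₀ u₁)) • v₂ = (B * α) • v₀ := by
    funext q
    have h3 := hA q
    have h6 := hB q
    simp only [Pi.smul_apply, smul_eq_mul]
    linear_combination B * h3 - A * h6
  have h6 := congrArg (fun v => f₂ v₁ v) h5
  simp only [b₂.smul_right, hv12, mul_zero] at h6
  have hB0 : B = 0 := by
    have h7 : B * α * f₂ v₁ v₀ = 0 := h6.symm
    exact (mul_eq_zero.mp ((mul_eq_zero.mp h7).resolve_right hv10)).resolve_right h10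
  rw [hB0, zero_mul, zero_smul] at h5
  exact hv2 ((smul_eq_zero.mp h5).resolve_left (mul_ne_zero hA0 (mul_ne_zero hδ0 h01)))

/-- Tensor decompositions of symmetric forms in dimensions at least three. -/
theorem not_le_tensor_sym (h2 : (2 : F) ≠ 0) (hQ : (polarBilin Q).Nondegenerate) (hn : 5 ≤ Fintype.card ι) {d k : ℕ} (hd : 3 ≤ d) (hk : 3 ≤ k)
    {e : ι ≃ Fin d × Fin k} {P : GL ι F} {f₁ : (Fin d → F) → (Fin d → F) → F} {f₂ : (Fin k → F) → (Fin k → F) → F}
    (h1 : IsSymmetricForm f₁) (h3 : IsSymmetricForm f₂) (hs : IsTensorFormStructure id (𝔣) f₁ f₂ e P) :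
    ¬ omegaGL (⇑Q) ≤ tensorProductSubgroup d k e P := by
  classical
  obtain ⟨u₀, u₁, -, h00, h11, h01, -, -, -⟩ := exists_sing_triple h2 hd h1
  obtain ⟨v₀, v₁, v₂, -, -, hv, hv02, hv12, hv2⟩ := exists_sing_triple h2 hk h3
  have hQ' : IsNondegenerateQuadraticForm (⇑Q) := ⟨fun c v => by
    rw [QuadraticMap.map_smul, smul_eq_mul]
    ring, ⟨fun x y v => polar_add_left Q x y v, fun c x v => polar_smul_left' Q c x v, fun v x y => polar_add_right Q v x y,
      fun c v x => polar_smul_right' Q c v x⟩, fun v hv => by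
      have h4 : ∃ x, 𝔣 v x ≠ 0 := by
        by_contra hcon
        push Not at hcon
        exact hv (polarNondeg_of_nondeg Q hQ v hcon)
      obtain ⟨x, hx⟩ := h4
      exact ⟨⟨x, by rwa [polar_comm]⟩, ⟨x, hx⟩⟩⟩
  obtain ⟨c, hc, R⟩ := pol_kr h1.bilinear h3.bilinear hs
  refine not_le_tensor hQ hn h1.bilinear h3.bilinear hs (u₀ := u₀) (u₁ := u₁) (v₀ := v₀) (v₁ := v₁) (v₂ := v₂) h00 h11 h01 (by rwa [h1.symm]) (by rwa [h3.symm]) hv12 (by rwa [h3.symm]) hv2 ?_ ?_
  · exact Q_kr_odd h2 hQ' R (by rw [h11, zero_mul])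
  · exact Q_kr_odd h2 hQ' R (by rw [h11, zero_mul])

end Cfsg.Agent.Lib.Classical.Asch.NotO2
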