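import Mathlib
import Cfsg.Agent.Lib.Classical.Asch.NotO2
import Cfsg.Agent.Lib.Classical.Asch.OMax

/-!
# Tools for the maximal subgroups of the commutator subgroup of an orthogonal group in even dimension
-/

set_option autoImplicit false
set_option linter.style.haveILetI false
set_option linter.unusedSectionVars false

namespace Cfsg.Agent.Lib.Classical.Asch.OEMax

open scoped MatrixGroups Matrix Kronecker
open Module Cfsg Cfsg.Geo QuadraticMap
open Cfsg.Agent.Lib.Classical.Asch.Basic Cfsg.Agent.Lib.Classical.Asch.Forms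
open Cfsg.Agent.Lib.Classical.Asch.FormO Cfsg.Agent.Lib.Classical.Asch.FormOE
open Cfsg.Agent.Lib.Classical.Asch.SpThree Cfsg.Agent.Lib.Classical.Asch.OType
open Cfsg.Agent.Lib.Classical.Asch.OField Cfsg.Agent.Lib.Classical.Asch.NotO2
open Cfsg.Agent.Lib.Classical.Asch.NotO
open Cfsg.Agent.Lib.Classical.Asch.FormPerp Cfsg.Agent.Lib.Classical.Asch.Adj
open Cfsg.Agent.Lib.Classical.Asch.FormSympType (isomG isomG_le_similarity)
open Cfsg.Agent.Lib.Classical.Asch.NotSp (eq_inf_of_le')
open Cfsg.Agent.Lib.Classical.Geo.OPts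

variable {ι : Type} [Fintype ι] [DecidableEq ι] {F : Type*} [Field F] [Fintype F] {Q : (ι → F) → F} {H : Subgroup (GL ι F)}

theorem eq_stab (hQ : IsNondegenerateQuadraticForm Q) (hn : 5 ≤ Fintype.card ι) (hH : IsMaximalIn (omegaGL Q) H)
    {W : Submodule F (ι → F)} (h0 : W ≠ ⊥) (h1 : W ≠ ⊤) (hle : H ≤ subspaceStabilizer W) : H = subspaceStabilizer W ⊓ omegaGL Q := by
  obtain ⟨Q', rfl, hQ'⟩ := exists_quadraticForm hQ
  exact eq_inf_of_le' hH hle (not_le_stab hQ' hn h0 h1)

theorem ts_ne_top (hQ : IsNondegenerateQuadraticForm Q) (hn : 5 ≤ Fintype.card ι) {W : Submodule F (ι → F)} (hts : IsTotallySingularQuad Q W) : W ≠ ⊤ := by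
  obtain ⟨Q', rfl, hQ'⟩ := exists_quadraticForm hQ
  rintro rfl
  obtain ⟨z, hz0, -⟩ := Cfsg.Agent.Lib.Classical.Witt.Hyp.exists_singular_of_three_le Q' (three_le_finrank hn)
  apply hz0
  apply Cfsg.Agent.Lib.Classical.Witt.Hyp.polarNondeg_of_nondeg Q' hQ'
  intro y
  rw [polar, hts _ trivial, hts _ trivial, hts _ trivial]
  ring

theorem eq_decomp (hQ : IsNondegenerateQuadraticForm Q) (hn : 5 ≤ Fintype.card ι) (hH : IsMaximalIn (omegaGL Q) H) {t m : ℕ}
    {D : Fin t → Submodule F (ι → F)} (hD : IsMDecomposition m D) (hm : (2 : F) ≠ 0 ∨ 3 ≤ m) (hle : H ≤ decompositionStabilizer D) :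
    H = decompositionStabilizer D ⊓ omegaGL Q := by
  obtain ⟨Q', rfl, hQ'⟩ := exists_quadraticForm hQ
  rcases hm with hm | hm
  · exact eq_inf_of_le' hH hle (not_le_decomp hm hQ' hn hD)
  · exact eq_inf_of_le' hH hle (not_le_decomp_of_three_le hQ' hn hD hm)

theorem eq_normalizer (hQ : IsNondegenerateQuadraticForm Q) (hn : 5 ≤ Fintype.card ι) (hH : IsMaximalIn (omegaGL Q) H) {r : ℕ} (hr : 2 ≤ r)
    {K : Subalgebra F (Matrix ι ι F)} (hK : IsFieldSubalgebra r K) (hle : H ≤ subalgebraNormalizer K) : H = subalgebraNormalizer K ⊓ omegaGL Q := by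
  obtain ⟨Q', rfl, hQ'⟩ := exists_quadraticForm hQ
  exact eq_inf_of_le' hH hle (not_le_normalizer hQ' hn hr hK)

theorem eq_subfield (hQ : IsNondegenerateQuadraticForm Q) (hn : 5 ≤ Fintype.card ι) (hH : IsMaximalIn (omegaGL Q) H) {r : ℕ} (hr : 2 ≤ r) {F₀ : Subfield F}
    (hc : Fintype.card F = Nat.card F₀ ^ r) {P : GL ι F} (hle : H ≤ subfieldSubgroup F₀ P) : H = subfieldSubgroup F₀ P ⊓ omegaGL Q := by
  obtain ⟨Q', rfl, hQ'⟩ := exists_quadraticForm hQ
  exact eq_inf_of_le' hH hle (not_le_subfield hQ' hn hr hc P)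

theorem eq_tensor_sym (h2 : (2 : F) ≠ 0) (hQ : IsNondegenerateQuadraticForm Q) (hn : 5 ≤ Fintype.card ι) (hH : IsMaximalIn (omegaGL Q) H) {d k : ℕ} (hd : 3 ≤ d) (hk : 3 ≤ k)
    {e : ι ≃ Fin d × Fin k} {P : GL ι F} {f₁ : (Fin d → F) → (Fin d → F) → F} {f₂ : (Fin k → F) → (Fin k → F) → F}
    (h1 : IsSymmetricForm f₁) (h3 : IsSymmetricForm f₂) (hs : IsTensorFormStructure id (polar Q) f₁ f₂ e P)
    (hle : H ≤ tensorProductSubgroup d k e P) : H = tensorProductSubgroup d k e P ⊓ omegaGL Q := by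
  obtain ⟨Q', rfl, hQ'⟩ := exists_quadraticForm hQ
  exact eq_inf_of_le' hH hle (not_le_tensor_sym h2 hQ' hn hd hk h1 h3 hs)

theorem odd_card_iff : Odd (Fintype.card F) ↔ (2 : F) ≠ 0 := by
  refine ⟨Forms.two_ne_zero_of_odd, fun h => ?_⟩
  have hc : ringChar F ≠ 2 := by
    intro hc
    apply h
    have := ringChar.Nat.cast_ringChar (R := F)
    rw [hc] at this
    exact_mod_cast this
  exact Nat.odd_iff.mpr (FiniteField.odd_card_of_char_ne_two hc)

/-- A non-degenerate subspace in characteristic two has even dimension. -/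
theorem even_of_two (hQ : IsNondegenerateQuadraticForm Q) (h2 : (2 : F) = 0) {W : Submodule F (ι → F)} (hW : IsNondegenerateOn (polar Q) W) :
    Even (finrank F W) := by
  classical
  let φ : (Fin (finrank F W) → F) ≃ₗ[F] W := LinearEquiv.ofFinrankEq _ _ (by rw [finrank_fintype_fun_eq_card, Fintype.card_fin])
  have hb := hQ.polar_bilinear
  let f : (Fin (finrank F W) → F) → (Fin (finrank F W) → F) → F := fun x y => polar Q (φ x : ι → F) (φ y : ι → F)
  have hf : IsSymplecticForm f := by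
    refine ⟨⟨?_, ?_, ?_, ?_⟩, fun x y => ?_, fun x => ?_, fun v hv => ?_⟩
    · intro x y v
      simp only [f, map_add, Submodule.coe_add, hb.add_left]
    · intro c x v
      simp only [f, map_smul, Submodule.coe_smul, hb.smul_left]
    · intro v x y
      simp only [f, map_add, Submodule.coe_add, hb.add_right]
    · intro c v x
      simp only [f, map_smul, Submodule.coe_smul, hb.smul_right]
    · simp only [f]
      rw [polar_comm]
      have h3 : ∀ a : F, a = -a := fun a => by linear_combination a * h2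
      exact h3 _
    · simp only [f]
      rw [FormO.polar_self_eq hQ, h2, zero_mul]
    · have h0 : (φ v : ι → F) ≠ 0 := by
        intro h
        apply hv
        apply φ.injective
        rw [map_zero]
        exact Subtype.ext h
      obtain ⟨⟨x, hx, hxv⟩, ⟨x', hx', hxv'⟩⟩ := hW _ (φ v).2 h0
      refine ⟨⟨φ.symm ⟨x, hx⟩, ?_⟩, ⟨φ.symm ⟨x', hx'⟩, ?_⟩⟩
      · simpa [f] using hxv
      · simpa [f] using hxv'
  have := even_card_of_symplectic hf
  rwa [Fintype.card_fin] at this

/-- A non-degenerate subspace or its complement is small. -/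
theorem exists_small (hQ : IsNondegenerateQuadraticForm Q) (hH : H ≤ isometryGroup F Q) {W : Submodule F (ι → F)} (hn : Even (Fintype.card ι)) (h0 : W ≠ ⊥) (h1 : W ≠ ⊤)
    (hnd : IsNondegenerateOn (polar Q) W) (hle : H ≤ subspaceStabilizer W) :
    ∃ W' : Submodule F (ι → F), W' ≠ ⊥ ∧ W' ≠ ⊤ ∧ IsNondegenerateOn (polar Q) W' ∧ H ≤ subspaceStabilizer W' ∧
      2 * finrank F W' ≤ Fintype.card ι ∧ (W' = W ∨ W' = perpF (reflForm_symmetric (symm_polar hQ)) W) := by
  classical
  have hf := reflForm_symmetric (symm_polar hQ)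
  by_cases hs : 2 * finrank F W ≤ Fintype.card ι
  · exact ⟨W, h0, h1, hnd, hle, hs, Or.inl rfl⟩
  have hrad : W ⊓ perpF hf W = ⊥ := by
    rw [Submodule.eq_bot_iff]
    rintro w ⟨hw, hw'⟩
    by_contra hw0
    obtain ⟨⟨x, hx, hxw⟩, -⟩ := hnd w hw hw0
    exact hxw (hw' x hx)
  have hdim := finrank_perpF hf W
  have hW0 : 0 < finrank F W := Module.finrank_pos_iff.mpr (Submodule.nontrivial_iff_ne_bot.mpr h0)
  have hWt : finrank F W < Fintype.card ι := by
    have h3 := Submodule.finrank_lt h1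
    rwa [Module.finrank_fintype_fun_eq_card] at h3
  have hP0 : perpF hf W ≠ ⊥ := by
    intro h
    rw [h, finrank_bot] at hdim
    omega
  have hPt : perpF hf W ≠ ⊤ := by
    intro h
    rw [h, finrank_top, Module.finrank_fintype_fun_eq_card] at hdim
    omega
  have hInv : Inv H W := fun g hg v hv => (hle hg v).mp hv
  have hle' : H ≤ subspaceStabilizer (perpF hf W) :=
    le_subspaceStabilizer (inv_perpF hf (hH.trans (isometry_le_isomG.trans isomG_le_similarity)) hInv)
  exact ⟨_, hP0, hPt, isNondegenerateOn_perpF hf hrad, hle', by omega, Or.inr rfl⟩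

/-- Plus type is an isometry invariant. -/
theorem plus_of_isometric {W W' : Submodule F (ι → F)} (hI : AreIsometricFor Q W W') (hp : IsPlusTypeOn Q W) : IsPlusTypeOn Q W' := by
  classical
  obtain ⟨φ, hφ⟩ := hI
  obtain ⟨U, hUW, hU, hd⟩ := hp
  let L : W →ₗ[F] (ι → F) := W'.subtype.comp φ.toLinearMap
  have hinj : Function.Injective L := fun a b hab => φ.injective (Subtype.ext hab)
  refine ⟨(U.comap W.subtype).map L, ?_, ?_, ?_⟩
  · rintro _ ⟨a, -, rfl⟩
    exact (φ a).2
  · rintro _ ⟨a, ha, rfl⟩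
    change Q (φ a : ι → F) = 0
    rw [hφ]
    exact hU _ ha
  · have h1 : finrank F ↥((U.comap W.subtype).map L) = finrank F U := by
      rw [← (Submodule.equivMapOfInjective L hinj _).finrank_eq]
      exact (Submodule.comapSubtypeEquivOfLe hUW).finrank_eq
    rw [h1, hd]
    exact φ.finrank_eq

theorem omega_le_iso (Q : (ι → F) → F) : omegaGL Q ≤ isometryGroup F Q := Subgroup.map_subtype_le (Omega F Q)

/-- A span of a non-singular vector is proper. -/
theorem span_ne (hQ : IsNondegenerateQuadraticForm Q) {v : ι → F} (hv : Q v ≠ 0) (hn : 2 ≤ Fintype.card ι) :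
    Submodule.span F {v} ≠ ⊥ ∧ Submodule.span F {v} ≠ ⊤ := by
  have hv0 : v ≠ 0 := by
    rintro rfl
    exact hv (Q_zero hQ)
  refine ⟨fun h => hv0 (Submodule.span_singleton_eq_bot.mp h), fun h => ?_⟩
  have h1 : finrank F (Submodule.span F {v}) = 1 := finrank_span_singleton hv0
  rw [h, finrank_top, finrank_fintype_fun_eq_card] at h1
  omega

/-- A pair of totally singular members gives plus type. -/
theorem plus_of_pair (hQ : IsNondegenerateQuadraticForm Q) {k : ℕ} {D : Fin 2 → Submodule F (ι → F)} (hD : IsMDecomposition k D)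
    (hts : ∀ i, IsTotallySingularQuad Q (D i)) : IsPlusTypeOn Q ⊤ := by
  refine ⟨D 0, le_top, hts 0, ?_⟩
  rw [finrank_top, finrank_fintype_fun_eq_card, hD.finrank_eq 0, Block.card_eq_mul hD]

/-- Alternating tensor factors. -/
theorem plus_of_alt {d k : ℕ} (hQ : IsNondegenerateQuadraticForm Q) {e : ι ≃ Fin d × Fin k} {P : GL ι F}
    {f₁ : (Fin d → F) → (Fin d → F) → F} {f₂ : (Fin k → F) → (Fin k → F) → F} (h1 : IsSymplecticForm f₁) (h3 : IsSymplecticForm f₂)
    (hs : IsTensorFormStructure id (polar Q) f₁ f₂ e P) (hv : ∀ x y, Q ((P : Matrix ι ι F) *ᵥ kr e x y) = 0) (hdk : d = 2 ∨ k = 2) :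
    IsPlusTypeOn Q ⊤ := by
  classical
  obtain ⟨c, hc, hR⟩ := pol_kr h1.bilinear h3.bilinear hs
  have hcard : Fintype.card ι = d * k := by
    rw [Fintype.card_congr e, Fintype.card_prod, Fintype.card_fin, Fintype.card_fin]
  rcases hdk with rfl | rfl
  · refine plus_of_pure hQ (e := e) (P := P) (A := Unit) (B := Fin k) (x := fun _ => Pi.single 0 1) (y := fun j => Pi.single j 1) ?_ li_single (fun _ _ => hv _ _) ?_ ?_
    · rw [Fintype.linearIndependent_iff]
      intro g hg a
      simp only [Fintype.sum_unique] at hg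
      obtain rfl : a = default := Subsingleton.elim _ _
      refine (smul_eq_zero.mp hg).resolve_right fun h => ?_
      have := congrFun h 0
      simp at this
    · intro a b a' b'
      rw [hR, h1.alternating]
      ring
    · rw [hcard]
      simp
  · refine plus_of_pure hQ (e := e) (P := P) (A := Fin d) (B := Unit) (x := fun j => Pi.single j 1) (y := fun _ => Pi.single 0 1) li_single ?_ (fun _ _ => hv _ _) ?_ ?_
    · rw [Fintype.linearIndependent_iff]
      intro g hg a
      simp only [Fintype.sum_unique] at hg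
      obtain rfl : a = default := Subsingleton.elim _ _
      refine (smul_eq_zero.mp hg).resolve_right fun h => ?_
      have := congrFun h 0
      simp at this
    · intro a b a' b'
      rw [hR, h3.alternating]
      ring
    · rw [hcard]
      simp
      ring

/-- A symmetric factor of dimension three over the field with three elements gives a decomposition. -/
theorem tensor_three_dec (hq : Fintype.card F = 3) [Nonempty ι] (hQ : IsNondegenerateQuadraticForm Q) {k : ℕ} (hk : 0 < k) {e : ι ≃ Fin 3 × Fin k} {P : GL ι F}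
    {f₁ : (Fin 3 → F) → (Fin 3 → F) → F} {f₂ : (Fin k → F) → (Fin k → F) → F} (h1 : IsSymmetricForm f₁) (h3 : IsSymmetricForm f₂)
    (hs : IsTensorFormStructure id (polar Q) f₁ f₂ e P) (hG : ∀ W : Submodule F (ι → F), Inv (H ⊔ scalars ι F) W → W = ⊥ ∨ W = ⊤)
    (hH : H ≤ isometryGroup F Q) (hst : H ≤ tensorProductSubgroup 3 k e P) :
    ∃ D : Fin 3 → Submodule F (ι → F), IsOrthogonalMDecomposition Q k D ∧ H ≤ decompositionStabilizer D := by
  obtain ⟨D, hD, hle⟩ := tensor_three hq hk hQ.polar_bilinear h3.bilinear h3.nondegenerate h1 (tensor_swap hs)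
  have hHD : H ≤ decompositionStabilizer D := fun g hg =>
    hle g (Main.tensorProductSubgroup_le_swap e P (hst hg)) (isometry_le_isomG (hH hg))
  exact ⟨D, isOrthogonal_of hH hG hD (sup_le hHD (FormO3.scalars_le_decomp D)), hHD⟩

/-- A symmetric factor of dimension two in the minus case. -/
theorem tensor_two_minus [Nonempty ι] (h2 : (2 : F) ≠ 0) (hQ : IsNondegenerateQuadraticForm Q) (hminus : ¬ IsPlusTypeOn Q ⊤) {k : ℕ} [Nonempty (Fin k)]
    {e : ι ≃ Fin 2 × Fin k} {P : GL ι F} {f₁ : (Fin 2 → F) → (Fin 2 → F) → F} {f₂ : (Fin k → F) → (Fin k → F) → F} (h1 : IsSymmetricForm f₁) (h3 : IsSymmetricForm f₂)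
    (hs : IsTensorFormStructure id (polar Q) f₁ f₂ e P) (hH : H ≤ isometryGroup F Q) (hst : H ≤ tensorProductSubgroup 2 k e P) :
    ∃ K : Subalgebra F (Matrix ι ι F), IsFieldSubalgebra 2 K ∧ H ≤ subalgebraNormalizer K := by
  refine exists_field_of_sym_two hQ h1 h3 hs (fun u hu h0 => hminus ?_) hH hst
  exact plus_of_left_singular h2 hQ h1.bilinear h3.bilinear hs rfl hu h0

/-- Twelve is not a proper power. -/
theorem not_pow_twelve {d t : ℕ} (hd : 2 ≤ d) (ht : 2 ≤ t) (h : d ^ t = 12) : False := by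
  have h1 : d ^ 2 ≤ d ^ t := Nat.pow_le_pow_right (by omega) ht
  have h3 : d ≤ 3 := by nlinarith
  have h4 : 2 ^ t ≤ d ^ t := Nat.pow_le_pow_left hd t
  have h5 : t ≤ 3 := by
    by_contra h6
    have h7 : 2 ^ 4 ≤ 2 ^ t := Nat.pow_le_pow_right (by norm_num) (by omega)
    omega
  interval_cases d <;> interval_cases t <;> omega

theorem not_two_pow_twelve {m : ℕ} (h : 2 ^ m = 12) : False := by
  have h5 : m ≤ 3 := by
    by_contra h6
    have h7 : 2 ^ 4 ≤ 2 ^ m := Nat.pow_le_pow_right (by norm_num) (by omega)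
    omega
  interval_cases m <;> omega

/-- A symplectic-type group over a form has square order power of two. -/
theorem card_of_sympData [Nonempty ι] {G R : Subgroup (GL ι F)} {r s : ℕ} (hQ : IsNondegenerateQuadraticForm Q) (D : SympType.SympData G R r s)
    (hR : R ≤ isomG (polar Q)) : ∃ m, Fintype.card ι = 2 ^ m := by
  obtain ⟨rfl, -⟩ := FormSympType.SympData.refl_facts (reflForm_symmetric (symm_polar hQ)) D hR
  obtain ⟨m, hm, -⟩ := SympStruct.SympData.exists_card D
  exact ⟨m, hm⟩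

end Cfsg.Agent.Lib.Classical.Asch.OEMax
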