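import Mathlib
import Cfsg.Agent.Lib.Classical.Asch.OEMax

/-!
# Special structures in dimension eight: symplectic type groups and tensor cubes
-/

set_option autoImplicit false
set_option linter.style.haveILetI false
set_option linter.unusedSectionVars false

namespace Cfsg.Agent.Lib.Classical.Asch.OEight

open scoped MatrixGroups Matrix Kronecker
open Module Cfsg Cfsg.Geo QuadraticMap
open Cfsg.Agent.Lib.Classical.Asch.Basic Cfsg.Agent.Lib.Classical.Asch.Forms
open Cfsg.Agent.Lib.Classical.Asch.FormO Cfsg.Agent.Lib.Classical.Asch.FormOE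
open Cfsg.Agent.Lib.Classical.Asch.SpThree Cfsg.Agent.Lib.Classical.Asch.OType
open Cfsg.Agent.Lib.Classical.Asch.OField Cfsg.Agent.Lib.Classical.Asch.OEMax
open Cfsg.Agent.Lib.Classical.Asch.FormPerp Cfsg.Agent.Lib.Classical.Asch.Adj
open Cfsg.Agent.Lib.Classical.Asch.SympType Cfsg.Agent.Lib.Classical.Asch.SympStruct
open Cfsg.Agent.Lib.Classical.Asch.FormSympType
open Cfsg.Agent.Lib.Classical.Asch.FormDich
open Cfsg.Agent.Lib.Classical.Asch

variable {ι : Type} [Fintype ι] [DecidableEq ι] {F : Type*} [Field F] [Fintype F] {Q : (ι → F) → F}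

section Two

/-- A matrix commuting with a non-scalar trace-free matrix lies in the algebra it generates. -/
theorem eq_of_comm_j {G x : Matrix (Fin 2) (Fin 2) F} (h2 : (2 : F) ≠ 0) (hS : G 1 0 = G 0 1) (hG : G ≠ 0) (hx : x * jG G = jG G * x) :
    ∃ α β : F, x = α • 1 + β • jG G := by
  have E00 : - (x 0 1 * G 0 0) = G 1 1 * x 1 0 := by
    have h := congrFun (congrFun hx 0) 0
    simp only [jG, Matrix.mul_apply, Fin.sum_univ_two, Matrix.of_apply, Matrix.cons_val', Matrix.cons_val_zero, Matrix.cons_val_one, Matrix.cons_val_fin_one] at h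
    linear_combination h
  have E01 : G 1 1 * (x 0 0 - x 1 1) = 2 * G 0 1 * x 0 1 := by
    have h := congrFun (congrFun hx 0) 1
    simp only [jG, Matrix.mul_apply, Fin.sum_univ_two, Matrix.of_apply, Matrix.cons_val', Matrix.cons_val_zero, Matrix.cons_val_one, Matrix.cons_val_fin_one] at h
    linear_combination h
  have E10 : G 0 0 * (x 0 0 - x 1 1) = - (2 * G 0 1 * x 1 0) := by
    have h := congrFun (congrFun hx 1) 0
    simp only [jG, Matrix.mul_apply, Fin.sum_univ_two, Matrix.of_apply, Matrix.cons_val', Matrix.cons_val_zero, Matrix.cons_val_one, Matrix.cons_val_fin_one] at h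
    linear_combination h
  have hex : ∃ β : F, x 0 1 = β * G 1 1 ∧ x 1 0 = -(β * G 0 0) ∧ x 0 0 - x 1 1 = 2 * G 0 1 * β := by
    by_cases hc0 : G 1 1 = 0
    · by_cases ha0 : G 0 0 = 0
      · have hb0 : G 0 1 ≠ 0 := by
          intro hb0
          apply hG
          ext i j
          fin_cases i <;> fin_cases j
          · exact ha0
          · exact hb0
          · change G 1 0 = 0
            rw [hS]
            exact hb0
          · exact hc0
        have h2b : 2 * G 0 1 ≠ 0 := mul_ne_zero h2 hb0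
        refine ⟨(x 0 0 - x 1 1) / (2 * G 0 1), ?_, ?_, ?_⟩
        · rw [hc0, mul_zero]
          rw [hc0, zero_mul] at E01
          exact (mul_eq_zero.mp E01.symm).resolve_left h2b
        · rw [ha0, mul_zero, neg_zero]
          rw [ha0, zero_mul] at E10
          exact (mul_eq_zero.mp (neg_eq_zero.mp E10.symm)).resolve_left h2b
        · field_simp
      · obtain ⟨β, hβ⟩ : ∃ β, x 1 0 = -(β * G 0 0) := ⟨-x 1 0 / G 0 0, by field_simp⟩
        refine ⟨β, ?_, hβ, ?_⟩
        · rw [hc0, zero_mul] at E00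
          rw [hc0, mul_zero]
          exact (mul_eq_zero.mp (neg_eq_zero.mp E00)).resolve_right ha0
        · have h3 : G 0 0 * (x 0 0 - x 1 1 - 2 * G 0 1 * β) = 0 := by
            rw [hβ] at E10
            linear_combination E10
          exact sub_eq_zero.mp ((mul_eq_zero.mp h3).resolve_left ha0)
    · obtain ⟨β, hβ⟩ : ∃ β, x 0 1 = β * G 1 1 := ⟨x 0 1 / G 1 1, by field_simp⟩
      refine ⟨β, hβ, ?_, ?_⟩
      · have h3 : G 1 1 * (x 1 0 + β * G 0 0) = 0 := by
          rw [hβ] at E00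
          linear_combination -E00
        exact eq_neg_of_add_eq_zero_left ((mul_eq_zero.mp h3).resolve_left hc0)
      · have h3 : G 1 1 * (x 0 0 - x 1 1 - 2 * G 0 1 * β) = 0 := by
          rw [hβ] at E01
          linear_combination E01
        exact sub_eq_zero.mp ((mul_eq_zero.mp h3).resolve_left hc0)
  obtain ⟨β, h1, h3, h4⟩ := hex
  refine ⟨x 0 0 - β * G 0 1, β, ?_⟩
  ext i j
  fin_cases i <;> fin_cases j <;> simp [jG, Matrix.add_apply, Matrix.smul_apply, Matrix.one_apply] <;>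
    first | done | ring1 | linear_combination h1 | linear_combination h3 | linear_combination (-1 : F) * h4

theorem inv_rel {a b j : Matrix (Fin 2) (Fin 2) F} {l : F} (hab : a * b = 1) (hba : b * a = 1) (h : a * j = l • (j * a)) (hl : l ≠ 0) :
    b * j = l⁻¹ • (j * b) := by
  have h1 : j * b = l • (b * j) := by
    calc j * b = (b * a) * j * b := by rw [hba, one_mul]
      _ = b * (a * j) * b := by simp only [mul_assoc]
      _ = b * (l • (j * a)) * b := by rw [h]
      _ = l • (b * j * (a * b)) := by simp only [mul_smul_comm, smul_mul_assoc, mul_assoc]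
      _ = l • (b * j) := by rw [hab, mul_one]
  rw [h1, smul_smul, inv_mul_cancel₀ hl, one_smul]

theorem mul_rel {a b j : Matrix (Fin 2) (Fin 2) F} {l k : F} (h : a * j = l • (j * a)) (h' : b * j = k • (j * b)) :
    (a * b) * j = (l * k) • (j * (a * b)) := by
  calc (a * b) * j = a * (b * j) := mul_assoc _ _ _
    _ = k • ((a * j) * b) := by rw [h', mul_smul_comm, mul_assoc]
    _ = k • (l • (j * a * b)) := by rw [h, smul_mul_assoc]
    _ = _ := by rw [smul_smul, mul_comm k l, mul_assoc]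

/-- **A perfect group of similarities of a symmetric binary form is trivial.** -/
theorem not_perfect_sym_two (h2 : (2 : F) ≠ 0) (J : GL (Fin 2) F) (hS : (J : Matrix (Fin 2) (Fin 2) F)ᵀ = J) {X : Subgroup (GL (Fin 2) F)}
    (hXc : ⁅X, X⁆ = X) (hX0 : X ≠ ⊥) (hsim : ∀ a ∈ X, ∃ μ : F, μ ≠ 0 ∧ (a : Matrix (Fin 2) (Fin 2) F)ᵀ * (J : Matrix (Fin 2) (Fin 2) F) * (a : Matrix (Fin 2) (Fin 2) F) = μ • (J : Matrix (Fin 2) (Fin 2) F)) :
    False := by
  classical
  set G : Matrix (Fin 2) (Fin 2) F := (J : Matrix (Fin 2) (Fin 2) F) with hG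
  have hS' : G 1 0 = G 0 1 := by
    have := congrFun (congrFun hS 0) 1
    simpa using this
  have hGne : G ≠ 0 := by
    intro h
    have h1 : IsUnit G := J.isUnit
    rw [h] at h1
    exact not_isUnit_zero h1
  set j := jG G with hj
  have h1i : ∀ a : GL (Fin 2) F, (a : Matrix (Fin 2) (Fin 2) F) * ((a⁻¹ : GL (Fin 2) F) : Matrix (Fin 2) (Fin 2) F) = 1 := fun a => by
    rw [← Units.val_mul, mul_inv_cancel, Units.val_one]
  have hi1 : ∀ a : GL (Fin 2) F, ((a⁻¹ : GL (Fin 2) F) : Matrix (Fin 2) (Fin 2) F) * (a : Matrix (Fin 2) (Fin 2) F) = 1 := fun a => by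
    rw [← Units.val_mul, inv_mul_cancel, Units.val_one]
  -- the centraliser
  let C : Subgroup (GL (Fin 2) F) :=
    { carrier := {g | (g : Matrix (Fin 2) (Fin 2) F) * j = j * g}
      mul_mem' := fun {a b} ha hb => by
        change (a : Matrix (Fin 2) (Fin 2) F) * b * j = j * (a * b)
        have ha' : (a : Matrix (Fin 2) (Fin 2) F) * j = j * a := ha
        have hb' : (b : Matrix (Fin 2) (Fin 2) F) * j = j * b := hb
        rw [mul_assoc, hb', ← mul_assoc, ha', mul_assoc]
      one_mem' := by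
        change ((1 : GL (Fin 2) F) : Matrix (Fin 2) (Fin 2) F) * j = j * ((1 : GL (Fin 2) F) : Matrix (Fin 2) (Fin 2) F)
        simp
      inv_mem' := fun {a} ha => by
        change ((a⁻¹ : GL (Fin 2) F) : Matrix (Fin 2) (Fin 2) F) * j = j * ((a⁻¹ : GL (Fin 2) F) : Matrix (Fin 2) (Fin 2) F)
        have ha' : (a : Matrix (Fin 2) (Fin 2) F) * j = (1 : F) • (j * a) := by
          rw [one_smul]
          exact ha
        have h3 := inv_rel (h1i a) (hi1 a) ha' one_ne_zero
        rwa [inv_one, one_smul] at h3 }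
  have hCmem : ∀ g : GL (Fin 2) F, g ∈ C ↔ (g : Matrix (Fin 2) (Fin 2) F) * j = j * g := fun g => Iff.rfl
  -- the relation
  have hrel : ∀ a ∈ X, ∃ l : F, l ≠ 0 ∧ (a : Matrix (Fin 2) (Fin 2) F) * j = l • (j * a) := by
    intro a ha
    obtain ⟨μ, hμ, h⟩ := hsim a ha
    have h1 := j_conj hS' J.isUnit a.isUnit h
    have hdet : (a : Matrix (Fin 2) (Fin 2) F).det ≠ 0 := ((Matrix.isUnit_iff_isUnit_det _).mp a.isUnit).ne_zero
    refine ⟨μ / (a : Matrix (Fin 2) (Fin 2) F).det, div_ne_zero hμ hdet, ?_⟩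
    rw [div_eq_mul_inv, mul_comm, mul_smul, h1, smul_smul, inv_mul_cancel₀ hdet, one_smul]
  have hXC : X ≤ C := by
    rw [← hXc]
    rw [Subgroup.commutator_le]
    intro a ha b hb
    obtain ⟨l, hl, h1⟩ := hrel a ha
    obtain ⟨k, hk, h3⟩ := hrel b hb
    have h4 := inv_rel (h1i a) (hi1 a) h1 hl
    have h5 := inv_rel (h1i b) (hi1 b) h3 hk
    have h6 := mul_rel (mul_rel (mul_rel h1 h3) h4) h5
    have h7 : l * k * l⁻¹ * k⁻¹ = 1 := by
      field_simp
    rw [h7, one_smul] at h6
    rw [hCmem, commutatorElement_def]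
    simpa only [Units.val_mul] using h6
  have hcomm : ∀ a ∈ X, ∀ b ∈ X, a * b = b * a := by
    intro a ha b hb
    obtain ⟨α, β, h1⟩ := eq_of_comm_j h2 hS' hGne (hXC ha)
    obtain ⟨γ, δ, h3⟩ := eq_of_comm_j h2 hS' hGne (hXC hb)
    apply Units.ext
    rw [Units.val_mul, Units.val_mul, h1, h3]
    simp only [add_mul, mul_add, smul_mul_assoc, mul_smul_comm, one_mul, mul_one, smul_add, add_smul, smul_smul]
    rw [mul_comm α γ, mul_comm α δ, mul_comm β γ, mul_comm β δ]
    abel
  apply hX0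
  rw [← hXc, eq_bot_iff, Subgroup.commutator_le]
  intro a ha b hb
  rw [Subgroup.mem_bot, commutatorElement_def, hcomm a ha b hb]
  group

end Two

section Invol

variable {f : (ι → F) → (ι → F) → F} {ε : F}

theorem scal_comm (u : Fˣ) (g : GL ι F) : scal ι F u * g = g * scal ι F u := by
  apply Units.ext
  rw [Units.val_mul, Units.val_mul, coe_scal]
  simp

/-- **Groups of symplectic type in a form contain non-central involutions.** -/
theorem exists_involution [Nonempty ι] {G R : Subgroup (GL ι F)} {r s m : ℕ} (hf : ReflForm (RingEquiv.refl F) ε f) (D : SympData G R r s) (hR : R ≤ isomG f)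
    (hm : 2 ≤ m) (hc : Fintype.card ι = 2 ^ m) : ∃ x ∈ R, x ∉ scalars ι F ∧ x * x = 1 := by
  classical
  obtain ⟨rfl, rfl, h2, hneg, hsc⟩ := SympData.refl_facts hf D hR
  set ν : GL ι F := scal ι F (-1) with hν
  have hνν : ν * ν = 1 := by
    rw [hν, ← map_mul]
    simp
  have hνc : ∀ g : GL ι F, ν * g = g * ν := fun g => scal_comm _ g
  have hm1 : ν ≠ 1 := by
    intro h
    have h1 : (-1 : Fˣ) = 1 := scal_injective (ι := ι) (by rw [← hν, h, map_one])
    have h3 : (-1 : F) = 1 := by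
      have := congrArg Units.val h1
      simpa using this
    apply h2
    linear_combination -h3
  have hcomm : ∀ x ∈ R, ∀ y ∈ R, x * y * x⁻¹ * y⁻¹ = 1 ∨ x * y * x⁻¹ * y⁻¹ = ν := fun x hx y hy =>
    hsc _ (mul_mem (mul_mem (mul_mem hx hy) (inv_mem hx)) (inv_mem hy)) (D.comm x hx y hy)
  have hxy : ∀ x ∈ R, ∀ y ∈ R, x * y = y * x ∨ x * y = ν * (y * x) := by
    intro x hx y hy
    rcases hcomm x hx y hy with h | h
    · left
      have h1 : x * y * x⁻¹ * y⁻¹ * (y * x) = y * x := by rw [h, one_mul]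
      rwa [show x * y * x⁻¹ * y⁻¹ * (y * x) = x * y by group] at h1
    · right
      have h1 : x * y * x⁻¹ * y⁻¹ * (y * x) = ν * (y * x) := by rw [h]
      rwa [show x * y * x⁻¹ * y⁻¹ * (y * x) = x * y by group] at h1
  have hsq : ∀ x ∈ R, x * x = 1 ∨ x * x = ν := by
    intro x hx
    refine hsc _ (mul_mem hx hx) ?_
    rw [mem_scalars_iff']
    refine D.cs _ (mem_cent.mpr fun y hy => ?_)
    rw [← Units.val_mul, ← Units.val_mul]
    congr 1
    rcases hxy x hx y hy with h | h
    · calc y * (x * x) = (y * x) * x := by rw [mul_assoc]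
        _ = (x * y) * x := by rw [h]
        _ = x * (y * x) := mul_assoc _ _ _
        _ = x * (x * y) := by rw [h]
        _ = x * x * y := (mul_assoc _ _ _).symm
    · calc y * (x * x) = (ν * ν) * (y * (x * x)) := by rw [hνν, one_mul]
        _ = ν * (ν * (y * x) * x) := by simp only [mul_assoc]
        _ = ν * ((x * y) * x) := by rw [h]
        _ = ν * (x * (y * x)) := by rw [mul_assoc x y x]
        _ = x * (ν * (y * x)) := by rw [← mul_assoc, hνc x, mul_assoc]
        _ = x * (x * y) := by rw [h]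
        _ = x * x * y := by rw [mul_assoc]
  obtain ⟨x₀, hx₀, hx₀Z⟩ := Set.not_subset.mp D.notZ
  rcases hsq x₀ hx₀ with h | hx₀2
  · exact ⟨x₀, hx₀, hx₀Z, h⟩
  -- the centraliser of `x₀` has index at most two
  obtain ⟨m', hm', hcq⟩ := SympData.exists_card D
  have hmm : m' = m := by
    rw [hc] at hm'
    exact Nat.pow_right_injective (le_refl 2) hm'.symm
  subst hmm
  let φ : ↥R →* GL ι F := MonoidHom.mk' (fun y : ↥R => x₀ * (y : GL ι F) * x₀⁻¹ * (y : GL ι F)⁻¹) (by
    intro a b
    have h3 : ∀ c : GL ι F, c = 1 ∨ c = ν → ∀ g : GL ι F, c * g = g * c := by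
      rintro c (rfl | rfl) g
      · simp
      · exact hνc g
    have h4 := h3 _ (hcomm x₀ hx₀ b b.2) (a : GL ι F)⁻¹
    simp only [Subgroup.coe_mul, mul_inv_rev]
    calc x₀ * (↑a * ↑b) * x₀⁻¹ * ((↑b)⁻¹ * (↑a)⁻¹) = x₀ * ↑a * x₀⁻¹ * (x₀ * ↑b * x₀⁻¹ * (↑b)⁻¹ * (↑a : GL ι F)⁻¹) := by group
      _ = x₀ * ↑a * x₀⁻¹ * ((↑a : GL ι F)⁻¹ * (x₀ * ↑b * x₀⁻¹ * (↑b)⁻¹)) := by rw [h4]
      _ = _ := by group)
  have hφ : ∀ y : ↥R, φ y = x₀ * (y : GL ι F) * x₀⁻¹ * (y : GL ι F)⁻¹ := fun y => rfl
  have hrange : Nat.card φ.range ≤ 2 := by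
    have hmem : ∀ z : φ.range, (z : GL ι F) = 1 ∨ (z : GL ι F) = ν := by
      rintro ⟨_, y, rfl⟩
      exact hcomm x₀ hx₀ y y.2
    let ψ : φ.range → Bool := fun z => decide ((z : GL ι F) = 1)
    have hψ : Function.Injective ψ := by
      intro a b hab
      apply Subtype.ext
      have h3 : ((a : GL ι F) = 1) ↔ ((b : GL ι F) = 1) := by
        simpa [ψ] using hab
      rcases hmem a with h | h <;> rcases hmem b with h' | h'
      · rw [h, h']
      · exact absurd (h3.mp h) (by
          rw [h']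
          intro h5
          apply hm1 h5)
      · exact absurd (h3.mpr h') (by
          rw [h]
          intro h5
          apply hm1 h5)
      · rw [h, h']
    have := Nat.card_le_card_of_injective ψ hψ
    simpa using this
  have hcardR : 2 ^ (2 * m') ≤ Nat.card R := by
    rw [← hcq, Subgroup.card_eq_card_quotient_mul_card_subgroup (Subgroup.center R)]
    exact Nat.le_mul_of_pos_right _ Nat.card_pos
  have h16 : 16 ≤ 2 ^ (2 * m') := by
    calc 16 = 2 ^ (2 * 2) := by norm_num
      _ ≤ 2 ^ (2 * m') := Nat.pow_le_pow_right (by norm_num) (by omega)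
  have hker : 8 ≤ Nat.card φ.ker := by
    have h3 := Subgroup.card_mul_index φ.ker
    rw [Subgroup.index_ker] at h3
    by_contra h4
    push Not at h4
    have h5 : Nat.card φ.ker * Nat.card φ.range ≤ 7 * 2 := Nat.mul_le_mul (by omega) hrange
    omega
  let S : Finset (GL ι F) := {1, ν, x₀, ν * x₀}
  obtain ⟨z, hzS⟩ : ∃ z : φ.ker, ((z : ↥R) : GL ι F) ∉ S := by
    by_contra hcon
    push Not at hcon
    let f : φ.ker → S := fun z => ⟨((z : ↥R) : GL ι F), hcon z⟩
    have hf : Function.Injective f := by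
      intro a b hab
      apply Subtype.ext
      apply Subtype.ext
      have h3 := congrArg Subtype.val hab
      exact h3
    have h3 := Nat.card_le_card_of_injective f hf
    rw [Nat.card_eq_fintype_card (α := S), Fintype.card_coe] at h3
    have h4 : S.card ≤ 4 := Finset.card_le_four
    omega
  obtain ⟨⟨z', hzR⟩, hz⟩ := z
  change z' ∉ S at hzS
  have hzc : x₀ * z' = z' * x₀ := by
    have h3 : φ ⟨z', hzR⟩ = 1 := hz
    rw [hφ] at h3
    have h4 : x₀ * z' * x₀⁻¹ * z'⁻¹ * (z' * x₀) = z' * x₀ := by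
      change x₀ * z' * x₀⁻¹ * z'⁻¹ = 1 at h3
      rw [h3, one_mul]
    rwa [show x₀ * z' * x₀⁻¹ * z'⁻¹ * (z' * x₀) = x₀ * z' by group] at h4
  have hS1 : z' ≠ 1 := fun h => hzS (by simp [S, h])
  have hS2 : z' ≠ ν := fun h => hzS (by simp [S, h])
  have hS3 : z' ≠ x₀ := fun h => hzS (by simp [S, h])
  have hS4 : z' ≠ ν * x₀ := fun h => hzS (by simp [S, h])
  have hzZ : z' ∉ scalars ι F := by
    intro h
    rcases hsc z' hzR h with h3 | h3
    · exact hS1 h3
    · exact hS2 h3
  rcases hsq z' hzR with h | hz2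
  · exact ⟨z', hzR, hzZ, h⟩
  refine ⟨x₀ * z', mul_mem hx₀ hzR, ?_, ?_⟩
  · intro h
    rcases hsc _ (mul_mem hx₀ hzR) h with h3 | h3
    · apply hS4
      calc z' = (ν * ν) * z' := by rw [hνν, one_mul]
        _ = ν * (x₀ * x₀) * z' := by rw [hx₀2]
        _ = ν * x₀ * (x₀ * z') := by simp only [mul_assoc]
        _ = ν * x₀ := by rw [h3, mul_one]
    · apply hS3
      calc z' = (ν * ν) * z' := by rw [hνν, one_mul]
        _ = ν * (x₀ * x₀) * z' := by rw [hx₀2]
        _ = ν * x₀ * (x₀ * z') := by simp only [mul_assoc]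
        _ = ν * x₀ * ν := by rw [h3]
        _ = x₀ * (ν * ν) := by rw [hνc x₀, mul_assoc]
        _ = x₀ := by rw [hνν, mul_one]
  · calc x₀ * z' * (x₀ * z') = x₀ * (z' * x₀) * z' := by simp only [mul_assoc]
      _ = x₀ * (x₀ * z') * z' := by rw [hzc]
      _ = (x₀ * x₀) * (z' * z') := by simp only [mul_assoc]
      _ = 1 := by rw [hx₀2, hz2, hνν]

end Invol

section SympPlus

/-- The eigenspaces of a matrix. -/
def eigS (X : Matrix ι ι F) (c : F) : Submodule F (ι → F) where
  carrier := {v | X *ᵥ v = c • v}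
  add_mem' := fun {a b} ha hb => by
    change X *ᵥ (a + b) = c • (a + b)
    rw [Matrix.mulVec_add, ha, hb, smul_add]
  zero_mem' := by
    change X *ᵥ 0 = c • 0
    simp
  smul_mem' := fun k a ha => by
    change X *ᵥ (k • a) = c • (k • a)
    rw [Matrix.mulVec_smul, ha, smul_comm]

theorem mem_eigS {X : Matrix ι ι F} {c : F} {v : ι → F} : v ∈ eigS X c ↔ X *ᵥ v = c • v := Iff.rfl

/-- Isometric members are symmetric. -/
theorem isometric_symm {W W' : Submodule F (ι → F)} (h : AreIsometricFor Q W W') : AreIsometricFor Q W' W := by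
  obtain ⟨φ, hφ⟩ := h
  refine ⟨φ.symm, fun w => ?_⟩
  have h1 := hφ (φ.symm w)
  rw [LinearEquiv.apply_symm_apply] at h1
  exact h1.symm

/-- An involution in a group of symplectic type gives an isometric decomposition. -/
theorem plus_of_sympData [Nonempty ι] (hQ : IsNondegenerateQuadraticForm Q) {G R : Subgroup (GL ι F)} {r s m : ℕ} (D : SympData G R r s)
    (hR : R ≤ isomG (polar Q)) (hm : 2 ≤ m) (hc : Fintype.card ι = 2 ^ m) : IsPlusTypeOn Q ⊤ := by
  classical
  have hf := reflForm_symmetric (symm_polar hQ)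
  obtain ⟨x, hxR, hxZ, hxx⟩ := exists_involution hf D hR hm hc
  obtain ⟨rfl, rfl, h2, hneg, hsc⟩ := SympData.refl_facts hf D hR
  obtain ⟨y, hyR, u, hu, hyx⟩ := SympData.exists_noncomm D hxR hxZ
  have hu' : scal ι F u = scal ι F (-1) := by
    rcases hsc _ (by rw [← hyx]; exact mul_mem (mul_mem (mul_mem hyR hxR) (inv_mem hyR)) (inv_mem hxR)) (scal_mem u) with h | h
    · exfalso
      apply hu
      apply scal_injective (ι := ι)
      rw [h, map_one]
    · exact h
  rw [hu'] at hyx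
  set X : Matrix ι ι F := (x : Matrix ι ι F) with hX
  set Y : Matrix ι ι F := (y : Matrix ι ι F) with hY
  have hXX : X * X = 1 := by
    rw [hX, ← Units.val_mul, hxx, Units.val_one]
  have hYX : Y * X = -(X * Y) := by
    have h3 : y * x = scal ι F (-1) * (x * y) := by
      rw [← hyx]
      group
    have h4 := congrArg (fun g : GL ι F => (g : Matrix ι ι F)) h3
    simp only [Units.val_mul, coe_scal] at h4
    rw [hX, hY, h4]
    simp
  have hXY : X * Y = -(Y * X) := by
    rw [hYX, neg_neg]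
  have hXXv : ∀ v, X *ᵥ (X *ᵥ v) = v := fun v => by
    rw [Matrix.mulVec_mulVec, hXX, Matrix.one_mulVec]
  set W := eigS X 1 with hW
  set W' := eigS X (-1) with hW'
  have hisoX : ∀ u v, polar Q (X *ᵥ u) (X *ᵥ v) = polar Q u v := fun u v => hR hxR u v
  have hisoY : ∀ u v, polar Q (Y *ᵥ u) (Y *ᵥ v) = polar Q u v := fun u v => hR hyR u v
  have hb := hQ.polar_bilinear
  -- orthogonality
  have horth : ∀ u ∈ W, ∀ v ∈ W', polar Q u v = 0 := by
    intro u hu v hv
    have h3 := hisoX u v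
    rw [mem_eigS.mp hu, mem_eigS.mp hv, one_smul, hb.smul_right] at h3
    have h4 : 2 * polar Q u v = 0 := by linear_combination -h3
    exact (mul_eq_zero.mp h4).resolve_left h2
  -- the decomposition of a vector
  have hdec : ∀ v, ∃ a ∈ W, ∃ b ∈ W', v = a + b := by
    intro v
    refine ⟨(2 : F)⁻¹ • (v + X *ᵥ v), ?_, (2 : F)⁻¹ • (v - X *ᵥ v), ?_, ?_⟩
    · rw [mem_eigS, Matrix.mulVec_smul, Matrix.mulVec_add, hXXv, one_smul, add_comm]
    · rw [mem_eigS, Matrix.mulVec_smul, Matrix.mulVec_sub, hXXv, smul_comm]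
      congr 1
      rw [neg_smul, one_smul, neg_sub]
    · rw [← smul_add]
      have h3 : v + X *ᵥ v + (v - X *ᵥ v) = (2 : F) • v := by
        rw [two_smul]
        abel
      rw [h3, smul_smul, inv_mul_cancel₀ h2, one_smul]
  have hdis : W ⊓ W' = ⊥ := by
    rw [Submodule.eq_bot_iff]
    rintro v ⟨h3, h4⟩
    have h5 : (1 : F) • v = (-1 : F) • v := (mem_eigS.mp h3).symm.trans (mem_eigS.mp h4)
    have h5' : v = -v := by simpa using h5
    have h6 : (2 : F) • v = 0 := by
      calc (2 : F) • v = v + v := two_smul _ _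
        _ = -v + v := by rw [← h5']
        _ = 0 := neg_add_cancel v
    exact (smul_eq_zero.mp h6).resolve_left h2
  -- the map `Y` swaps the eigenspaces
  have hYW : ∀ v ∈ W, Y *ᵥ v ∈ W' := by
    intro v hv
    rw [mem_eigS, Matrix.mulVec_mulVec, hXY, Matrix.neg_mulVec, ← Matrix.mulVec_mulVec, mem_eigS.mp hv, one_smul, neg_smul, one_smul]
  have hYW' : ∀ v ∈ W', Y *ᵥ v ∈ W := by
    intro v hv
    rw [mem_eigS, Matrix.mulVec_mulVec, hXY, Matrix.neg_mulVec, ← Matrix.mulVec_mulVec, mem_eigS.mp hv, Matrix.mulVec_smul, one_smul, neg_smul, one_smul, neg_neg]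
  have hYinj : Function.Injective (Matrix.toLin' Y) := fun a b hab => mulVec_injective y (by simpa [hY, Matrix.toLin'_apply] using hab)
  have hle1 : W.map (Matrix.toLin' Y) ≤ W' := by
    rintro _ ⟨v, hv, rfl⟩
    rw [Matrix.toLin'_apply]
    exact hYW v hv
  have hle2 : W'.map (Matrix.toLin' Y) ≤ W := by
    rintro _ ⟨v, hv, rfl⟩
    rw [Matrix.toLin'_apply]
    exact hYW' v hv
  have hfr1 := (Submodule.equivMapOfInjective _ hYinj W).finrank_eq
  have hfr2 := (Submodule.equivMapOfInjective _ hYinj W').finrank_eq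
  have hfr3 := Submodule.finrank_mono hle1
  have hfr4 := Submodule.finrank_mono hle2
  have hfreq : finrank F W = finrank F W' := by omega
  have hmap : W.map (Matrix.toLin' Y) = W' := Submodule.eq_of_le_of_finrank_eq hle1 (by omega)
  have hsum : finrank F W + finrank F W' = Fintype.card ι := by
    have h3 := Submodule.finrank_sup_add_finrank_inf_eq W W'
    have htop : W ⊔ W' = ⊤ := by
      rw [eq_top_iff]
      intro v _
      obtain ⟨a, ha, b, hb', rfl⟩ := hdec v
      exact Submodule.add_mem_sup ha hb'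
    rw [htop, hdis, finrank_top, finrank_bot, finrank_fintype_fun_eq_card, add_zero] at h3
    exact h3.symm
  -- `W'` is the perpendicular space of `W`
  have hrad : W ⊓ perpF hf W = ⊥ := by
    rw [Submodule.eq_bot_iff]
    rintro v ⟨h3, h4⟩
    by_contra hv0
    obtain ⟨w, hw⟩ := (hQ.nondegenerate v hv0).2
    apply hw
    obtain ⟨a, ha, b, hb', rfl⟩ := hdec w
    rw [hb.add_right, horth v h3 b hb', add_zero, symm_polar hQ |>.symm]
    exact h4 a ha
  have hperp : perpF hf W = W' := by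
    refine (Submodule.eq_of_le_of_finrank_eq ?_ ?_).symm
    · intro v hv u hu
      exact horth u hu v hv
    · have := finrank_perpF hf W
      omega
  have hk : finrank F W = 2 ^ (m - 1) := by
    have h3 : 2 ^ m = 2 * 2 ^ (m - 1) := by
      rw [← pow_succ']
      congr 1
      omega
    omega
  have hk0 : 0 < finrank F W := by
    rw [hk]
    positivity
  have hperpk : finrank F (perpF hf W) = finrank F W := by
    rw [hperp]
    exact hfreq.symm
  have hDn := isNondegenerateMDecomposition_pair hf hrad hk0 rfl hperpk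
  rw [hperp] at hDn
  have hQY : ∀ v, Q (Y *ᵥ v) = Q v := by
    intro v
    have h3 := hisoY v v
    rw [FormO.polar_self_eq hQ, FormO.polar_self_eq hQ] at h3
    exact mul_left_cancel₀ h2 h3
  have hI01 : AreIsometricFor Q W W' := by
    refine ⟨(Submodule.equivMapOfInjective _ hYinj W).trans (LinearEquiv.ofEq _ _ hmap), fun v => ?_⟩
    change Q (Matrix.toLin' Y (v : ι → F)) = Q v
    rw [Matrix.toLin'_apply]
    exact hQY v
  have hOMD : IsOrthogonalMDecomposition Q (finrank F W) ![W, W'] := by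
    refine ⟨hDn, fun i j => ?_⟩
    fin_cases i <;> fin_cases j
    · exact ⟨LinearEquiv.refl F _, fun _ => rfl⟩
    · exact hI01
    · exact isometric_symm hI01
    · exact ⟨LinearEquiv.refl F _, fun _ => rfl⟩
  refine plus_of_even_block h2 hQ hOMD (m := 2 ^ (m - 1)) Nat.one_le_two_pow ?_ even_two ?_
  · rw [hc, ← pow_succ']
    congr 1
    omega
  · exact Even.pow_of_ne_zero even_two (by omega)

end SympPlus


section Wreath

open Cfsg.Agent.Lib.Classical.Asch.FormEven Cfsg.Agent.Lib.Classical.Asch.PureTensor Cfsg.Agent.Lib.Classical.Asch.Gram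

variable {d t : ℕ} {e : ι ≃ (Fin t → Fin d)}

/-- The quadratic form of a partition vanishes on pure vectors. -/
theorem quadOf_pure (h2 : (2 : F) = 0) (ht : 2 ≤ t) {J₀ : Matrix (Fin d) (Fin d) F} (hS : J₀ᵀ = J₀) (hd₀ : ∀ α, J₀ α α = 0)
    {w : ι → F} (hw0 : (fun a => w (e.symm a)) ∈ NotSL.Pure0 F t d) :
    quadOf ((pureMat fun _ : Fin t => J₀).submatrix e e) (fun i => e i ⟨0, by omega⟩) w = 0 := by
  classical
  let i₀ : Fin t := ⟨0, by omega⟩
  let i₁ : Fin t := ⟨1, by omega⟩
  have hi : i₁ ≠ i₀ := by simp [i₀, i₁, Fin.ext_iff]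
  set A : Matrix ι ι F := (pureMat fun _ : Fin t => J₀).submatrix e e with hAdef
  have hAij : ∀ i j, A i j = ∏ l, J₀ (e i l) (e j l) := fun i j => rfl
  obtain ⟨xs, hxs⟩ := hw0
  have hw : ∀ i, w i = ∏ l, xs l (e i l) := by
    intro i
    have := hxs (e i)
    simpa using this
  have hb : ∑ α, ∑ γ, J₀ α γ * xs i₁ α * xs i₁ γ = 0 := by
    rw [← bil_self_of_two h2 hS hd₀ (xs i₁)]
    unfold bil
    simp only [dotProduct, Matrix.mulVec, Finset.mul_sum]
    refine Finset.sum_congr rfl fun β _ => Finset.sum_congr rfl fun δ _ => ?_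
    ring
  let Y : Fin t → Fin d → Fin d → F := fun l α γ =>
    (if l = i₀ then (if α < γ then 1 else 0) else 1) * (J₀ α γ * xs l α * xs l γ)
  have hterm : ∀ a b : Fin t → Fin d, (if a i₀ < b i₀ then (∏ l, J₀ (a l) (b l)) * (∏ l, xs l (a l)) * (∏ l, xs l (b l)) else 0) =
      ∏ l, Y l (a l) (b l) := by
    intro a b
    have h6 : ∏ l, (if l = i₀ then (if a l < b l then (1 : F) else 0) else 1) = if a i₀ < b i₀ then 1 else 0 := by
      rw [Finset.prod_ite_eq' Finset.univ i₀ (fun l => if a l < b l then (1 : F) else 0)]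
      simp
    simp only [Y]
    rw [Finset.prod_mul_distrib, h6, Finset.prod_mul_distrib, Finset.prod_mul_distrib]
    split_ifs <;> simp
  change quadOf A (fun i => e i i₀) w = 0
  unfold quadOf
  rw [← Equiv.sum_comp e.symm]
  have h5 : ∀ a : Fin t → Fin d, ∑ j, (if e (e.symm a) i₀ < e j i₀ then A (e.symm a) j * w (e.symm a) * w j else 0) =
      ∑ b : Fin t → Fin d, ∏ l, Y l (a l) (b l) := by
    intro a
    rw [← Equiv.sum_comp e.symm]
    refine Finset.sum_congr rfl fun b _ => ?_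
    rw [← hterm, hAij, hw, hw]
    simp only [Equiv.apply_symm_apply]
  simp only [h5]
  rw [sum_sum_prod]
  refine Finset.prod_eq_zero (Finset.mem_univ i₁) ?_
  simp only [Y, if_neg hi, one_mul]
  exact hb

/-- The pure vectors span. -/
theorem span_pure : Submodule.span F {w : ι → F | (fun a => w (e.symm a)) ∈ NotSL.Pure0 F t d} = ⊤ := by
  classical
  rw [eq_top_iff]
  intro w _
  rw [sum_single_eq w]
  refine Submodule.sum_mem _ fun i _ => Submodule.smul_mem _ _ (Submodule.subset_span ?_)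
  refine ⟨fun l => Pi.single (e i l) 1, fun a => ?_⟩
  by_cases h : a = e i
  · subst h
    simp
  · have h3 : e.symm a ≠ i := fun h' => h (by rw [← h']; simp)
    beta_reduce
    rw [Pi.single_eq_of_ne h3]
    obtain ⟨l, hl⟩ := Function.ne_iff.mp h
    exact (Finset.prod_eq_zero (Finset.mem_univ l) (Pi.single_eq_of_ne hl _)).symm

/-- **In characteristic two, the quadratic form of a tensor power for an irreducible group vanishes on the pure vectors.** -/
theorem wreath_Q_pure (h2 : (2 : F) = 0) (hQ : IsNondegenerateQuadraticForm Q) (hn : 2 ≤ Fintype.card ι) {H : Subgroup (GL ι F)} (hH : H ≤ isometryGroup F Q)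
    (hirr : ∀ W : Submodule F (ι → F), Inv H W → W = ⊥ ∨ W = ⊤) {P : GL ι F} {J₀ : GL (Fin d) F} {ε₀ c : F}
    (T : WreathForm (RingEquiv.refl F) 1 (polar Q) (H ⊔ scalars ι F) d t e P J₀ ε₀ c)
    (hS : (J₀ : Matrix (Fin d) (Fin d) F)ᵀ = J₀) (hd₀ : ∀ α, (J₀ : Matrix (Fin d) (Fin d) F) α α = 0) {w : ι → F}
    (hw : (fun a => w (e.symm a)) ∈ NotSL.Pure0 F t d) : Q ((P : Matrix ι ι F) *ᵥ w) = 0 := by
  classical
  have ht := T.ht
  let i₀ : Fin t := ⟨0, by omega⟩
  set A : Matrix ι ι F := (pureMat fun _ : Fin t => (J₀ : Matrix (Fin d) (Fin d) F)).submatrix e e with hAdef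
  have hAij : ∀ i j, A i j = ∏ l, (J₀ : Matrix (Fin d) (Fin d) F) (e i l) (e j l) := fun i j => rfl
  have hs : ∀ α γ, (J₀ : Matrix (Fin d) (Fin d) F) α γ = (J₀ : Matrix (Fin d) (Fin d) F) γ α := fun α γ => by
    conv_lhs => rw [← hS]
    rfl
  have hA : ∀ i j, A i j = A j i := by
    intro i j
    rw [hAij, hAij]
    exact Finset.prod_congr rfl fun l _ => hs _ _
  let π : ι → Fin d := fun i => e i i₀
  have hz : ∀ i j, π i = π j → A i j = 0 := by
    intro i j h
    have h' : e i i₀ = e j i₀ := h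
    rw [hAij]
    refine Finset.prod_eq_zero (Finset.mem_univ i₀) ?_
    rw [h', hd₀]
  have heq : ∀ u v, polar Q ((P : Matrix ι ι F) *ᵥ u) ((P : Matrix ι ι F) *ᵥ v) = c * bil A u v := T.eq
  let L : (ι → F) → F := fun v => Q ((P : Matrix ι ι F) *ᵥ v) - c * quadOf A π v
  have hLadd : ∀ u v, L (u + v) = L u + L v := by
    intro u v
    simp only [L]
    rw [Matrix.mulVec_add, Q_add' Q, quadOf_add hA hz, heq]
    ring
  have hLsm : ∀ (a : F) v, L (a • v) = a ^ 2 * L v := by
    intro a v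
    simp only [L]
    rw [Matrix.mulVec_smul, hQ.smul, quadOf_smul]
    ring
  have hinv : ∀ g ∈ H, ∀ v, L (((P⁻¹ * g * P : GL ι F) : Matrix ι ι F) *ᵥ v) = L v := by
    intro g hg v
    set B : Matrix ι ι F := ((P⁻¹ * g * P : GL ι F) : Matrix ι ι F) with hB
    have hPB : ∀ u, (P : Matrix ι ι F) *ᵥ (B *ᵥ u) = (g : Matrix ι ι F) *ᵥ ((P : Matrix ι ι F) *ᵥ u) := fun u => (conj_mulVec_P u).symm
    have hbilB : ∀ u v, c * bil A (B *ᵥ u) (B *ᵥ v) = c * bil A u v := by
      intro u v
      rw [← heq, ← heq, hPB, hPB]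
      exact isometry_le_isomG (hH hg) _ _
    let D : (ι → F) → F := fun v => c * quadOf A π (B *ᵥ v) - c * quadOf A π v
    have hDadd : ∀ u v, D (u + v) = D u + D v := by
      intro u v
      simp only [D]
      rw [Matrix.mulVec_add, quadOf_add hA hz, quadOf_add hA hz]
      have := hbilB u v
      linear_combination this
    have hDsm : ∀ (a : F) v, D (a • v) = a ^ 2 * D v := by
      intro a v
      simp only [D]
      rw [Matrix.mulVec_smul, quadOf_smul, quadOf_smul]
      ring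
    have hZ : zeroSub D hDadd _ hDsm = ⊤ := by
      rw [eq_top_iff, ← span_pure (e := e), Submodule.span_le]
      rintro u hu
      change c * quadOf A π (B *ᵥ u) - c * quadOf A π u = 0
      have hBu : (fun a => (B *ᵥ u) (e.symm a)) ∈ NotSL.Pure0 F t d := by
        have hu' : (fun a => u (e.symm a)) ∈ NotSL.Pure0 F t d := hu
        have h3 := NotO.wreath_preserves (le_sup_left.trans T.le hg) (w := (P : Matrix ι ι F) *ᵥ u) (by
          simpa only [inv_mulVec_mulVec] using hu')
        have h4 : ((P⁻¹ : GL ι F) : Matrix ι ι F) *ᵥ ((g : Matrix ι ι F) *ᵥ ((P : Matrix ι ι F) *ᵥ u)) = B *ᵥ u := by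
          rw [← hPB, inv_mulVec_mulVec]
        simpa only [h4] using h3
      have h1 : quadOf A π (B *ᵥ u) = 0 := quadOf_pure h2 ht hS hd₀ hBu
      have h3 : quadOf A π u = 0 := quadOf_pure h2 ht hS hd₀ hu
      rw [h1, h3]
      ring
    have h1 : v ∈ zeroSub D hDadd _ hDsm := by
      rw [hZ]
      trivial
    have h3 : c * quadOf A π (B *ᵥ v) - c * quadOf A π v = 0 := h1
    simp only [L]
    rw [hPB, Q_act_eq (hH hg)]
    linear_combination -h3
  have h0 := eq_zero_of_irr hirr P L hLadd _ hLsm hn hinv w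
  have h3 : quadOf A π w = 0 := quadOf_pure h2 ht hS hd₀ hw
  simp only [L] at h0
  rw [h3, mul_zero, sub_zero] at h0
  exact h0

/-- **A tensor cube of binary forms in characteristic two is of plus type.** -/
theorem plus_of_cube_two (h2 : (2 : F) = 0) (hQ : IsNondegenerateQuadraticForm Q) [Nonempty ι] {e : ι ≃ (Fin 3 → Fin 2)} {H : Subgroup (GL ι F)} (hH : H ≤ isometryGroup F Q)
    (hirr : ∀ W : Submodule F (ι → F), Inv H W → W = ⊥ ∨ W = ⊤) {P : GL ι F} {J₀ : GL (Fin 2) F} {ε₀ c : F}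
    (T : WreathForm (RingEquiv.refl F) 1 (polar Q) (H ⊔ scalars ι F) 2 3 e P J₀ ε₀ c) : IsPlusTypeOn Q ⊤ := by
  classical
  obtain ⟨hJ, he⟩ := FormSim.refl_sign_facts (FormSim.gl_ne_zero J₀) T.herm
  have hε : ε₀ = 1 := by
    rcases FormSp.eq_one_or_of_mul_self he with h | h
    · exact h
    · rw [h]
      linear_combination (-1 : F) * h2
  subst hε
  rw [one_smul] at hJ
  have hb := hQ.polar_bilinear
  have hcard : Fintype.card ι = 8 := by
    rw [Fintype.card_congr e]
    simp
  have hpole : ∀ u v, polar Q ((P : Matrix ι ι F) *ᵥ u) ((P : Matrix ι ι F) *ᵥ v) = c * bil ((pureMat fun _ : Fin 3 => (J₀ : Matrix (Fin 2) (Fin 2) F)).submatrix e e) u v := T.eq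
  have hsingle : ∀ i j : ι, bil ((pureMat fun _ : Fin 3 => (J₀ : Matrix (Fin 2) (Fin 2) F)).submatrix e e) (Pi.single i 1) (Pi.single j 1) = ∏ l, (J₀ : Matrix (Fin 2) (Fin 2) F) (e i l) (e j l) := by
    intro i j
    unfold bil
    rw [Matrix.mulVec_single_one, single_one_dotProduct]
    rfl
  have hd₀ : ∀ α, (J₀ : Matrix (Fin 2) (Fin 2) F) α α = 0 := by
    intro α
    have h1 := hpole (Pi.single (e.symm fun _ => α) 1) (Pi.single (e.symm fun _ => α) 1)
    rw [FormO.polar_self_eq hQ, h2, zero_mul, hsingle] at h1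
    simp only [Equiv.apply_symm_apply, Finset.prod_const, Finset.card_univ, Fintype.card_fin] at h1
    rcases mul_eq_zero.mp h1.symm with h3 | h3
    · exact absurd h3 T.hc
    · exact pow_eq_zero_iff (by norm_num) |>.mp h3
  let κ : Type := {i : ι // e i 0 = 0}
  have hκ : Fintype.card κ = 4 := by
    have h1 : Fintype.card κ = Fintype.card {a : Fin 3 → Fin 2 // a 0 = 0} :=
      Fintype.card_congr (Equiv.subtypeEquiv e fun i => Iff.rfl)
    rw [h1]
    decide
  refine plus_of_family hQ (κ := κ) (fun i => (P : Matrix ι ι F) *ᵥ Pi.single (i : ι) 1) ?_ ?_ ?_ ?_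
  · have h1 : LinearIndependent F (fun i : ι => (Pi.single i 1 : ι → F)) := by
      have h : (fun j : ι => (Pi.single j 1 : ι → F)) = ⇑(Pi.basisFun F ι) := by
        funext j
        simp
      rw [h]
      exact (Pi.basisFun F ι).linearIndependent
    have h3 := (h1.comp (Subtype.val : κ → ι) Subtype.val_injective).map' (Matrix.toLin' (P : Matrix ι ι F)) (LinearMap.ker_eq_bot.mpr fun u v huv => mulVec_injective P (by simpa using huv))
    have h4 : (fun i : κ => (P : Matrix ι ι F) *ᵥ Pi.single (i : ι) 1) = (Matrix.toLin' (P : Matrix ι ι F)) ∘ ((fun i : ι => (Pi.single i 1 : ι → F)) ∘ Subtype.val) := by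
      funext i
      simp [Matrix.toLin'_apply]
    rw [h4]
    exact h3
  · rintro ⟨i, hi⟩
    refine wreath_Q_pure h2 hQ (by omega) hH hirr T hJ hd₀ ?_
    refine ⟨fun l => Pi.single (e i l) 1, fun a => ?_⟩
    by_cases h : a = e i
    · subst h
      simp
    · have h3 : e.symm a ≠ i := fun h' => h (by rw [← h']; simp)
      beta_reduce
      rw [Pi.single_eq_of_ne h3]
      obtain ⟨l, hl⟩ := Function.ne_iff.mp h
      exact (Finset.prod_eq_zero (Finset.mem_univ l) (Pi.single_eq_of_ne hl _)).symm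
  · rintro ⟨i, hi⟩ ⟨j, hj⟩
    simp only
    rw [hpole, hsingle, Finset.prod_eq_zero (Finset.mem_univ (0 : Fin 3)), mul_zero]
    rw [hi, hj]
    exact hd₀ 0
  · rw [hκ, hcard]

/-- In odd characteristic there is no tensor cube of binary forms. -/
theorem no_cube_odd (h2 : (2 : F) ≠ 0) [Nonempty ι] {e : ι ≃ (Fin 3 → Fin 2)} {G : Subgroup (GL ι F)} {P : GL ι F} {J₀ : GL (Fin 2) F} {ε₀ c : F} {f : (ι → F) → (ι → F) → F}
    (T : WreathForm (RingEquiv.refl F) 1 f G 2 3 e P J₀ ε₀ c)
    (hX : ∃ X : Subgroup (GL (Fin 2) F), ⁅X, X⁆ = X ∧ X ≠ ⊥ ∧ ∀ a ∈ X, ∃ μ : F, μ ≠ 0 ∧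
        (a : Matrix (Fin 2) (Fin 2) F)ᵀ * (J₀ : Matrix (Fin 2) (Fin 2) F) * (a : Matrix (Fin 2) (Fin 2) F).map (RingEquiv.refl F) = μ • (J₀ : Matrix (Fin 2) (Fin 2) F)) : False := by
  classical
  obtain ⟨hJ, he⟩ := FormSim.refl_sign_facts (FormSim.gl_ne_zero J₀) T.herm
  have hε : ε₀ = 1 := by
    have h1 := T.sign
    have h3 : c * (ε₀ ^ 3 - 1) = 0 := by
      simp only [RingEquiv.refl_apply, one_mul] at h1
      linear_combination -h1
    have h4 : ε₀ ^ 3 = 1 := sub_eq_zero.mp ((mul_eq_zero.mp h3).resolve_left T.hc)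
    calc ε₀ = (ε₀ * ε₀) * ε₀ := by rw [he, one_mul]
      _ = ε₀ ^ 3 := by ring
      _ = 1 := h4
  subst hε
  rw [one_smul] at hJ
  obtain ⟨X, hXc, hX0, hsim⟩ := hX
  refine not_perfect_sym_two h2 J₀ hJ hXc hX0 fun a ha => ?_
  obtain ⟨μ, hμ, h⟩ := hsim a ha
  refine ⟨μ, hμ, ?_⟩
  have h3 : (a : Matrix (Fin 2) (Fin 2) F).map (RingEquiv.refl F) = a := by
    ext i j
    simp
  rwa [h3] at h

end Wreath

end Cfsg.Agent.Lib.Classical.Asch.OEight
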