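import Mathlib
import Cfsg.Agent.Lib.Classical.Asch.OEight
import Cfsg.Agent.S0756

/-!
# Key facts for the maximal subgroups of the orthogonal groups in dimensions ten and twelve
-/

set_option autoImplicit false
set_option linter.style.haveILetI false
set_option linter.unusedSectionVars false

namespace Cfsg.Agent.Lib.Classical.Asch.OKey

open scoped MatrixGroups Matrix Kronecker
open Module Cfsg Cfsg.Geo QuadraticMap
open Cfsg.Agent.Lib.Classical.Asch.Basic Cfsg.Agent.Lib.Classical.Asch.Forms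
open Cfsg.Agent.Lib.Classical.Asch.FormO Cfsg.Agent.Lib.Classical.Asch.FormOE
open Cfsg.Agent.Lib.Classical.Asch.SpThree Cfsg.Agent.Lib.Classical.Asch.OType
open Cfsg.Agent.Lib.Classical.Asch.OField Cfsg.Agent.Lib.Classical.Asch.OEMax
open Cfsg.Agent.Lib.Classical.Asch.FormPerp Cfsg.Agent.Lib.Classical.Asch.Adj
open Cfsg.Agent.Lib.Classical.Asch.SympType Cfsg.Agent.Lib.Classical.Asch.SympStruct
open Cfsg.Agent.Lib.Classical.Asch.FormSympType
open Cfsg.Agent.Lib.Classical.Asch.FormDich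
open Cfsg.Agent.Lib.Classical.Asch.NotO
open Cfsg.Agent.Lib.Classical.Geo.OPts
open Cfsg.Agent.Lib.Classical.Orth.Basic
open Cfsg.Agent.Lib.Classical.Orth.Siegel
open Cfsg.Agent.Lib.Classical.Witt.Hyp
open Cfsg.Agent.Lib.Classical.Asch

variable {ι : Type} [Fintype ι] [DecidableEq ι] {F : Type*} [Field F] [Fintype F] {Q : (ι → F) → F} {H : Subgroup (GL ι F)}

/-- The output of Aschbacher's theorem, with irreducibility in the field case. -/
def OutOE' (Q : (ι → F) → F) (H : Subgroup (GL ι F)) : Prop :=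
  (∃ W : Submodule F (ι → F), W ≠ ⊥ ∧ IsTotallySingularQuad Q W ∧ H ≤ subspaceStabilizer W) ∨
  (∃ W : Submodule F (ι → F), W ≠ ⊥ ∧ W ≠ ⊤ ∧ IsNondegenerateOn (QuadraticMap.polar Q) W ∧ H ≤ subspaceStabilizer W) ∨
  ((2 : F) = 0 ∧ ∃ v, Q v ≠ 0 ∧ H ≤ subspaceStabilizer (Submodule.span F {v})) ∨
  (∃ (t k : ℕ) (D : Fin t → Submodule F (ι → F)), IsOrthogonalMDecomposition Q k D ∧ H ≤ decompositionStabilizer D) ∨
  (∃ (k : ℕ) (D : Fin 2 → Submodule F (ι → F)), IsMDecomposition k D ∧ (∀ i, IsTotallySingularQuad Q (D i)) ∧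
    H ≤ decompositionStabilizer D) ∨
  (∃ (r : ℕ) (K : Subalgebra F (Matrix ι ι F)), r.Prime ∧ IsFieldSubalgebra r K ∧ AdjClosed (RingEquiv.refl F) (QuadraticMap.polar Q) K ∧
    (∀ W : Submodule F (ι → F), Inv (H ⊔ scalars ι F) W → W = ⊥ ∨ W = ⊤) ∧ H ≤ subalgebraNormalizer K) ∨
  (∃ (d k : ℕ) (e : ι ≃ Fin d × Fin k) (P : GL ι F) (f₁ : (Fin d → F) → (Fin d → F) → F) (f₂ : (Fin k → F) → (Fin k → F) → F),
    2 ≤ d ∧ 2 ≤ k ∧ (2 : F) ≠ 0 ∧ IsSymmetricForm f₁ ∧ IsSymmetricForm f₂ ∧ IsTensorFormStructure id (QuadraticMap.polar Q) f₁ f₂ e P ∧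
    (∀ W : Submodule F (ι → F), Inv (H ⊔ scalars ι F) W → W = ⊥ ∨ W = ⊤) ∧ H ≤ tensorProductSubgroup d k e P) ∨
  (∃ (d k : ℕ) (e : ι ≃ Fin d × Fin k) (P : GL ι F) (f₁ : (Fin d → F) → (Fin d → F) → F) (f₂ : (Fin k → F) → (Fin k → F) → F),
    2 ≤ d ∧ 2 ≤ k ∧ IsSymplecticForm f₁ ∧ IsSymplecticForm f₂ ∧ IsTensorFormStructure id (QuadraticMap.polar Q) f₁ f₂ e P ∧
    (∀ x y, Q ((P : Matrix ι ι F) *ᵥ kr e x y) = 0) ∧ H ≤ tensorProductSubgroup d k e P) ∨
  (∃ (F₀ : Subfield F) (r : ℕ) (P : GL ι F) (ζ : F), r.Prime ∧ Fintype.card F = Nat.card F₀ ^ r ∧ ζ ≠ 0 ∧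
    IsQuadFormRationalStructure (fun v => ζ * Q v) F₀ P ∧ H ≤ subfieldSubgroup F₀ P) ∨
  (∃ (d t : ℕ) (e : ι ≃ (Fin t → Fin d)) (P : GL ι F) (J₀ : GL (Fin d) F) (ε₀ c : F),
    WreathForm (RingEquiv.refl F) 1 (QuadraticMap.polar Q) (H ⊔ scalars ι F) d t e P J₀ ε₀ c) ∨
  (∃ (R : Subgroup (GL ι F)) (r s : ℕ), SympData (H ⊔ scalars ι F) R r s ∧ R ≤ isomG (QuadraticMap.polar Q))

/-- **Aschbacher's theorem for the orthogonal groups in even dimension**, with irreducibility. -/
theorem oe_mainG [Nonempty ι] (hQ : IsNondegenerateQuadraticForm Q) (hn2 : 4 ≤ Fintype.card ι) (hH : H ≤ isometryGroup F Q) :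
    OutOE' Q H ∨ InOrthogonalResidualClass H := by
  classical
  have hsym := symm_polar hQ
  have hr := reflForm_symmetric hsym
  have hHi : H ≤ isomG (QuadraticMap.polar Q) := hH.trans isometry_le_isomG
  have hHG : H ≤ H ⊔ scalars ι F := le_sup_left
  rcases oe_mainF hQ hn2 hH with h | h
  swap
  · exact Or.inr h
  left
  by_cases hG : ∀ W : Submodule F (ι → F), Inv (H ⊔ scalars ι F) W → W = ⊥ ∨ W = ⊤
  · rcases h with h | h | h | h | h | ⟨r, K, hr, hK, hA, hst⟩ | h | h | h | ⟨d, t, e, P, J₀, ε₀, c, T, -⟩ | h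
    · exact Or.inl h
    · exact Or.inr (Or.inl h)
    · exact Or.inr (Or.inr (Or.inl h))
    · exact Or.inr (Or.inr (Or.inr (Or.inl h)))
    · exact Or.inr (Or.inr (Or.inr (Or.inr (Or.inl h))))
    · exact Or.inr (Or.inr (Or.inr (Or.inr (Or.inr (Or.inl ⟨r, K, hr, hK, hA, hG, hst⟩)))))
    · exact Or.inr (Or.inr (Or.inr (Or.inr (Or.inr (Or.inr (Or.inl h))))))
    · exact Or.inr (Or.inr (Or.inr (Or.inr (Or.inr (Or.inr (Or.inr (Or.inl h)))))))
    · exact Or.inr (Or.inr (Or.inr (Or.inr (Or.inr (Or.inr (Or.inr (Or.inr (Or.inl h))))))))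
    · exact Or.inr (Or.inr (Or.inr (Or.inr (Or.inr (Or.inr (Or.inr (Or.inr (Or.inr (Or.inl ⟨d, t, e, P, J₀, ε₀, c, T⟩)))))))))
    · exact Or.inr (Or.inr (Or.inr (Or.inr (Or.inr (Or.inr (Or.inr (Or.inr (Or.inr (Or.inr h)))))))))
  · push Not at hG
    obtain ⟨W, hW, h0, h1⟩ := hG
    have hWH : Inv H W := fun g hg v hv => hW g (hHG hg) v hv
    by_cases hrad : W ⊓ perpF hr W = ⊥
    · exact Or.inr (Or.inl ⟨W, h0, h1, isNondegenerateOn_of_rad hr hrad, le_subspaceStabilizer hWH⟩)
    · have h3 := out_of_polar_iso hQ hH hrad (fun u hu v hv => isTotallySingular_rad hr W u hu v hv)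
        (inv_inf hWH (inv_perpF hr (hHi.trans isomG_le_similarity) hWH))
      rcases h3 with ⟨W', h4, h5, h6⟩ | ⟨h4, v, h5, h6⟩
      · exact Or.inl ⟨W', h4, h5, le_subspaceStabilizer h6⟩
      · exact Or.inr (Or.inr (Or.inl ⟨h4, v, h5, le_subspaceStabilizer h6⟩))

section Decomp

/-- **Orthogonal decompositions into planes in characteristic two** with at least four members. -/
theorem not_le_decomp_two {Q : QuadraticForm F (ι → F)} (h2 : (2 : F) = 0) (hQ' : (polarBilin Q).Nondegenerate)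
    (hQ : IsNondegenerateQuadraticForm (⇑Q)) (hn : 5 ≤ Fintype.card ι) {t : ℕ} {D : Fin t → Submodule F (ι → F)}
    (hD : IsOrthogonalMDecomposition (⇑Q) 2 D) (ht : 4 ≤ t) : ¬ omegaGL (⇑Q) ≤ decompositionStabilizer D := by
  classical
  intro hle
  obtain ⟨b, G₀, q₀, hbm, hG, hq⟩ := exists_block_basis hQ hD
  let i₀ : Fin t := ⟨0, by omega⟩
  let i₁ : Fin t := ⟨1, by omega⟩
  let i₂ : Fin t := ⟨2, by omega⟩
  let i₃ : Fin t := ⟨3, by omega⟩
  have h01 : i₀ ≠ i₁ := by simp [i₀, i₁, Fin.ext_iff]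
  have h02 : i₀ ≠ i₂ := by simp [i₀, i₂, Fin.ext_iff]
  have h03 : i₀ ≠ i₃ := by simp [i₀, i₃, Fin.ext_iff]
  have h12 : i₁ ≠ i₂ := by simp [i₁, i₂, Fin.ext_iff]
  have h13 : i₁ ≠ i₃ := by simp [i₁, i₃, Fin.ext_iff]
  have h23 : i₂ ≠ i₃ := by simp [i₂, i₃, Fin.ext_iff]
  let x : Fin t → ι → F := fun i => b (0, i)
  let y : Fin t → ι → F := fun i => b (1, i)
  have hGself : ∀ a, G₀ a a = 0 := by
    intro a
    have h1 := hG (a, i₀) (a, i₀)
    rw [if_pos rfl] at h1
    simp only at h1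
    rw [← h1, polar_self_eq hQ, h2, zero_mul]
  have hg : G₀ 0 1 ≠ 0 := by
    intro h0
    have hx0 : x i₀ ≠ 0 := b.ne_zero _
    obtain ⟨w, hw⟩ := (hQ.nondegenerate _ hx0).2
    apply hw
    have hw' : w = ∑ p, (b.repr w p) • b p := (b.sum_repr w).symm
    rw [hw', (isSesq_of_bilinear hQ.polar_bilinear).sum_right, Finset.sum_eq_zero]
    rintro ⟨a, i⟩ _
    have h5 := hQ.polar_bilinear.smul_right (b.repr w (a, i)) (x i₀) (b (a, i))
    rw [h5, hG]
    simp only
    by_cases hi : i₀ = i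
    · rw [if_pos hi]
      fin_cases a
      · change _ * G₀ 0 0 = 0
        rw [hGself, mul_zero]
      · change _ * G₀ 0 1 = 0
        rw [h0, mul_zero]
    · rw [if_neg hi, mul_zero]
  have hxx : ∀ i j, i ≠ j → polar (⇑Q) (x i) (x j) = 0 := fun i j hij => by
    have := hG (0, i) (0, j)
    rw [if_neg hij] at this
    exact this
  have hyx : ∀ i j, i ≠ j → polar (⇑Q) (y i) (x j) = 0 := fun i j hij => by
    have := hG (1, i) (0, j)
    rw [if_neg hij] at this
    exact this
  have hxy : ∀ i j, i ≠ j → polar (⇑Q) (x i) (y j) = 0 := fun i j hij => by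
    have := hG (0, i) (1, j)
    rw [if_neg hij] at this
    exact this
  have hyy : ∀ i j, i ≠ j → polar (⇑Q) (y i) (y j) = 0 := fun i j hij => by
    have := hG (1, i) (1, j)
    rw [if_neg hij] at this
    exact this
  have hxyi : ∀ i, polar (⇑Q) (x i) (y i) = G₀ 0 1 := fun i => by
    have := hG (0, i) (1, i)
    rw [if_pos rfl] at this
    exact this
  have hxxi : ∀ i, polar (⇑Q) (x i) (x i) = 0 := fun i => by
    have := hG (0, i) (0, i)
    rw [if_pos rfl, hGself] at this
    exact this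
  have hQx : ∀ i, Q (x i) = q₀ 0 := fun i => hq (0, i)
  have hz : Q (x i₀ + x i₁) = 0 := by
    have := hxx i₀ i₁ h01
    rw [polar, hQx, hQx] at this
    have h5 : Q (x i₀ + x i₁) = q₀ 0 + q₀ 0 := by
      linear_combination this
    rw [h5, ← two_mul, h2, zero_mul]
  have hw : Q (x i₂ + x i₃) = 0 := by
    have := hxx i₂ i₃ h23
    rw [polar, hQx, hQx] at this
    have h5 : Q (x i₂ + x i₃) = q₀ 0 + q₀ 0 := by
      linear_combination this
    rw [h5, ← two_mul, h2, zero_mul]
  have hzw : polar (⇑Q) (x i₀ + x i₁) (x i₂ + x i₃) = 0 := by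
    rw [polar_add_left, polar_add_right, polar_add_right, hxx _ _ h02, hxx _ _ h03, hxx _ _ h12, hxx _ _ h13]
    ring
  have hE := eG_mem_omegaGL hQ' hn hz hzw
  obtain ⟨σ, hσ⟩ := hle hE
  set E := eG hz hzw with hEd
  have hEy : (E : Matrix ι ι F) *ᵥ y i₀ = y i₀ + G₀ 0 1 • x i₂ + G₀ 0 1 • x i₃ := by
    rw [hEd, eG_sub hz hw hzw, polar_add_left, polar_add_left, hxy _ _ (Ne.symm h02), hxy _ _ (Ne.symm h03), hxyi, hxy _ _ h01.symm]
    simp only [add_zero, zero_add, zero_smul, sub_zero, smul_add, add_assoc]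
  have hmem : (E : Matrix ι ι F) *ᵥ y i₀ ∈ D (σ i₀) := by
    rw [← hσ i₀]
    exact ⟨y i₀, hbm (1, i₀), rfl⟩
  have horth := hD.decomp.orthogonal
  have hj0 : σ i₀ = i₀ := by
    by_contra hne
    have h5 := horth _ _ hne _ hmem _ (hbm (0, i₀))
    rw [hEy, polar_add_left, polar_add_left, polar_smul_left', polar_smul_left', polar_comm _ (y i₀), hxyi, hxx _ _ (Ne.symm h02), hxx _ _ (Ne.symm h03)] at h5
    simp only [mul_zero, add_zero] at h5
    exact hg h5
  have hj2 : σ i₀ = i₂ := by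
    by_contra hne
    have h5 := horth _ _ hne _ hmem _ (hbm (1, i₂))
    rw [hEy, polar_add_left, polar_add_left, polar_smul_left', polar_smul_left', hyy _ _ h02, hxyi, hxy _ _ (Ne.symm h23)] at h5
    simp only [mul_zero, add_zero, zero_add] at h5
    exact (mul_ne_zero hg hg) h5
  exact h02 (hj0.symm.trans hj2)

/-- Equality for orthogonal decompositions. -/
theorem eq_decomp_orth (hQ : IsNondegenerateQuadraticForm Q) (hn : 5 ≤ Fintype.card ι) (hH : IsMaximalIn (omegaGL Q) H) {t m : ℕ}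
    {D : Fin t → Submodule F (ι → F)} (hD : IsOrthogonalMDecomposition Q m D) (ht : 4 ≤ t) (hm : 2 ≤ m) (hle : H ≤ decompositionStabilizer D) :
    H = decompositionStabilizer D ⊓ omegaGL Q := by
  by_cases h2 : (2 : F) = 0
  · by_cases h3 : 3 ≤ m
    · exact eq_decomp hQ hn hH hD.decomp.decomp (Or.inr h3) hle
    · obtain rfl : m = 2 := by omega
      obtain ⟨Q', rfl, hQ'⟩ := exists_quadraticForm hQ
      exact NotSp.eq_inf_of_le' hH hle (not_le_decomp_two h2 hQ' hQ hn hD ht)
  · exact eq_decomp hQ hn hH hD.decomp.decomp (Or.inl h2) hle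

end Decomp

section Disc

theorem neg_one_iff (h2 : (2 : F) ≠ 0) : IsSquare (-1 : F) ↔ Fintype.card F % 4 = 1 := by
  have hq : Odd (Fintype.card F) := odd_card_iff.mpr h2
  obtain ⟨a, ha⟩ := hq
  rw [FiniteField.isSquare_neg_one_iff]
  omega

theorem exists_nonsquare' (h2 : (2 : F) ≠ 0) : ∃ α : F, ¬ IsSquare α := by
  have hne : ringChar F ≠ 2 := fun h => by
    have : CharP F 2 := h ▸ ringChar.charP F
    exact h2 (by exact_mod_cast CharP.cast_eq_zero F 2)
  obtain ⟨α, hα⟩ := FiniteField.exists_nonsquare hne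
  exact ⟨α, hα⟩

/-- **Normal form** of a non-degenerate subspace in odd characteristic. -/
theorem exists_normal (h2 : (2 : F) ≠ 0) (hQ : IsNondegenerateQuadraticForm Q) {W : Submodule F (ι → F)}
    (hW : IsNondegenerateOn (polar Q) W) {n : ℕ} (hn : finrank F W = n + 1) (α : F) (hα : ¬ IsSquare α) :
    ∃ (b : Basis (Fin (n + 1)) F W) (c : F), (c = 1 ∨ c = α) ∧ ∀ i j, polar Q (b i : ι → F) (b j : ι → F) =
      if i = j then (if i = Fin.last n then c else 1) else 0 := by
  classical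
  have hbil := hQ.polar_bilinear
  let B : LinearMap.BilinForm F W := LinearMap.mk₂ F (fun u v => polar Q (u : ι → F) (v : ι → F))
    (fun x y v => hbil.add_left _ _ _) (fun c x v => by simpa using hbil.smul_left c x.1 v.1)
    (fun v x y => hbil.add_right _ _ _) (fun c v x => by simpa using hbil.smul_right c v.1 x.1)
  have hS : B.IsSymm := ⟨fun x y => polar_comm _ _ _⟩
  have hB : B.Nondegenerate := by
    constructor
    · intro x hx
      by_contra h0
      have h1 : (x : ι → F) ≠ 0 := fun h => h0 (Subtype.ext h)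
      obtain ⟨-, ⟨z, hz, hxz⟩⟩ := hW _ x.2 h1
      exact hxz (hx ⟨z, hz⟩)
    · intro x hx
      by_contra h0
      have h1 : (x : ι → F) ≠ 0 := fun h => h0 (Subtype.ext h)
      obtain ⟨⟨z, hz, hxz⟩, -⟩ := hW _ x.2 h1
      exact hxz (hx ⟨z, hz⟩)
  obtain ⟨b, h3, h4, h5⟩ := Cfsg.Agent.S0756.result h2 B hS hB hn α hα
  refine ⟨b, B (b (Fin.last n)) (b (Fin.last n)), h5, fun i j => ?_⟩
  by_cases hij : i = j
  · subst hij
    rw [if_pos rfl]
    by_cases hi : i = Fin.last n
    · subst hi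
      rw [if_pos rfl]
      rfl
    · rw [if_neg hi]
      exact h4 i hi
  · rw [if_neg hij]
    exact h3 i j hij

theorem isometric_of_normal (h2 : (2 : F) ≠ 0) (hQ : IsNondegenerateQuadraticForm Q) {W W' : Submodule F (ι → F)} {κ : Type} [Fintype κ]
    (b : Basis κ F W) (b' : Basis κ F W')
    (h : ∀ i j, polar Q (b i : ι → F) (b j : ι → F) = polar Q (b' i : ι → F) (b' j : ι → F)) : AreIsometricFor Q W W' := by
  classical
  obtain ⟨Q', rfl, hQ'⟩ := exists_quadraticForm hQ
  obtain ⟨g, -, hg⟩ := Cfsg.Agent.Lib.Classical.Witt.Index.exists_isometry_of_bases (Q'.comp W.subtype) (Q'.comp W'.subtype) b b'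
    (fun i => by
      have h1 := h i i
      rw [polar_self_eq hQ, polar_self_eq hQ] at h1
      exact mul_left_cancel₀ h2 h1)
    (fun i j => h i j)
  exact ⟨g, fun w => hg w⟩

/-- **Pairs of orthogonal complements**: the type of the space in terms of the normal forms. -/
theorem pair_disc (h2 : (2 : F) ≠ 0) (hQ : IsNondegenerateQuadraticForm Q) {W W' : Submodule F (ι → F)} {n : ℕ}
    (hc : Fintype.card ι = 2 * (n + 1)) (hcompl : IsCompl W W') (horth : ∀ u ∈ W, ∀ v ∈ W', polar Q u v = 0)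
    (hW : IsNondegenerateOn (polar Q) W) (hW' : IsNondegenerateOn (polar Q) W') (hn : finrank F W = n + 1) (hn' : finrank F W' = n + 1)
    (hno : ¬ AreIsometricFor Q W W') : IsPlusTypeOn Q ⊤ ↔ ¬ IsSquare ((-1 : F) ^ (n + 1)) := by
  classical
  obtain ⟨α, hα⟩ := exists_nonsquare' h2
  obtain ⟨b, c, hc1, hb⟩ := exists_normal h2 hQ hW hn α hα
  obtain ⟨b', c', hc1', hb'⟩ := exists_normal h2 hQ hW' hn' α hα
  have hne : c ≠ c' := by
    rintro rfl
    apply hno
    refine isometric_of_normal h2 hQ b b' fun i j => ?_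
    rw [hb, hb']
  have hcc : c * c' = α := by
    rcases hc1 with rfl | rfl <;> rcases hc1' with rfl | rfl
    · exact absurd rfl hne
    · exact one_mul _
    · exact mul_one _
    · exact absurd rfl hne
  let B₀ := (b.prod b').map (Submodule.prodEquivOfIsCompl W W' hcompl)
  have hB₀l : ∀ i, B₀ (Sum.inl i) = (b i : ι → F) := fun i => by
    simp [B₀, Submodule.coe_prodEquivOfIsCompl']
  have hB₀r : ∀ i, B₀ (Sum.inr i) = (b' i : ι → F) := fun i => by
    simp [B₀, Submodule.coe_prodEquivOfIsCompl']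
  have h1 := plus_iff_disc h2 hQ (m := n + 1) (by omega) hc B₀
  let d : Fin (n + 1) ⊕ Fin (n + 1) → F := Sum.elim (fun i => if i = Fin.last n then c else 1) (fun i => if i = Fin.last n then c' else 1)
  have h3 : (Matrix.of fun i j => polar Q (B₀ i) (B₀ j)) = Matrix.diagonal d := by
    ext i j
    rw [Matrix.of_apply, Matrix.diagonal_apply]
    rcases i with i | i <;> rcases j with j | j
    · rw [hB₀l, hB₀l, hb]
      simp [d]
    · rw [hB₀l, hB₀r, horth _ (b i).2 _ (b' j).2]
      simp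
    · rw [hB₀r, hB₀l, polar_comm, horth _ (b j).2 _ (b' i).2]
      simp
    · rw [hB₀r, hB₀r, hb']
      simp [d]
  have h4 : (Matrix.diagonal d).det = c * c' := by
    rw [Matrix.det_diagonal, Fintype.prod_sum_type]
    simp only [d, Sum.elim_inl, Sum.elim_inr]
    have h5 : ∀ x : F, ∏ i : Fin (n + 1), (if i = Fin.last n then x else 1) = x := fun x => by
      rw [Finset.prod_ite_eq' Finset.univ (Fin.last n) (fun _ => x)]
      simp
    rw [h5, h5]
  rw [h1, h3, h4, hcc]
  have hne' : ringChar F ≠ 2 := fun h => by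
    have : CharP F 2 := h ▸ ringChar.charP F
    exact h2 (by exact_mod_cast CharP.cast_eq_zero F 2)
  exact Cfsg.Agent.Lib.Classical.Witt.Disc.isSquare_mul_nonsquare_iff hne' (pow_ne_zero _ (by simp)) hα

end Disc

section KTwo

variable {K : Subalgebra F (Matrix ι ι F)}

/-- A generator of a field of degree two. -/
theorem exists_gen [Nonempty ι] (hK : IsFieldSubalgebra 2 K) :
    ∃ ω ∈ K, (∀ c : F, ω ≠ c • (1 : Matrix ι ι F)) ∧ ∀ k ∈ K, ∃ a b : F, k = a • (1 : Matrix ι ι F) + b • ω := by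
  classical
  have h1 : finrank F ↥K = 2 := hK.finrank_eq
  have h10 : (1 : Matrix ι ι F) ≠ 0 := one_ne_zero
  obtain ⟨x, hx⟩ : ∃ x : ↥K, x ∉ Submodule.span F {(1 : ↥K)} := by
    by_contra hcon
    push Not at hcon
    have htop : Submodule.span F {(1 : ↥K)} = ⊤ := Submodule.eq_top_iff'.mpr hcon
    have h3 := finrank_span_le_card (R := F) ({1} : Set ↥K)
    rw [htop, finrank_top, h1] at h3
    simp at h3
  have hx0 : ∀ c : F, (x : Matrix ι ι F) ≠ c • 1 := fun c h => hx (by
    rw [Submodule.mem_span_singleton]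
    refine ⟨c, Subtype.ext ?_⟩
    rw [h]
    rfl)
  refine ⟨x, x.2, hx0, fun k hk => ?_⟩
  have hli : LinearIndependent F ![(1 : ↥K), x] := by
    rw [LinearIndependent.pair_iff]
    intro s t hst
    have ht : t = 0 := by
      by_contra ht
      have h3 := congrArg Subtype.val hst
      simp only [Submodule.coe_add, Submodule.coe_smul, Subalgebra.coe_add, Subalgebra.coe_smul, Subalgebra.coe_one, Subalgebra.coe_zero] at h3
      apply hx0 (-s / t)
      have h4 : t • (x : Matrix ι ι F) = (-s) • 1 := by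
        rw [neg_smul]
        exact eq_neg_of_add_eq_zero_right h3
      calc (x : Matrix ι ι F) = t⁻¹ • (t • (x : Matrix ι ι F)) := by rw [smul_smul, inv_mul_cancel₀ ht, one_smul]
        _ = _ := by rw [h4, smul_smul]; congr 1; field_simp
    subst ht
    refine ⟨?_, rfl⟩
    have h3 := congrArg Subtype.val hst
    simp only [zero_smul, add_zero, Subalgebra.coe_smul, Subalgebra.coe_one, Subalgebra.coe_zero] at h3
    exact (smul_eq_zero.mp h3).resolve_right h10
  have hspan := hli.span_eq_top_of_card_eq_finrank' (by simp [h1])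
  have hk' : (⟨k, hk⟩ : ↥K) ∈ Submodule.span F (Set.range ![(1 : ↥K), x]) := by
    rw [hspan]
    trivial
  obtain ⟨w, hw⟩ := Submodule.mem_span_range_iff_exists_fun F |>.mp hk'
  refine ⟨w 0, w 1, ?_⟩
  have h3 := congrArg Subtype.val hw
  simpa [Fin.sum_univ_two] using h3.symm

section Sim

/-- **Forms with a field of degree two not fixed by the adjoint**: the similarity property. -/
theorem sim_core [Nonempty ι] (hQ : IsNondegenerateQuadraticForm Q) (hn : 3 ≤ Fintype.card ι) (hH : H ≤ isometryGroup F Q)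
    (hG : ∀ W : Submodule F (ι → F), Inv (H ⊔ scalars ι F) W → W = ⊥ ∨ W = ⊤) (hst : H ≤ subalgebraNormalizer K)
    {ω : Matrix ι ι F} (hω : ω ∈ K) (hgen : ∀ k ∈ K, ∃ a b : F, k = a • (1 : Matrix ι ι F) + b • ω) {T c : F}
    (hT : ω + adj (RingEquiv.refl F) (polar Q) ω = T • 1) (hc : adj (RingEquiv.refl F) (polar Q) ω * ω = c • 1) :
    ∀ v, polar Q v (ω *ᵥ v) = T * Q v ∧ Q (ω *ᵥ v) = c * Q v := by
  classical
  have hf := reflForm_polar hQ
  have hbil := hQ.polar_bilinear
  have hsm : ∀ (a : F) (v : ι → F), Q (a • v) = a * a * Q v := fun a v => by rw [hQ.smul, pow_two]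
  set ad := adj (RingEquiv.refl F) (polar Q) ω with had
  have hs : ∀ u v, polar Q (ω *ᵥ u) v = polar Q u (ad *ᵥ v) := fun u v => hf.adj_spec ω u v
  have hkey2 : ∀ u v, polar Q u (ω *ᵥ v) + polar Q (ω *ᵥ u) v = T * polar Q u v := by
    intro u v
    rw [hs, ← hbil.add_right, ← Matrix.add_mulVec, hT, Matrix.smul_mulVec, Matrix.one_mulVec, hbil.smul_right]
  have hkey3 : ∀ u v, polar Q (ω *ᵥ u) (ω *ᵥ v) = c * polar Q u v := by
    intro u v
    rw [hs, Matrix.mulVec_mulVec, hc, Matrix.smul_mulVec, Matrix.one_mulVec, hbil.smul_right]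
  let A : (ι → F) → F := fun v => polar Q v (ω *ᵥ v) - T * Q v
  let L : (ι → F) → F := fun v => Q (ω *ᵥ v) - c * Q v
  have hAadd : ∀ u v, A (u + v) = A u + A v := by
    intro u v
    simp only [A]
    rw [Matrix.mulVec_add, hbil.add_left, hbil.add_right, hbil.add_right, FormOE.Q_add' Q]
    have h5 := hkey2 u v
    rw [polar_comm _ v (ω *ᵥ u)]
    linear_combination h5
  have hLadd : ∀ u v, L (u + v) = L u + L v := by
    intro u v
    simp only [L]
    rw [Matrix.mulVec_add, FormOE.Q_add' Q, FormOE.Q_add' Q, hkey3]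
    ring
  have hAsm : ∀ (a : F) v, A (a • v) = a * a * A v := by
    intro a v
    simp only [A]
    rw [Matrix.mulVec_smul, hbil.smul_left, hbil.smul_right, hsm]
    ring
  have hLsm : ∀ (a : F) v, L (a • v) = a * a * L v := by
    intro a v
    simp only [L]
    rw [Matrix.mulVec_smul, hsm, hsm]
    ring
  have hA0 : A 0 = 0 := by
    have := hAsm 0 0
    simpa using this
  have hL0 : L 0 = 0 := by
    have := hLsm 0 0
    simpa using this
  let U : Submodule F (ι → F) :=
    { carrier := {v | A v = 0 ∧ L v = 0}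
      add_mem' := fun {a b} ha hb => ⟨by rw [hAadd, ha.1, hb.1, add_zero], by rw [hLadd, ha.2, hb.2, add_zero]⟩
      zero_mem' := ⟨hA0, hL0⟩
      smul_mem' := fun c x hx => ⟨by rw [hAsm, hx.1, mul_zero], by rw [hLsm, hx.2, mul_zero]⟩ }
  have hmemU : ∀ v, v ∈ U ↔ A v = 0 ∧ L v = 0 := fun v => Iff.rfl
  -- invariance
  have h10 : (1 : Matrix ι ι F) ≠ 0 := one_ne_zero
  have hscal : ∀ {a b : F}, a • (1 : Matrix ι ι F) = b • 1 → a = b := by
    intro a b h
    obtain ⟨i⟩ := ‹Nonempty ι›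
    have h1 := congrFun (congrFun h i) i
    simpa using h1
  have hinv : Inv H U := by
    intro g hg v hv
    obtain ⟨hv1, hv2⟩ := (hmemU v).mp hv
    have hQg : ∀ x, Q ((g : Matrix ι ι F) *ᵥ x) = Q x := fun x => FormO.Q_act_eq (hH hg) x
    have hpg : ∀ x y, polar Q ((g : Matrix ι ι F) *ᵥ x) ((g : Matrix ι ι F) *ᵥ y) = polar Q x y := fun x y =>
      isometry_le_isomG (hH hg) x y
    have hgsim : (g⁻¹ : GL ι F) ∈ similarityGroup (polar Q) :=
      isomG_le_similarity (isometry_le_isomG (hH (inv_mem hg)))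
    set W : Matrix ι ι F := ((g⁻¹ : GL ι F) : Matrix ι ι F) * ω * (g : Matrix ι ι F) with hW
    have hWK : W ∈ K := by
      have h1 := (hst (inv_mem hg) ω).mp hω
      rwa [inv_inv] at h1
    have hWc : conj (g⁻¹ : GL ι F) ω = W := by
      simp only [conj, inv_inv, hW]
    have hWad : conj (g⁻¹ : GL ι F) ad = adj (RingEquiv.refl F) (polar Q) W := by
      rw [← hWc, hf.adj_conj hgsim]
    obtain ⟨α, β, hαβ⟩ := hgen W hWK
    have hGW : (g : Matrix ι ι F) * W = ω * (g : Matrix ι ι F) := by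
      rw [hW, ← mul_assoc, ← mul_assoc]
      have h1 : (g : Matrix ι ι F) * ((g⁻¹ : GL ι F) : Matrix ι ι F) = 1 := by
        rw [← Units.val_mul, mul_inv_cancel, Units.val_one]
      rw [h1, one_mul]
    have hωg : ∀ x, ω *ᵥ ((g : Matrix ι ι F) *ᵥ x) = (g : Matrix ι ι F) *ᵥ (W *ᵥ x) := by
      intro x
      rw [Matrix.mulVec_mulVec, Matrix.mulVec_mulVec, hGW]
    have hWv : ∀ x, W *ᵥ x = α • x + β • (ω *ᵥ x) := by
      intro x
      rw [hαβ, Matrix.add_mulVec, Matrix.smul_mulVec, Matrix.smul_mulVec, Matrix.one_mulVec]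
    have hconjsum : ∀ x y : Matrix ι ι F, conj (g⁻¹ : GL ι F) (x + y) = conj (g⁻¹ : GL ι F) x + conj (g⁻¹ : GL ι F) y := by
      intro x y
      simp only [conj, mul_add, add_mul]
    have hconjmul : ∀ x y : Matrix ι ι F, conj (g⁻¹ : GL ι F) (x * y) = conj (g⁻¹ : GL ι F) x * conj (g⁻¹ : GL ι F) y := by
      intro x y
      have h1 : ((g⁻¹⁻¹ : GL ι F) : Matrix ι ι F) * ((g⁻¹ : GL ι F) : Matrix ι ι F) = 1 := by
        rw [← Units.val_mul, inv_mul_cancel, Units.val_one]
      simp only [conj]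
      calc _ = ((g⁻¹ : GL ι F) : Matrix ι ι F) * x * (((g⁻¹⁻¹ : GL ι F) : Matrix ι ι F) * ((g⁻¹ : GL ι F) : Matrix ι ι F)) * y * ((g⁻¹⁻¹ : GL ι F) : Matrix ι ι F) := by
            rw [h1, mul_one]
            simp only [mul_assoc]
        _ = _ := by simp only [mul_assoc]
    have hconjs : ∀ a : F, conj (g⁻¹ : GL ι F) (a • (1 : Matrix ι ι F)) = a • 1 := by
      intro a
      have h1 : ((g⁻¹ : GL ι F) : Matrix ι ι F) * ((g⁻¹⁻¹ : GL ι F) : Matrix ι ι F) = 1 := by
        rw [← Units.val_mul, mul_inv_cancel, Units.val_one]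
      simp only [conj, mul_smul_comm, smul_mul_assoc, mul_one, h1]
    have hWT : W + conj (g⁻¹ : GL ι F) ad = T • 1 := by
      rw [← hWc, ← hconjsum, hT, hconjs]
    have hWN : conj (g⁻¹ : GL ι F) ad * W = c • 1 := by
      rw [← hWc, ← hconjmul, hc, hconjs]
    have hadW : conj (g⁻¹ : GL ι F) ad = α • 1 + β • ad := by
      rw [hWad, hαβ, hf.adj_add, hf.adj_smul, hf.adj_smul, hf.adj_one]
      rfl
    have htr : 2 * α + β * T = T := by
      apply hscal
      rw [← hWT, hadW, hαβ]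
      have h1 : (2 * α + β * T) • (1 : Matrix ι ι F) = (2 * α) • 1 + β • (T • 1) := by
        rw [add_smul, smul_smul]
      rw [h1, ← hT]
      simp only [smul_add, two_mul, add_smul]
      abel
    have hnorm : α * α + α * β * T + β * β * c = c := by
      apply hscal
      rw [← hWN, hadW, hαβ]
      have h1 : (α * α + α * β * T + β * β * c) • (1 : Matrix ι ι F) = (α * α) • 1 + (α * β) • (T • 1) + (β * β) • (c • 1) := by
        simp only [add_smul, smul_smul]
      rw [h1, ← hT, ← hc]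
      simp only [add_mul, mul_add, smul_mul_assoc, mul_smul_comm, one_mul, mul_one, smul_add, smul_smul]
      have h3 : ∀ (a b : F) (x : Matrix ι ι F), a = b → a • x = b • x := fun a b x h => by rw [h]
      rw [h3 (β * α) (α * β) ω (mul_comm _ _)]
      abel
    have hA' : polar Q v (ω *ᵥ v) = T * Q v := by
      have := hv1
      simp only [A] at this
      exact sub_eq_zero.mp this
    have hL' : Q (ω *ᵥ v) = c * Q v := by
      have := hv2
      simp only [L] at this
      exact sub_eq_zero.mp this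
    refine (hmemU _).mpr ⟨?_, ?_⟩
    · simp only [A]
      rw [hωg, hpg, hWv, hQg, hbil.add_right, hbil.smul_right, hbil.smul_right, hA', FormO.polar_self_eq hQ]
      linear_combination (Q v) * htr
    · simp only [L]
      rw [hωg, hQg, hQg, hWv, FormOE.Q_add' Q, hsm, hsm, hbil.smul_left, hbil.smul_right, hL', hA']
      linear_combination (Q v) * hnorm
  -- the subspace is not zero
  have hcard : Fintype.card (F × F) < Fintype.card (ι → F) := by
    have h3 : Fintype.card (F × F) = Fintype.card F ^ 2 := by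
      rw [Fintype.card_prod, pow_two]
    rw [h3, Fintype.card_fun]
    exact Nat.pow_lt_pow_right Fintype.one_lt_card (by omega)
  obtain ⟨u, v, huv, hφ⟩ := Fintype.exists_ne_map_eq_of_card_lt (fun v => (A v, L v)) hcard
  have hw : u - v ∈ U := by
    have h6 : A u = A v := congrArg Prod.fst hφ
    have h7 : L u = L v := congrArg Prod.snd hφ
    have h8 : A u = A (u - v) + A v := by rw [← hAadd, sub_add_cancel]
    have h9 : L u = L (u - v) + L v := by rw [← hLadd, sub_add_cancel]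
    exact (hmemU _).mpr ⟨by linear_combination h6 - h8, by linear_combination h7 - h9⟩
  have hUtop : U = ⊤ := by
    rcases hG U (inv_sup hinv) with h | h
    · exfalso
      rw [h, Submodule.mem_bot] at hw
      exact huv (sub_eq_zero.mp hw)
    · exact h
  intro v
  have hv : v ∈ U := by
    rw [hUtop]
    trivial
  obtain ⟨h5, h6⟩ := (hmemU v).mp hv
  simp only [A, L] at h5 h6
  exact ⟨sub_eq_zero.mp h5, sub_eq_zero.mp h6⟩

/-- The trace and norm of an element of a field of degree two are scalars. -/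
theorem exists_T_c (hQ : IsNondegenerateQuadraticForm Q) (hK : IsFieldSubalgebra 2 K)
    (hA : AdjClosed (RingEquiv.refl F) (polar Q) K)
    (hfix : ∀ k ∈ K, adj (RingEquiv.refl F) (polar Q) k = k → ∃ c : F, k = c • (1 : Matrix ι ι F)) {ω : Matrix ι ι F} (hω : ω ∈ K) :
    ∃ T c : F, ω + adj (RingEquiv.refl F) (polar Q) ω = T • 1 ∧ adj (RingEquiv.refl F) (polar Q) ω * ω = c • 1 := by
  have hf := reflForm_polar hQ
  have had := hA ω hω
  obtain ⟨T, hT⟩ := hfix _ (K.add_mem hω had) (by rw [hf.adj_add, hf.adj_adj, add_comm])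
  obtain ⟨c, hc⟩ := hfix _ (K.mul_mem had hω) (by rw [hf.adj_mul, hf.adj_adj])
  exact ⟨T, c, hT, hc⟩

/-- **Similarity**: a field of degree two not fixed by the adjoint acts by similarities. -/
theorem sim_all [Nonempty ι] (hQ : IsNondegenerateQuadraticForm Q) (hn : 3 ≤ Fintype.card ι) (hH : H ≤ isometryGroup F Q)
    (hG : ∀ W : Submodule F (ι → F), Inv (H ⊔ scalars ι F) W → W = ⊥ ∨ W = ⊤) (hst : H ≤ subalgebraNormalizer K)
    (hK : IsFieldSubalgebra 2 K) (hA : AdjClosed (RingEquiv.refl F) (polar Q) K)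
    (hfix : ∀ k ∈ K, adj (RingEquiv.refl F) (polar Q) k = k → ∃ c : F, k = c • (1 : Matrix ι ι F)) :
    ∀ k ∈ K, ∃ c : F, ∀ v : ι → F, Q (k *ᵥ v) = c * Q v := by
  obtain ⟨ω, hω, -, hgen⟩ := exists_gen hK
  obtain ⟨T, c, hT, hc⟩ := exists_T_c hQ hK hA hfix hω
  have h1 := sim_core hQ hn hH hG hst hω hgen hT hc
  intro k hk
  obtain ⟨a, b, rfl⟩ := hgen k hk
  refine ⟨a * a + b * b * c + a * b * T, fun v => ?_⟩
  rw [Matrix.add_mulVec, Matrix.smul_mulVec, Matrix.smul_mulVec, Matrix.one_mulVec, FormOE.Q_add' Q, hQ.smul, hQ.smul,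
    hQ.polar_bilinear.smul_left, hQ.polar_bilinear.smul_right, (h1 v).1, (h1 v).2]
  ring

theorem selfAdj_iff (hQ : IsNondegenerateQuadraticForm Q) :
    IsSelfAdjointFor (polar Q) K ↔ ∀ k ∈ K, adj (RingEquiv.refl F) (polar Q) k = k := by
  have hf := reflForm_polar hQ
  constructor
  · intro h k hk
    exact (hf.eq_adj fun u v => h k hk u v).symm
  · intro h k hk u v
    rw [hf.adj_spec, h k hk]

theorem not_selfAdj_of_fix [Nonempty ι] (hQ : IsNondegenerateQuadraticForm Q) (hK : IsFieldSubalgebra 2 K)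
    (hfix : ∀ k ∈ K, adj (RingEquiv.refl F) (polar Q) k = k → ∃ c : F, k = c • (1 : Matrix ι ι F)) : ¬ IsSelfAdjointFor (polar Q) K := by
  intro h
  obtain ⟨ω, hω, hω0, -⟩ := exists_gen hK
  obtain ⟨c, hc⟩ := hfix ω hω ((selfAdj_iff hQ).mp h ω hω)
  exact hω0 c hc

/-- Invariant subspaces have dimension divisible by the degree. -/
theorem dvd_finrank_of_inv [Nonempty ι] {r : ℕ} (hK : IsFieldSubalgebra r K) (U : Submodule F (ι → F)) (hU : ∀ k ∈ K, ∀ u ∈ U, k *ᵥ u ∈ U) :
    r ∣ finrank F U := by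
  classical
  letI instF : Field ↥K := (FormField.isField_of hK).toField
  letI inst : Module ↥K ↥U :=
    { smul := fun c u => ⟨c.1 *ᵥ u.1, hU _ c.2 _ u.2⟩
      one_smul := fun u => Subtype.ext (Matrix.one_mulVec _)
      mul_smul := fun a b u => Subtype.ext (by
        change (a.1 * b.1) *ᵥ u.1 = a.1 *ᵥ (b.1 *ᵥ u.1)
        rw [Matrix.mulVec_mulVec])
      smul_zero := fun a => Subtype.ext (Matrix.mulVec_zero _)
      smul_add := fun a x y => Subtype.ext (Matrix.mulVec_add _ _ _)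
      add_smul := fun a b x => Subtype.ext (Matrix.add_mulVec _ _ _)
      zero_smul := fun x => Subtype.ext (Matrix.zero_mulVec _) }
  haveI : Module.Free ↥K ↥U := Module.Free.of_divisionRing _ _
  have h1 : finrank F ↥K * finrank ↥K ↥U = finrank F ↥U := by
    refine @Module.finrank_mul_finrank F ↥K ↥U _ _ _ _ _ _ ⟨fun a c v => Subtype.ext ?_⟩ _ _ _ _
    change ((a • c.1) *ᵥ v.1) = a • (c.1 *ᵥ v.1)
    rw [Matrix.smul_mulVec]
  rw [hK.finrank_eq] at h1
  exact ⟨_, h1.symm⟩

/-- In characteristic two, a self-adjoint field of degree two forces the dimension to be divisible by four. -/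
theorem four_dvd_of_selfadj [Nonempty ι] (h2 : (2 : F) = 0) (hQ : IsNondegenerateQuadraticForm Q) (hK : IsFieldSubalgebra 2 K)
    (hself : IsSelfAdjointFor (polar Q) K) : 4 ∣ Fintype.card ι := by
  classical
  have hf := reflForm_polar hQ
  have hbil := hQ.polar_bilinear
  -- every element of the field is a square
  have hsq : ∀ k ∈ K, ∃ z ∈ K, k = z * z := by
    intro k hk
    letI instF : Field ↥K := (FormField.isField_of hK).toField
    have h2K : (2 : ↥K) = 0 := by
      apply Subtype.ext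
      change (2 : Matrix ι ι F) = 0
      have h3 : (2 : Matrix ι ι F) = (2 : F) • 1 := by
        rw [two_smul, one_add_one_eq_two]
      rw [h3, h2, zero_smul]
    haveI : CharP ↥K 2 := CharTwo.of_one_ne_zero_of_two_eq_zero one_ne_zero h2K
    obtain ⟨z, hz⟩ := FiniteField.isSquare_of_char_two (ringChar.eq ↥K 2) (⟨k, hk⟩ : ↥K)
    exact ⟨z.1, z.2, congrArg Subtype.val hz⟩
  have hiso : ∀ k ∈ K, ∀ v, polar Q (k *ᵥ v) v = 0 := by
    intro k hk v
    obtain ⟨z, hz, rfl⟩ := hsq k hk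
    rw [← Matrix.mulVec_mulVec, hself z hz, polar_self_eq hQ, h2, zero_mul]
  let S : Set (Submodule F (ι → F)) := {U | (∀ k ∈ K, ∀ u ∈ U, k *ᵥ u ∈ U) ∧ ∀ u ∈ U, ∀ u' ∈ U, polar Q u u' = 0}
  have hS : S.Nonempty := by
    refine ⟨⊥, ?_, ?_⟩
    · intro k _ u hu
      rw [Submodule.mem_bot] at hu ⊢
      rw [hu, Matrix.mulVec_zero]
    · intro u hu u' _
      rw [Submodule.mem_bot] at hu
      rw [hu]
      exact hf.zero_left _
  obtain ⟨U, hU, hmax⟩ := (wellFounded_gt (α := Submodule F (ι → F))).has_min S hS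
  obtain ⟨hU1, hU2⟩ := hU
  have hperp : perpF hf U ≤ U := by
    intro v hv
    let Kv : Submodule F (ι → F) :=
      { carrier := {x | ∃ k ∈ K, x = k *ᵥ v}
        add_mem' := by
          rintro _ _ ⟨a, ha, rfl⟩ ⟨b, hb, rfl⟩
          exact ⟨a + b, K.add_mem ha hb, (Matrix.add_mulVec _ _ _).symm⟩
        zero_mem' := ⟨0, K.zero_mem, (Matrix.zero_mulVec _).symm⟩
        smul_mem' := by
          rintro c _ ⟨a, ha, rfl⟩
          exact ⟨c • a, K.smul_mem ha c, (Matrix.smul_mulVec _ _ _).symm⟩ }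
    have hmemKv : ∀ x, x ∈ Kv ↔ ∃ k ∈ K, x = k *ᵥ v := fun x => Iff.rfl
    have hvKv : v ∈ Kv := ⟨1, K.one_mem, (Matrix.one_mulVec _).symm⟩
    have hU' : U ⊔ Kv ∈ S := by
      refine ⟨?_, ?_⟩
      · intro k hk x hx
        obtain ⟨u, hu, w, hw, rfl⟩ := Submodule.mem_sup.mp hx
        rw [Matrix.mulVec_add]
        refine Submodule.add_mem_sup (hU1 k hk u hu) ?_
        obtain ⟨a, ha, rfl⟩ := hw
        rw [Matrix.mulVec_mulVec]
        exact ⟨k * a, K.mul_mem hk ha, rfl⟩
      · intro x hx y hy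
        obtain ⟨u, hu, w, hw, rfl⟩ := Submodule.mem_sup.mp hx
        obtain ⟨u', hu', w', hw', rfl⟩ := Submodule.mem_sup.mp hy
        obtain ⟨a, ha, rfl⟩ := hw
        obtain ⟨b, hb, rfl⟩ := hw'
        rw [hbil.add_left, hbil.add_right, hbil.add_right, hU2 u hu u' hu', ← hself b hb, hv _ (hU1 b hb u hu),
          hself a ha, polar_comm _ v, hv _ (hU1 a ha u' hu'), ← hself b hb, Matrix.mulVec_mulVec, hiso _ (K.mul_mem hb ha)]
        simp
    have h3 := hmax _ hU'
    have h4 : U ⊔ Kv = U := by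
      by_contra hne
      exact h3 (lt_of_le_of_ne le_sup_left (Ne.symm hne))
    rw [← h4]
    exact Submodule.mem_sup_right hvKv
  have hle : U ≤ perpF hf U := fun u hu x hx => hU2 x hx u hu
  have heq : U = perpF hf U := le_antisymm hle hperp
  have h3 := finrank_perpF hf U
  rw [← heq] at h3
  obtain ⟨a, ha⟩ := dvd_finrank_of_inv hK U hU1
  exact ⟨a, by omega⟩

/-- A non-degenerate alternating form lives on an even-dimensional space. -/
theorem even_finrank_of_alt {W : Submodule F (ι → F)} {f : (ι → F) → (ι → F) → F} (hb : IsBilinearForm f) (halt : ∀ x ∈ W, f x x = 0)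
    (hnd : ∀ x ∈ W, x ≠ 0 → ∃ y ∈ W, f x y ≠ 0) : Even (finrank F W) := by
  classical
  set d := finrank F W with hd
  have hfr : finrank F (Fin d → F) = finrank F W := by
    rw [finrank_fintype_fun_eq_card, Fintype.card_fin]
  let φ : (Fin d → F) ≃ₗ[F] W := LinearEquiv.ofFinrankEq _ _ hfr
  let f₁ : (Fin d → F) → (Fin d → F) → F := fun a b => f (φ a : ι → F) (φ b : ι → F)
  have hb₁ : IsBilinearForm f₁ := by
    refine ⟨fun x y v => ?_, fun c x v => ?_, fun v x y => ?_, fun c v x => ?_⟩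
    · simp only [f₁, map_add, Submodule.coe_add, hb.add_left]
    · simp only [f₁, map_smul, Submodule.coe_smul, hb.smul_left]
    · simp only [f₁, map_add, Submodule.coe_add, hb.add_right]
    · simp only [f₁, map_smul, Submodule.coe_smul, hb.smul_right]
  have hal : ∀ v, f₁ v v = 0 := fun v => halt _ (φ v).2
  have hsk : ∀ v w, f₁ v w = - f₁ w v := by
    intro v w
    have h1 := hal (v + w)
    rw [hb₁.add_left, hb₁.add_right, hb₁.add_right, hal, hal] at h1
    linear_combination h1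
  have hS : IsSymplecticForm f₁ := by
    refine ⟨hb₁, hsk, hal, fun v hv => ?_⟩
    have h0 : (φ v : ι → F) ≠ 0 := by
      intro h
      apply hv
      apply φ.injective
      rw [map_zero]
      exact Subtype.ext h
    obtain ⟨y, hy, hvy⟩ := hnd _ (φ v).2 h0
    obtain ⟨y', hy'⟩ := φ.surjective ⟨y, hy⟩
    have h3 : f₁ v y' ≠ 0 := by
      simp only [f₁, hy']
      exact hvy
    refine ⟨⟨y', ?_⟩, ⟨y', h3⟩⟩
    rw [hsk]
    exact neg_ne_zero.mpr h3
  have := even_card_of_symplectic hS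
  simpa using this

/-- **A form admitting a hermitian structure in odd complex dimension is not of plus type.** -/
theorem not_plus_nonself [Nonempty ι] (hQ : IsNondegenerateQuadraticForm Q) {m : ℕ} (hm : Fintype.card ι = 2 * m) (hodd : Odd m)
    (hK : IsFieldSubalgebra 2 K) {ω : Matrix ι ι F} (hω : ω ∈ K) (hgen : ∀ k ∈ K, ∃ a b : F, k = a • (1 : Matrix ι ι F) + b • ω) {T c : F}
    (hT : ω + adj (RingEquiv.refl F) (polar Q) ω = T • 1) (hc : adj (RingEquiv.refl F) (polar Q) ω * ω = c • 1)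
    (hsim : ∀ v, polar Q v (ω *ᵥ v) = T * Q v ∧ Q (ω *ᵥ v) = c * Q v) : ¬ IsPlusTypeOn Q ⊤ := by
  classical
  rintro ⟨U, -, hU, hd⟩
  have hf := reflForm_polar hQ
  have hbil := hQ.polar_bilinear
  rw [finrank_top, finrank_fintype_fun_eq_card, hm] at hd
  have hdU : finrank F U = m := by omega
  have hUo : ∀ u ∈ U, ∀ u' ∈ U, polar Q u u' = 0 := by
    intro u hu u' hu'
    rw [polar, hU _ (U.add_mem hu hu'), hU _ hu, hU _ hu']
    ring
  have hle : U ≤ perpF hf U := fun u hu x hx => hUo x hx u hu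
  have heq : perpF hf U = U := by
    refine (Submodule.eq_of_le_of_finrank_eq hle ?_).symm
    have h3 := finrank_perpF hf U
    omega
  set ad := adj (RingEquiv.refl F) (polar Q) ω with had
  have hs : ∀ u v, polar Q (ω *ᵥ u) v = polar Q u (ad *ᵥ v) := fun u v => hf.adj_spec ω u v
  have hadv : ∀ v, ad *ᵥ v = T • v - ω *ᵥ v := by
    intro v
    have h1 : ad = T • 1 - ω := by
      rw [← hT]
      abel
    rw [h1, Matrix.sub_mulVec, Matrix.smul_mulVec, Matrix.one_mulVec]
  have hkey3 : ∀ u v, polar Q (ω *ᵥ u) (ω *ᵥ v) = c * polar Q u v := by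
    intro u v
    rw [hs, Matrix.mulVec_mulVec, hc, Matrix.smul_mulVec, Matrix.one_mulVec, hbil.smul_right]
  let R : Submodule F (ι → F) :=
    { carrier := {u | u ∈ U ∧ ∀ u' ∈ U, polar Q (ω *ᵥ u) u' = 0}
      add_mem' := fun {a b} ha hb => ⟨U.add_mem ha.1 hb.1, fun u' hu' => by
        rw [Matrix.mulVec_add, hbil.add_left, ha.2 u' hu', hb.2 u' hu', add_zero]⟩
      zero_mem' := ⟨U.zero_mem, fun u' _ => by rw [Matrix.mulVec_zero]; exact hf.zero_left _⟩
      smul_mem' := fun c x hx => ⟨U.smul_mem c hx.1, fun u' hu' => by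
        rw [Matrix.mulVec_smul, hbil.smul_left, hx.2 u' hu', mul_zero]⟩ }
  have hmemR : ∀ u, u ∈ R ↔ u ∈ U ∧ ∀ u' ∈ U, polar Q (ω *ᵥ u) u' = 0 := fun u => Iff.rfl
  have hRω : ∀ u ∈ R, ω *ᵥ u ∈ R := by
    intro u hu
    obtain ⟨hu1, hu2⟩ := (hmemR u).mp hu
    have h3 : ω *ᵥ u ∈ U := by
      rw [← heq]
      exact (mem_perpF_left (hf := hf) (W := U)).mpr hu2
    refine (hmemR _).mpr ⟨h3, fun u' hu' => ?_⟩
    rw [hs, hadv, hf.sub_right, hbil.smul_right, hu2 u' hu', hkey3, hUo u hu1 u' hu']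
    ring
  have hRK : ∀ k ∈ K, ∀ u ∈ R, k *ᵥ u ∈ R := by
    intro k hk u hu
    obtain ⟨a, b, rfl⟩ := hgen k hk
    rw [Matrix.add_mulVec, Matrix.smul_mulVec, Matrix.smul_mulVec, Matrix.one_mulVec]
    exact R.add_mem (R.smul_mem _ hu) (R.smul_mem _ (hRω u hu))
  have hRev := dvd_finrank_of_inv hK R hRK
  -- a complement of the radical
  obtain ⟨W', hW'⟩ := Submodule.exists_isCompl R
  set W := U ⊓ W' with hW
  have hRU : R ≤ U := fun u hu => hu.1
  have hsup : R ⊔ W = U := by
    rw [hW, inf_comm, ← sup_inf_assoc_of_le _ hRU, hW'.sup_eq_top, top_inf_eq]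
  have hinf : R ⊓ W = ⊥ := by
    rw [eq_bot_iff]
    rintro x ⟨hx1, hx2⟩
    exact Submodule.disjoint_def.mp hW'.disjoint x hx1 hx2.2
  have hdim : finrank F R + finrank F W = m := by
    have h3 := Submodule.finrank_sup_add_finrank_inf_eq R W
    rw [hsup, hinf, finrank_bot, add_zero, hdU] at h3
    exact h3.symm
  have hWU : W ≤ U := inf_le_left
  have hWev : Even (finrank F W) := by
    let f₁ : (ι → F) → (ι → F) → F := fun x y => polar Q (ω *ᵥ x) y
    have hb₁ : IsBilinearForm f₁ := by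
      refine ⟨fun x y v => ?_, fun c x v => ?_, fun v x y => ?_, fun c v x => ?_⟩
      · simp only [f₁, Matrix.mulVec_add, hbil.add_left]
      · simp only [f₁, Matrix.mulVec_smul, hbil.smul_left]
      · simp only [f₁, hbil.add_right]
      · simp only [f₁, hbil.smul_right]
    have hal : ∀ x ∈ U, polar Q (ω *ᵥ x) x = 0 := by
      intro x hx
      rw [polar_comm, (hsim x).1, hU x hx, mul_zero]
    refine even_finrank_of_alt (f := f₁) hb₁ (fun x hx => hal x (hWU hx)) fun x hx hx0 => ?_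
    by_contra hcon
    push Not at hcon
    have hx' : x ∈ R := by
      refine (hmemR x).mpr ⟨hWU hx, fun u' hu' => ?_⟩
      rw [← hsup] at hu'
      obtain ⟨r, hr, w, hw, rfl⟩ := Submodule.mem_sup.mp hu'
      have h6 : polar Q (ω *ᵥ x) w = 0 := hcon w hw
      rw [hbil.add_right, h6, add_zero]
      have h5 := hal _ (U.add_mem (hWU hx) (hRU hr))
      rw [Matrix.mulVec_add, hbil.add_left, hbil.add_right, hbil.add_right, hal _ (hWU hx), hal _ (hRU hr), ((hmemR r).mp hr).2 x (hWU hx)] at h5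
      linear_combination h5
    have h5 : x ∈ R ⊓ W := ⟨hx', hx⟩
    rw [hinf, Submodule.mem_bot] at h5
    exact hx0 h5
  obtain ⟨a, ha⟩ := hRev
  obtain ⟨b, hb⟩ := hWev
  obtain ⟨s, hs'⟩ := hodd
  omega

/-- **A symmetric tensor factor of dimension two which is anisotropic** gives a normalised field with a skew generator. -/
theorem exists_field_of_sym_two_adj [Nonempty ι] (h2 : (2 : F) ≠ 0) (hQ : IsNondegenerateQuadraticForm Q) {k : ℕ} [Nonempty (Fin k)] {e : ι ≃ Fin 2 × Fin k} {P : GL ι F}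
    {f₁ : (Fin 2 → F) → (Fin 2 → F) → F} {f₂ : (Fin k → F) → (Fin k → F) → F} (h1 : IsSymmetricForm f₁) (h3 : IsSymmetricForm f₂)
    (hs : IsTensorFormStructure id (polar Q) f₁ f₂ e P) (han : ∀ u, u ≠ 0 → f₁ u u ≠ 0)
    (hH : H ≤ isometryGroup F Q) (hle : H ≤ tensorProductSubgroup 2 k e P) :
    ∃ K : Subalgebra F (Matrix ι ι F), IsFieldSubalgebra 2 K ∧ AdjClosed (RingEquiv.refl F) (polar Q) K ∧
      (∀ k ∈ K, adj (RingEquiv.refl F) (polar Q) k = k → ∃ c : F, k = c • (1 : Matrix ι ι F)) ∧ H ≤ subalgebraNormalizer K := by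
  classical
  have hf := reflForm_polar hQ
  set G := gramMatrix f₁ with hG
  have hS : G 1 0 = G 0 1 := h1.symm _ _
  have hGu : IsUnit G := isUnit_gram_of_nondeg h1.bilinear h1.nondegenerate
  set j := jG G with hj
  set δ := G 0 1 * G 0 1 - G 0 0 * G 1 1 with hδ
  have hjj : j * j = δ • (1 : Matrix (Fin 2) (Fin 2) F) := j_mul_j G hS
  set X' : Matrix (Fin 2 × Fin k) (Fin 2 × Fin k) F := j ⊗ₖ (1 : Matrix (Fin k) (Fin k) F) with hX'
  set X : Matrix ι ι F := X'.submatrix e e with hX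
  have hXX : X * X = δ • (1 : Matrix ι ι F) := by
    rw [hX, hX', Matrix.submatrix_mul_equiv, ← Matrix.mul_kronecker_mul, hjj, mul_one, Matrix.smul_kronecker, Matrix.one_kronecker_one]
    ext a b
    simp [Matrix.smul_apply, Matrix.one_apply, e.injective.eq_iff]
  set Pm : Matrix ι ι F := (P : Matrix ι ι F) with hPm
  set Pi' : Matrix ι ι F := ((P⁻¹ : GL ι F) : Matrix ι ι F) with hPi'
  have hPP : Pi' * Pm = 1 := by
    rw [hPm, hPi', ← Units.val_mul, inv_mul_cancel, Units.val_one]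
  have hPP' : Pm * Pi' = 1 := by
    rw [hPm, hPi', ← Units.val_mul, mul_inv_cancel, Units.val_one]
  set N : Matrix ι ι F := Pm * X * Pi' with hNd
  have hN : N * N = (0 : F) • N + δ • 1 := by
    calc N * N = Pm * (X * (Pi' * Pm) * X) * Pi' := by simp only [hNd, mul_assoc]
      _ = Pm * (δ • (1 : Matrix ι ι F)) * Pi' := by rw [hPP, mul_one, hXX]
      _ = _ := by
        rw [mul_smul_comm, mul_one, smul_mul_assoc, hPP', zero_smul, zero_add]
  have hroot : ∀ t : F, t * t ≠ 0 * t + δ := by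
    intro t ht
    have hs0 : (Pi.single 0 1 : Fin 2 → F) ≠ 0 := fun h => by
      have := congrFun h 0
      simp at this
    have ha : G 0 0 ≠ 0 := han (Pi.single 0 1) hs0
    let x : Fin 2 → F := ![t - G 0 1, G 0 0]
    have hx0 : x ≠ 0 := fun h => ha (by simpa [x] using congrFun h 1)
    apply han x hx0
    rw [bilinear_expand h1.bilinear]
    simp only [Fin.sum_univ_two, x, Matrix.cons_val_zero, Matrix.cons_val_one, ← hG]
    rw [hS]
    rw [hδ] at ht
    linear_combination (G 0 0) * ht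
  have hKf := quadAlg_field N hN hroot
  -- the generator is skew
  have hGs : jᵀ * G = -(G * j) := by
    ext a b
    fin_cases a <;> fin_cases b <;> simp [hj, jG, Matrix.mul_apply, Fin.sum_univ_two, Matrix.neg_apply, hS] <;> ring
  have hs' := hs
  obtain ⟨c, hc, heq⟩ := hs'
  set G₂ := gramMatrix f₂ with hG₂
  set A' : Matrix (Fin 2 × Fin k) (Fin 2 × Fin k) F := G ⊗ₖ G₂ with hA'
  have hform : ∀ x y : Fin 2 × Fin k → F, formOfGram id A' x y = x ⬝ᵥ (A' *ᵥ y) := by
    intro x y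
    simp only [formOfGram, dotProduct, Matrix.mulVec, Finset.mul_sum, id]
    refine Finset.sum_congr rfl fun a _ => Finset.sum_congr rfl fun b _ => ?_
    ring
  have hXt : X'ᵀ * A' = -(A' * X') := by
    have h5 : X'ᵀ = jᵀ ⊗ₖ (1 : Matrix (Fin k) (Fin k) F) := by
      ext a b
      simp [hX', Matrix.one_apply, eq_comm]
    rw [h5, hA', hX', ← Matrix.mul_kronecker_mul, ← Matrix.mul_kronecker_mul, hGs, one_mul, mul_one]
    ext a b
    simp
  have hXv : ∀ u : Fin 2 × Fin k → F, X *ᵥ (u ∘ e) = (X' *ᵥ u) ∘ e := by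
    intro u
    have h5 : (u ∘ e) ∘ e.symm = u := by
      funext i
      simp
    rw [hX, Matrix.submatrix_mulVec_equiv, h5]
  have hNP : ∀ u : ι → F, N *ᵥ (Pm *ᵥ u) = Pm *ᵥ (X *ᵥ u) := by
    intro u
    rw [hNd, Matrix.mulVec_mulVec, mul_assoc, mul_assoc, hPP, mul_one, Matrix.mulVec_mulVec]
  have hrep : ∀ x : ι → F, ∃ x' : Fin 2 × Fin k → F, x = Pm *ᵥ (x' ∘ e) := by
    intro x
    refine ⟨(Pi' *ᵥ x) ∘ e.symm, ?_⟩
    have h5 : ((Pi' *ᵥ x) ∘ e.symm) ∘ e = Pi' *ᵥ x := by
      funext i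
      simp
    rw [h5, Matrix.mulVec_mulVec, hPP', Matrix.one_mulVec]
  have hdot : ∀ x y : Fin 2 × Fin k → F, (X' *ᵥ x) ⬝ᵥ y = x ⬝ᵥ (X'ᵀ *ᵥ y) := by
    intro x y
    rw [Matrix.dotProduct_mulVec, Matrix.vecMul_transpose]
  have hskew : ∀ x y, polar Q (N *ᵥ x) y = polar Q x ((-N) *ᵥ y) := by
    intro x y
    obtain ⟨x', rfl⟩ := hrep x
    obtain ⟨y', rfl⟩ := hrep y
    rw [hNP, hXv, heq, Matrix.neg_mulVec, hNP, hXv, hf.neg_right, heq, hform, hform, hdot, Matrix.mulVec_mulVec, hXt, Matrix.mulVec_mulVec,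
      Matrix.neg_mulVec, dotProduct_neg]
    ring
  have hadj : -N = adj (RingEquiv.refl F) (polar Q) N := hf.eq_adj hskew
  have hadjk : ∀ a b : F, adj (RingEquiv.refl F) (polar Q) (a • (1 : Matrix ι ι F) + b • N) = a • 1 + (-b) • N := by
    intro a b
    rw [hf.adj_add, hf.adj_smul, hf.adj_smul, hf.adj_one, ← hadj]
    simp
  have hN0 : N ≠ 0 := by
    intro h0
    have h5 : δ • (1 : Matrix ι ι F) = 0 := by
      rw [h0] at hN
      simpa using hN.symm
    have h6 := (smul_eq_zero.mp h5).resolve_right one_ne_zero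
    apply hroot 0
    rw [h6]
    ring
  refine ⟨quadAlg N hN, hKf, ?_, ?_, fun g hg => ?_⟩
  · rintro _ ⟨a, b, rfl⟩
    exact ⟨a, -b, hadjk a b⟩
  · rintro _ ⟨a, b, rfl⟩ hfix
    rw [hadjk] at hfix
    have h5 : (2 * b) • N = 0 := by
      have h6 : b • N = (-b) • N := add_left_cancel hfix.symm
      rw [two_mul, add_smul]
      nth_rewrite 1 [h6]
      simp
    have hb : b = 0 := by
      have h6 := (smul_eq_zero.mp h5).resolve_right hN0
      exact (mul_eq_zero.mp h6).resolve_left h2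
    refine ⟨a, ?_⟩
    rw [hb]
    simp
  obtain ⟨a, b, hab⟩ := Main.mem_tensorProductSubgroup_iff.mp (hle hg)
  haveI : Nonempty (Fin 2) := ⟨0⟩
  obtain ⟨μ, hμ, hsim⟩ := factor_sim h1.bilinear h3.bilinear h1.nondegenerate h3.nondegenerate hs (hH hg) hab
  have hgm := gram_sim h1.bilinear hsim
  have hc' := j_conj hS hGu a.isUnit hgm
  set B : Matrix ι ι F := ((P⁻¹ * g * P : GL ι F) : Matrix ι ι F) with hB
  have hBe : B = ((a : Matrix (Fin 2) (Fin 2) F) ⊗ₖ (b : Matrix (Fin k) (Fin k) F)).submatrix e e := by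
    ext i i'
    rw [hab]
    rfl
  have hdet : (a : Matrix (Fin 2) (Fin 2) F).det ≠ 0 :=
    ((Matrix.isUnit_iff_isUnit_det _).mp a.isUnit).ne_zero
  have hcomm : μ • (X * B) = (a : Matrix (Fin 2) (Fin 2) F).det • (B * X) := by
    rw [hX, hX', hBe, Matrix.submatrix_mul_equiv, Matrix.submatrix_mul_equiv, ← Matrix.mul_kronecker_mul, ← Matrix.mul_kronecker_mul,
      one_mul, mul_one]
    have h4 : ∀ (c : F) (A : Matrix (Fin 2) (Fin 2) F), c • (A ⊗ₖ (b : Matrix (Fin k) (Fin k) F)).submatrix e e = ((c • A) ⊗ₖ (b : Matrix (Fin k) (Fin k) F)).submatrix e e := by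
      intro c A
      ext r r'
      simp [mul_assoc]
    rw [h4, h4, hc']
  have hBX : B * X = (μ / (a : Matrix (Fin 2) (Fin 2) F).det) • (X * B) := by
    rw [div_eq_mul_inv, mul_comm, mul_smul, hcomm, smul_smul, inv_mul_cancel₀ hdet, one_smul]
  have hgB : (g : Matrix ι ι F) = Pm * B * Pi' := by
    rw [hB, hPm, hPi', ← Units.val_mul, ← Units.val_mul]
    congr 1
    group
  refine mem_normalizer_quadAlg N hN g (l := μ / (a : Matrix (Fin 2) (Fin 2) F).det) (κ := 0) (div_ne_zero hμ hdet) ?_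
  rw [zero_smul, add_zero]
  calc (g : Matrix ι ι F) * N = Pm * (B * (Pi' * Pm) * X) * Pi' := by
        rw [hgB, hNd]
        simp only [mul_assoc]
    _ = Pm * (B * X) * Pi' := by rw [hPP, mul_one]
    _ = (μ / (a : Matrix (Fin 2) (Fin 2) F).det) • (Pm * (X * (Pi' * Pm) * B) * Pi') := by
        rw [hBX, hPP, mul_one, mul_smul_comm, smul_mul_assoc]
    _ = _ := by
        rw [hgB, hNd]
        simp only [mul_assoc]

end Sim

end KTwo

section Frame

variable {Q' : QuadraticForm F (ι → F)}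

set_option quotPrecheck false in
local notation "𝔣" => polar (⇑Q')

/-- **Refining a decomposition to a frame**, from a canonical orthogonal family in one member. -/
theorem frame_of_family (h2F : (2 : F) ≠ 0) (hQ : (polarBilin Q').Nondegenerate) {t m n' : ℕ} (hn' : n' = t * m)
    {D : Fin t → Submodule F (ι → F)} (hD : IsOrthogonalMDecomposition (⇑Q') m D) {i₀ : Fin t} {c : F} {z : Fin m → ι → F} (hc : c ≠ 0)
    (hz : ∀ j, z j ∈ D i₀) (hzz : ∀ i j, 𝔣 (z i) (z j) = if i = j then c else 0)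
    (huniq : ∀ y ∈ D i₀, 𝔣 y y = c → ∃ (j : Fin m) (s : F), s ≠ 0 ∧ y = s • z j) :
    ∃ D' : Fin n' → Submodule F (ι → F), IsOrthogonalMDecomposition (⇑Q') 1 D' ∧
      ∀ g ∈ isometryGroup F (⇑Q'), g ∈ decompositionStabilizer D → g ∈ decompositionStabilizer D' := by
  classical
  subst hn'
  have hdec := hD.decomp.decomp
  have hcd := Block.card_eq_mul hdec
  have ht := hdec.two_le
  have hiso := fun i => hD.isometric i₀ i
  choose ee hee using hiso
  have hpol : ∀ i (x y : D i₀), 𝔣 (ee i x : ι → F) (ee i y : ι → F) = 𝔣 (x : ι → F) (y : ι → F) := by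
    intro i x y
    have h1 : (ee i x : ι → F) + (ee i y : ι → F) = (ee i (x + y) : ι → F) := by rw [map_add]; rfl
    have h3 : (x : ι → F) + (y : ι → F) = ((x + y : D i₀) : ι → F) := rfl
    simp only [polar]
    rw [h1, h3, hee, hee, hee]
  let a : Fin t × Fin m → ι → F := fun p => (ee p.1 ⟨z p.2, hz p.2⟩ : ι → F)
  have hamem : ∀ p, a p ∈ D p.1 := fun p => (ee p.1 ⟨z p.2, hz p.2⟩).2
  have haa : ∀ p p', 𝔣 (a p) (a p') = if p = p' then c else 0 := by
    rintro ⟨i, j⟩ ⟨i', j'⟩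
    by_cases hii : i = i'
    · subst hii
      simp only [a]
      rw [hpol, hzz]
      simp
    · rw [if_neg (by simp [hii])]
      exact hD.decomp.orthogonal i i' hii _ (hamem (i, j)) _ (hamem (i', j'))
  have hane : ∀ p, a p ≠ 0 := by
    intro p h
    have h1 := haa p p
    rw [h, polar_zero_left, if_pos rfl] at h1
    exact hc h1.symm
  have hQa : ∀ p p', Q' (a p) = Q' (a p') := by
    intro p p'
    have h1 := haa p p
    have h3 := haa p' p'
    rw [Cfsg.Agent.Lib.Classical.Orth.Basic.polar_self_eq, if_pos rfl] at h1 h3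
    exact mul_left_cancel₀ h2F (h1.trans h3.symm)
  let E : Fin (t * m) ≃ Fin t × Fin m := finProdFinEquiv.symm
  let D' : Fin (t * m) → Submodule F (ι → F) := fun j => Submodule.span F {a (E j)}
  have hmemD' : ∀ j, ∀ w ∈ D' j, ∃ s : F, w = s • a (E j) := by
    intro j w hw
    obtain ⟨s, rfl⟩ := Submodule.mem_span_singleton.mp hw
    exact ⟨s, rfl⟩
  have hnd : ∀ j, IsNondegenerateOn (𝔣) (D' j) := by
    intro j w hw hw0
    obtain ⟨s, rfl⟩ := hmemD' j w hw
    have hs : s ≠ 0 := by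
      rintro rfl
      exact hw0 (zero_smul _ _)
    refine ⟨⟨a (E j), Submodule.mem_span_singleton_self _, ?_⟩, ⟨a (E j), Submodule.mem_span_singleton_self _, ?_⟩⟩
    · rw [polar_smul_right', haa, if_pos rfl]
      exact mul_ne_zero hs hc
    · rw [polar_smul_left', haa, if_pos rfl]
      exact mul_ne_zero hs hc
  have horth : ∀ i j, i ≠ j → AreOrthogonalFor (𝔣) (D' i) (D' j) := by
    intro i j hij u hu v hv
    obtain ⟨s, rfl⟩ := hmemD' i u hu
    obtain ⟨s', rfl⟩ := hmemD' j v hv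
    rw [polar_smul_left', polar_smul_right', haa, if_neg (fun h => hij (E.injective h))]
    ring
  have hbil : IsBilinearForm (𝔣) :=
    ⟨fun x y v => polar_add_left Q' x y v, fun c x v => polar_smul_left' Q' c x v, fun v x y => polar_add_right Q' v x y,
      fun c v x => polar_smul_right' Q' c v x⟩
  have hli : LinearIndependent F (fun j => a (E j)) := by
    rw [Fintype.linearIndependent_iff]
    intro β hβ j
    have h1 := congrArg (fun w => 𝔣 w (a (E j))) hβ
    simp only [polar_zero_left] at h1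
    rw [(Forms.isSesq_of_bilinear hbil).sum_left] at h1
    rw [Finset.sum_eq_single j] at h1
    · have h3 := haa (E j) (E j)
      rw [if_pos rfl] at h3
      have h4 : β j * c = 0 := by
        have h5 := hbil.smul_left (β j) (a (E j)) (a (E j))
        rw [h3] at h5
        rw [← h5]
        exact h1
      exact (mul_eq_zero.mp h4).resolve_right hc
    · intro k _ hk
      have h5 := hbil.smul_left (β k) (a (E k)) (a (E j))
      rw [haa, if_neg (fun h => hk (E.injective h)), mul_zero] at h5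
      exact h5
    · intro h
      exact absurd (Finset.mem_univ _) h
  have htop : iSup D' = ⊤ := by
    have h1 := hli.span_eq_top_of_card_eq_finrank' (by
      rw [Fintype.card_fin, finrank_fintype_fun_eq_card, hcd])
    rw [eq_top_iff, ← h1, Submodule.span_le]
    rintro _ ⟨j, rfl⟩
    exact Submodule.mem_iSup_of_mem j (Submodule.mem_span_singleton_self _)
  have hm : 0 < m := hdec.pos
  have hnt : 2 ≤ t * m := by
    calc 2 ≤ t := ht
      _ ≤ t * m := Nat.le_mul_of_pos_right t hm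
  refine ⟨D', ⟨⟨⟨hnt, one_pos, fun j => finrank_span_singleton (hane _), indep_of_orth hbil hnd horth, htop⟩, hnd, horth⟩, ?_⟩, ?_⟩
  · intro j j'
    let L₁ := LinearEquiv.toSpanNonzeroSingleton F (ι → F) (a (E j)) (hane _)
    let L₂ := LinearEquiv.toSpanNonzeroSingleton F (ι → F) (a (E j')) (hane _)
    refine ⟨L₁.symm.trans L₂, fun w => ?_⟩
    obtain ⟨s, rfl⟩ := L₁.surjective w
    simp only [LinearEquiv.trans_apply, LinearEquiv.symm_apply_apply]
    have h1 : ∀ (p) (hp : a p ≠ 0) (s : F), ((LinearEquiv.toSpanNonzeroSingleton F (ι → F) (a p) hp s : Submodule.span F {a p}) : ι → F) = s • a p :=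
      fun p hp s => by simp
    change Q' ((LinearEquiv.toSpanNonzeroSingleton F (ι → F) (a (E j')) (hane _) s : Submodule.span F {a (E j')}) : ι → F) =
      Q' ((LinearEquiv.toSpanNonzeroSingleton F (ι → F) (a (E j)) (hane _) s : Submodule.span F {a (E j)}) : ι → F)
    rw [h1, h1, Q_smul, Q_smul, hQa (E j') (E j)]
  · rintro g hgI ⟨σ, hσ⟩
    have hisom : ∀ u v, 𝔣 ((g : Matrix ι ι F) *ᵥ u) ((g : Matrix ι ι F) *ᵥ v) = 𝔣 u v := isometry_le_isomG hgI
    have himg : ∀ p, ∃ (z' : Fin t × Fin m) (s : F), s ≠ 0 ∧ (g : Matrix ι ι F) *ᵥ a p = s • a z' := by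
      intro p
      have h1 : (g : Matrix ι ι F) *ᵥ a p ∈ D (σ p.1) := by
        rw [← hσ p.1]
        exact ⟨a p, hamem p, rfl⟩
      obtain ⟨y, hy⟩ := (ee (σ p.1)).surjective ⟨_, h1⟩
      have hy' : (ee (σ p.1) y : ι → F) = (g : Matrix ι ι F) *ᵥ a p := congrArg Subtype.val hy
      have h3 : 𝔣 (y : ι → F) (y : ι → F) = c := by
        rw [← hpol (σ p.1) y y, hy', hisom, haa, if_pos rfl]
      obtain ⟨j', s, hs, hy₂⟩ := huniq _ y.2 h3
      refine ⟨(σ p.1, j'), s, hs, ?_⟩
      rw [← hy']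
      have h5 : y = s • (⟨z j', hz j'⟩ : D i₀) := Subtype.ext hy₂
      rw [h5, map_smul]
      rfl
    choose ρ s hs hρ using himg
    have hinj : Function.Injective ρ := by
      intro p p' hpp
      by_contra hne
      have h1 := hisom (a p) (a p')
      rw [hρ, hρ, hpp, polar_smul_left', polar_smul_right', haa, haa, if_pos rfl, if_neg hne] at h1
      exact mul_ne_zero (hs p) (mul_ne_zero (hs p') hc) h1
    let R : Equiv.Perm (Fin t × Fin m) := Equiv.ofBijective ρ (Finite.injective_iff_bijective.mp hinj)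
    refine ⟨E.trans (R.trans E.symm), fun j => ?_⟩
    change (Submodule.span F {a (E j)}).map _ = Submodule.span F {a (E (E.symm (ρ (E j))))}
    rw [Submodule.map_span, Set.image_singleton, Matrix.toLin'_apply, hρ, E.apply_symm_apply]
    exact Submodule.span_singleton_smul_eq (IsUnit.mk0 _ (hs _)) _

/-- The canonical orthogonal pair of a minus plane over the field with three elements. -/
theorem minus_plane_three (hq : Fintype.card F = 3) (hQ : IsNondegenerateQuadraticForm (⇑Q')) {W : Submodule F (ι → F)} (hd : finrank F W = 2)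
    (hW : IsNondegenerateOn (𝔣) W) (hp : ¬ IsPlusTypeOn (⇑Q') W) :
    ∃ (c : F) (z : Fin 2 → ι → F), c ≠ 0 ∧ (∀ j, z j ∈ W) ∧ (∀ i j, 𝔣 (z i) (z j) = if i = j then c else 0) ∧
      ∀ y ∈ W, 𝔣 y y = c → ∃ (j : Fin 2) (s : F), s ≠ 0 ∧ y = s • z j := by
  classical
  have h2F : (2 : F) ≠ 0 := two_ne_zero_three hq
  have hne : ∀ v ∈ W, v ≠ 0 → Q' v ≠ 0 := by
    intro v hv hv0 h0
    apply hp
    refine ⟨Submodule.span F {v}, ?_, ?_, ?_⟩
    · rw [Submodule.span_le]
      simpa using hv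
    · intro x hx
      obtain ⟨s, rfl⟩ := Submodule.mem_span_singleton.mp hx
      rw [Q_smul, h0, mul_zero]
    · rw [hd, finrank_span_singleton hv0]
  obtain ⟨v, hv, hv0⟩ : ∃ v ∈ W, v ≠ 0 := by
    by_contra hcon
    push Not at hcon
    have : W = ⊥ := (Submodule.eq_bot_iff _).mpr hcon
    rw [this, finrank_bot] at hd
    omega
  have hvv : 𝔣 v v ≠ 0 := by
    rw [polar_self_eq hQ]
    exact mul_ne_zero h2F (hne v hv hv0)
  obtain ⟨w', hw', hw'v⟩ : ∃ w' ∈ W, w' ∉ Submodule.span F {v} := by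
    by_contra hcon
    push Not at hcon
    have h1 : finrank F W ≤ finrank F (Submodule.span F {v}) := Submodule.finrank_mono hcon
    rw [finrank_span_singleton hv0, hd] at h1
    omega
  set w := w' - (𝔣 v w' / 𝔣 v v) • v with hw
  have hwW : w ∈ W := W.sub_mem hw' (W.smul_mem _ hv)
  have hvw : 𝔣 v w = 0 := by
    rw [hw, polar_sub_right, polar_smul_right']
    field_simp
    ring
  have hw0 : w ≠ 0 := by
    intro h0
    apply hw'v
    rw [Submodule.mem_span_singleton]
    refine ⟨𝔣 v w' / 𝔣 v v, ?_⟩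
    rw [hw] at h0
    exact (sub_eq_zero.mp h0).symm
  have hli : LinearIndependent F ![v, w] := by
    rw [LinearIndependent.pair_iff]
    intro s r hsr
    have h1 := congrArg (fun x => 𝔣 v x) hsr
    simp only [polar_add_right, polar_smul_right', hvw, mul_zero, add_zero, polar_zero_right] at h1
    have hs : s = 0 := (mul_eq_zero.mp h1).resolve_right hvv
    subst hs
    rw [zero_smul, zero_add] at hsr
    exact ⟨rfl, (smul_eq_zero.mp hsr).resolve_right hw0⟩
  have hspan : Submodule.span F (Set.range ![v, w]) = W := by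
    apply Submodule.eq_of_le_of_finrank_eq
    · rw [Submodule.span_le]
      rintro _ ⟨i, rfl⟩
      fin_cases i
      · exact hv
      · exact hwW
    · rw [finrank_span_eq_card hli, hd]
      simp
  have hF : ∀ x : F, x = 0 ∨ x * x = 1 := by
    intro x
    rcases val_three hq x with rfl | rfl | rfl
    · exact Or.inl rfl
    · right
      ring
    · right
      ring
  have hQw : Q' w = Q' v := by
    by_contra hne'
    have h0 : Q' v ≠ 0 := hne v hv hv0
    have h1 : Q' w ≠ 0 := hne w hwW hw0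
    have h3 : Q' (v + w) = Q' v + Q' w := by
      rw [Q_add, hvw, add_zero]
    have hsum : Q' v + Q' w = 0 := by
      have h4 : (Q' v + Q' w) * (Q' v - Q' w) = 0 := by
        have h5 : Q' v * Q' v = 1 := (hF _).resolve_left h0
        have h6 : Q' w * Q' w = 1 := (hF _).resolve_left h1
        linear_combination h5 - h6
      exact (mul_eq_zero.mp h4).resolve_right (sub_ne_zero.mpr fun h => hne' h.symm)
    apply hne (v + w) (W.add_mem hv hwW)
    · intro h5
      have h6 := congrArg (fun x => 𝔣 v x) h5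
      simp only [polar_add_right, hvw, add_zero, polar_zero_right] at h6
      exact hvv h6
    · rw [h3, hsum]
  refine ⟨𝔣 v v, ![v, w], hvv, ?_, ?_, ?_⟩
  · intro j
    fin_cases j
    · exact hv
    · exact hwW
  · intro i j
    fin_cases i <;> fin_cases j
    · simp
    · simpa using hvw
    · simp only [Fin.mk_one, Fin.zero_eta, Matrix.cons_val_one, Matrix.cons_val_zero]
      rw [polar_comm, hvw]
      simp
    · simp only [Fin.mk_one, Matrix.cons_val_one, Matrix.cons_val_zero, if_true]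
      rw [polar_self_eq hQ, polar_self_eq hQ, hQw]
  · intro y hy hyc
    rw [← hspan] at hy
    obtain ⟨β, rfl⟩ := (Submodule.mem_span_range_iff_exists_fun F).mp hy
    simp only [Fin.sum_univ_two, Matrix.cons_val_zero, Matrix.cons_val_one] at hyc ⊢
    rw [polar_self_eq hQ, polar_self_eq hQ] at hyc
    have h1 := mul_left_cancel₀ h2F hyc
    rw [Q_add, Q_smul, Q_smul, polar_smul_left', polar_smul_right', hvw, hQw] at h1
    have h3 : (β 0 * β 0 + β 1 * β 1 - 1) * Q' v = 0 := by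
      linear_combination h1
    have h4 := (mul_eq_zero.mp h3).resolve_right (hne v hv hv0)
    rcases hF (β 0) with h0 | h0
    · have h5 : β 1 ≠ 0 := by
        intro h5
        rw [h0, h5] at h4
        have : (1 : F) = 0 := by linear_combination -h4
        exact one_ne_zero this
      refine ⟨1, β 1, h5, ?_⟩
      rw [h0, zero_smul, zero_add]
      rfl
    · have h5 : β 0 ≠ 0 := by
        intro h5
        rw [h5] at h0
        have : (1 : F) = 0 := by linear_combination -h0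
        exact one_ne_zero this
      have h6 : β 1 = 0 := by
        have : β 1 * β 1 = 0 := by linear_combination h4 - h0
        exact mul_self_eq_zero.mp this
      refine ⟨0, β 0, h5, ?_⟩
      rw [h6, zero_smul, add_zero]
      rfl

end Frame

end Cfsg.Agent.Lib.Classical.Asch.OKey
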