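import Mathlib
import Cfsg.Agent.Lib.Classical.Asch.OKey

/-!
# Quadratic forms over an extension field: transfer along the trace
-/

set_option autoImplicit false
set_option linter.style.haveILetI false
set_option linter.unusedSectionVars false

namespace Cfsg.Agent.Lib.Classical.Asch.OKey2

open Module QuadraticMap

section Abs

variable {F L V : Type*} [Field F] [Fintype F] [Field L] [Algebra F L] [Finite L] [AddCommGroup V] [Module F V] [Module L V]
  [IsScalarTower F L V]

/-- The trace of a finite field extension. -/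
theorem exists_tr : ∃ tr : L →ₗ[F] F, (∀ e, (∀ x, tr (x * e) = 0) → e = 0) ∧ (∀ (τ : L ≃ₐ[F] L) (x : L), tr (τ x) = tr x) ∧
    ((2 : F) = 0 → ∀ x, tr (x * x) = tr x * tr x) ∧ (∀ μ : L →ₗ[F] F, ∃ b, ∀ y, tr (y * b) = μ y) := by
  classical
  haveI : FiniteDimensional F L := Module.Finite.of_finite
  have hnd := traceForm_nondegenerate F L
  have h1 : ∀ e, (∀ x, Algebra.trace F L (x * e) = 0) → e = 0 := by
    intro e he
    refine hnd.1 e fun y => ?_
    rw [Algebra.traceForm_apply, mul_comm]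
    exact he y
  refine ⟨Algebra.trace F L, h1, fun τ x => Algebra.trace_eq_of_algEquiv τ x, ?_, ?_⟩
  · intro h2 x
    apply (algebraMap F L).injective
    rw [RingHom.map_mul, trace_eq_sum_automorphisms, trace_eq_sum_automorphisms]
    have h2L : (2 : L) = 0 := by
      have := congrArg (algebraMap F L) h2
      rwa [map_ofNat, map_zero] at this
    haveI : CharP L 2 := CharTwo.of_one_ne_zero_of_two_eq_zero one_ne_zero h2L
    simp only [map_mul]
    rw [← pow_two, sum_pow_char 2]
    exact Finset.sum_congr rfl fun σ _ => by rw [pow_two]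
  · intro μ
    let Φ : L →ₗ[F] Module.Dual F L :=
      { toFun := fun b => (Algebra.trace F L).comp (LinearMap.mulRight F b)
        map_add' := fun a b => by
          ext y
          simp [mul_add]
        map_smul' := fun c b => by
          ext y
          simp [mul_smul_comm] }
    have hinj : Function.Injective Φ := by
      rw [injective_iff_map_eq_zero]
      intro b hb
      apply h1
      intro x
      have := LinearMap.congr_fun hb x
      simpa [Φ] using this
    have hsurj := (LinearMap.injective_iff_surjective_of_finrank_eq_finrank (Subspace.dual_finrank_eq (K := F) (V := L)).symm).mp hinj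
    obtain ⟨b, hb⟩ := hsurj μ
    refine ⟨b, fun y => ?_⟩
    rw [← hb]
    simp [Φ]

/-- The hypotheses on the form. -/
structure QD (L : Type*) [Field L] [Module L V] (Q : V → F) : Prop where
  smul : ∀ (c : F) (v : V), Q (c • v) = c ^ 2 * Q v
  add_left : ∀ x y v, polar Q (x + y) v = polar Q x v + polar Q y v
  smul_left : ∀ (c : F) (x v : V), polar Q (c • x) v = c * polar Q x v
  self : ∀ (y : L) (u v : V), polar Q (y • u) v = polar Q u (y • v)
  nondeg : ∀ u, (∀ v, polar Q u v = 0) → u = 0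

variable {Q : V → F}

theorem QD.add_right (h : QD L Q) (v x y : V) : polar Q v (x + y) = polar Q v x + polar Q v y := by
  rw [polar_comm, h.add_left, polar_comm _ x, polar_comm _ y]

theorem QD.polar_self (h : QD L Q) (v : V) : polar Q v v = 2 * Q v := by
  have h1 : v + v = (2 : F) • v := (two_smul F v).symm
  rw [polar, h1, h.smul]
  ring

theorem QD.Q_add (h : QD L Q) (x y : V) : Q (x + y) = Q x + Q y + polar Q x y := by
  rw [polar]
  ring

/-- In characteristic two the form is alternating on `L`-lines. -/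
theorem QD.polar_line (h : QD L Q) (h2 : (2 : F) = 0) (z : L) (v : V) : polar Q (z • v) v = 0 := by
  have h2L : (2 : L) = 0 := by
    have := congrArg (algebraMap F L) h2
    rwa [map_ofNat, map_zero] at this
  haveI : CharP L 2 := CharTwo.of_one_ne_zero_of_two_eq_zero one_ne_zero h2L
  obtain ⟨w, rfl⟩ := FiniteField.isSquare_of_char_two (ringChar.eq L 2) z
  rw [mul_smul, h.self, h.polar_self, h2, zero_mul]

/-- The form on `L`-lines is a trace form of a square. -/
theorem exists_a (h : QD L Q) {tr : L →ₗ[F] F} (hsq : (2 : F) = 0 → ∀ x, tr (x * x) = tr x * tr x)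
    (hR : ∀ μ : L →ₗ[F] F, ∃ b, ∀ y, tr (y * b) = μ y) (v : V) : ∃ a : L, ∀ y, tr (y * y * a) = Q (y • v) := by
  classical
  by_cases h2 : (2 : F) = 0
  · haveI : CharP F 2 := CharTwo.of_one_ne_zero_of_two_eq_zero one_ne_zero h2
    let s : F ≃+* F := (frobeniusEquiv F 2).symm
    have hs : ∀ x, s x * s x = x := fun x => by
      have h3 : (frobeniusEquiv F 2) (s x) = x := (frobeniusEquiv F 2).apply_symm_apply x
      rw [frobeniusEquiv_apply, frobenius_def] at h3
      rw [← pow_two, h3]
    have hs2 : ∀ c : F, s (c ^ 2) = c := fun c => by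
      have h3 : c ^ 2 = (frobeniusEquiv F 2) c := by
        rw [frobeniusEquiv_apply, frobenius_def]
      rw [h3]
      exact (frobeniusEquiv F 2).symm_apply_apply c
    have hline : ∀ a b : L, polar Q (a • v) (b • v) = 0 := by
      intro a b
      rw [h.self, smul_smul, polar_comm]
      exact h.polar_line h2 _ _
    let μ : L →ₗ[F] F :=
      { toFun := fun y => s (Q (y • v))
        map_add' := fun a b => by
          rw [add_smul, h.Q_add, map_add, map_add, hline, map_zero, add_zero]
        map_smul' := fun c y => by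
          simp only [smul_assoc, RingHom.id_apply, smul_eq_mul]
          rw [h.smul, map_mul, hs2] }
    obtain ⟨b, hb⟩ := hR μ
    refine ⟨b * b, fun y => ?_⟩
    have h3 : y * y * (b * b) = (y * b) * (y * b) := by ring
    rw [h3, hsq h2, hb]
    exact hs _
  · let μ : L →ₗ[F] F :=
      { toFun := fun y => polar Q (y • v) v
        map_add' := fun a b => by
          rw [add_smul, h.add_left]
        map_smul' := fun c y => by
          simp only [smul_assoc, RingHom.id_apply, smul_eq_mul]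
          rw [h.smul_left] }
    obtain ⟨b, hb⟩ := hR μ
    refine ⟨(2 : F)⁻¹ • b, fun y => ?_⟩
    have h3 : y * y * ((2 : F)⁻¹ • b) = (2 : F)⁻¹ • ((y * y) * b) := by
      rw [mul_smul_comm]
    rw [h3, map_smul, hb]
    change (2 : F)⁻¹ • polar Q ((y * y) • v) v = _
    rw [mul_smul, h.self, h.polar_self, smul_eq_mul, ← mul_assoc, inv_mul_cancel₀ h2, one_mul]

/-- The `L`-valued polarisation. -/
theorem exists_b (h : QD L Q) {tr : L →ₗ[F] F} (hR : ∀ μ : L →ₗ[F] F, ∃ b, ∀ y, tr (y * b) = μ y) (u v : V) :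
    ∃ b : L, ∀ y, tr (y * b) = polar Q (y • u) v := by
  let μ : L →ₗ[F] F :=
    { toFun := fun y => polar Q (y • u) v
      map_add' := fun a b => by
        rw [add_smul, h.add_left]
      map_smul' := fun c y => by
        simp only [smul_assoc, RingHom.id_apply, smul_eq_mul]
        rw [h.smul_left] }
  obtain ⟨b, hb⟩ := hR μ
  exact ⟨b, hb⟩

/-- Vanishing against squares. -/
theorem eq_zero_of_sq {tr : L →ₗ[F] F} (hnd : ∀ e, (∀ x, tr (x * e) = 0) → e = 0) {d : L} (hd : ∀ y, tr (y * y * d) = 0) : d = 0 := by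
  apply hnd
  intro x
  by_cases h2 : (2 : F) = 0
  · have h2L : (2 : L) = 0 := by
      have := congrArg (algebraMap F L) h2
      rwa [map_ofNat, map_zero] at this
    haveI : CharP L 2 := CharTwo.of_one_ne_zero_of_two_eq_zero one_ne_zero h2L
    obtain ⟨w, rfl⟩ := FiniteField.isSquare_of_char_two (ringChar.eq L 2) x
    exact hd w
  · have h1 := hd (x + 1)
    have h3 := hd x
    have h4 := hd 1
    have h5 : (x + 1) * (x + 1) * d = x * x * d + (2 : F) • (x * d) + 1 * 1 * d := by
      rw [two_smul]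
      ring
    rw [h5, map_add, map_add, h3, h4, map_smul, smul_eq_mul, add_zero, zero_add] at h1
    exact (mul_eq_zero.mp h1).resolve_left h2

/-- The transferred data. -/
structure TD (tr : L →ₗ[F] F) (Q : V → F) (qk : V → L) (bk : V → V → L) : Prop where
  nd : ∀ e, (∀ x, tr (x * e) = 0) → e = 0
  inv : ∀ (τ : L ≃ₐ[F] L) (x : L), tr (τ x) = tr x
  q : ∀ y v, tr (y * y * qk v) = Q (y • v)
  b : ∀ y u v, tr (y * bk u v) = polar Q (y • u) v

theorem exists_TD (h : QD L Q) : ∃ (tr : L →ₗ[F] F) (qk : V → L) (bk : V → V → L), TD tr Q qk bk := by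
  classical
  obtain ⟨tr, h1, h2, h3, h4⟩ := exists_tr (F := F) (L := L)
  choose qk hq using exists_a (V := V) h h3 h4
  choose bk hb using exists_b (V := V) h h4
  exact ⟨tr, qk, bk, h1, h2, fun y v => hq v y, fun y u v => hb u v y⟩

variable {tr : L →ₗ[F] F} {qk : V → L} {bk : V → V → L}

theorem TD.eq_of_sq (D : TD tr Q qk bk) {d d' : L} (h : ∀ y, tr (y * y * d) = tr (y * y * d')) : d = d' := by
  apply sub_eq_zero.mp
  apply eq_zero_of_sq D.nd
  intro y
  rw [mul_sub, map_sub, h y, sub_self]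

theorem TD.eq_of_tr (D : TD tr Q qk bk) {d d' : L} (h : ∀ y, tr (y * d) = tr (y * d')) : d = d' := by
  apply sub_eq_zero.mp
  apply D.nd
  intro y
  rw [mul_sub, map_sub, h y, sub_self]

theorem TD.polar_eq (D : TD tr Q qk bk) (u v : V) : polar Q u v = tr (bk u v) := by
  have := D.b 1 u v
  rw [one_mul, one_smul] at this
  exact this.symm

theorem TD.Q_eq (D : TD tr Q qk bk) (v : V) : Q v = tr (qk v) := by
  have := D.q 1 v
  rw [one_mul, one_mul, one_smul] at this
  exact this.symm

theorem TD.bk_smul_left (D : TD tr Q qk bk) (x : L) (u v : V) : bk (x • u) v = x * bk u v := by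
  apply D.eq_of_tr
  intro y
  rw [D.b, ← mul_assoc, D.b, mul_smul]

theorem TD.bk_add_left (h : QD L Q) (D : TD tr Q qk bk) (u u' v : V) : bk (u + u') v = bk u v + bk u' v := by
  apply D.eq_of_tr
  intro y
  rw [D.b, smul_add, h.add_left, mul_add, map_add, D.b, D.b]

theorem TD.bk_comm (h : QD L Q) (D : TD tr Q qk bk) (u v : V) : bk u v = bk v u := by
  apply D.eq_of_tr
  intro y
  rw [D.b, D.b, h.self, polar_comm]

theorem TD.bk_smul_right (h : QD L Q) (D : TD tr Q qk bk) (x : L) (u v : V) : bk u (x • v) = x * bk u v := by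
  rw [D.bk_comm h, D.bk_smul_left, D.bk_comm h]

theorem TD.bk_add_right (h : QD L Q) (D : TD tr Q qk bk) (u v v' : V) : bk u (v + v') = bk u v + bk u v' := by
  rw [D.bk_comm h, D.bk_add_left h, D.bk_comm h v, D.bk_comm h v']

theorem TD.qk_smul (D : TD tr Q qk bk) (x : L) (v : V) : qk (x • v) = x * x * qk v := by
  apply D.eq_of_sq
  intro y
  rw [D.q, ← mul_smul, ← D.q]
  congr 1
  ring

theorem TD.qk_add (h : QD L Q) (D : TD tr Q qk bk) (u v : V) : qk (u + v) = qk u + qk v + bk u v := by
  apply D.eq_of_sq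
  intro y
  rw [D.q, smul_add, h.Q_add, ← h.self, ← mul_smul, ← D.b, ← D.q, ← D.q, mul_add, mul_add, map_add, map_add]

theorem TD.bk_self (h : QD L Q) (D : TD tr Q qk bk) (v : V) : bk v v = 2 * qk v := by
  apply D.eq_of_tr
  intro y
  rw [D.b]
  have h1 : polar Q (y • v) v = Q ((y + 1) • v) - Q (y • v) - Q ((1 : L) • v) := by
    rw [add_smul, one_smul, polar]
  rw [h1, ← D.q, ← D.q, ← D.q, ← map_sub, ← map_sub]
  congr 1
  ring

theorem TD.bk_ne (h : QD L Q) (D : TD tr Q qk bk) {u : V} (hu : u ≠ 0) : ∃ v, bk u v ≠ 0 := by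
  by_contra hcon
  push Not at hcon
  apply hu
  apply h.nondeg
  intro v
  rw [D.polar_eq, hcon, map_zero]

/-- A semilinear isometry. -/
structure SI (Q : V → F) (τ : L ≃ₐ[F] L) (g : V → V) : Prop where
  add : ∀ u v, g (u + v) = g u + g v
  smul : ∀ (y : L) v, g (y • v) = τ y • g v
  iso : ∀ v, Q (g v) = Q v

theorem TD.qk_si (D : TD tr Q qk bk) {τ : L ≃ₐ[F] L} {g : V → V} (hg : SI Q τ g) (v : V) : qk (g v) = τ (qk v) := by
  apply D.eq_of_sq
  intro y
  obtain ⟨y', rfl⟩ := τ.surjective y
  rw [D.q, ← hg.smul, hg.iso, ← D.q, ← map_mul τ, ← map_mul τ, D.inv]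

theorem TD.bk_si (D : TD tr Q qk bk) {τ : L ≃ₐ[F] L} {g : V → V} (hg : SI Q τ g) (u v : V) : bk (g u) (g v) = τ (bk u v) := by
  apply D.eq_of_tr
  intro y
  obtain ⟨y', rfl⟩ := τ.surjective y
  have hpol : ∀ a b, polar Q (g a) (g b) = polar Q a b := by
    intro a b
    rw [polar, polar, ← hg.add, hg.iso, hg.iso, hg.iso]
  rw [D.b, ← hg.smul, hpol, ← D.b, ← map_mul τ, D.inv]

section Two

variable (hV : finrank L V = 2)

/-- **The structure of a two-dimensional space over the extension field.** -/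
theorem two_cases [Finite V] (h : QD L Q) (D : TD tr Q qk bk) (hV : finrank L V = 2) :
    (∃ e f : V, LinearIndependent L ![e, f] ∧ (∀ y : L, Q (y • e) = 0) ∧ (∀ y : L, Q (y • f) = 0) ∧
      ∀ (τ : L ≃ₐ[F] L) (g : V → V), SI Q τ g → (∃ y z : L, g e = y • e ∧ g f = z • f) ∨ (∃ y z : L, g e = y • f ∧ g f = z • e)) ∨
    (∃ (J : V →ₗ[L] V) (b c : L), (∀ v, J (J v) = b • J v - c • v) ∧ (∀ t : L, t * t ≠ b * t - c) ∧
      (∀ u v, polar Q (J u) v + polar Q u (J v) = polar Q (b • u) v) ∧
      ∀ (τ : L ≃ₐ[F] L) (g : V → V), SI Q τ g → ∃ l κ : L, ∀ v, g (J v) = l • J (g v) + κ • g v) := by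
  classical
  haveI : Module.Finite L V := Module.Finite.of_finite
  have hq0 : qk 0 = 0 := by
    have := D.qk_smul 0 (0 : V)
    simpa using this
  let bas : Basis (Fin 2) L V := Module.finBasisOfFinrankEq L V hV
  have hrep : ∀ w : V, ∃ x z : L, w = x • bas 0 + z • bas 1 := by
    intro w
    refine ⟨bas.repr w 0, bas.repr w 1, ?_⟩
    conv_lhs => rw [← bas.sum_repr w]
    rw [Fin.sum_univ_two]
  by_cases hs : ∃ v : V, v ≠ 0 ∧ qk v = 0
  · left
    obtain ⟨e, he0, hqe⟩ := hs
    obtain ⟨w, hw⟩ := D.bk_ne h he0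
    obtain ⟨f₀, hef₀⟩ : ∃ f₀, bk e f₀ = 1 := ⟨(bk e w)⁻¹ • w, by
      rw [D.bk_smul_right h, inv_mul_cancel₀ hw]⟩
    have hee : bk e e = 0 := by
      rw [D.bk_self h, hqe, mul_zero]
    obtain ⟨f, hef, hqf⟩ : ∃ f, bk e f = 1 ∧ qk f = 0 := ⟨f₀ + (-(qk f₀)) • e, by
      rw [D.bk_add_right h, D.bk_smul_right h, hee, hef₀]
      ring, by
      rw [D.qk_add h, D.qk_smul, hqe, D.bk_smul_right h, D.bk_comm h f₀ e, hef₀]
      ring⟩
    have hfe : bk f e = 1 := by rw [D.bk_comm h, hef]
    have hli : LinearIndependent L ![e, f] := by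
      rw [LinearIndependent.pair_iff]
      intro s t hst
      have h1 := congrArg (fun x => bk x e) hst
      simp only [D.bk_add_left h, D.bk_smul_left, hee, hfe, mul_zero, zero_add, mul_one] at h1
      have hz : bk 0 e = 0 := by
        have := D.bk_smul_left 0 (0 : V) e
        simpa using this
      rw [hz] at h1
      subst h1
      rw [zero_smul, add_zero] at hst
      exact ⟨(smul_eq_zero.mp hst).resolve_right he0, rfl⟩
    have hspan := hli.span_eq_top_of_card_eq_finrank' (by simp [hV])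
    have hrep2 : ∀ w : V, ∃ x z : L, w = x • e + z • f := by
      intro w
      have hw' : w ∈ Submodule.span L (Set.range ![e, f]) := by
        rw [hspan]
        trivial
      obtain ⟨c, hc⟩ := (Submodule.mem_span_range_iff_exists_fun L).mp hw'
      refine ⟨c 0, c 1, ?_⟩
      rw [← hc, Fin.sum_univ_two]
      rfl
    have hqq : ∀ x z : L, qk (x • e + z • f) = x * z := by
      intro x z
      rw [D.qk_add h, D.qk_smul, D.qk_smul, hqe, hqf, D.bk_smul_left, D.bk_smul_right h, hef]
      ring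
    have hQe : ∀ y : L, Q (y • e) = 0 := fun y => by
      rw [← D.q, hqe, mul_zero, map_zero]
    have hQf : ∀ y : L, Q (y • f) = 0 := fun y => by
      rw [← D.q, hqf, mul_zero, map_zero]
    refine ⟨e, f, hli, hQe, hQf, fun τ g hg => ?_⟩
    obtain ⟨x, z, hge⟩ := hrep2 (g e)
    obtain ⟨x', z', hgf⟩ := hrep2 (g f)
    have h1 : x * z = 0 := by
      rw [← hqq, ← hge, D.qk_si hg, hqe, map_zero]
    have h3 : x' * z' = 0 := by
      rw [← hqq, ← hgf, D.qk_si hg, hqf, map_zero]
    have h4 : x * z' + z * x' = 1 := by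
      have h5 := D.bk_si hg e f
      rw [hef, map_one, hge, hgf] at h5
      simp only [D.bk_add_left h, D.bk_add_right h, D.bk_smul_left, D.bk_smul_right h, hee, hef, hfe] at h5
      have h6 : bk f f = 0 := by rw [D.bk_self h, hqf, mul_zero]
      rw [h6] at h5
      linear_combination h5
    rcases mul_eq_zero.mp h1 with h5 | h5
    · right
      subst h5
      have hx' : x' ≠ 0 := by
        rintro rfl
        simp at h4
      have hz' : z' = 0 := (mul_eq_zero.mp h3).resolve_left hx'
      refine ⟨z, x', ?_, ?_⟩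
      · rw [hge, zero_smul, zero_add]
      · rw [hgf, hz', zero_smul, add_zero]
    · left
      subst h5
      have hz' : z' ≠ 0 := by
        rintro rfl
        simp at h4
      have hx' : x' = 0 := (mul_eq_zero.mp h3).resolve_right hz'
      refine ⟨x, z', ?_, ?_⟩
      · rw [hge, zero_smul, add_zero]
      · rw [hgf, hx', zero_smul, zero_add]
  · right
    push Not at hs
    set v₀ := bas 0 with hv₀
    set v₁ := bas 1 with hv₁
    have hv₀0 : v₀ ≠ 0 := bas.ne_zero 0
    set a := qk v₀ with ha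
    set b := bk v₀ v₁ with hb
    set c := qk v₁ with hc
    have ha0 : a ≠ 0 := hs v₀ hv₀0
    let J : V →ₗ[L] V := bas.constr L ![b • v₀ + (-a) • v₁, c • v₀]
    have hJ0 : J v₀ = b • v₀ + (-a) • v₁ := by
      simp [J, hv₀, Basis.constr_basis]
    have hJ1 : J v₁ = c • v₀ := by
      simp [J, hv₁, Basis.constr_basis]
    have hb00 : bk v₀ v₀ = 2 * a := D.bk_self h _
    have hb11 : bk v₁ v₁ = 2 * c := D.bk_self h _
    have hb10 : bk v₁ v₀ = b := D.bk_comm h _ _
    refine ⟨J, b, a * c, ?_, ?_, ?_, ?_⟩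
    · intro v
      obtain ⟨x, z, rfl⟩ := hrep v
      simp only [map_add, map_smul, hJ0, hJ1]
      module
    · intro t ht
      have hne : (-(t / a)) • v₀ + v₁ ≠ 0 := by
        intro h0
        have hli := Fintype.linearIndependent_iff.mp bas.linearIndependent ![-(t / a), 1] (by
          rw [Fin.sum_univ_two]
          simpa [hv₀, hv₁] using h0) 1
        simp at hli
      apply hs _ hne
      rw [D.qk_add h, D.qk_smul, D.bk_smul_left, ← ha, ← hb, ← hc]
      field_simp
      linear_combination ht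
    · intro u v
      obtain ⟨x, z, rfl⟩ := hrep u
      obtain ⟨x', z', rfl⟩ := hrep v
      rw [D.polar_eq, D.polar_eq, D.polar_eq, ← map_add]
      congr 1
      simp only [map_add, map_smul, hJ0, hJ1, D.bk_add_left h, D.bk_add_right h, D.bk_smul_left, D.bk_smul_right h, hb00, hb11, hb10, ← hb, smul_add, add_smul]
      ring
    · intro τ g hg
      obtain ⟨p, s, hg0⟩ := hrep (g v₀)
      obtain ⟨r, t, hg1⟩ := hrep (g v₁)
      have ha' : τ a = a * (p * p) + b * (p * s) + c * (s * s) := by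
        rw [ha, ← D.qk_si hg, hg0, D.qk_add h, D.qk_smul, D.qk_smul, D.bk_smul_left, D.bk_smul_right h]
        ring
      have hc' : τ c = a * (r * r) + b * (r * t) + c * (t * t) := by
        rw [hc, ← D.qk_si hg, hg1, D.qk_add h, D.qk_smul, D.qk_smul, D.bk_smul_left, D.bk_smul_right h]
        ring
      have hb' : τ b = 2 * a * (p * r) + b * (p * t + r * s) + 2 * c * (s * t) := by
        rw [hb, ← D.bk_si hg, hg0, hg1]
        simp only [D.bk_add_left h, D.bk_add_right h, D.bk_smul_left, D.bk_smul_right h, hb00, hb11, hb10, ← hb]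
        ring
      have hneg : ∀ x : L, τ (-x) = -τ x := fun x => map_neg τ x
      refine ⟨p * t - r * s, a * p * r + b * r * s + c * s * t, fun v => ?_⟩
      obtain ⟨x, z, rfl⟩ := hrep v
      have e0 : g (J v₀) = (p * t - r * s) • J (g v₀) + (a * p * r + b * r * s + c * s * t) • g v₀ := by
        rw [hJ0, hg.add, hg.smul, hg.smul, hneg, ha', hb', hg0, hg1]
        simp only [map_add, map_smul, hJ0, hJ1]
        module
      have e1 : g (J v₁) = (p * t - r * s) • J (g v₁) + (a * p * r + b * r * s + c * s * t) • g v₁ := by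
        rw [hJ1, hg.smul, hc', hg0, hg1]
        simp only [map_add, map_smul, hJ0, hJ1]
        module
      rw [map_add, map_smul, map_smul, hg.add, hg.add, hg.smul, hg.smul, hg.smul, hg.smul, e0, e1]
      simp only [map_add, map_smul]
      module

end Two

end Abs

section Sub

variable {F E : Type*} [Field F] [Fintype F] [Field E] [Algebra F E] [Finite E]

open Polynomial in
/-- Counting roots of `X ^ d - X`. -/
theorem mem_of_root_count {d : ℕ} (hd : 2 ≤ d) (s : Finset E) (hs : ∀ y ∈ s, y ^ d = y) (hcard : s.card = d) {x : E} (hx : x ^ d = x) : x ∈ s := by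
  classical
  by_contra hno
  have hdeg : (X ^ d - X : E[X]).natDegree = d := by
    rw [natDegree_sub_eq_left_of_natDegree_lt]
    · exact natDegree_X_pow d
    · rw [natDegree_X_pow, natDegree_X]
      omega
  have h0 : (X ^ d - X : E[X]) = 0 := by
    apply Polynomial.eq_zero_of_natDegree_lt_card_of_eval_eq_zero' _ (insert x s)
    · intro y hy
      rcases Finset.mem_insert.mp hy with rfl | hy
      · simp [hx]
      · simp [hs y hy]
    · rw [Finset.card_insert_of_notMem hno, hcard, hdeg]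
      omega
  have h1 := congrArg natDegree h0
  rw [hdeg, natDegree_zero] at h1
  omega

/-- The elements fixed by the `q`-th power are the scalars. -/
theorem scalar_of_fixed {x : E} (hx : x ^ Fintype.card F = x) : ∃ c : F, x = algebraMap F E c := by
  classical
  have hq := Fintype.one_lt_card (α := F)
  have hinj := (algebraMap F E).injective
  have h1 := mem_of_root_count (E := E) (d := Fintype.card F) (by omega) (Finset.univ.image (algebraMap F E)) (by
    intro y hy
    obtain ⟨c, -, rfl⟩ := Finset.mem_image.mp hy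
    rw [← map_pow, FiniteField.pow_card]) (by
    rw [Finset.card_image_of_injective _ hinj, Finset.card_univ]) hx
  obtain ⟨c, -, hc⟩ := Finset.mem_image.mp h1
  exact ⟨c, hc.symm⟩

/-- The subfield of degree two in a finite field of degree `2 r`. -/
theorem exists_quad_sub {r : ℕ} (hr : 0 < r) (hE : finrank F E = 2 * r) :
    ∃ (ζ : E) (β₀ γ₀ : F), ζ ^ (Fintype.card F ^ 2) = ζ ∧ ζ ^ Fintype.card F ≠ ζ ∧ ζ * ζ = β₀ • ζ + γ₀ • 1 ∧ (∀ t : F, t * t ≠ β₀ * t + γ₀) ∧
      ∀ x : E, x ^ (Fintype.card F ^ 2) = x → ∃ α β : F, x = α • 1 + β • ζ := by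
  classical
  letI : Fintype E := Fintype.ofFinite E
  set q := Fintype.card F with hq
  have hq1 : 1 < q := Fintype.one_lt_card
  have hcardE : Fintype.card E = q ^ (2 * r) := by
    rw [Module.card_eq_pow_finrank (K := F) (V := E), hE]
  obtain ⟨p, hpc⟩ := CharP.exists F
  obtain ⟨e, hp, hqp⟩ := FiniteField.card F p
  haveI : Fact p.Prime := ⟨hp⟩
  haveI : CharP E p := charP_of_injective_algebraMap (algebraMap F E).injective p
  have hadd : ∀ x y : E, (x + y) ^ q = x ^ q + y ^ q := by
    intro x y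
    rw [hq, hqp]
    exact add_pow_char_pow x y p e
  -- a generator of the units
  obtain ⟨u, hu⟩ := IsCyclic.exists_generator (α := Eˣ)
  have hMcard : Fintype.card Eˣ = q ^ (2 * r) - 1 := by
    rw [Fintype.card_units, hcardE]
  have hord : orderOf u = q ^ (2 * r) - 1 := by
    rw [← hMcard]
    rw [← Nat.card_eq_fintype_card]
    exact orderOf_eq_card_of_forall_mem_zpowers hu
  have hd : q ^ 2 - 1 ∣ q ^ (2 * r) - 1 := by
    have := Nat.sub_dvd_pow_sub_pow (q ^ 2) 1 r
    rwa [one_pow, ← pow_mul] at this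
  have hdpos : 0 < q ^ 2 - 1 := by
    have : 1 < q ^ 2 := Nat.one_lt_pow (by norm_num) hq1
    omega
  have hMpos : 0 < q ^ (2 * r) - 1 := by
    have : 1 < q ^ (2 * r) := Nat.one_lt_pow (by omega) hq1
    omega
  obtain ⟨m, hm⟩ := hd
  have hm0 : m ≠ 0 := by
    rintro rfl
    omega
  set w := u ^ m with hw
  have hordw : orderOf w = q ^ 2 - 1 := by
    rw [hw, orderOf_pow_of_dvd hm0 (by rw [hord, hm]; exact Dvd.intro_left _ rfl), hord, hm]
    exact Nat.mul_div_cancel _ (Nat.pos_of_ne_zero hm0)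
  have hw1 : w ^ (q ^ 2 - 1) = 1 := by
    rw [← hordw]
    exact pow_orderOf_eq_one w
  set ζ : E := (w : E) with hζ
  have hζq2 : ζ ^ (q ^ 2) = ζ := by
    have h1 : q ^ 2 = (q ^ 2 - 1) + 1 := by omega
    rw [hζ, h1, pow_succ, ← Units.val_pow_eq_pow_val, hw1]
    simp
  have hζq : ζ ^ q ≠ ζ := by
    intro h
    have h1 : w ^ (q - 1) = 1 := by
      have h3 : (w ^ q : Eˣ) = w := Units.ext (by
        rw [Units.val_pow_eq_pow_val]
        exact h)
      have h4 : q = (q - 1) + 1 := by omega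
      rw [h4, pow_succ] at h3
      exact mul_eq_right.mp h3
    have h3 := orderOf_dvd_of_pow_eq_one h1
    rw [hordw] at h3
    have h4 := Nat.le_of_dvd (by omega) h3
    have h5 : q ^ 2 = q * q := pow_two q
    have h6 : 2 * q ≤ q * q := Nat.mul_le_mul_right q hq1
    omega
  have hζ0 : ζ ≠ 0 := w.ne_zero
  have hqq : ∀ x : E, (x ^ q) ^ q = x ^ (q ^ 2) := fun x => by
    rw [← pow_mul, pow_two]
  obtain ⟨b, hb⟩ := scalar_of_fixed (F := F) (E := E) (x := ζ + ζ ^ q) (by
    rw [← hq, hadd, hqq, hζq2, add_comm])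
  obtain ⟨g, hg⟩ := scalar_of_fixed (F := F) (E := E) (x := ζ * ζ ^ q) (by
    rw [← hq, mul_pow, hqq, hζq2, mul_comm])
  have hscal : ∀ c : F, ζ ≠ algebraMap F E c := by
    intro c hc
    apply hζq
    rw [hc, ← map_pow, hq, FiniteField.pow_card]
  refine ⟨ζ, b, -g, hζq2, hζq, ?_, ?_, ?_⟩
  · rw [Algebra.smul_def, Algebra.smul_def, ← hb, map_neg, ← hg]
    ring
  · intro t ht
    have h1 : (algebraMap F E t - ζ) * (algebraMap F E t - ζ ^ q) = 0 := by
      have h3 := congrArg (algebraMap F E) ht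
      simp only [map_mul, map_add, map_neg, ← hb, ← hg] at h3
      linear_combination h3
    rcases mul_eq_zero.mp h1 with h3 | h3
    · exact hscal t (sub_eq_zero.mp h3).symm
    · have h4 : ζ ^ q = algebraMap F E t := (sub_eq_zero.mp h3).symm
      apply hscal t
      have h5 := congrArg (fun x => x ^ q) h4
      simp only [hqq, hζq2] at h5
      rw [h5, ← map_pow, hq, FiniteField.pow_card]
  · intro x hx
    -- the algebra generated by ζ
    let φ : F × F → E := fun a => a.1 • 1 + a.2 • ζ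
    have hφinj : Function.Injective φ := by
      rintro ⟨a, c⟩ ⟨a', c'⟩ h
      simp only [φ] at h
      have h1 : (c - c') • ζ = (a' - a) • (1 : E) := by
        simp only [sub_smul]
        linear_combination h
      have hcc : c = c' := by
        by_contra hne
        have hne' : c - c' ≠ 0 := sub_ne_zero.mpr hne
        apply hscal ((c - c')⁻¹ * (a' - a))
        rw [Algebra.algebraMap_eq_smul_one, mul_smul, ← h1, smul_smul, inv_mul_cancel₀ hne', one_smul]
      subst hcc
      have h3 : (a' - a) • (1 : E) = 0 := by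
        rw [← h1, sub_self, zero_smul]
      have h4 : a' - a = 0 := (smul_eq_zero.mp h3).resolve_right one_ne_zero
      have h5 : a = a' := (sub_eq_zero.mp h4).symm
      rw [h5]
    have hall : ∀ a : F × F, (φ a) ^ (q ^ 2) = φ a := by
      rintro ⟨a, c⟩
      have hadd2 : ∀ x y : E, (x + y) ^ (q ^ 2) = x ^ (q ^ 2) + y ^ (q ^ 2) := by
        intro x y
        rw [pow_two, pow_mul, hadd, hadd, pow_mul, pow_mul]
      have hF : ∀ z : F, z ^ (q ^ 2) = z := by
        intro z
        rw [pow_two, pow_mul, hq, FiniteField.pow_card, FiniteField.pow_card]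
      simp only [φ]
      rw [hadd2, smul_pow, smul_pow, hF, hF, hζq2, one_pow]
    have hmem := mem_of_root_count (E := E) (d := q ^ 2) (by nlinarith) (Finset.univ.image φ) (by
      intro y hy
      obtain ⟨a, -, rfl⟩ := Finset.mem_image.mp hy
      exact hall a) (by
      rw [Finset.card_image_of_injective _ hφinj, Finset.card_univ, Fintype.card_prod, pow_two]) hx
    obtain ⟨a, -, ha⟩ := Finset.mem_image.mp hmem
    exact ⟨a.1, a.2, ha.symm⟩

end Sub

section Ext

open Cfsg Cfsg.Geo
open scoped MatrixGroups Matrix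
open Cfsg.Agent.Lib.Classical.Asch.Basic Cfsg.Agent.Lib.Classical.Asch.Adj
open Cfsg.Agent.Lib.Classical.Asch.FormField

variable {ι : Type} [Fintype ι] [DecidableEq ι] {F : Type*} [Field F] [Fintype F] {K : Subalgebra F (Matrix ι ι F)}

theorem ext_mul {J : Matrix ι ι F} {b c : ↥K} (hcomm : ∀ k : ↥K, J * k.1 = k.1 * J) (hJ : J * J = b.1 * J - c.1) (y z y' z' : ↥K) :
    (y.1 + z.1 * J) * (y'.1 + z'.1 * J) = (y * y' - z * z' * c).1 + (y * z' + z * y' + z * z' * b).1 * J := by
  have h1 : z.1 * J * y'.1 = z.1 * y'.1 * J := by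
    rw [mul_assoc, hcomm, mul_assoc]
  have h3 : z.1 * J * (z'.1 * J) = z.1 * z'.1 * b.1 * J - z.1 * z'.1 * c.1 := by
    calc z.1 * J * (z'.1 * J) = z.1 * (J * z'.1) * J := by simp only [mul_assoc]
      _ = z.1 * z'.1 * (J * J) := by rw [hcomm]; simp only [mul_assoc]
      _ = _ := by rw [hJ]; noncomm_ring
  simp only [Subalgebra.coe_sub, Subalgebra.coe_add, Subalgebra.coe_mul, add_mul, mul_add]
  rw [h1, h3]
  noncomm_ring

/-- The algebra `K + K J`. -/
def extAlg (K : Subalgebra F (Matrix ι ι F)) (J : Matrix ι ι F) (b c : ↥K) (hcomm : ∀ k : ↥K, J * k.1 = k.1 * J) (hJ : J * J = b.1 * J - c.1) :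
    Subalgebra F (Matrix ι ι F) where
  carrier := {x | ∃ y z : ↥K, x = y.1 + z.1 * J}
  mul_mem' := by
    rintro _ _ ⟨y, z, rfl⟩ ⟨y', z', rfl⟩
    exact ⟨_, _, ext_mul hcomm hJ y z y' z'⟩
  add_mem' := by
    rintro _ _ ⟨y, z, rfl⟩ ⟨y', z', rfl⟩
    refine ⟨y + y', z + z', ?_⟩
    simp only [Subalgebra.coe_add, add_mul]
    abel
  algebraMap_mem' := fun c => ⟨algebraMap F ↥K c, 0, by simp⟩

theorem mem_extAlg {J : Matrix ι ι F} {b c : ↥K} {hcomm : ∀ k : ↥K, J * k.1 = k.1 * J} {hJ : J * J = b.1 * J - c.1} {x : Matrix ι ι F} :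
    x ∈ extAlg K J b c hcomm hJ ↔ ∃ y z : ↥K, x = y.1 + z.1 * J := Iff.rfl

/-- The algebra `K + K J` is a field. -/
theorem extAlg_field [Nonempty ι] {r : ℕ} (hK : IsFieldSubalgebra r K) {J : Matrix ι ι F} {b c : ↥K} (hcomm : ∀ k : ↥K, J * k.1 = k.1 * J)
    (hJ : J * J = b.1 * J - c.1) (hroot : ∀ t : ↥K, t * t ≠ b * t - c) : IsFieldSubalgebra (2 * r) (extAlg K J b c hcomm hJ) := by
  classical
  letI instF : Field ↥K := (isField_of hK).toField
  letI instA : Algebra F ↥K := K.algebra
  have hnorm : ∀ y z : ↥K, (y ≠ 0 ∨ z ≠ 0) → y * y + y * z * b + z * z * c ≠ 0 := by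
    intro y z hyz h0
    by_cases hz : z = 0
    · subst hz
      have hy : y ≠ 0 := by simpa using hyz
      apply hy
      have h1 : y * y = 0 := by linear_combination h0
      exact mul_self_eq_zero.mp h1
    · apply hroot (-y / z)
      field_simp
      linear_combination h0
  have hJK : ∀ t : ↥K, J ≠ t.1 := by
    rintro t rfl
    apply hroot t
    apply Subtype.ext
    simp only [Subalgebra.coe_sub, Subalgebra.coe_mul]
    exact hJ
  have hinj : ∀ y z : ↥K, y.1 + z.1 * J = 0 → y = 0 ∧ z = 0 := by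
    intro y z h
    have hz : z = 0 := by
      by_contra hz
      apply hJK (-(y / z))
      have h1 : (z⁻¹ * z : ↥K) = 1 := inv_mul_cancel₀ hz
      have h3 : J = (z⁻¹ : ↥K).1 * (z.1 * J) := by
        rw [← mul_assoc]
        change J = ((z⁻¹ * z : ↥K) : Matrix ι ι F) * J
        rw [h1]
        simp
      have h4 : z.1 * J = -y.1 := eq_neg_of_add_eq_zero_right h
      rw [h3, h4]
      have h5 : -(y / z) = z⁻¹ * (-y) := by field_simp
      rw [h5]
      simp
    subst hz
    refine ⟨?_, rfl⟩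
    apply Subtype.ext
    simpa using h
  refine ⟨?_, ?_, ?_⟩
  · rintro _ ⟨y, z, rfl⟩ _ ⟨y', z', rfl⟩
    rw [ext_mul hcomm hJ, ext_mul hcomm hJ]
    have h1 : y * y' - z * z' * c = y' * y - z' * z * c := by ring
    have h3 : y * z' + z * y' + z * z' * b = y' * z + z' * y + z' * z * b := by ring
    rw [h1, h3]
  · rintro _ ⟨y, z, rfl⟩ hx
    have hyz : y ≠ 0 ∨ z ≠ 0 := by
      by_contra hcon
      push Not at hcon
      apply hx
      rw [hcon.1, hcon.2]
      simp
    have hn := hnorm y z hyz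
    set N := y * y + y * z * b + z * z * c with hN
    refine ⟨(N⁻¹ * (y + z * b)).1 + (N⁻¹ * (-z)).1 * J, ⟨_, _, rfl⟩, ?_⟩
    rw [ext_mul hcomm hJ]
    have h1 : y * (N⁻¹ * (y + z * b)) - z * (N⁻¹ * -z) * c = 1 := by
      have h5 : y * (N⁻¹ * (y + z * b)) - z * (N⁻¹ * -z) * c = N⁻¹ * N := by
        rw [hN]
        ring
      rw [h5, inv_mul_cancel₀ hn]
    have h3 : y * (N⁻¹ * -z) + z * (N⁻¹ * (y + z * b)) + z * (N⁻¹ * -z) * b = 0 := by ring
    rw [h1, h3]
    simp
  · let φ : (↥K × ↥K) →ₗ[F] Matrix ι ι F :=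
      { toFun := fun a => a.1.1 + a.2.1 * J
        map_add' := fun a a' => by
          simp only [Prod.fst_add, Prod.snd_add, Subalgebra.coe_add, add_mul]
          abel
        map_smul' := fun t a => by
          simp only [Prod.smul_fst, Prod.smul_snd, Subalgebra.coe_smul, RingHom.id_apply, smul_add, smul_mul_assoc] }
    have hφ : Function.Injective φ := by
      rw [injective_iff_map_eq_zero]
      rintro ⟨y, z⟩ h
      obtain ⟨h1, h3⟩ := hinj y z h
      rw [h1, h3]
      rfl
    have hrange : LinearMap.range φ = Subalgebra.toSubmodule (extAlg K J b c hcomm hJ) := by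
      ext x
      constructor
      · rintro ⟨⟨y, z⟩, rfl⟩
        exact ⟨y, z, rfl⟩
      · rintro ⟨y, z, rfl⟩
        exact ⟨⟨y, z⟩, rfl⟩
    have h1 := LinearMap.finrank_range_of_inj hφ
    rw [hrange, Subalgebra.finrank_toSubmodule, Module.finrank_prod] at h1
    have h3 : finrank F ↥K = r := hK.finrank_eq
    rw [h1, h3]
    omega

variable {Q : (ι → F) → F} {H : Subgroup (GL ι F)}

/-- **The quadratic subfield of a field of degree `2 r`** is normalised and closed under the adjoint. -/
theorem exists_two_sub [Nonempty ι] (hQ : IsNondegenerateQuadraticForm Q) {r : ℕ} (hr : 0 < r) {L' : Subalgebra F (Matrix ι ι F)} (hL : IsFieldSubalgebra (2 * r) L')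
    (hA : AdjClosed (RingEquiv.refl F) (polar Q) L') (hH : H ≤ subalgebraNormalizer L') :
    ∃ K' : Subalgebra F (Matrix ι ι F), IsFieldSubalgebra 2 K' ∧ AdjClosed (RingEquiv.refl F) (polar Q) K' ∧ H ≤ subalgebraNormalizer K' ∧
      (∀ x ∈ K', x ∈ L') ∧ ∃ ω ∈ K', ω ^ (Fintype.card F ^ 2) = ω ∧ ω ^ Fintype.card F ≠ ω ∧ ∀ k ∈ K', ∃ a c : F, k = a • (1 : Matrix ι ι F) + c • ω := by
  classical
  have hf := reflForm_polar hQ
  letI instF : Field ↥L' := (isField_of hL).toField
  letI instA : Algebra F ↥L' := L'.algebra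
  obtain ⟨ζ, β₀, γ₀, h1, h3, h4, h5, h6⟩ := exists_quad_sub (F := F) (E := ↥L') hr hL.finrank_eq
  set N : Matrix ι ι F := ζ.1 with hNd
  have hNL : N ∈ L' := ζ.2
  have hN : N * N = β₀ • N + γ₀ • 1 := by
    have := congrArg Subtype.val h4
    exact this
  have hroot : ∀ t : F, t * t ≠ β₀ * t + γ₀ := h5
  have hpow : ∀ (x : ↥L') (n : ℕ), ((x ^ n : ↥L') : Matrix ι ι F) = x.1 ^ n := fun x n => rfl
  have hN2 : N ^ (Fintype.card F ^ 2) = N := by
    have := congrArg Subtype.val h1
    exact this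
  have hNq : N ^ Fintype.card F ≠ N := fun h => h3 (Subtype.ext h)
  have hkey : ∀ x ∈ L', x ^ (Fintype.card F ^ 2) = x → ∃ α β : F, x = α • (1 : Matrix ι ι F) + β • N := by
    intro x hx hxq
    obtain ⟨α, β, hab⟩ := h6 ⟨x, hx⟩ (Subtype.ext hxq)
    exact ⟨α, β, congrArg Subtype.val hab⟩
  have hKf := OField.quadAlg_field N hN hroot
  have hscal : ∀ c : F, N ≠ c • 1 := by
    intro c hc
    apply hroot c
    rw [hc] at hN
    simp only [smul_mul_assoc, mul_smul_comm, mul_one, smul_smul, ← add_smul] at hN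
    have h10 : (1 : Matrix ι ι F) ≠ 0 := one_ne_zero
    by_contra hne
    have h7 : (c * c - (β₀ * c + γ₀)) • (1 : Matrix ι ι F) = 0 := by
      rw [sub_smul, hN, sub_self]
    rcases smul_eq_zero.mp h7 with h8 | h8
    · exact hne (sub_eq_zero.mp h8)
    · exact h10 h8
  refine ⟨OField.quadAlg N hN, hKf, ?_, ?_, ?_, N, ⟨0, 1, by simp⟩, hN2, hNq, fun k hk => hk⟩
  · rintro _ ⟨a, c, rfl⟩
    obtain ⟨α, β, hab⟩ := hkey _ (hA N hNL) (by rw [← hf.adj_pow, hN2])
    refine ⟨a + c * α, c * β, ?_⟩
    rw [hf.adj_add, hf.adj_smul, hf.adj_smul, hf.adj_one, hab]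
    simp only [RingEquiv.refl_apply, smul_add, smul_smul, add_smul]
    abel
  · intro g hg
    set G : Matrix ι ι F := (g : Matrix ι ι F) with hG
    set I : Matrix ι ι F := ((g⁻¹ : GL ι F) : Matrix ι ι F) with hI
    have hGI : G * I = 1 := by
      rw [hG, hI, ← Units.val_mul, mul_inv_cancel, Units.val_one]
    have hIG : I * G = 1 := by
      rw [hG, hI, ← Units.val_mul, inv_mul_cancel, Units.val_one]
    have hconj : ∀ n : ℕ, (G * N * I) ^ n = G * N ^ n * I := by
      intro n
      induction n with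
      | zero => simp [hGI]
      | succ n ih =>
        rw [pow_succ, ih, pow_succ]
        calc G * N ^ n * I * (G * N * I) = G * N ^ n * (I * G) * N * I := by simp only [mul_assoc]
          _ = _ := by rw [hIG, mul_one]; simp only [mul_assoc]
    obtain ⟨α, β, hab⟩ := hkey (G * N * I) ((hH hg N).mp hNL) (by rw [hconj, hN2])
    have hβ : β ≠ 0 := by
      rintro rfl
      rw [zero_smul, add_zero] at hab
      apply hscal α
      calc N = I * (G * N * I) * G := by
            calc N = (I * G) * N * (I * G) := by rw [hIG, one_mul, mul_one]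
              _ = _ := by simp only [mul_assoc]
        _ = _ := by rw [hab, mul_smul_comm, smul_mul_assoc, mul_one, hIG]
    refine OField.mem_normalizer_quadAlg N hN g (l := β) (κ := α) hβ ?_
    have h7 : G * N = (G * N * I) * G := by
      rw [mul_assoc, hIG, mul_one]
    rw [h7, hab, add_mul, smul_mul_assoc, smul_mul_assoc, one_mul, add_comm]
  · rintro _ ⟨a, c, rfl⟩
    exact L'.add_mem (L'.smul_mem L'.one_mem a) (L'.smul_mem hNL c)

/-- **Fields of odd degree `r` in dimension `2 r`**: either a pair of totally singular subspaces or a field of degree two. -/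
theorem deg_out [Nonempty ι] (hQ : IsNondegenerateQuadraticForm Q) {r : ℕ} (hodd : Odd r) (hc : Fintype.card ι = 2 * r) (hK : IsFieldSubalgebra r K)
    (hself : IsSelfAdjointFor (polar Q) K) (hH : H ≤ isometryGroup F Q) (hst : H ≤ subalgebraNormalizer K) :
    (∃ D : Fin 2 → Submodule F (ι → F), IsMDecomposition r D ∧ (∀ i, IsTotallySingularQuad Q (D i)) ∧ H ≤ decompositionStabilizer D) ∨
    (∃ K' : Subalgebra F (Matrix ι ι F), IsFieldSubalgebra 2 K' ∧ AdjClosed (RingEquiv.refl F) (polar Q) K' ∧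
      (∀ k ∈ K', adj (RingEquiv.refl F) (polar Q) k = k → ∃ c : F, k = c • (1 : Matrix ι ι F)) ∧ H ≤ subalgebraNormalizer K') := by
  classical
  have hf := reflForm_polar hQ
  have hbil := hQ.polar_bilinear
  have hrpos : 0 < r := hodd.pos
  letI instF : Field ↥K := (isField_of hK).toField
  letI instA : Algebra F ↥K := K.algebra
  letI instM : Module ↥K (ι → F) := Module.compHom _ (Stable.toEndC K)
  have smul_def : ∀ (c : ↥K) (v : ι → F), c • v = c.1 *ᵥ v := fun c v => rfl
  haveI instT : @IsScalarTower F ↥K (ι → F) instA.toSMul instM.toDistribMulAction.toMulAction.toSMul _ := ⟨fun a c v => by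
    change ((a • c.1) *ᵥ v) = a • (c.1 *ᵥ v)
    rw [Matrix.smul_mulVec]⟩
  haveI : Module.Free ↥K (ι → F) := Module.Free.of_divisionRing _ _
  have hV : finrank ↥K (ι → F) = 2 := by
    have h1 : finrank F ↥K * finrank ↥K (ι → F) = finrank F (ι → F) := Module.finrank_mul_finrank F ↥K (ι → F)
    rw [hK.finrank_eq, finrank_fintype_fun_eq_card, hc] at h1
    have h3 : r * finrank ↥K (ι → F) = r * 2 := by rw [h1]; ring
    exact Nat.eq_of_mul_eq_mul_left hrpos h3
  have h : QD ↥K Q := by
    refine ⟨hQ.smul, hbil.add_left, hbil.smul_left, fun y u v => hself y.1 y.2 u v, fun u hu => ?_⟩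
    by_contra h0
    obtain ⟨x, hx⟩ := (hQ.nondegenerate u h0).2
    exact hx (hu x)
  obtain ⟨tr, qk, bk, D⟩ := exists_TD (F := F) (L := ↥K) (V := ι → F) h
  -- semilinear isometries
  have hτ : ∀ g ∈ H, ∃ τ : ↥K ≃ₐ[F] ↥K, SI Q τ (fun v => (g : Matrix ι ι F) *ᵥ v) ∧ ∀ k : ↥K, (τ k).1 = (g : Matrix ι ι F) * k.1 * ((g⁻¹ : GL ι F) : Matrix ι ι F) := by
    intro g hg
    set G : Matrix ι ι F := (g : Matrix ι ι F) with hG
    set I : Matrix ι ι F := ((g⁻¹ : GL ι F) : Matrix ι ι F) with hI
    have hGI : G * I = 1 := by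
      rw [hG, hI, ← Units.val_mul, mul_inv_cancel, Units.val_one]
    have hIG : I * G = 1 := by
      rw [hG, hI, ← Units.val_mul, inv_mul_cancel, Units.val_one]
    have hm1 : ∀ k : ↥K, G * k.1 * I ∈ K := fun k => (hst hg k.1).mp k.2
    have hm2 : ∀ k : ↥K, I * k.1 * G ∈ K := fun k => by
      have := (hst (inv_mem hg) k.1).mp k.2
      rwa [inv_inv] at this
    let τ : ↥K ≃ₐ[F] ↥K :=
      { toFun := fun k => ⟨G * k.1 * I, hm1 k⟩
        invFun := fun k => ⟨I * k.1 * G, hm2 k⟩
        left_inv := fun k => Subtype.ext (by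
          change I * (G * k.1 * I) * G = k.1
          calc I * (G * k.1 * I) * G = (I * G) * k.1 * (I * G) := by simp only [mul_assoc]
            _ = _ := by rw [hIG, one_mul, mul_one])
        right_inv := fun k => Subtype.ext (by
          change G * (I * k.1 * G) * I = k.1
          calc G * (I * k.1 * G) * I = (G * I) * k.1 * (G * I) := by simp only [mul_assoc]
            _ = _ := by rw [hGI, one_mul, mul_one])
        map_mul' := fun x y => Subtype.ext (by
          change G * (x.1 * y.1) * I = (G * x.1 * I) * (G * y.1 * I)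
          calc G * (x.1 * y.1) * I = G * x.1 * (I * G) * y.1 * I := by rw [hIG, mul_one]; simp only [mul_assoc]
            _ = _ := by simp only [mul_assoc])
        map_add' := fun x y => Subtype.ext (by
          change G * (x.1 + y.1) * I = (G * x.1 * I) + (G * y.1 * I)
          rw [mul_add, add_mul])
        commutes' := fun c => Subtype.ext (by
          change G * (algebraMap F (Matrix ι ι F) c) * I = algebraMap F (Matrix ι ι F) c
          rw [Algebra.algebraMap_eq_smul_one, mul_smul_comm, smul_mul_assoc, mul_one, hGI]) }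
    refine ⟨τ, ⟨fun u v => Matrix.mulVec_add _ _ _, fun y v => ?_, fun v => FormO.Q_act_eq (hH hg) v⟩, fun k => rfl⟩
    change G *ᵥ (y.1 *ᵥ v) = (G * y.1 * I) *ᵥ (G *ᵥ v)
    rw [Matrix.mulVec_mulVec, Matrix.mulVec_mulVec, mul_assoc, mul_assoc, hIG, mul_one]
  rcases two_cases h D hV with ⟨e, f, hli, hQe, hQf, hgg⟩ | ⟨J, b, c, hJ1, hroot, hJ3, hJ4⟩
  · left
    have he0 : e ≠ 0 := by simpa using hli.ne_zero 0
    have hf0 : f ≠ 0 := by simpa using hli.ne_zero 1
    let Ln : (ι → F) → Submodule F (ι → F) := fun v => (Submodule.span ↥K {v}).restrictScalars F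
    have hmemLn : ∀ v x, x ∈ Ln v ↔ ∃ y : ↥K, y • v = x := by
      intro v x
      simp only [Ln, Submodule.restrictScalars_mem, Submodule.mem_span_singleton]
      exact Iff.rfl
    have hfr : ∀ v : ι → F, v ≠ 0 → finrank F (Ln v) = r := by
      intro v hv
      let φ : ↥K →ₗ[F] (ι → F) :=
        { toFun := fun y => y • v
          map_add' := fun a a' => add_smul a a' v
          map_smul' := fun t a => smul_assoc t a v }
      have hinj : Function.Injective φ := by
        rw [injective_iff_map_eq_zero]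
        intro y hy
        exact (smul_eq_zero.mp hy).resolve_right hv
      have hrange : LinearMap.range φ = Ln v := by
        ext x
        rw [hmemLn]
        rfl
      rw [← hrange, LinearMap.finrank_range_of_inj hinj]
      exact hK.finrank_eq
    let D₀ : Fin 2 → Submodule F (ι → F) := ![Ln e, Ln f]
    have hspan := hli.span_eq_top_of_card_eq_finrank' (by simp [hV])
    have hmap : ∀ (g : GL ι F) (τ : ↥K ≃ₐ[F] ↥K) (a a' : ι → F), SI Q τ (fun v => (g : Matrix ι ι F) *ᵥ v) → a ≠ 0 → a' ≠ 0 →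
        (∃ y : ↥K, (g : Matrix ι ι F) *ᵥ a = y • a') → (Ln a).map (Matrix.toLin' (g : Matrix ι ι F)) = Ln a' := by
      rintro g τ a a' hSI ha ha' ⟨y, hy⟩
      have hy0 : y ≠ 0 := by
        rintro rfl
        rw [zero_smul] at hy
        exact ha (mulVec_injective g (by
          change (g : Matrix ι ι F) *ᵥ a = (g : Matrix ι ι F) *ᵥ 0
          rw [hy, Matrix.mulVec_zero]))
      ext x
      constructor
      · rintro ⟨w, hw, rfl⟩
        obtain ⟨w', rfl⟩ := (hmemLn _ _).mp hw
        refine (hmemLn _ _).mpr ⟨τ w' * y, ?_⟩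
        rw [Matrix.toLin'_apply]
        have h1 : (g : Matrix ι ι F) *ᵥ (w' • a) = τ w' • ((g : Matrix ι ι F) *ᵥ a) := hSI.smul w' a
        rw [h1, hy, mul_smul]
      · intro hx
        obtain ⟨w', rfl⟩ := (hmemLn _ _).mp hx
        refine ⟨(τ.symm (w' / y)) • a, (hmemLn _ _).mpr ⟨_, rfl⟩, ?_⟩
        rw [Matrix.toLin'_apply]
        have h1 : (g : Matrix ι ι F) *ᵥ ((τ.symm (w' / y)) • a) = (τ (τ.symm (w' / y))) • ((g : Matrix ι ι F) *ᵥ a) := hSI.smul (τ.symm (w' / y)) a
        rw [h1, hy, AlgEquiv.apply_symm_apply, smul_smul, div_mul_cancel₀ _ hy0]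
    refine ⟨D₀, ⟨le_rfl, hrpos, ?_, ?_, ?_⟩, ?_, ?_⟩
    · intro i
      fin_cases i
      · exact hfr e he0
      · exact hfr f hf0
    · refine (iSupIndep_pair (i := (0 : Fin 2)) (j := 1) (by decide) (by
        intro i
        fin_cases i <;> simp)).mpr ?_
      rw [Submodule.disjoint_def]
      intro x hx hx'
      obtain ⟨y, rfl⟩ := (hmemLn _ _).mp hx
      obtain ⟨z, hz⟩ := (hmemLn _ _).mp hx'
      have h1 : y • e + (-z) • f = 0 := by
        have h5 : (-z) • f = -(z • f) := Matrix.neg_mulVec f z.1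
        rw [h5, hz]
        abel
      have h3 := (LinearIndependent.pair_iff.mp hli) y (-z) h1
      rw [h3.1, zero_smul]
    · rw [eq_top_iff]
      intro w _
      have hw : w ∈ Submodule.span ↥K (Set.range ![e, f]) := by
        rw [hspan]
        trivial
      obtain ⟨t, ht⟩ := (Submodule.mem_span_range_iff_exists_fun ↥K).mp hw
      rw [← ht, Fin.sum_univ_two]
      refine Submodule.add_mem _ ?_ ?_
      · exact Submodule.mem_iSup_of_mem (0 : Fin 2) ((hmemLn _ _).mpr ⟨t 0, rfl⟩)
      · exact Submodule.mem_iSup_of_mem (1 : Fin 2) ((hmemLn _ _).mpr ⟨t 1, rfl⟩)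
    · intro i
      fin_cases i
      · intro x hx
        obtain ⟨y, rfl⟩ := (hmemLn _ _).mp hx
        exact hQe y
      · intro x hx
        obtain ⟨y, rfl⟩ := (hmemLn _ _).mp hx
        exact hQf y
    · intro g hg
      obtain ⟨τ, hSI, -⟩ := hτ g hg
      rcases hgg τ _ hSI with ⟨y, z, h1, h3⟩ | ⟨y, z, h1, h3⟩
      · refine ⟨1, fun i => ?_⟩
        fin_cases i
        · exact hmap g τ e e hSI he0 he0 ⟨y, h1⟩
        · exact hmap g τ f f hSI hf0 hf0 ⟨z, h3⟩
      · refine ⟨Equiv.swap 0 1, fun i => ?_⟩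
        fin_cases i
        · exact hmap g τ e f hSI he0 hf0 ⟨y, h1⟩
        · exact hmap g τ f e hSI hf0 he0 ⟨z, h3⟩
  · right
    set Jm : Matrix ι ι F := LinearMap.toMatrix' (J.restrictScalars F) with hJmd
    have hJm : ∀ v, Jm *ᵥ v = J v := fun v => by
      rw [hJmd, LinearMap.toMatrix'_mulVec]
      rfl
    have hcomm : ∀ k : ↥K, Jm * k.1 = k.1 * Jm := by
      intro k
      apply matrix_ext_mulVec
      intro v
      rw [← Matrix.mulVec_mulVec, ← Matrix.mulVec_mulVec, hJm, hJm]
      exact J.map_smul k v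
    have hJJ : Jm * Jm = b.1 * Jm - c.1 := by
      apply matrix_ext_mulVec
      intro v
      rw [← Matrix.mulVec_mulVec, Matrix.sub_mulVec, ← Matrix.mulVec_mulVec, hJm, hJm, hJ1]
      rfl
    have hLf := extAlg_field hK hcomm hJJ hroot
    have hadjK : ∀ k : ↥K, adj (RingEquiv.refl F) (polar Q) k.1 = k.1 := fun k => (OKey.selfAdj_iff hQ).mp hself k.1 k.2
    have hadjJ : adj (RingEquiv.refl F) (polar Q) Jm = b.1 - Jm := by
      refine (hf.eq_adj fun u v => ?_).symm
      have h1 : polar Q (J u) v + polar Q u (J v) = polar Q u (b.1 *ᵥ v) := by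
        have h3 := hJ3 u v
        rw [h.self] at h3
        exact h3
      rw [hJm, Matrix.sub_mulVec, hJm, hf.sub_right]
      linear_combination h1
    have hadjx : ∀ y z : ↥K, adj (RingEquiv.refl F) (polar Q) (y.1 + z.1 * Jm) = (y + b * z).1 + (-z).1 * Jm := by
      intro y z
      rw [hf.adj_add, hf.adj_mul, hadjK, hadjK, hadjJ, sub_mul, hcomm z]
      simp only [Subalgebra.coe_add, Subalgebra.coe_mul, Subalgebra.coe_neg, neg_mul]
      abel
    have hA' : AdjClosed (RingEquiv.refl F) (polar Q) (extAlg K Jm b c hcomm hJJ) := by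
      rintro _ ⟨y, z, rfl⟩
      exact ⟨_, _, hadjx y z⟩
    have hfwd : ∀ g ∈ H, ∀ x ∈ extAlg K Jm b c hcomm hJJ, (g : Matrix ι ι F) * x * ((g⁻¹ : GL ι F) : Matrix ι ι F) ∈ extAlg K Jm b c hcomm hJJ := by
      rintro g hg _ ⟨y, z, rfl⟩
      obtain ⟨τ, hSI, hτv⟩ := hτ g hg
      obtain ⟨l, κ, hlκ⟩ := hJ4 τ _ hSI
      set G : Matrix ι ι F := (g : Matrix ι ι F) with hG
      set I : Matrix ι ι F := ((g⁻¹ : GL ι F) : Matrix ι ι F) with hI
      have hIG : I * G = 1 := by
        rw [hG, hI, ← Units.val_mul, inv_mul_cancel, Units.val_one]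
      have hGJ : G * Jm = (l.1 * Jm + κ.1) * G := by
        apply matrix_ext_mulVec
        intro v
        have h1 := hlκ v
        rw [← Matrix.mulVec_mulVec, hJm, h1, ← Matrix.mulVec_mulVec, Matrix.add_mulVec, ← Matrix.mulVec_mulVec, hJm]
        rfl
      refine ⟨τ y + τ z * κ, τ z * l, ?_⟩
      simp only [Subalgebra.coe_add, Subalgebra.coe_mul, hτv]
      have hGI : G * I = 1 := by
        rw [hG, hI, ← Units.val_mul, mul_inv_cancel, Units.val_one]
      have h5 : G * z.1 * Jm * I = (G * z.1 * I) * (l.1 * Jm + κ.1) := by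
        calc G * z.1 * Jm * I = (G * z.1 * (I * G)) * Jm * I := by rw [hIG, mul_one]
          _ = (G * z.1 * I) * (G * Jm) * I := by simp only [mul_assoc]
          _ = (G * z.1 * I) * (l.1 * Jm + κ.1) * (G * I) := by rw [hGJ]; simp only [mul_assoc]
          _ = _ := by rw [hGI, mul_one]
      have h6 : G * (y.1 + z.1 * Jm) * I = G * y.1 * I + G * z.1 * Jm * I := by
        simp only [mul_add, add_mul, mul_assoc]
      rw [h6, h5]
      noncomm_ring
    have hN' : H ≤ subalgebraNormalizer (extAlg K Jm b c hcomm hJJ) := by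
      intro g hg k
      refine ⟨fun hk => hfwd g hg k hk, fun hk => ?_⟩
      have h1 := hfwd g⁻¹ (inv_mem hg) _ hk
      have hIG : ((g⁻¹ : GL ι F) : Matrix ι ι F) * (g : Matrix ι ι F) = 1 := by
        rw [← Units.val_mul, inv_mul_cancel, Units.val_one]
      rw [inv_inv] at h1
      have h3 : ((g⁻¹ : GL ι F) : Matrix ι ι F) * ((g : Matrix ι ι F) * k * ((g⁻¹ : GL ι F) : Matrix ι ι F)) * (g : Matrix ι ι F) = k := by
        calc _ = (((g⁻¹ : GL ι F) : Matrix ι ι F) * (g : Matrix ι ι F)) * k * (((g⁻¹ : GL ι F) : Matrix ι ι F) * (g : Matrix ι ι F)) := by simp only [mul_assoc]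
          _ = _ := by rw [hIG, one_mul, mul_one]
      rwa [h3] at h1
    obtain ⟨K', hK'f, hK'A, hK'N, hK'L, ω, hω, hω2, hωq, hgen⟩ := exists_two_sub hQ hrpos hLf hA' hN'
    refine ⟨K', hK'f, hK'A, ?_, hK'N⟩
    rcases adj_field_dichotomy hf Nat.prime_two hK'f hK'A with hfixed | ⟨-, hfix⟩
    swap
    · exact hfix
    exfalso
    obtain ⟨y, z, hyz⟩ := hK'L ω hω
    have hz : z ≠ 0 := by
      rintro rfl
      apply hωq
      have hcK : Fintype.card ↥K = Fintype.card F ^ r := by
        rw [Module.card_eq_pow_finrank (K := F) (V := ↥K), hK.finrank_eq]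
      have hω' : ω = y.1 := by
        have h0 : ((0 : ↥K) : Matrix ι ι F) = 0 := rfl
        rw [hyz, h0, zero_mul, add_zero]
      have h1 : y ^ (Fintype.card F ^ r) = y := by
        rw [← hcK]
        exact FiniteField.pow_card y
      have h3 : ω ^ (Fintype.card F ^ r) = ω := by
        rw [hω']
        exact congrArg Subtype.val h1
      obtain ⟨s, hs⟩ := hodd
      have h4 : ∀ n : ℕ, ω ^ ((Fintype.card F ^ 2) ^ n) = ω := by
        intro n
        induction n with
        | zero => simp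
        | succ n ih => rw [pow_succ, pow_mul, ih, hω2]
      calc ω ^ Fintype.card F = (ω ^ ((Fintype.card F ^ 2) ^ s)) ^ Fintype.card F := by rw [h4]
        _ = ω ^ (Fintype.card F ^ r) := by
          have e : Fintype.card F ^ r = (Fintype.card F ^ 2) ^ s * Fintype.card F := by
            rw [hs, pow_succ _ (2 * s), pow_mul]
          rw [e, pow_mul]
        _ = ω := h3
    have h1 := hfixed ω hω
    rw [hyz, hadjx] at h1
    -- `z (b - 2 J) = 0`
    have h3 : z.1 * (b.1 - (2 : F) • Jm) = 0 := by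
      have h5 : (y + b * z).1 = y.1 + z.1 * b.1 := by
        have h6 : b * z = z * b := mul_comm _ _
        rw [h6]
        rfl
      have h7 : (-z).1 = -z.1 := rfl
      rw [h5, h7, neg_mul] at h1
      have h8 : z.1 * b.1 - z.1 * Jm - z.1 * Jm = (y.1 + z.1 * b.1 + -(z.1 * Jm)) - (y.1 + z.1 * Jm) := by abel
      rw [h1, sub_self] at h8
      rw [mul_sub, two_smul, mul_add, ← sub_sub]
      exact h8
    have h4 : b.1 = (2 : F) • Jm := by
      have h5 : (z⁻¹ : ↥K).1 * z.1 = 1 := congrArg Subtype.val (inv_mul_cancel₀ hz)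
      have h6 : (z⁻¹ : ↥K).1 * (z.1 * (b.1 - (2 : F) • Jm)) = 0 := by rw [h3, mul_zero]
      rw [← mul_assoc, h5, one_mul] at h6
      exact sub_eq_zero.mp h6
    by_cases h2F : (2 : F) = 0
    · have hb0 : b = 0 := by
        apply Subtype.ext
        rw [h4, h2F, zero_smul]
        rfl
      have h2L : (2 : ↥K) = 0 := by
        have h5 := congrArg (algebraMap F ↥K) h2F
        rwa [map_ofNat, map_zero] at h5
      haveI : CharP ↥K 2 := CharTwo.of_one_ne_zero_of_two_eq_zero one_ne_zero h2L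
      obtain ⟨t, ht⟩ := FiniteField.isSquare_of_char_two (ringChar.eq ↥K 2) (-c)
      apply hroot t
      rw [hb0, zero_mul, zero_sub, ht]
    · have hJt : Jm = ((2 : F)⁻¹ • b).1 := by
        change Jm = (2 : F)⁻¹ • b.1
        rw [h4, smul_smul, inv_mul_cancel₀ h2F, one_smul]
      apply hroot ((2 : F)⁻¹ • b)
      apply Subtype.ext
      change ((2 : F)⁻¹ • b).1 * ((2 : F)⁻¹ • b).1 = b.1 * ((2 : F)⁻¹ • b).1 - c.1
      rw [← hJt]
      exact hJJ

end Ext

end Cfsg.Agent.Lib.Classical.Asch.OKey2
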