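import Mathlib
import Cfsg.Agent.Lib.Classical.Asch.OKey2

/-!
# Assembly lemmas for the maximal subgroups of the orthogonal groups in dimensions ten and twelve
-/

set_option autoImplicit false
set_option linter.style.haveILetI false
set_option linter.unusedSectionVars false

namespace Cfsg.Agent.Lib.Classical.Asch.OKey3

open scoped MatrixGroups Matrix Kronecker
open Module Cfsg Cfsg.Geo QuadraticMap
open Cfsg.Agent.Lib.Classical.Asch.Basic Cfsg.Agent.Lib.Classical.Asch.Forms
open Cfsg.Agent.Lib.Classical.Asch.FormO Cfsg.Agent.Lib.Classical.Asch.FormOE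
open Cfsg.Agent.Lib.Classical.Asch.SpThree Cfsg.Agent.Lib.Classical.Asch.OType
open Cfsg.Agent.Lib.Classical.Asch.OField Cfsg.Agent.Lib.Classical.Asch.OEMax
open Cfsg.Agent.Lib.Classical.Asch.FormPerp Cfsg.Agent.Lib.Classical.Asch.Adj
open Cfsg.Agent.Lib.Classical.Asch.FormSympType
open Cfsg.Agent.Lib.Classical.Asch.OKey
open Cfsg.Agent.Lib.Classical.Asch

variable {ι : Type} [Fintype ι] [DecidableEq ι] {F : Type*} [Field F] [Fintype F] {Q : (ι → F) → F} {H : Subgroup (GL ι F)}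

theorem omd_pair {m : ℕ} {D : Fin 2 → Submodule F (ι → F)} (hD : IsNondegenerateMDecomposition (polar Q) m D)
    (hI : AreIsometricFor Q (D 0) (D 1)) : IsOrthogonalMDecomposition Q m D := by
  refine ⟨hD, fun i j => ?_⟩
  obtain ⟨e, he⟩ := hI
  fin_cases i <;> fin_cases j
  · exact ⟨LinearEquiv.refl _ _, fun w => rfl⟩
  · exact ⟨e, he⟩
  · refine ⟨e.symm, fun w => ?_⟩
    have h1 := he (e.symm w)
    rw [LinearEquiv.apply_symm_apply] at h1
    exact h1.symm
  · exact ⟨LinearEquiv.refl _ _, fun w => rfl⟩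

/-- **The stabiliser of a non-degenerate subspace of half the dimension.** -/
theorem half_dec (hQ : IsNondegenerateQuadraticForm Q) (hle : H ≤ isometryGroup F Q) {m : ℕ} (hm : 0 < m) (hc : Fintype.card ι = 2 * m)
    {W : Submodule F (ι → F)} (hnd : IsNondegenerateOn (polar Q) W) (hd : finrank F W = m) (hst : H ≤ subspaceStabilizer W) :
    ∃ D : Fin 2 → Submodule F (ι → F), IsNondegenerateMDecomposition (polar Q) m D ∧ H ≤ decompositionStabilizer D ∧ IsCompl (D 0) (D 1) ∧ D 0 = W := by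
  classical
  have hf := reflForm_symmetric (symm_polar hQ)
  have hrad : W ⊓ perpF hf W = ⊥ := by
    rw [Submodule.eq_bot_iff]
    rintro w ⟨hw, hw'⟩
    by_contra hw0
    obtain ⟨⟨x, hx, hxw⟩, -⟩ := hnd w hw hw0
    exact hxw (hw' x hx)
  have hdim := finrank_perpF hf W
  have hInv : Inv H W := fun g hg v hv => (hst hg v).mp hv
  have hInv' : Inv H (perpF hf W) := inv_perpF hf (hle.trans (isometry_le_isomG.trans isomG_le_similarity)) hInv
  refine ⟨![W, perpF hf W], isNondegenerateMDecomposition_pair hf hrad hm hd (by omega), ?_, isCompl_perpF hf hrad, rfl⟩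
  refine le_decompositionStabilizer_of_forall fun i => ?_
  fin_cases i
  · exact hInv
  · exact hInv'

/-- The outcome for a non-degenerate subspace of half the dimension in odd characteristic. -/
theorem half_out (h2 : (2 : F) ≠ 0) (hQ : IsNondegenerateQuadraticForm Q) (hn : 5 ≤ Fintype.card ι) (hH : IsMaximalIn (omegaGL Q) H) (hle : H ≤ isometryGroup F Q)
    {n : ℕ} (hc : Fintype.card ι = 2 * (n + 1))
    {W : Submodule F (ι → F)} (hnd : IsNondegenerateOn (polar Q) W) (hd : finrank F W = n + 1) (hst : H ≤ subspaceStabilizer W) :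
    ∃ D : Fin 2 → Submodule F (ι → F), IsNondegenerateMDecomposition (polar Q) (n + 1) D ∧ H = decompositionStabilizer D ⊓ omegaGL Q ∧
      (IsOrthogonalMDecomposition Q (n + 1) D ∨ (¬ AreIsometricFor Q (D 0) (D 1) ∧ (IsPlusTypeOn Q ⊤ ↔ ¬ IsSquare ((-1 : F) ^ (n + 1))))) := by
  classical
  obtain ⟨D, hD, hDst, hcompl, -⟩ := half_dec hQ hle (Nat.succ_pos n) hc hnd hd hst
  refine ⟨D, hD, eq_decomp hQ hn hH hD.decomp (Or.inl h2) hDst, ?_⟩
  by_cases hI : AreIsometricFor Q (D 0) (D 1)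
  · exact Or.inl (omd_pair hD hI)
  · refine Or.inr ⟨hI, OKey.pair_disc h2 hQ hc hcompl (hD.orthogonal 0 1 (by decide)) (hD.nondegenerate 0) (hD.nondegenerate 1) (hD.decomp.finrank_eq 0) (hD.decomp.finrank_eq 1) hI⟩

/-- The type of a space with an even number of members in an orthogonal decomposition and odd half dimension. -/
theorem plus_iff_neg_one (h2 : (2 : F) ≠ 0) (hQ : IsNondegenerateQuadraticForm Q) {t k m : ℕ} {D : Fin t → Submodule F (ι → F)}
    (hD : IsOrthogonalMDecomposition Q k D) (hm : Odd m) (hc : Fintype.card ι = 2 * m) (ht : Even t) : IsPlusTypeOn Q ⊤ ↔ IsSquare (-1 : F) := by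
  obtain ⟨δ, hδ, h1⟩ := plus_iff_block h2 hQ hD (m := m) hm.pos hc
  rw [h1, hm.neg_one_pow]
  obtain ⟨s, rfl⟩ := ht
  have h3 : (-1 : F) * δ ^ (s + s) = (δ ^ s) ^ 2 * (-1) := by
    rw [pow_add, pow_two]
    ring
  rw [h3]
  exact Cfsg.Agent.Lib.Classical.Witt.Disc.isSquare_sq_mul_iff (pow_ne_zero _ hδ)

/-- **Stabilisers of frames.** -/
theorem frame_out [Nonempty ι] (h2 : (2 : F) ≠ 0) (hQ : IsNondegenerateQuadraticForm Q) (hn : 5 ≤ Fintype.card ι) (hH : IsMaximalIn (omegaGL Q) H) (hle : H ≤ isometryGroup F Q)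
    {t : ℕ} {D : Fin t → Submodule F (ι → F)} (hD : IsOrthogonalMDecomposition Q 1 D) (hst : H ≤ decompositionStabilizer D) :
    ((Fintype.card F).Prime ∧ H = decompositionStabilizer D ⊓ omegaGL Q) ∨
    (∃ (F₀ : Subfield F) (r : ℕ) (P : GL ι F) (ζ : F), r.Prime ∧ Fintype.card F = Nat.card F₀ ^ r ∧ ζ ≠ 0 ∧
      IsQuadFormRationalStructure (fun v => ζ * Q v) F₀ P ∧ H = subfieldSubgroup F₀ P ⊓ omegaGL Q) := by
  classical
  by_cases hp : (Fintype.card F).Prime
  · exact Or.inl ⟨hp, eq_decomp hQ hn hH hD.decomp.decomp (Or.inl h2) hst⟩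
  · right
    set p := ringChar F with hpdef
    haveI : CharP F p := ringChar.charP F
    obtain ⟨e', hpp, hF⟩ := FiniteField.card F p
    set e : ℕ := (e' : ℕ) with he
    have he0 : 0 < e := e'.pos
    have he1 : e ≠ 1 := by
      intro h
      rw [hF, h, pow_one] at hp
      exact hp hpp
    obtain ⟨F₁, hF₁card, -⟩ := Subfield.exists_subfield_of_dvd p e 1 hpp hF (one_dvd e)
    have hne : F₁ ≠ ⊤ := by
      rintro rfl
      have h1 : Nat.card (⊤ : Subfield F) = Fintype.card F := by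
        rw [← Nat.card_eq_fintype_card]
        exact Nat.card_congr Subfield.topEquiv.toEquiv
      rw [h1, hF] at hF₁card
      have h3 : p ^ 1 < p ^ e := Nat.pow_lt_pow_right hpp.one_lt (by omega)
      omega
    obtain ⟨F₂, r', -, hr', hcard⟩ := Subfield.exists_prime_index_subfield F₁ hne
    obtain ⟨P, ζ, hζ0, hζ, hleP⟩ := frame_rational hQ h2 hle hD hst F₂
    exact ⟨F₂, r', P, ζ, hr', hcard, hζ0, quad_rational_odd hQ h2 hζ, eq_subfield hQ hn hH hr'.two_le hcard hleP⟩

/-- An odd prime power congruent to three modulo four is not a square. -/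
theorem odd_of_mod_four {F₀ : Subfield F} {r : ℕ} (hr : r.Prime) (hc : Fintype.card F = Nat.card F₀ ^ r) (h4 : Fintype.card F % 4 = 3) : Odd r := by
  refine hr.odd_of_ne_two ?_
  rintro rfl
  rw [hc] at h4
  have h5 : Nat.card F₀ % 4 = 0 ∨ Nat.card F₀ % 4 = 1 ∨ Nat.card F₀ % 4 = 2 ∨ Nat.card F₀ % 4 = 3 := by omega
  rw [pow_two, Nat.mul_mod] at h4
  rcases h5 with h5 | h5 | h5 | h5 <;> rw [h5] at h4 <;> omega

theorem not_pow_ten {d t : ℕ} (hd : 2 ≤ d) (ht : 2 ≤ t) (h : d ^ t = 10) : False := by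
  have h1 : d ^ 2 ≤ d ^ t := Nat.pow_le_pow_right (by omega) ht
  have h3 : d ≤ 3 := by nlinarith
  have h4 : 2 ^ t ≤ d ^ t := Nat.pow_le_pow_left hd t
  have h5 : t ≤ 3 := by
    by_contra h6
    have h7 : 2 ^ 4 ≤ 2 ^ t := Nat.pow_le_pow_right (by norm_num) (by omega)
    omega
  interval_cases d <;> interval_cases t <;> omega

theorem not_two_pow_ten {m : ℕ} (h : 2 ^ m = 10) : False := by
  have h5 : m ≤ 3 := by
    by_contra h6
    have h7 : 2 ^ 4 ≤ 2 ^ m := Nat.pow_le_pow_right (by norm_num) (by omega)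
    omega
  interval_cases m <;> omega

end Cfsg.Agent.Lib.Classical.Asch.OKey3
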