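import Mathlib
import Cfsg.Agent.Lib.Classical.Asch.OKey3
import Cfsg.Agent.Lib.Classical.Geo.OFam

/-!
# Plus type: small fields and reductions for the maximal subgroups of the orthogonal groups in dimensions ten and twelve
-/

set_option autoImplicit false
set_option linter.style.haveILetI false
set_option linter.unusedSectionVars false

namespace Cfsg.Agent.Lib.Classical.Asch.OKey4

open scoped MatrixGroups Matrix Kronecker
open Module Cfsg Cfsg.Geo QuadraticMap
open Cfsg.Agent.Lib.Classical.Asch.Basic Cfsg.Agent.Lib.Classical.Asch.Forms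
open Cfsg.Agent.Lib.Classical.Asch.FormO Cfsg.Agent.Lib.Classical.Asch.FormOE
open Cfsg.Agent.Lib.Classical.Asch.SpThree Cfsg.Agent.Lib.Classical.Asch.OType
open Cfsg.Agent.Lib.Classical.Asch.OField Cfsg.Agent.Lib.Classical.Asch.OEMax
open Cfsg.Agent.Lib.Classical.Asch.FormPerp Cfsg.Agent.Lib.Classical.Asch.Adj
open Cfsg.Agent.Lib.Classical.Asch.FormSympType
open Cfsg.Agent.Lib.Classical.Asch.OKey Cfsg.Agent.Lib.Classical.Asch.OKey3
open Cfsg.Agent.Lib.Classical.Asch
open Cfsg.Agent.Lib.Classical.Geo.OPts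

variable {ι : Type} [Fintype ι] [DecidableEq ι] {F : Type*} [Field F] [Fintype F] {Q : (ι → F) → F} {H : Subgroup (GL ι F)}

/-- A totally singular subspace of dimension one less than half cannot be stabilised by a maximal subgroup. -/
theorem no_ts_half (hQ : IsNondegenerateQuadraticForm Q) (hplus : IsPlusTypeOn Q ⊤) (hH : IsMaximalIn (omegaGL Q) H) {m : ℕ} (hm : 4 ≤ m)
    (hc : Fintype.card ι = 2 * (m + 1)) {W : Submodule F (ι → F)} (hts : IsTotallySingularQuad Q W) (hd : finrank F W = m)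
    (hst : H ≤ subspaceStabilizer W) : False := by
  obtain ⟨Q', rfl, hQ'⟩ := exists_quadraticForm hQ
  have hn : 5 ≤ Fintype.card ι := by omega
  obtain ⟨U, -, hU, hUd⟩ := hplus
  rw [finrank_top, finrank_fintype_fun_eq_card, hc] at hUd
  have hUm : finrank F U = m + 1 := by omega
  have hW0 : W ≠ ⊥ := by
    rintro rfl
    rw [finrank_bot] at hd
    omega
  have hE := eq_stab hQ hn hH hW0 (ts_ne_top hQ hn hts) hst
  obtain ⟨K, h1, h3⟩ := Cfsg.Agent.Lib.Classical.Geo.OFam.exists_between_parabolic hQ' hc hm hU hUm hts hd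
  rw [← hE] at h1
  rcases hH.2 K h1.le h3.le with h | h
  · exact absurd h h1.ne'
  · exact absurd h h3.ne

/-- A pair of totally singular subspaces of odd dimension cannot be stabilised by a maximal subgroup. -/
theorem no_pair (hQ : IsNondegenerateQuadraticForm Q) (hH : IsMaximalIn (omegaGL Q) H) {k : ℕ} (hk : 5 ≤ k) (hko : Odd k)
    (hc : Fintype.card ι = 2 * k) {D : Fin 2 → Submodule F (ι → F)} (hD : IsMDecomposition k D) (hts : ∀ i, IsTotallySingularQuad Q (D i))
    (hst : H ≤ decompositionStabilizer D) : False := by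
  obtain ⟨Q', rfl, hQ'⟩ := exists_quadraticForm hQ
  have hn : 5 ≤ Fintype.card ι := by omega
  have h2k : (2 : F) ≠ 0 ∨ 3 ≤ k := Or.inr (by omega)
  have hE := eq_decomp hQ hn hH hD h2k hst
  obtain ⟨K, h1, h3⟩ := Cfsg.Agent.Lib.Classical.Geo.OFam.exists_between_pair hQ' hc hk hko D hD hts
  rw [← hE] at h1
  rcases hH.2 K h1.le h3.le with h | h
  · exact absurd h h1.ne'
  · exact absurd h h3.ne

/-- A field of degree two not fixed by the adjoint is incompatible with plus type in odd half dimension. -/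
theorem nonself_false [Nonempty ι] (hQ : IsNondegenerateQuadraticForm Q) (hplus : IsPlusTypeOn Q ⊤) {m : ℕ} (hm : Fintype.card ι = 2 * m) (hodd : Odd m)
    (hn : 3 ≤ Fintype.card ι) (hH : H ≤ isometryGroup F Q)
    (hG : ∀ W : Submodule F (ι → F), Inv (H ⊔ scalars ι F) W → W = ⊥ ∨ W = ⊤) {K : Subalgebra F (Matrix ι ι F)} (hst : H ≤ subalgebraNormalizer K)
    (hK : IsFieldSubalgebra 2 K) (hA : AdjClosed (RingEquiv.refl F) (polar Q) K)
    (hfix : ∀ k ∈ K, adj (RingEquiv.refl F) (polar Q) k = k → ∃ c : F, k = c • (1 : Matrix ι ι F)) : False := by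
  obtain ⟨ω, hω, -, hgen⟩ := exists_gen hK
  obtain ⟨T, c, hT, hc⟩ := exists_T_c hQ hK hA hfix hω
  exact not_plus_nonself hQ hm hodd hK hω hgen hT hc (sim_core hQ hn hH hG hst hω hgen hT hc) hplus

theorem exists_sub_of_le {U : Submodule F (ι → F)} {j : ℕ} (hj : j ≤ finrank F U) : ∃ U₁ : Submodule F (ι → F), U₁ ≤ U ∧ finrank F U₁ = j := by
  induction h : finrank F U - j generalizing U with
  | zero =>
    exact ⟨U, le_rfl, by omega⟩
  | succ l ih =>
    obtain ⟨m, hm⟩ : ∃ m, finrank F U = m + 1 := ⟨finrank F U - 1, by omega⟩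
    obtain ⟨U', hU', hU'd⟩ := Cfsg.Agent.Lib.Classical.Geo.OFam.exists_sub hm
    obtain ⟨U₁, h1, h3⟩ := ih (U := U') (by omega) (by omega)
    exact ⟨U₁, h1.trans hU', h3⟩

/-- **Complements of plus type subspaces in a plus type space.** -/
theorem perp_plus (hQ : IsNondegenerateQuadraticForm Q) (hplus : IsPlusTypeOn Q ⊤) {P P' U₀ : Submodule F (ι → F)} (hcompl : IsCompl P P')
    (horth : ∀ u ∈ P, ∀ v ∈ P', polar Q u v = 0) (hle : U₀ ≤ P) (hts : IsTotallySingularQuad Q U₀) (hd : 2 * finrank F U₀ = finrank F P) :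
    IsPlusTypeOn Q P' := by
  classical
  have hf := reflForm_polar hQ
  have hbil := hQ.polar_bilinear
  obtain ⟨Q', rfl, hQ'⟩ := exists_quadraticForm hQ
  obtain ⟨U, -, hU, hUd⟩ := hplus
  set n := Fintype.card ι with hn
  rw [finrank_top, finrank_fintype_fun_eq_card] at hUd
  have hdims := Submodule.finrank_add_eq_of_isCompl hcompl
  rw [finrank_fintype_fun_eq_card] at hdims
  have hU0le : finrank F U₀ ≤ finrank F U := by omega
  -- a subspace of `U` of the same dimension as `U₀`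
  obtain ⟨U₁, hU₁, hU₁d⟩ := exists_sub_of_le hU0le
  obtain ⟨g, hg, -⟩ := Cfsg.Agent.Lib.Classical.Orth.Adjust.exists_iso_of_witt hQ' U₁ U₀ (LinearEquiv.ofFinrankEq U₁ U₀ hU₁d)
    (fun x => by rw [hts _ (LinearEquiv.ofFinrankEq U₁ U₀ hU₁d x).2, hU _ (hU₁ x.2)])
  set X := Cfsg.Agent.Lib.Classical.Orth.Classes.gMap g U with hX
  have hU₀X : U₀ ≤ X := by
    rw [← hg]
    exact Submodule.map_mono hU₁
  have hXts : ∀ x ∈ X, Q' x = 0 := Cfsg.Agent.Lib.Classical.Orth.Classes.isTS_gMap g hU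
  have hXd : finrank F X = finrank F U := by rw [hX, Cfsg.Agent.Lib.Classical.Orth.Classes.finrank_gMap]
  have hXo : ∀ u ∈ X, ∀ v ∈ X, polar (⇑Q') u v = 0 := by
    intro u hu v hv
    rw [polar, hXts _ (X.add_mem hu hv), hXts _ hu, hXts _ hv]
    ring
  -- the perpendicular of `U₀` in `P`
  have hperpdim := finrank_perpF hf U₀
  have hP'perp : P' ≤ perpF hf U₀ := fun v hv x hx => horth x (hle hx) v hv
  have hinf : (P ⊓ perpF hf U₀) ⊓ P' = ⊥ := by
    rw [eq_bot_iff]
    rintro x ⟨⟨h1, -⟩, h3⟩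
    exact Submodule.disjoint_def.mp hcompl.disjoint x h1 h3
  have hsup : (P ⊓ perpF hf U₀) ⊔ P' = perpF hf U₀ := by
    apply le_antisymm (sup_le inf_le_right hP'perp)
    intro w hw
    have hw' : w ∈ P ⊔ P' := by
      rw [hcompl.sup_eq_top]
      trivial
    obtain ⟨a, ha, c, hc, rfl⟩ := Submodule.mem_sup.mp hw'
    refine Submodule.add_mem_sup ⟨ha, ?_⟩ hc
    have h5 := (perpF hf U₀).sub_mem hw (hP'perp hc)
    rwa [add_sub_cancel_right] at h5
  have hdimP := Submodule.finrank_sup_add_finrank_inf_eq (P ⊓ perpF hf U₀) P'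
  rw [hsup, hinf, finrank_bot, add_zero] at hdimP
  have hEq : U₀ = P ⊓ perpF hf U₀ := by
    refine Submodule.eq_of_le_of_finrank_eq (le_inf hle fun u hu x hx => ?_) (by omega)
    exact hXo x (hU₀X hx) u (hU₀X hu)
  set T := X ⊓ P' with hT
  have hXsup : X ≤ U₀ ⊔ T := by
    intro u hu
    have hu' : u ∈ P ⊔ P' := by
      rw [hcompl.sup_eq_top]
      trivial
    obtain ⟨a, ha, c, hc, rfl⟩ := Submodule.mem_sup.mp hu'
    have ha' : a ∈ U₀ := by
      rw [hEq]
      refine ⟨ha, (mem_perpF_left (hf := hf) (W := U₀)).mpr fun x hx => ?_⟩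
      have h5 := hXo _ hu x (hU₀X hx)
      rw [polar_add_left, polar_comm _ c, horth x (hle hx) c hc, add_zero] at h5
      exact h5
    refine Submodule.add_mem_sup ha' ⟨?_, hc⟩
    have h5 := X.sub_mem hu (hU₀X ha')
    rwa [add_sub_cancel_left] at h5
  have hTle : T ≤ X := inf_le_left
  have hX' : U₀ ⊔ T = X := le_antisymm (sup_le hU₀X hTle) hXsup
  have hinf2 : U₀ ⊓ T = ⊥ := by
    rw [eq_bot_iff]
    rintro x ⟨h1, -, h3⟩
    exact Submodule.disjoint_def.mp hcompl.disjoint x (hle h1) h3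
  have hdimT := Submodule.finrank_sup_add_finrank_inf_eq U₀ T
  rw [hX', hinf2, finrank_bot, add_zero] at hdimT
  refine ⟨T, inf_le_right, fun x hx => hXts x hx.1, ?_⟩
  omega

end Cfsg.Agent.Lib.Classical.Asch.OKey4
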