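import Mathlib
import Cfsg.Agent.Lib.Classical.Asch.OKey4

/-!
# Pairs of totally singular subspaces from tensor decompositions, and plus type of the members of isometric decompositions
-/

set_option autoImplicit false
set_option linter.style.haveILetI false
set_option linter.unusedSectionVars false

namespace Cfsg.Agent.Lib.Classical.Asch.OKey5

open scoped MatrixGroups Matrix Kronecker
open Module Cfsg Cfsg.Geo QuadraticMap
open Cfsg.Agent.Lib.Classical.Asch.Basic Cfsg.Agent.Lib.Classical.Asch.Forms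
open Cfsg.Agent.Lib.Classical.Asch.FormO Cfsg.Agent.Lib.Classical.Asch.FormOE
open Cfsg.Agent.Lib.Classical.Asch.SpThree Cfsg.Agent.Lib.Classical.Asch.OType
open Cfsg.Agent.Lib.Classical.Asch.OField Cfsg.Agent.Lib.Classical.Asch.OEMax
open Cfsg.Agent.Lib.Classical.Asch.FormPerp Cfsg.Agent.Lib.Classical.Asch.Adj
open Cfsg.Agent.Lib.Classical.Asch.FormSympType
open Cfsg.Agent.Lib.Classical.Asch.OKey Cfsg.Agent.Lib.Classical.Asch.OKey3 Cfsg.Agent.Lib.Classical.Asch.OKey4
open Cfsg.Agent.Lib.Classical.Asch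
open Cfsg.Agent.Lib.Classical.Geo.OPts

variable {ι : Type} [Fintype ι] [DecidableEq ι] {F : Type*} [Field F] [Fintype F] {Q : (ι → F) → F} {H : Subgroup (GL ι F)}

/-- **A skew involution up to scalars** has two totally singular eigenspaces, permuted by everything that normalises it. -/
theorem pair_of_skew (h2 : (2 : F) ≠ 0) (hQ : IsNondegenerateQuadraticForm Q) {m : ℕ} (hm : 0 < m) (hc : Fintype.card ι = 2 * m)
    {N : Matrix ι ι F} {s : F} (hs : s ≠ 0) (hNN : N * N = (s * s) • (1 : Matrix ι ι F))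
    (hskew : ∀ x y, polar Q (N *ᵥ x) y = polar Q x ((-N) *ᵥ y))
    (hcomm : ∀ g ∈ H, ∃ l : F, (g : Matrix ι ι F) * N = l • (N * (g : Matrix ι ι F))) :
    ∃ D : Fin 2 → Submodule F (ι → F), IsMDecomposition m D ∧ (∀ i, IsTotallySingularQuad Q (D i)) ∧ H ≤ decompositionStabilizer D := by
  classical
  have hf := reflForm_polar hQ
  have hbil := hQ.polar_bilinear
  haveI : Nonempty ι := Fintype.card_pos_iff.mp (by omega)
  let E : F → Submodule F (ι → F) := fun c =>
    { carrier := {v | N *ᵥ v = c • v}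
      add_mem' := fun {a b} ha hb => by
        change N *ᵥ (a + b) = c • (a + b)
        rw [Matrix.mulVec_add, smul_add, ha, hb]
      zero_mem' := by
        change N *ᵥ (0 : ι → F) = c • (0 : ι → F)
        simp
      smul_mem' := fun d a ha => by
        change N *ᵥ (d • a) = c • (d • a)
        rw [Matrix.mulVec_smul, ha, smul_comm] }
  have hmemE : ∀ c v, v ∈ E c ↔ N *ᵥ v = c • v := fun c v => Iff.rfl
  have hNv : ∀ v : ι → F, N *ᵥ (N *ᵥ v) = (s * s) • v := by
    intro v
    rw [Matrix.mulVec_mulVec, hNN, Matrix.smul_mulVec, Matrix.one_mulVec]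
  have hpol : ∀ c : F, c ≠ 0 → ∀ u ∈ E c, ∀ v ∈ E c, polar Q u v = 0 := by
    intro c hc0 u hu v hv
    have h3 := hskew u v
    rw [Matrix.neg_mulVec, (hmemE c u).mp hu, (hmemE c v).mp hv, hf.neg_right, hf.smul_right, hbil.smul_left] at h3
    have h5 : (2 * c) * polar Q u v = 0 := by
      simp only [RingEquiv.refl_apply] at h3
      linear_combination h3
    exact (mul_eq_zero.mp h5).resolve_left (mul_ne_zero h2 hc0)
  have hts : ∀ c : F, c ≠ 0 → IsTotallySingularQuad Q (E c) := by
    intro c hc0 u hu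
    have h3 := hpol c hc0 u hu u hu
    rw [polar_self_eq hQ] at h3
    exact (mul_eq_zero.mp h3).resolve_left h2
  have hle : ∀ c : F, c ≠ 0 → finrank F (E c) ≤ m := by
    intro c hc0
    have h3 := finrank_perpF hf (E c)
    have h5 : finrank F (E c) ≤ finrank F (perpF hf (E c)) := Submodule.finrank_mono fun v hv u hu => hpol c hc0 u hu v hv
    omega
  have hs' : -s ≠ 0 := neg_ne_zero.mpr hs
  have h2s : 2 * s ≠ 0 := mul_ne_zero h2 hs
  have hdisj : E s ⊓ E (-s) = ⊥ := by
    rw [Submodule.eq_bot_iff]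
    rintro x ⟨hx, hx'⟩
    have h3 : N *ᵥ x = s • x := hx
    have h5 : N *ᵥ x = (-s) • x := hx'
    rw [h3] at h5
    have h6 : (2 * s) • x = 0 := by
      rw [two_mul, add_smul]
      nth_rewrite 2 [h5]
      rw [neg_smul, add_neg_cancel]
    exact (smul_eq_zero.mp h6).resolve_left h2s
  have hsup : E s ⊔ E (-s) = ⊤ := by
    rw [eq_top_iff]
    intro v _
    have h3 : (2 * s)⁻¹ • (N *ᵥ v + s • v) ∈ E s := by
      rw [hmemE, Matrix.mulVec_smul, Matrix.mulVec_add, Matrix.mulVec_smul, hNv, smul_comm s ((2 * s)⁻¹)]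
      congr 1
      module
    have h5 : (2 * s)⁻¹ • (s • v - N *ᵥ v) ∈ E (-s) := by
      rw [hmemE, Matrix.mulVec_smul, Matrix.mulVec_sub, Matrix.mulVec_smul, hNv, smul_comm (-s) ((2 * s)⁻¹)]
      congr 1
      module
    have h6 : v = (2 * s)⁻¹ • (N *ᵥ v + s • v) + (2 * s)⁻¹ • (s • v - N *ᵥ v) := by
      have h7 : (N *ᵥ v + s • v) + (s • v - N *ᵥ v) = (2 * s) • v := by
        rw [two_mul, add_smul]
        abel
      rw [← smul_add, h7, smul_smul, inv_mul_cancel₀ h2s, one_smul]
    rw [h6]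
    exact Submodule.add_mem_sup h3 h5
  have hdim := Submodule.finrank_sup_add_finrank_inf_eq (E s) (E (-s))
  rw [hsup, hdisj, finrank_bot, add_zero, finrank_top, finrank_fintype_fun_eq_card, hc] at hdim
  have hd1 := hle s hs
  have hd2 := hle (-s) hs'
  have hE1 : finrank F (E s) = m := by omega
  have hE2 : finrank F (E (-s)) = m := by omega
  -- the action on the eigenspaces
  have hact : ∀ g ∈ H, (∀ c v, v ∈ E c → (g : Matrix ι ι F) *ᵥ v ∈ E c) ∨ (∀ c v, v ∈ E c → (g : Matrix ι ι F) *ᵥ v ∈ E (-c)) := by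
    intro g hg
    obtain ⟨l, hl⟩ := hcomm g hg
    have hG0 : (g : Matrix ι ι F) ≠ 0 := by
      intro h0
      have h3 : (g : Matrix ι ι F) * ((g⁻¹ : GL ι F) : Matrix ι ι F) = 1 := by
        rw [← Units.val_mul, mul_inv_cancel, Units.val_one]
      rw [h0, zero_mul] at h3
      exact zero_ne_one h3
    have hll : l * l = 1 := by
      have h3 : (g : Matrix ι ι F) * (N * N) = (l * l) • ((N * N) * (g : Matrix ι ι F)) := by
        calc (g : Matrix ι ι F) * (N * N) = ((g : Matrix ι ι F) * N) * N := by rw [mul_assoc]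
          _ = (l • (N * (g : Matrix ι ι F))) * N := by rw [hl]
          _ = l • (N * ((g : Matrix ι ι F) * N)) := by rw [smul_mul_assoc, mul_assoc]
          _ = l • (N * (l • (N * (g : Matrix ι ι F)))) := by rw [hl]
          _ = _ := by
            rw [mul_smul_comm, smul_smul, mul_assoc]
      rw [hNN, mul_smul_comm, smul_mul_assoc, mul_one, one_mul, smul_smul] at h3
      have h5 : ((s * s) - (l * l * (s * s))) • (g : Matrix ι ι F) = 0 := by
        rw [sub_smul, h3, sub_self]
      have h6 := (smul_eq_zero.mp h5).resolve_right hG0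
      have h7 : (1 - l * l) * (s * s) = 0 := by linear_combination h6
      have h8 := (mul_eq_zero.mp h7).resolve_right (mul_ne_zero hs hs)
      linear_combination -h8
    have hNg : N * (g : Matrix ι ι F) = l • ((g : Matrix ι ι F) * N) := by
      rw [hl, smul_smul, hll, one_smul]
    have hNgv : ∀ v : ι → F, N *ᵥ ((g : Matrix ι ι F) *ᵥ v) = l • ((g : Matrix ι ι F) *ᵥ (N *ᵥ v)) := by
      intro v
      rw [Matrix.mulVec_mulVec, hNg, Matrix.smul_mulVec, Matrix.mulVec_mulVec]
    rcases mul_self_eq_one_iff.mp hll with rfl | rfl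
    · left
      intro c v hv
      rw [hmemE, hNgv, (hmemE c v).mp hv, Matrix.mulVec_smul, one_smul]
    · right
      intro c v hv
      rw [hmemE, hNgv, (hmemE c v).mp hv, Matrix.mulVec_smul, neg_smul, neg_smul, one_smul]
  have hmap : ∀ g ∈ H, ∀ c c' : F, (∀ v, v ∈ E c → (g : Matrix ι ι F) *ᵥ v ∈ E c') → finrank F (E c) = m → finrank F (E c') = m →
      (E c).map (Matrix.toLin' (g : Matrix ι ι F)) = E c' := by
    intro g hg c c' h1 h3 h5
    apply Submodule.eq_of_le_of_finrank_eq
    · rintro _ ⟨v, hv, rfl⟩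
      rw [Matrix.toLin'_apply]
      exact h1 v hv
    · rw [h5, ← h3]
      refine (Submodule.equivMapOfInjective _ ?_ _).finrank_eq.symm
      intro a b hab
      rw [Matrix.toLin'_apply, Matrix.toLin'_apply] at hab
      exact mulVec_injective g hab
  refine ⟨![E s, E (-s)], ⟨le_rfl, hm, ?_, ?_, ?_⟩, ?_, ?_⟩
  · intro i
    fin_cases i
    · exact hE1
    · exact hE2
  · refine (iSupIndep_pair (i := (0 : Fin 2)) (j := 1) (by decide) (by
      intro i
      fin_cases i <;> simp)).mpr ?_
    exact disjoint_iff.mpr hdisj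
  · rw [eq_top_iff, ← hsup]
    refine sup_le ?_ ?_
    · exact le_iSup (fun i => (![E s, E (-s)] : Fin 2 → Submodule F (ι → F)) i) (0 : Fin 2)
    · exact le_iSup (fun i => (![E s, E (-s)] : Fin 2 → Submodule F (ι → F)) i) (1 : Fin 2)
  · intro i
    fin_cases i
    · exact hts s hs
    · exact hts (-s) hs'
  · intro g hg
    rcases hact g hg with h1 | h1
    · refine ⟨1, fun i => ?_⟩
      fin_cases i
      · exact hmap g hg s s (fun v hv => h1 s v hv) hE1 hE1
      · exact hmap g hg (-s) (-s) (fun v hv => h1 (-s) v hv) hE2 hE2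
    · refine ⟨Equiv.swap 0 1, fun i => ?_⟩
      fin_cases i
      · exact hmap g hg s (-s) (fun v hv => h1 s v hv) hE1 hE2
      · refine hmap g hg (-s) s (fun v hv => ?_) hE2 hE1
        have h3 := h1 (-s) v hv
        rwa [neg_neg] at h3

/-- **A symmetric tensor factor of dimension two with a singular vector** gives a pair of totally singular subspaces. -/
theorem exists_pair_of_sym_two [Nonempty ι] (h2 : (2 : F) ≠ 0) (hQ : IsNondegenerateQuadraticForm Q) {k : ℕ} [Nonempty (Fin k)] {e : ι ≃ Fin 2 × Fin k} {P : GL ι F}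
    {f₁ : (Fin 2 → F) → (Fin 2 → F) → F} {f₂ : (Fin k → F) → (Fin k → F) → F} (h1 : IsSymmetricForm f₁) (h3 : IsSymmetricForm f₂)
    (hs : IsTensorFormStructure id (polar Q) f₁ f₂ e P) {u : Fin 2 → F} (hu : u ≠ 0) (hu0 : f₁ u u = 0)
    (hH : H ≤ isometryGroup F Q) (hle : H ≤ tensorProductSubgroup 2 k e P) (hc0 : Fintype.card ι = 2 * k) (hk0 : 0 < k) :
    ∃ D : Fin 2 → Submodule F (ι → F), IsMDecomposition k D ∧ (∀ i, IsTotallySingularQuad Q (D i)) ∧ H ≤ decompositionStabilizer D := by
  classical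
  have hf := reflForm_polar hQ
  set G := gramMatrix f₁ with hG
  have hS : G 1 0 = G 0 1 := h1.symm _ _
  have hGu : IsUnit G := isUnit_gram_of_nondeg h1.bilinear h1.nondegenerate
  set j := jG G with hj
  set δ := G 0 1 * G 0 1 - G 0 0 * G 1 1 with hδ
  have hjj : j * j = δ • (1 : Matrix (Fin 2) (Fin 2) F) := j_mul_j G hS
  -- the discriminant is a non-zero square
  have hδ0 : δ ≠ 0 := by
    intro h0
    have h5 : G.det = 0 := by
      rw [Matrix.det_fin_two, hS]
      linear_combination -h0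
    exact ((Matrix.isUnit_iff_isUnit_det _).mp hGu).ne_zero h5
  obtain ⟨s, hsδ⟩ : ∃ s : F, s * s = δ := by
    have hexp : f₁ u u = G 0 0 * (u 0 * u 0) + 2 * G 0 1 * (u 0 * u 1) + G 1 1 * (u 1 * u 1) := by
      rw [bilinear_expand h1.bilinear]
      simp only [Fin.sum_univ_two, ← hG]
      rw [hS]
      ring
    rw [hexp] at hu0
    by_cases hy : u 1 = 0
    · have hx : u 0 ≠ 0 := by
        intro hx
        apply hu
        funext i
        fin_cases i
        · exact hx
        · exact hy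
      have hG00 : G 0 0 = 0 := by
        rw [hy] at hu0
        have h5 : G 0 0 * (u 0 * u 0) = 0 := by linear_combination hu0
        exact (mul_eq_zero.mp h5).resolve_right (mul_ne_zero hx hx)
      exact ⟨G 0 1, by rw [hδ, hG00]; ring⟩
    · refine ⟨G 0 0 * (u 0 / u 1) + G 0 1, ?_⟩
      rw [hδ]
      field_simp
      linear_combination (G 0 0) * hu0
  have hs0 : s ≠ 0 := by
    rintro rfl
    apply hδ0
    rw [← hsδ]
    ring
  set X' : Matrix (Fin 2 × Fin k) (Fin 2 × Fin k) F := j ⊗ₖ (1 : Matrix (Fin k) (Fin k) F) with hX'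
  set X : Matrix ι ι F := X'.submatrix e e with hX
  have hXX : X * X = δ • (1 : Matrix ι ι F) := by
    rw [hX, hX', Matrix.submatrix_mul_equiv, ← Matrix.mul_kronecker_mul, hjj, mul_one, Matrix.smul_kronecker, Matrix.one_kronecker_one]
    ext a b
    simp [Matrix.smul_apply, Matrix.one_apply, e.injective.eq_iff]
  set Pm : Matrix ι ι F := (P : Matrix ι ι F) with hPm
  set Pi' : Matrix ι ι F := ((P⁻¹ : GL ι F) : Matrix ι ι F) with hPi'
  have hPP : Pi' * Pm = 1 := by
    rw [hPm, hPi', ← Units.val_mul, inv_mul_cancel, Units.val_one]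
  have hPP' : Pm * Pi' = 1 := by
    rw [hPm, hPi', ← Units.val_mul, mul_inv_cancel, Units.val_one]
  set N : Matrix ι ι F := Pm * X * Pi' with hNd
  have hN : N * N = (s * s) • (1 : Matrix ι ι F) := by
    calc N * N = Pm * (X * (Pi' * Pm) * X) * Pi' := by simp only [hNd, mul_assoc]
      _ = Pm * (δ • (1 : Matrix ι ι F)) * Pi' := by rw [hPP, mul_one, hXX]
      _ = _ := by
        rw [mul_smul_comm, mul_one, smul_mul_assoc, hPP', hsδ]
  -- the generator is skew
  have hGs : jᵀ * G = -(G * j) := by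
    ext a b
    fin_cases a <;> fin_cases b <;> simp [hj, jG, Matrix.mul_apply, Fin.sum_univ_two, Matrix.neg_apply, hS] <;> ring
  have hs' := hs
  obtain ⟨c, hc, heq⟩ := hs'
  set G₂ := gramMatrix f₂ with hG₂
  set A' : Matrix (Fin 2 × Fin k) (Fin 2 × Fin k) F := G ⊗ₖ G₂ with hA'
  have hform : ∀ x y : Fin 2 × Fin k → F, formOfGram id A' x y = x ⬝ᵥ (A' *ᵥ y) := by
    intro x y
    simp only [formOfGram, dotProduct, Matrix.mulVec, Finset.mul_sum, id]
    refine Finset.sum_congr rfl fun a _ => Finset.sum_congr rfl fun b _ => ?_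
    ring
  have hXt : X'ᵀ * A' = -(A' * X') := by
    have h5 : X'ᵀ = jᵀ ⊗ₖ (1 : Matrix (Fin k) (Fin k) F) := by
      ext a b
      simp [hX', Matrix.one_apply, eq_comm]
    rw [h5, hA', hX', ← Matrix.mul_kronecker_mul, ← Matrix.mul_kronecker_mul, hGs, one_mul, mul_one]
    ext a b
    simp
  have hXv : ∀ u : Fin 2 × Fin k → F, X *ᵥ (u ∘ e) = (X' *ᵥ u) ∘ e := by
    intro u
    have h5 : (u ∘ e) ∘ e.symm = u := by
      funext i
      simp
    rw [hX, Matrix.submatrix_mulVec_equiv, h5]
  have hNP : ∀ u : ι → F, N *ᵥ (Pm *ᵥ u) = Pm *ᵥ (X *ᵥ u) := by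
    intro u
    rw [hNd, Matrix.mulVec_mulVec, mul_assoc, mul_assoc, hPP, mul_one, Matrix.mulVec_mulVec]
  have hrep : ∀ x : ι → F, ∃ x' : Fin 2 × Fin k → F, x = Pm *ᵥ (x' ∘ e) := by
    intro x
    refine ⟨(Pi' *ᵥ x) ∘ e.symm, ?_⟩
    have h5 : ((Pi' *ᵥ x) ∘ e.symm) ∘ e = Pi' *ᵥ x := by
      funext i
      simp
    rw [h5, Matrix.mulVec_mulVec, hPP', Matrix.one_mulVec]
  have hdot : ∀ x y : Fin 2 × Fin k → F, (X' *ᵥ x) ⬝ᵥ y = x ⬝ᵥ (X'ᵀ *ᵥ y) := by
    intro x y
    rw [Matrix.dotProduct_mulVec, Matrix.vecMul_transpose]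
  have hskew : ∀ x y, polar Q (N *ᵥ x) y = polar Q x ((-N) *ᵥ y) := by
    intro x y
    obtain ⟨x', rfl⟩ := hrep x
    obtain ⟨y', rfl⟩ := hrep y
    rw [hNP, hXv, heq, Matrix.neg_mulVec, hNP, hXv, hf.neg_right, heq, hform, hform, hdot, Matrix.mulVec_mulVec, hXt, Matrix.mulVec_mulVec,
      Matrix.neg_mulVec, dotProduct_neg]
    ring
  refine pair_of_skew h2 hQ hk0 hc0 hs0 hN hskew fun g hg => ?_
  obtain ⟨a, b, hab⟩ := Main.mem_tensorProductSubgroup_iff.mp (hle hg)
  haveI : Nonempty (Fin 2) := ⟨0⟩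
  obtain ⟨μ, hμ, hsim⟩ := factor_sim h1.bilinear h3.bilinear h1.nondegenerate h3.nondegenerate hs (hH hg) hab
  have hgm := gram_sim h1.bilinear hsim
  have hc' := j_conj hS hGu a.isUnit hgm
  set B : Matrix ι ι F := ((P⁻¹ * g * P : GL ι F) : Matrix ι ι F) with hB
  have hBe : B = ((a : Matrix (Fin 2) (Fin 2) F) ⊗ₖ (b : Matrix (Fin k) (Fin k) F)).submatrix e e := by
    ext i i'
    rw [hab]
    rfl
  have hdet : (a : Matrix (Fin 2) (Fin 2) F).det ≠ 0 :=
    ((Matrix.isUnit_iff_isUnit_det _).mp a.isUnit).ne_zero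
  have hcomm : μ • (X * B) = (a : Matrix (Fin 2) (Fin 2) F).det • (B * X) := by
    rw [hX, hX', hBe, Matrix.submatrix_mul_equiv, Matrix.submatrix_mul_equiv, ← Matrix.mul_kronecker_mul, ← Matrix.mul_kronecker_mul,
      one_mul, mul_one]
    have h4 : ∀ (c : F) (A : Matrix (Fin 2) (Fin 2) F), c • (A ⊗ₖ (b : Matrix (Fin k) (Fin k) F)).submatrix e e = ((c • A) ⊗ₖ (b : Matrix (Fin k) (Fin k) F)).submatrix e e := by
      intro c A
      ext r r'
      simp [mul_assoc]
    rw [h4, h4, hc']
  have hBX : B * X = (μ / (a : Matrix (Fin 2) (Fin 2) F).det) • (X * B) := by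
    rw [div_eq_mul_inv, mul_comm, mul_smul, hcomm, smul_smul, inv_mul_cancel₀ hdet, one_smul]
  have hgB : (g : Matrix ι ι F) = Pm * B * Pi' := by
    rw [hB, hPm, hPi', ← Units.val_mul, ← Units.val_mul]
    congr 1
    group
  refine ⟨μ / (a : Matrix (Fin 2) (Fin 2) F).det, ?_⟩
  calc (g : Matrix ι ι F) * N = Pm * (B * (Pi' * Pm) * X) * Pi' := by
        rw [hgB, hNd]
        simp only [mul_assoc]
    _ = Pm * (B * X) * Pi' := by rw [hPP, mul_one]
    _ = (μ / (a : Matrix (Fin 2) (Fin 2) F).det) • (Pm * (X * (Pi' * Pm) * B) * Pi') := by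
        rw [hBX, hPP, mul_one, mul_smul_comm, smul_mul_assoc]
    _ = _ := by
        rw [hgB, hNd]
        simp only [mul_assoc]

/-- In odd characteristic, an odd number of isometric planes in a space of plus type are of plus type. -/
theorem odd_plane_plus (h2 : (2 : F) ≠ 0) (hQ : IsNondegenerateQuadraticForm Q) {t : ℕ} {D : Fin t → Submodule F (ι → F)}
    (hD : IsOrthogonalMDecomposition Q 2 D) (ht : Odd t) (hc : Fintype.card ι = 2 * t) (hplus : IsPlusTypeOn Q ⊤) (i : Fin t) : IsPlusTypeOn Q (D i) := by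
  classical
  have hbil := hQ.polar_bilinear
  obtain ⟨b, G₀, q₀, hb, hG, hq⟩ := exists_block_basis hQ hD
  have h1 := plus_iff_disc h2 hQ ht.pos hc b
  have h3 : (Matrix.of fun i j => polar Q (b i) (b j)) = Matrix.blockDiagonal fun _ : Fin t => G₀ := by
    ext p p'
    rw [Matrix.of_apply, hG, Matrix.blockDiagonal_apply]
  rw [h3, Matrix.det_blockDiagonal, Finset.prod_const, Finset.card_univ, Fintype.card_fin] at h1
  have h4 := h1.mp hplus
  rw [ht.neg_one_pow] at h4
  have hsq : IsSquare (-G₀.det) := by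
    by_cases hd : G₀.det = 0
    · rw [hd]
      simp
    · obtain ⟨s', hs'⟩ := ht
      have h5 : (-1 : F) * G₀.det ^ t = (G₀.det ^ s') ^ 2 * (-G₀.det) := by
        rw [hs']
        ring
      rw [h5] at h4
      exact (Cfsg.Agent.Lib.Classical.Witt.Disc.isSquare_sq_mul_iff (pow_ne_zero _ hd)).mp h4
  obtain ⟨s, hs⟩ := hsq
  have hG00 : G₀ 0 0 = 2 * q₀ 0 := by
    have h5 := hG (0, i) (0, i)
    rw [if_pos rfl, polar_self_eq hQ, hq] at h5
    exact h5.symm
  have hG11 : G₀ 1 1 = 2 * q₀ 1 := by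
    have h5 := hG (1, i) (1, i)
    rw [if_pos rfl, polar_self_eq hQ, hq] at h5
    exact h5.symm
  have hG10 : G₀ 1 0 = G₀ 0 1 := by
    have e1 := hG (1, i) (0, i)
    have e2 := hG (0, i) (1, i)
    rw [if_pos rfl] at e1 e2
    rw [← e1, ← e2, polar_comm]
  rw [Matrix.det_fin_two, hG00, hG11, hG10] at hs
  have hd2 : finrank F (D i) = 2 := hD.decomp.decomp.finrank_eq i
  have key : ∃ v ∈ D i, v ≠ 0 ∧ Q v = 0 := by
    by_cases h00 : q₀ 0 = 0
    · exact ⟨b (0, i), hb (0, i), b.ne_zero _, by rw [hq, h00]⟩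
    · refine ⟨((s - G₀ 0 1) / (2 * q₀ 0)) • b (0, i) + b (1, i), (D i).add_mem ((D i).smul_mem _ (hb (0, i))) (hb (1, i)), ?_, ?_⟩
      · intro h0
        have h5 := congrArg (fun v => b.repr v (1, i)) h0
        simp at h5
      · rw [Q_add' Q, hQ.smul, hq, hq, hbil.smul_left, hG, if_pos rfl]
        field_simp
        linear_combination (-1 : F) * hs
  obtain ⟨v, hv, hv0, hQv⟩ := key
  refine ⟨Submodule.span F {v}, (Submodule.span_singleton_le_iff_mem _ _).mpr hv, ?_, ?_⟩
  · intro w hw
    obtain ⟨c, rfl⟩ := Submodule.mem_span_singleton.mp hw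
    rw [hQ.smul, hQv, mul_zero]
  · rw [finrank_span_singleton hv0, hd2]

/-- In characteristic two, a space of plus type with an odd number of isometric members has members of plus type. -/
theorem odd_block_plus_two (h2 : (2 : F) = 0) (hQ : IsNondegenerateQuadraticForm Q) {t k : ℕ} {D : Fin t → Submodule F (ι → F)}
    (hD : IsOrthogonalMDecomposition Q k D) (ht : Odd t) (hplus : IsPlusTypeOn Q ⊤) (i : Fin t) : IsPlusTypeOn Q (D i) := by
  classical
  have hbil := hQ.polar_bilinear
  obtain ⟨b, G₀, q₀, hb, hG, hq⟩ := exists_block_basis hQ hD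
  obtain ⟨s, hs⟩ := ht
  subst hs
  let j₀ : Fin (2 * s + 1) := ⟨0, by omega⟩
  refine plus_of_isometric (hD.isometric j₀ i) ?_
  let l : Fin s → Fin (2 * s + 1) := fun i => ⟨i + 1, by omega⟩
  let r : Fin s → Fin (2 * s + 1) := fun i => ⟨s + i + 1, by omega⟩
  have hlr : ∀ i i', l i ≠ r i' := by
    intro i i' h
    have := congrArg Fin.val h
    simp only [l, r] at this
    omega
  have hl : ∀ i i', l i = l i' ↔ i = i' := by
    intro i i'
    simp only [l, Fin.mk.injEq]
    rw [Nat.add_right_cancel_iff]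
    exact Fin.val_inj
  have hr : ∀ i i', r i = r i' ↔ i = i' := by
    intro i i'
    simp only [r, Fin.mk.injEq]
    rw [Nat.add_right_cancel_iff, Nat.add_right_inj]
    exact Fin.val_inj
  have hl0 : ∀ i, l i ≠ j₀ := by
    intro i h
    have := congrArg Fin.val h
    simp only [l, j₀] at this
    omega
  have hr0 : ∀ i, r i ≠ j₀ := by
    intro i h
    have := congrArg Fin.val h
    simp only [r, j₀] at this
    omega
  let z : Fin k × Fin s → ι → F := fun a => b (a.1, l a.2) + b (a.1, r a.2)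
  have hcard := Block.card_eq_mul hD.decomp.decomp
  have hdec := hD.decomp.decomp
  set P : Submodule F (ι → F) := ⨆ j, ⨆ (_ : j ≠ j₀), D j with hP
  have hcompl : IsCompl P (D j₀) := by
    refine ⟨(hdec.indep j₀).symm, ?_⟩
    rw [codisjoint_iff, eq_top_iff, ← hdec.iSup_eq_top]
    refine iSup_le fun j => ?_
    by_cases hj : j = j₀
    · subst hj
      exact le_sup_right
    · exact le_trans (le_iSup₂_of_le j hj le_rfl) le_sup_left
  have horth : ∀ u ∈ P, ∀ v ∈ D j₀, polar Q u v = 0 := by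
    intro u hu v hv
    have hP' : P ≤ perpF (reflForm_polar hQ) (D j₀) := by
      refine iSup₂_le fun j hj => ?_
      intro x hx y hy
      exact hD.decomp.orthogonal j₀ j hj.symm y hy x hx
    rw [polar_comm]
    exact hP' hu v hv
  have hmemP : ∀ j, j ≠ j₀ → D j ≤ P := fun j hj => le_iSup₂_of_le j hj le_rfl
  have hz0 : ∀ a, Q (z a) = 0 := by
    intro a
    simp only [z]
    rw [Q_add' Q, hq, hq, hG, if_neg (fun h => hlr _ _ h)]
    simp only
    linear_combination (q₀ a.1) * h2
  have hzp : ∀ a a', polar Q (z a) (z a') = 0 := by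
    intro a a'
    simp only [z]
    rw [hbil.add_left, hbil.add_right, hbil.add_right, hG, hG, hG, hG]
    simp only [hl, hr, if_neg (hlr _ _), if_neg ((hlr _ _).symm)]
    by_cases h : a.2 = a'.2
    · simp only [h, if_true]
      linear_combination (G₀ a.1 a'.1) * h2
    · simp [h]
  have hli : LinearIndependent F z := by
    rw [Fintype.linearIndependent_iff]
    intro c hc a
    have h3 := congrArg (fun v => b.repr v (a.1, l a.2)) hc
    simp only [z, map_sum, map_smul, map_add, Finsupp.coe_finsetSum, Finset.sum_apply, Finsupp.coe_smul, Pi.smul_apply,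
      Finsupp.coe_add, Pi.add_apply, Basis.repr_self, map_zero, Finsupp.coe_zero, Pi.zero_apply, smul_eq_mul] at h3
    rw [Finset.sum_eq_single a] at h3
    · rw [Finsupp.single_apply, if_pos rfl, Finsupp.single_apply, if_neg (by simp [(hlr _ _).symm]), add_zero, mul_one] at h3
      exact h3
    · intro a' _ ha'
      rw [Finsupp.single_apply, if_neg, Finsupp.single_apply, if_neg (by simp [(hlr _ _).symm]), add_zero, mul_zero]
      simp only [Prod.mk.injEq, hl]
      intro h5
      exact ha' (Prod.ext h5.1 h5.2)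
    · intro h
      exact absurd (Finset.mem_univ _) h
  have hdim := Submodule.finrank_add_eq_of_isCompl hcompl
  rw [hdec.finrank_eq, finrank_fintype_fun_eq_card, hcard] at hdim
  refine perp_plus hQ hplus hcompl horth (U₀ := Submodule.span F (Set.range z)) ?_ ?_ ?_
  · rw [Submodule.span_le]
    rintro _ ⟨a, rfl⟩
    exact P.add_mem (hmemP _ (hl0 _) (hb (a.1, l a.2))) (hmemP _ (hr0 _) (hb (a.1, r a.2)))
  · intro w hw
    obtain ⟨c, rfl⟩ := (Submodule.mem_span_range_iff_exists_fun F).mp hw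
    rw [Q_sum_iso hQ _ _ _ fun a _ b _ => hzp a b]
    exact Finset.sum_eq_zero fun a _ => by rw [hz0, mul_zero]
  · rw [finrank_span_eq_card hli, Fintype.card_prod, Fintype.card_fin, Fintype.card_fin]
    have h5 : (2 * s + 1) * k = 2 * (k * s) + k := by ring
    omega

/-- Hyperbolic pairs in the planes of a decomposition. -/
theorem exists_hyp_family (hQ : IsNondegenerateQuadraticForm Q) {t : ℕ} {D : Fin t → Submodule F (ι → F)}
    (hD : IsOrthogonalMDecomposition Q 2 D) (hp : ∀ i, IsPlusTypeOn Q (D i)) :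
    ∃ e f : Fin t → ι → F, ∀ i, e i ∈ D i ∧ f i ∈ D i ∧ Q (e i) = 0 ∧ Q (f i) = 0 ∧ polar Q (e i) (f i) = 1 ∧ D i = Submodule.span F {e i, f i} := by
  obtain ⟨Q', rfl, hQ'⟩ := exists_quadraticForm hQ
  have h1 := fun i => Cfsg.Agent.Lib.Classical.Geo.OPlane.exists_basis hQ' (hD.decomp.decomp.finrank_eq i) (hD.decomp.nondegenerate i) (hp i)
  choose e he f hf hQe hQf hef hW using h1
  exact ⟨e, f, fun i => ⟨he i, hf i, hQe i, hQf i, hef i, hW i⟩⟩

theorem Q_hyp (hQ : IsNondegenerateQuadraticForm Q) {e f : ι → F} (hQe : Q e = 0) (hQf : Q f = 0) (hef : polar Q e f = 1) (a b : F) :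
    Q (a • e + b • f) = a * b := by
  have hbil := hQ.polar_bilinear
  rw [Q_add' Q, hQ.smul, hQ.smul, hQe, hQf, hbil.smul_left, hbil.smul_right, hef]
  ring

theorem polar_hyp (hQ : IsNondegenerateQuadraticForm Q) {e f : ι → F} (hQe : Q e = 0) (hQf : Q f = 0) (hef : polar Q e f = 1) (a b c d : F) :
    polar Q (a • e + b • f) (c • e + d • f) = a * d + b * c := by
  have hbil := hQ.polar_bilinear
  simp only [hbil.add_left, hbil.add_right, hbil.smul_left, hbil.smul_right]
  rw [polar_self_eq hQ e, polar_self_eq hQ f, hQe, hQf, polar_comm Q f e, hef]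
  ring

/-- Over fields in which every non-zero element squares to one, a plus plane has a canonical line. -/
theorem line_family (hQ : IsNondegenerateQuadraticForm Q) (hx : ∀ x : F, x ≠ 0 → x * x = 1) {t : ℕ} {D : Fin t → Submodule F (ι → F)}
    (hD : IsOrthogonalMDecomposition Q 2 D) (hp : ∀ i, IsPlusTypeOn Q (D i)) :
    ∃ v : Fin t → ι → F, (∀ i, v i ∈ D i) ∧ (∀ i, Q (v i) = 1) ∧ (∀ i, ∀ y ∈ D i, Q y = 1 → ∃ s : F, y = s • v i) := by
  obtain ⟨e, f, h⟩ := exists_hyp_family hQ hD hp
  refine ⟨fun i => e i + f i, fun i => (D i).add_mem (h i).1 (h i).2.1, fun i => ?_, fun i y hy hy1 => ?_⟩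
  · obtain ⟨-, -, hQe, hQf, hef, -⟩ := h i
    have h3 := Q_hyp hQ hQe hQf hef 1 1
    rw [one_smul, one_smul, one_mul] at h3
    exact h3
  · obtain ⟨-, -, hQe, hQf, hef, hW⟩ := h i
    rw [hW, Submodule.mem_span_pair] at hy
    obtain ⟨a, b, rfl⟩ := hy
    rw [Q_hyp hQ hQe hQf hef] at hy1
    have ha : a ≠ 0 := by
      rintro rfl
      rw [zero_mul] at hy1
      exact zero_ne_one hy1
    have hab : b = a := by
      have h3 := hx a ha
      calc b = (a * a) * b := by rw [h3, one_mul]
        _ = a * (a * b) := by ring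
        _ = a := by rw [hy1, mul_one]
    refine ⟨a, ?_⟩
    rw [hab, smul_add]

/-- The span of a canonical family of vectors is invariant. -/
theorem inv_span_family {t : ℕ} {D : Fin t → Submodule F (ι → F)} {v : Fin t → ι → F} (hvD : ∀ i, v i ∈ D i) (hvQ : ∀ i, Q (v i) = 1)
    (huniq : ∀ i, ∀ y ∈ D i, Q y = 1 → ∃ s : F, y = s • v i) (hle : H ≤ isometryGroup F Q) (hst : H ≤ decompositionStabilizer D) :
    Inv H (Submodule.span F (Set.range v)) := by
  intro g hg x hx
  induction hx using Submodule.span_induction with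
  | mem x hx =>
    obtain ⟨i, rfl⟩ := hx
    obtain ⟨π, hπ⟩ := hst hg
    have h4 : (g : Matrix ι ι F) *ᵥ v i ∈ D (π i) := by
      rw [← hπ]
      exact ⟨_, hvD _, rfl⟩
    obtain ⟨s, hs⟩ := huniq _ _ h4 (by rw [Q_act_eq (hle hg), hvQ])
    rw [hs]
    exact Submodule.smul_mem _ _ (Submodule.subset_span ⟨_, rfl⟩)
  | zero =>
    rw [Matrix.mulVec_zero]
    exact zero_mem _
  | add x y _ _ hx hy =>
    rw [Matrix.mulVec_add]
    exact add_mem hx hy
  | smul c x _ hx =>
    rw [Matrix.mulVec_smul]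
    exact Submodule.smul_mem _ _ hx

/-- Linear independence for vectors in the summands of a decomposition. -/
theorem li_family {t m : ℕ} {D : Fin t → Submodule F (ι → F)} (hD : IsMDecomposition m D) {v : Fin t → ι → F} (hvD : ∀ i, v i ∈ D i) (hv0 : ∀ i, v i ≠ 0) :
    LinearIndependent F v :=
  hD.indep.linearIndependent _ hvD hv0

/-- **The field of order three.** The canonical vectors of plus planes span a non-degenerate invariant subspace. -/
theorem three_out (hq : Fintype.card F = 3) (hQ : IsNondegenerateQuadraticForm Q) {t : ℕ} {D : Fin t → Submodule F (ι → F)}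
    (hD : IsOrthogonalMDecomposition Q 2 D) (hp : ∀ i, IsPlusTypeOn Q (D i)) (hle : H ≤ isometryGroup F Q) (hst : H ≤ decompositionStabilizer D) :
    ∃ U : Submodule F (ι → F), IsNondegenerateOn (polar Q) U ∧ finrank F U = t ∧ H ≤ subspaceStabilizer U := by
  classical
  have hbil := hQ.polar_bilinear
  have h2 := two_ne_zero_three hq (F := F)
  obtain ⟨v, hvD, hvQ, huniq⟩ := line_family hQ (fun x hx => by rw [← pow_two]; exact sq_three hq hx) hD hp
  have hv0 : ∀ i, v i ≠ 0 := by
    intro i h0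
    have h3 := hvQ i
    rw [h0, Q_zero hQ] at h3
    exact zero_ne_one h3
  have hli := li_family hD.decomp.decomp hvD hv0
  have horth : ∀ i j, polar Q (v i) (v j) = if i = j then 2 else 0 := by
    intro i j
    by_cases hij : i = j
    · subst hij
      rw [if_pos rfl, polar_self_eq hQ, hvQ, mul_one]
    · rw [if_neg hij]
      exact hD.decomp.orthogonal i j hij _ (hvD i) _ (hvD j)
  refine ⟨Submodule.span F (Set.range v), ?_, ?_, le_subspaceStabilizer (inv_span_family hvD hvQ huniq hle hst)⟩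
  · intro w hw hw0
    obtain ⟨c, rfl⟩ := (Submodule.mem_span_range_iff_exists_fun F).mp hw
    obtain ⟨i, hi⟩ : ∃ i, c i ≠ 0 := by
      by_contra hcon
      push Not at hcon
      apply hw0
      exact Finset.sum_eq_zero fun i _ => by rw [hcon i, zero_smul]
    have hval : polar Q (v i) (∑ j, c j • v j) = c i * 2 := by
      rw [(isSesq_of_bilinear hbil).sum_right, Finset.sum_eq_single i]
      · rw [hbil.smul_right, horth, if_pos rfl]
      · intro j _ hj
        rw [hbil.smul_right, horth, if_neg (Ne.symm hj), mul_zero]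
      · intro h
        exact absurd (Finset.mem_univ _) h
    have hne : c i * 2 ≠ 0 := mul_ne_zero hi h2
    refine ⟨⟨v i, Submodule.subset_span ⟨i, rfl⟩, ?_⟩, ⟨v i, Submodule.subset_span ⟨i, rfl⟩, ?_⟩⟩
    · rwa [hval]
    · rwa [polar_comm, hval]
  · rw [finrank_span_eq_card hli, Fintype.card_fin]

theorem polar_span_zero (hQ : IsNondegenerateQuadraticForm Q) {κ : Type} {v : κ → ι → F} (A : ∀ i j, polar Q (v i) (v j) = 0) :
    ∀ u ∈ Submodule.span F (Set.range v), ∀ w ∈ Submodule.span F (Set.range v), polar Q u w = 0 := by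
  have hbil := hQ.polar_bilinear
  have hzr : ∀ x : ι → F, polar Q x 0 = 0 := fun x => by simpa using hbil.smul_right 0 x 0
  have hzl : ∀ x : ι → F, polar Q 0 x = 0 := fun x => by simpa using hbil.smul_left 0 0 x
  intro u hu w hw
  induction hu using Submodule.span_induction with
  | mem x hx =>
    obtain ⟨i, rfl⟩ := hx
    induction hw using Submodule.span_induction with
    | mem y hy =>
      obtain ⟨j, rfl⟩ := hy
      exact A i j
    | zero => exact hzr _
    | add a b _ _ ha hb => rw [hbil.add_right, ha, hb, add_zero]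
    | smul c a _ ha => rw [hbil.smul_right, ha, mul_zero]
  | zero => exact hzl _
  | add a b _ _ ha hb => rw [hbil.add_left, ha, hb, add_zero]
  | smul c a _ ha => rw [hbil.smul_left, ha, mul_zero]

/-- **The field of order two.** A plus type space cannot have a maximal subgroup stabilising a decomposition into plus planes. -/
theorem two_false (hq : Fintype.card F = 2) (hQ : IsNondegenerateQuadraticForm Q) (hplus : IsPlusTypeOn Q ⊤) (hH : IsMaximalIn (omegaGL Q) H) {m : ℕ} (hm : 4 ≤ m)
    (hc : Fintype.card ι = 2 * (m + 1)) {D : Fin (m + 1) → Submodule F (ι → F)}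
    (hD : IsOrthogonalMDecomposition Q 2 D) (hp : ∀ i, IsPlusTypeOn Q (D i)) (hle : H ≤ isometryGroup F Q) (hst : H ≤ decompositionStabilizer D) : False := by
  classical
  have hval : ∀ c : F, c = 0 ∨ c = 1 := by
    intro c
    by_contra hcon
    push Not at hcon
    have h1 : ({0, 1, c} : Finset F).card ≤ Fintype.card F := Finset.card_le_univ _
    rw [hq, Finset.card_insert_of_notMem (by
      simp only [Finset.mem_insert, Finset.mem_singleton, not_or]
      exact ⟨zero_ne_one, hcon.1.symm⟩), Finset.card_insert_of_notMem (by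
      simp only [Finset.mem_singleton]
      exact hcon.2.symm), Finset.card_singleton] at h1
    omega
  have h2 : (2 : F) = 0 := by
    rcases hval 2 with h | h
    · exact h
    · exfalso
      have h3 : (1 : F) = 0 := by linear_combination h
      exact one_ne_zero h3
  have hbil := hQ.polar_bilinear
  obtain ⟨v, hvD, hvQ, huniq⟩ := line_family hQ (fun x hx => by rw [(hval x).resolve_left hx, one_mul]) hD hp
  have hv0 : ∀ i, v i ≠ 0 := by
    intro i h0
    have h3 := hvQ i
    rw [h0, Q_zero hQ] at h3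
    exact zero_ne_one h3
  have hli := li_family hD.decomp.decomp hvD hv0
  have horth : ∀ i j, polar Q (v i) (v j) = 0 := by
    intro i j
    by_cases hij : i = j
    · subst hij
      rw [polar_self_eq hQ, h2, zero_mul]
    · exact hD.decomp.orthogonal i j hij _ (hvD i) _ (hvD j)
  set U := Submodule.span F (Set.range v) with hU
  have hUpol := polar_span_zero hQ horth
  set U₀ := radKer hQ U hUpol with hU₀
  have hInv : Inv H U := inv_span_family hvD hvQ huniq hle hst
  have hInv₀ : Inv H U₀ := by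
    intro g hg x hx
    exact ⟨hInv g hg x hx.1, by rw [Q_act_eq (hle hg)]; exact hx.2⟩
  have hts : IsTotallySingularQuad Q U₀ := fun x hx => hx.2
  have hUd : finrank F U = m + 1 := by
    rw [hU, finrank_span_eq_card hli, Fintype.card_fin]
  set v₀ := v 0 with hv₀
  have hv₀U : v₀ ∈ U := Submodule.subset_span ⟨0, rfl⟩
  have hinf : U₀ ⊓ Submodule.span F {v₀} = ⊥ := by
    rw [Submodule.eq_bot_iff]
    rintro x ⟨hx, hx'⟩
    obtain ⟨c, rfl⟩ := Submodule.mem_span_singleton.mp hx'
    have h3 := hx.2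
    rw [hQ.smul, hvQ, mul_one] at h3
    have hc0 : c = 0 := by simpa using h3
    rw [hc0, zero_smul]
  have hsup : U₀ ⊔ Submodule.span F {v₀} = U := by
    apply le_antisymm
    · refine sup_le (fun x hx => hx.1) ?_
      rwa [Submodule.span_singleton_le_iff_mem]
    · intro u hu
      rcases hval (Q u) with h0 | h1
      · exact Submodule.mem_sup_left ⟨hu, h0⟩
      · have h3 : u + v₀ ∈ U₀ := by
          refine ⟨U.add_mem hu hv₀U, ?_⟩
          rw [Q_add' Q, h1, hvQ, hUpol u hu v₀ hv₀U]
          linear_combination h2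
        have h5 : u = (u + v₀) + (-1 : F) • v₀ := by
          rw [neg_one_smul, add_neg_cancel_right]
        rw [h5]
        exact Submodule.add_mem_sup h3 (Submodule.smul_mem _ _ (Submodule.mem_span_singleton_self _))
  have hdim := Submodule.finrank_sup_add_finrank_inf_eq U₀ (Submodule.span F {v₀})
  rw [hsup, hinf, finrank_bot, add_zero, finrank_span_singleton (hv0 0), hUd] at hdim
  exact no_ts_half hQ hplus hH hm hc hts (by omega) (le_subspaceStabilizer hInv₀)

/-- **The field of order five.** Decompositions into plus planes refine to frames. -/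
theorem frame_of_five (hq : Fintype.card F = 5) (hQ : IsNondegenerateQuadraticForm Q) {t : ℕ} {D : Fin t → Submodule F (ι → F)}
    (hD : IsOrthogonalMDecomposition Q 2 D) (hp : ∀ i, IsPlusTypeOn Q (D i)) :
    ∃ D' : Fin (t * 2) → Submodule F (ι → F), IsOrthogonalMDecomposition Q 1 D' ∧
      ∀ g ∈ isometryGroup F Q, g ∈ decompositionStabilizer D → g ∈ decompositionStabilizer D' := by
  classical
  obtain ⟨Q', rfl, hQ'⟩ := exists_quadraticForm hQ
  have h5 : (5 : F) = 0 := by
    have h3 := FiniteField.cast_card_eq_zero F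
    rw [hq] at h3
    exact_mod_cast h3
  have h2 : (2 : F) ≠ 0 := by
    intro h
    have h3 : (1 : F) = 0 := by linear_combination h5 - 2 * h
    exact one_ne_zero h3
  obtain ⟨e, f, h⟩ := exists_hyp_family hQ hD hp
  have ht := hD.decomp.decomp.two_le
  let i₀ : Fin t := ⟨0, by omega⟩
  obtain ⟨he, hf, hQe, hQf, hef, hW⟩ := h i₀
  set e₀ := e i₀ with he₀
  set f₀ := f i₀ with hf₀
  let z : Fin 2 → ι → F := ![(1 : F) • e₀ + (1 : F) • f₀, (2 : F) • e₀ + (3 : F) • f₀]
  have hP := polar_hyp hQ hQe hQf hef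
  refine OKey.frame_of_family (c := 2) (i₀ := i₀) (z := z) h2 hQ' rfl hD h2 (fun j => ?_) (fun a b => ?_) (fun y hy hyc => ?_)
  · fin_cases j
    · exact (D i₀).add_mem ((D i₀).smul_mem _ he) ((D i₀).smul_mem _ hf)
    · exact (D i₀).add_mem ((D i₀).smul_mem _ he) ((D i₀).smul_mem _ hf)
  · fin_cases a <;> fin_cases b <;> simp only [z, Fin.isValue, Matrix.cons_val_zero, Matrix.cons_val_one, Fin.zero_eta, Fin.mk_one, if_true, Matrix.cons_val_fin_one, Fin.reduceEq, if_false, zero_ne_one, one_ne_zero]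
    · rw [hP]
      ring
    · rw [hP]
      linear_combination h5
    · rw [hP]
      linear_combination h5
    · rw [hP]
      linear_combination 2 * h5
  · rw [hW, Submodule.mem_span_pair] at hy
    obtain ⟨a, b, rfl⟩ := hy
    rw [hP] at hyc
    have hab : a * b = 1 := by
      have h3 : 2 * (a * b - 1) = 0 := by linear_combination hyc
      have h6 := (mul_eq_zero.mp h3).resolve_left h2
      linear_combination h6
    have ha : a ≠ 0 := by
      rintro rfl
      rw [zero_mul] at hab
      exact zero_ne_one hab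
    have h4 : a ^ 4 = 1 := by
      have h3 := FiniteField.pow_card_sub_one_eq_one a ha
      rw [hq] at h3
      exact h3
    have hfac : (a * a - 1) * (a * a + 1) = 0 := by linear_combination h4
    rcases mul_eq_zero.mp hfac with h6 | h6
    · have hb : b = a := by
        have h7 : a * a = 1 := by linear_combination h6
        calc b = (a * a) * b := by rw [h7, one_mul]
          _ = a * (a * b) := by ring
          _ = a := by rw [hab, mul_one]
      refine ⟨0, a, ha, ?_⟩
      simp only [z, Matrix.cons_val_zero]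
      rw [hb, one_smul, one_smul, smul_add]
    · have hb : b = -a := by
        have h7 : a * a = -1 := by linear_combination h6
        calc b = -((a * a) * b) := by rw [h7]; ring
          _ = -(a * (a * b)) := by ring
          _ = -a := by rw [hab, mul_one]
      refine ⟨1, a / 2, div_ne_zero ha h2, ?_⟩
      simp only [z, Matrix.cons_val_one, Matrix.cons_val_zero]
      have e3 : a / 2 * 2 = a := div_mul_cancel₀ _ h2
      have e4 : a / 2 * 3 = -a := by
        have : a / 2 * 3 + a = a / 2 * 5 := by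
          nth_rewrite 2 [← e3]
          ring
        rw [h5, mul_zero] at this
        exact eq_neg_of_add_eq_zero_left this
      rw [smul_add, smul_smul, smul_smul, e3, e4, hb]

/-- Rationality of a quadratic form from the values on a spanning family. -/
theorem rat_sum (hQ : IsNondegenerateQuadraticForm Q) {κ : Type} (F₀ : Subfield F) (c : κ → ι → F) (hc : ∀ l, Q (c l) ∈ F₀) (hpol : ∀ k l, polar Q (c k) (c l) ∈ F₀)
    (s : Finset κ) (x : κ → F) (hx : ∀ l, x l ∈ F₀) : Q (∑ l ∈ s, x l • c l) ∈ F₀ := by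
  classical
  have hbil := hQ.polar_bilinear
  induction s using Finset.induction_on with
  | empty =>
    rw [Finset.sum_empty, Q_zero hQ]
    exact F₀.zero_mem
  | insert a s ha ih =>
    rw [Finset.sum_insert ha, Q_add' Q, hQ.smul, hbil.smul_left, (isSesq_of_bilinear hbil).sum_right]
    refine F₀.add_mem (F₀.add_mem (F₀.mul_mem (F₀.pow_mem (hx a) 2) (hc a)) ih) (F₀.mul_mem (hx a) (F₀.sum_mem fun l _ => ?_))
    rw [hbil.smul_right]
    exact F₀.mul_mem (hx l) (hpol a l)

/-- **The field of order four.** Decompositions into plus planes are defined over the prime field. -/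
theorem subfield_of_four (hq : Fintype.card F = 4) (hQ : IsNondegenerateQuadraticForm Q) {t : ℕ} {D : Fin t → Submodule F (ι → F)}
    (hD : IsOrthogonalMDecomposition Q 2 D) (hp : ∀ i, IsPlusTypeOn Q (D i)) (hle : H ≤ isometryGroup F Q) (hst : H ≤ decompositionStabilizer D) :
    ∃ (F₀ : Subfield F) (P : GL ι F), Fintype.card F = Nat.card F₀ ^ 2 ∧ IsQuadFormRationalStructure (fun v => 1 * Q v) F₀ P ∧ H ≤ subfieldSubgroup F₀ P := by
  classical
  have hbil := hQ.polar_bilinear
  have h2 : (2 : F) = 0 := by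
    have h3 := FiniteField.cast_card_eq_zero F
    rw [hq] at h3
    have h4 : (2 : F) * 2 = 0 := by
      have : ((4 : ℕ) : F) = 2 * 2 := by norm_num
      rw [← this]
      exact h3
    exact mul_self_eq_zero.mp h4
  haveI : CharP F 2 := CharTwo.of_one_ne_zero_of_two_eq_zero one_ne_zero h2
  obtain ⟨F₀, hF₀, hmem⟩ := Subfield.exists_subfield_of_dvd 2 2 1 Nat.prime_two (by rw [hq]; norm_num) (one_dvd 2)
  have hcard : Fintype.card F = Nat.card F₀ ^ 2 := by
    rw [hF₀, hq]
    norm_num
  have hmem' : ∀ x : F, x ∈ F₀ ↔ x * x = x := fun x => by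
    rw [hmem x]
    norm_num [pow_two]
  have h0m : (0 : F) ∈ F₀ := F₀.zero_mem
  have h1m : (1 : F) ∈ F₀ := F₀.one_mem
  obtain ⟨ω, hωm⟩ : ∃ ω : F, ω ∉ F₀ := by
    by_contra hcon
    push Not at hcon
    have h3 : Nat.card F₀ = Nat.card F := Nat.card_congr (Equiv.subtypeUnivEquiv hcon)
    rw [hF₀, Nat.card_eq_fintype_card, hq] at h3
    norm_num at h3
  have hω0 : ω ≠ 0 := fun h => hωm (h ▸ h0m)
  have hω1 : ω ≠ 1 := fun h => hωm (h ▸ h1m)
  have hωω : ω * ω = ω + 1 := by
    have h3 := FiniteField.pow_card_sub_one_eq_one ω hω0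
    rw [hq] at h3
    have h4 : (ω - 1) * (ω * ω + ω + 1) = 0 := by
      have h5 : ω ^ 3 = 1 := h3
      linear_combination h5
    have h5 := (mul_eq_zero.mp h4).resolve_left (sub_ne_zero.mpr hω1)
    linear_combination h5 - (ω + 1) * h2
  have hall : ∀ x : F, x = 0 ∨ x = 1 ∨ x = ω ∨ x = ω + 1 := by
    intro x
    have h3 := FiniteField.pow_card x
    rw [hq] at h3
    have h4 : x * ((x - 1) * ((x - ω) * (x - (ω + 1)))) = 0 := by
      linear_combination h3 + (x ^ 2 - x) * hωω + (-(ω + 1) * x ^ 3 + (2 * ω + 1) * x ^ 2 - ω * x) * h2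
    rcases mul_eq_zero.mp h4 with h5 | h5
    · exact Or.inl h5
    · rcases mul_eq_zero.mp h5 with h6 | h6
      · exact Or.inr (Or.inl (sub_eq_zero.mp h6))
      · rcases mul_eq_zero.mp h6 with h7 | h7
        · exact Or.inr (Or.inr (Or.inl (sub_eq_zero.mp h7)))
        · exact Or.inr (Or.inr (Or.inr (sub_eq_zero.mp h7)))
  obtain ⟨e, f, h⟩ := exists_hyp_family hQ hD hp
  have hd2 := hD.decomp.decomp
  -- the two vectors in each plane
  let c : Fin t × Fin 2 → ι → F := fun p => (![(1 : F), ω] p.2) • e p.1 + (![(1 : F), ω + 1] p.2) • f p.1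
  have hcmem : ∀ p, c p ∈ D p.1 := fun p => (D p.1).add_mem ((D p.1).smul_mem _ (h p.1).1) ((D p.1).smul_mem _ (h p.1).2.1)
  have hcQ : ∀ p, Q (c p) = 1 := by
    rintro ⟨i, a⟩
    obtain ⟨-, -, hQe, hQf, hef, -⟩ := h i
    simp only [c]
    rw [Q_hyp hQ hQe hQf hef]
    fin_cases a
    · simp
    · simp only [Fin.mk_one, Matrix.cons_val_one, Matrix.cons_val_zero]
      linear_combination hωω + ω * h2
  have hcpol : ∀ k l, polar Q (c k) (c l) ∈ F₀ := by
    rintro ⟨i, a⟩ ⟨j, b⟩
    by_cases hij : i = j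
    · subst hij
      obtain ⟨-, -, hQe, hQf, hef, -⟩ := h i
      simp only [c]
      rw [polar_hyp hQ hQe hQf hef]
      fin_cases a <;> fin_cases b <;> simp only [Fin.zero_eta, Fin.mk_one, Matrix.cons_val_one, Matrix.cons_val_zero]
      · have h3 : (1 : F) * 1 + 1 * 1 = 0 := by linear_combination h2
        rw [h3]
        exact h0m
      · have h3 : (1 : F) * (ω + 1) + 1 * ω = 1 := by linear_combination ω * h2
        rw [h3]
        exact h1m
      · have h3 : ω * 1 + (ω + 1) * 1 = 1 := by linear_combination ω * h2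
        rw [h3]
        exact h1m
      · have h3 : ω * (ω + 1) + (ω + 1) * ω = 0 := by linear_combination (ω * (ω + 1)) * h2
        rw [h3]
        exact h0m
    · rw [hD.decomp.orthogonal i j hij _ (hcmem (i, a)) _ (hcmem (j, b))]
      exact h0m
  -- the elements of norm one
  have hone : ∀ i, ∀ y ∈ D i, Q y = 1 → ∃ a b : F, a ∈ F₀ ∧ b ∈ F₀ ∧ y = a • c (i, 0) + b • c (i, 1) := by
    intro i y hy hy1
    obtain ⟨-, -, hQe, hQf, hef, hW⟩ := h i
    rw [hW, Submodule.mem_span_pair] at hy
    obtain ⟨a, b, rfl⟩ := hy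
    rw [Q_hyp hQ hQe hQf hef] at hy1
    simp only [c, Matrix.cons_val_zero, Matrix.cons_val_one, one_smul]
    rcases hall a with ha | ha | ha | ha
    · rw [ha, zero_mul] at hy1
      exact absurd hy1 zero_ne_one
    · have hb : b = 1 := by
        rw [ha, one_mul] at hy1
        exact hy1
      refine ⟨1, 0, h1m, h0m, ?_⟩
      rw [ha, hb]
      simp
    · rw [ha] at hy1
      have h4 : (ω + 1) * ω = 1 := by linear_combination hωω + ω * h2
      have hb : b = ω + 1 := by
        have h3 : (ω + 1) * (ω * b) = ω + 1 := by rw [hy1, mul_one]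
        calc b = ((ω + 1) * ω) * b := by rw [h4, one_mul]
          _ = (ω + 1) * (ω * b) := by ring
          _ = ω + 1 := h3
      refine ⟨0, 1, h0m, h1m, ?_⟩
      rw [ha, hb]
      simp
    · rw [ha] at hy1
      have h4 : (ω + 1) * ω = 1 := by linear_combination hωω + ω * h2
      have hb : b = ω := by
        calc b = (ω * (ω + 1)) * b := by
              rw [mul_comm ω, h4, one_mul]
          _ = ω * ((ω + 1) * b) := by ring
          _ = ω := by rw [hy1, mul_one]
      refine ⟨1, 1, h1m, h1m, ?_⟩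
      rw [ha, hb]
      ext k
      simp only [Pi.add_apply, Pi.smul_apply, smul_eq_mul]
      linear_combination (-f i k) * h2
  -- spanning
  have hcard2 : Fintype.card ι = t * 2 := Block.card_eq_mul hd2
  let E : ι ≃ Fin t × Fin 2 := Fintype.equivOfCardEq (by simp [hcard2])
  have hspan : Submodule.span F (Set.range (fun l => c (E l))) = ⊤ := by
    rw [eq_top_iff, ← hd2.iSup_eq_top]
    refine iSup_le fun i => ?_
    rw [(h i).2.2.2.2.2, Submodule.span_le]
    have hu : c (i, 0) ∈ Submodule.span F (Set.range (fun l => c (E l))) := Submodule.subset_span ⟨E.symm (i, 0), by simp⟩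
    have hw : c (i, 1) ∈ Submodule.span F (Set.range (fun l => c (E l))) := Submodule.subset_span ⟨E.symm (i, 1), by simp⟩
    have hfe : f i = c (i, 1) + ω • c (i, 0) := by
      simp only [c, Matrix.cons_val_zero, Matrix.cons_val_one, one_smul]
      ext k
      simp only [Pi.add_apply, Pi.smul_apply, smul_eq_mul]
      linear_combination (-ω * (e i k + f i k)) * h2
    have hee : e i = c (i, 0) + f i := by
      simp only [c, Matrix.cons_val_zero, Matrix.cons_val_one, one_smul]
      ext k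
      simp only [Pi.add_apply]
      linear_combination (- f i k) * h2
    have hfm : f i ∈ Submodule.span F (Set.range (fun l => c (E l))) := by
      rw [hfe]
      exact Submodule.add_mem _ hw (Submodule.smul_mem _ _ hu)
    have hem : e i ∈ Submodule.span F (Set.range (fun l => c (E l))) := by
      rw [hee]
      exact Submodule.add_mem _ hu hfm
    rintro x (rfl | hx)
    · exact hem
    · rw [Set.mem_singleton_iff.mp hx]
      exact hfm
  let M : Matrix ι ι F := Matrix.of fun k l => c (E l) k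
  have hMv : ∀ u : ι → F, M *ᵥ u = ∑ l, u l • c (E l) := by
    intro u
    funext k
    simp [M, Matrix.mulVec, dotProduct, Finset.sum_apply, mul_comm]
  have hMs : ∀ l, M *ᵥ Pi.single l 1 = c (E l) := by
    intro l
    funext k
    simp [M]
  have hsurj : Function.Surjective M.mulVec := by
    intro y
    have hy : y ∈ Submodule.span F (Set.range (fun l => c (E l))) := by
      rw [hspan]
      trivial
    obtain ⟨u, hu⟩ := (Submodule.mem_span_range_iff_exists_fun F).mp hy
    exact ⟨u, by rw [hMv, hu]⟩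
  have hunit : IsUnit M := Matrix.mulVec_surjective_iff_isUnit.mp hsurj
  obtain ⟨P, hPM⟩ := hunit
  have hPs : ∀ l, (P : Matrix ι ι F) *ᵥ Pi.single l 1 = c (E l) := by
    intro l
    rw [hPM, hMs]
  refine ⟨F₀, P, hcard, fun u hu => ?_, fun g hg => ?_⟩
  · simp only [one_mul]
    rw [hPM, hMv]
    exact rat_sum hQ F₀ (fun l => c (E l)) (fun l => by rw [hcQ]; exact h1m) (fun k l => hcpol _ _) _ u hu
  · refine FormSU2.mem_subfieldSubgroup_of_entries F₀ one_ne_zero fun k l => ?_
    rw [one_mul]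
    obtain ⟨π, hπ⟩ := hst hg
    have h4 : (g : Matrix ι ι F) *ᵥ c (E l) ∈ D (π (E l).1) := by
      rw [← hπ]
      exact ⟨_, hcmem _, rfl⟩
    obtain ⟨a, b, ha, hb, hab⟩ := hone _ _ h4 (by rw [Q_act_eq (hle hg), hcQ])
    have h5 : ((P⁻¹ * g * P : GL ι F) : Matrix ι ι F) *ᵥ Pi.single l 1 = a • Pi.single (E.symm (π (E l).1, 0)) 1 + b • Pi.single (E.symm (π (E l).1, 1)) 1 := by
      have e1 : (((P⁻¹ * g * P : GL ι F) : Matrix ι ι F)) = ((P⁻¹ : GL ι F) : Matrix ι ι F) * (g : Matrix ι ι F) * (P : Matrix ι ι F) := by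
        simp only [Units.val_mul]
      have e2 : ∀ a', c (π (E l).1, a') = (P : Matrix ι ι F) *ᵥ Pi.single (E.symm (π (E l).1, a')) 1 := by
        intro a'
        rw [hPs]
        simp
      rw [e1, ← Matrix.mulVec_mulVec, ← Matrix.mulVec_mulVec, hPs, hab, e2, e2, ← Matrix.mulVec_smul, ← Matrix.mulVec_smul, ← Matrix.mulVec_add, inv_mulVec_mulVec]
    have h6 := congrFun h5 k
    rw [Matrix.mulVec_single_one] at h6
    have h7 : ((P⁻¹ * g * P : GL ι F) : Matrix ι ι F) k l = (a • (Pi.single (E.symm (π (E l).1, 0)) 1 : ι → F) + b • (Pi.single (E.symm (π (E l).1, 1)) 1 : ι → F)) k := h6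
    rw [h7]
    simp only [Pi.add_apply, Pi.smul_apply, smul_eq_mul, Pi.single_apply]
    refine F₀.add_mem (F₀.mul_mem ha ?_) (F₀.mul_mem hb ?_)
    · split_ifs
      · exact h1m
      · exact h0m
    · split_ifs
      · exact h1m
      · exact h0m

theorem not_six : Fintype.card F ≠ 6 := by
  intro h
  set p := ringChar F with hp
  haveI : CharP F p := ringChar.charP F
  obtain ⟨e', hpp, hF⟩ := FiniteField.card F p
  rw [h] at hF
  set e : ℕ := (e' : ℕ) with he
  have he0 : e ≠ 0 := e'.ne_zero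
  have hdvd : p ∣ 6 := by
    rw [hF]
    exact dvd_pow_self p he0
  have hp6 : p ≤ 6 := Nat.le_of_dvd (by norm_num) hdvd
  have h2p : 2 ≤ p := hpp.two_le
  have he6 : e ≤ 6 := by
    have h5 : e < 2 ^ e := Nat.lt_two_pow_self
    have h7 : 2 ^ e ≤ p ^ e := Nat.pow_le_pow_left h2p e
    omega
  have he1 : 1 ≤ e := Nat.one_le_iff_ne_zero.mpr he0
  clear_value p e
  interval_cases p <;> first | (exfalso; revert hpp; decide) | (interval_cases e <;> omega)

/-- The stabiliser of a non-degenerate subspace of half the dimension, where this is odd, in a space of plus type. -/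
theorem key_half (h2 : (2 : F) ≠ 0) (hQ : IsNondegenerateQuadraticForm Q) (hplus : IsPlusTypeOn Q ⊤) (hn : 5 ≤ Fintype.card ι) (hH : IsMaximalIn (omegaGL Q) H) (hle : H ≤ isometryGroup F Q)
    {n : ℕ} (hc : Fintype.card ι = 2 * (n + 1)) (hodd : Odd (n + 1))
    {W : Submodule F (ι → F)} (hnd : IsNondegenerateOn (polar Q) W) (hd : finrank F W = n + 1) (hst : H ≤ subspaceStabilizer W) :
    (Fintype.card F % 4 = 1 ∧ ∃ D : Fin 2 → Submodule F (ι → F), IsOrthogonalMDecomposition Q (n + 1) D ∧ H = decompositionStabilizer D ⊓ omegaGL Q) ∨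
    (Fintype.card F % 4 = 3 ∧ ∃ D : Fin 2 → Submodule F (ι → F), IsNondegenerateMDecomposition (polar Q) (n + 1) D ∧ ¬ AreIsometricFor Q (D 0) (D 1) ∧ H = decompositionStabilizer D ⊓ omegaGL Q) := by
  have hq : Odd (Fintype.card F) := OEMax.odd_card_iff.mpr h2
  obtain ⟨D, hD, hDE, hcases⟩ := OKey3.half_out h2 hQ hn hH hle hc hnd hd hst
  rcases hcases with hO | ⟨hI, hp⟩
  · left
    refine ⟨?_, D, hO, hDE⟩
    have h6 := OKey3.plus_iff_neg_one h2 hQ hO hodd hc (by decide)
    exact (OKey.neg_one_iff h2).mp (h6.mp hplus)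
  · right
    refine ⟨?_, D, hD, hI, hDE⟩
    have h7 : ¬ IsSquare (-1 : F) := by
      have h8 := hp.mp hplus
      rwa [hodd.neg_one_pow] at h8
    rw [OKey.neg_one_iff h2] at h7
    obtain ⟨a, ha⟩ := hq
    omega

/-- **Decompositions into plus planes over small fields.** -/
theorem small_planes (hQ : IsNondegenerateQuadraticForm Q) (hplus : IsPlusTypeOn Q ⊤) (hn : 5 ≤ Fintype.card ι) (hH : IsMaximalIn (omegaGL Q) H) (hle : H ≤ isometryGroup F Q) {m : ℕ} (hm : 4 ≤ m)
    (hc : Fintype.card ι = 2 * (m + 1)) {D : Fin (m + 1) → Submodule F (ι → F)}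
    (hD : IsOrthogonalMDecomposition Q 2 D) (hp : ∀ i, IsPlusTypeOn Q (D i)) (hst : H ≤ decompositionStabilizer D) (hq : Fintype.card F < 7) :
    (Fintype.card F = 3 ∧ ∃ U : Submodule F (ι → F), IsNondegenerateOn (polar Q) U ∧ finrank F U = m + 1 ∧ H ≤ subspaceStabilizer U) ∨
    (∃ (F₀ : Subfield F) (P : GL ι F), Fintype.card F = Nat.card F₀ ^ 2 ∧ IsQuadFormRationalStructure (fun v => 1 * Q v) F₀ P ∧ H = subfieldSubgroup F₀ P ⊓ omegaGL Q) ∨
    (Fintype.card F = 5 ∧ ∃ D' : Fin ((m + 1) * 2) → Submodule F (ι → F), IsOrthogonalMDecomposition Q 1 D' ∧ H = decompositionStabilizer D' ⊓ omegaGL Q) := by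
  have hq2 : 2 ≤ Fintype.card F := Fintype.one_lt_card
  have hq' : Fintype.card F = 2 ∨ Fintype.card F = 3 ∨ Fintype.card F = 4 ∨ Fintype.card F = 5 := by
    have h6 : Fintype.card F ≠ 6 := not_six
    omega
  rcases hq' with hq' | hq' | hq' | hq'
  · exact absurd (two_false hq' hQ hplus hH hm hc hD hp hle hst) id
  · left
    exact ⟨hq', three_out hq' hQ hD hp hle hst⟩
  · right; left
    obtain ⟨F₀, P, h1, h3, h5⟩ := subfield_of_four hq' hQ hD hp hle hst
    exact ⟨F₀, P, h1, h3, eq_subfield hQ hn hH (by norm_num) h1 h5⟩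
  · right; right
    have h5 : (5 : F) = 0 := by
      have h3 := FiniteField.cast_card_eq_zero F
      rw [hq'] at h3
      exact_mod_cast h3
    have h2 : (2 : F) ≠ 0 := by
      intro h
      have h3 : (1 : F) = 0 := by linear_combination h5 - 2 * h
      exact one_ne_zero h3
    obtain ⟨D', hD', hDle⟩ := frame_of_five hq' hQ hD hp
    exact ⟨hq', D', hD', eq_decomp hQ hn hH hD'.decomp.decomp (Or.inl h2) fun g hg => hDle g (hle hg) (hst hg)⟩

end Cfsg.Agent.Lib.Classical.Asch.OKey5
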