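import Mathlib
import Cfsg.Agent.Lib.Classical.Asch.OKey5
import Cfsg.Agent.Lib.Classical.OrthAut.MinusA

/-!
# Subspaces of half the dimension, alternating tensor decompositions, and small fields in dimension twelve
-/

set_option autoImplicit false
set_option linter.style.haveILetI false
set_option linter.unusedSectionVars false

namespace Cfsg.Agent.Lib.Classical.Asch.OKey6

open scoped MatrixGroups Matrix Kronecker
open Module Cfsg Cfsg.Geo QuadraticMap
open Cfsg.Agent.Lib.Classical.Asch.Basic Cfsg.Agent.Lib.Classical.Asch.Forms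
open Cfsg.Agent.Lib.Classical.Asch.FormO Cfsg.Agent.Lib.Classical.Asch.FormOE
open Cfsg.Agent.Lib.Classical.Asch.SpThree Cfsg.Agent.Lib.Classical.Asch.OType
open Cfsg.Agent.Lib.Classical.Asch.OField Cfsg.Agent.Lib.Classical.Asch.OEMax
open Cfsg.Agent.Lib.Classical.Asch.FormPerp Cfsg.Agent.Lib.Classical.Asch.Adj
open Cfsg.Agent.Lib.Classical.Asch.FormSympType
open Cfsg.Agent.Lib.Classical.Asch.OKey Cfsg.Agent.Lib.Classical.Asch.OKey3 Cfsg.Agent.Lib.Classical.Asch.OKey4 Cfsg.Agent.Lib.Classical.Asch.OKey5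
open Cfsg.Agent.Lib.Classical.Asch
open Cfsg.Agent.Lib.Classical.Geo.OPts
open Cfsg.Agent.Lib.Linalg.OrthModels

variable {ι : Type} [Fintype ι] [DecidableEq ι] {F : Type*} [Field F] [Fintype F] {Q : (ι → F) → F} {H : Subgroup (GL ι F)}

section Models

variable {Q' : QuadraticForm F (ι → F)} {W W' : Submodule F (ι → F)}

theorem nondeg_restrict (hW : IsNondegenerateOn (polar (⇑Q')) W) : (polarBilin (Q'.comp W.subtype)).Nondegenerate := by
  refine ⟨fun x hx => ?_, fun x hx => ?_⟩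
  · by_contra h0
    obtain ⟨-, ⟨y, hy, hy'⟩⟩ := hW x x.2 (fun h => h0 (Subtype.ext h))
    apply hy'
    exact hx ⟨y, hy⟩
  · by_contra h0
    obtain ⟨⟨y, hy, hy'⟩, -⟩ := hW x x.2 (fun h => h0 (Subtype.ext h))
    apply hy'
    exact hx ⟨y, hy⟩

theorem plus_of_model {m : ℕ} (g : W ≃ₗ[F] (Fin m ⊕ Fin m → F)) (hg : ∀ v, plusQ m F (g v) = Q' v) (hd : finrank F W = 2 * m) : IsPlusTypeOn (⇑Q') W := by
  refine ⟨((Cfsg.Agent.Lib.Classical.Witt.PlusForm.coordSpace m F).map g.symm.toLinearMap).map W.subtype, ?_, ?_, ?_⟩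
  · rintro _ ⟨a, -, rfl⟩
    exact a.2
  · rintro _ ⟨_, ⟨a, ha, rfl⟩, rfl⟩
    change Q' ((g.symm a : W) : ι → F) = 0
    have h1 := hg (g.symm a)
    rw [LinearEquiv.apply_symm_apply] at h1
    have h3 : Q' ((g.symm a : W) : ι → F) = plusQ m F a := h1.symm
    rw [h3, plusQ_apply]
    simp only [Cfsg.quadFormPlus]
    exact Finset.sum_eq_zero (fun i _ => by rw [show a (Sum.inr i) = 0 from ha i, mul_zero])
  · rw [Submodule.finrank_map_subtype_eq, LinearEquiv.finrank_map_eq, Cfsg.Agent.Lib.Classical.Witt.PlusForm.finrank_coordSpace, hd]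

theorem not_plus_of_model {m : ℕ} (hm : 1 ≤ m) {ζ : F} (hζ : ∀ t : F, t ^ 2 + t + ζ ≠ 0) (g : W ≃ₗ[F] ((Fin (m - 1) ⊕ Fin (m - 1)) ⊕ Fin 2 → F))
    (hg : ∀ v, minusQ (m - 1) F 1 ζ (g v) = Q' v) (hd : finrank F W = 2 * m) : ¬ IsPlusTypeOn (⇑Q') W := by
  rintro ⟨U, hUW, hU, hUd⟩
  have h1 : finrank F (U.comap W.subtype) = finrank F U := (Submodule.comapSubtypeEquivOfLe hUW).finrank_eq
  apply Cfsg.Agent.Lib.Classical.Witt.Index.no_ts_minus hm (Cfsg.Agent.Lib.Classical.Witt.Index.anisotropic_of_no_root hζ)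
    ((U.comap W.subtype).map g.toLinearMap)
  · rintro _ ⟨a, ha, rfl⟩
    change minusQ (m - 1) F 1 ζ (g a) = 0
    rw [hg]
    exact hU _ ha
  · rw [LinearEquiv.finrank_map_eq, h1]
    omega

/-- Non-degenerate subspaces of the same even dimension and the same type are isometric. -/
theorem isometric_of_type {m : ℕ} (hm : 1 ≤ m) (hd : finrank F W = 2 * m) (hd' : finrank F W' = 2 * m)
    (hW : IsNondegenerateOn (polar (⇑Q')) W) (hW' : IsNondegenerateOn (polar (⇑Q')) W') (hiff : IsPlusTypeOn (⇑Q') W ↔ IsPlusTypeOn (⇑Q') W') :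
    AreIsometricFor (⇑Q') W W' := by
  rcases Cfsg.Agent.Lib.Classical.Witt.Index.exists_isometry_plus_or_minus hm hd (Q'.comp W.subtype) (nondeg_restrict hW) with ⟨g, hg⟩ | ⟨ζ, hζ, g, hg⟩ <;>
  rcases Cfsg.Agent.Lib.Classical.Witt.Index.exists_isometry_plus_or_minus hm hd' (Q'.comp W'.subtype) (nondeg_restrict hW') with ⟨g', hg'⟩ | ⟨ζ', hζ', g', hg'⟩
  · refine ⟨g.trans g'.symm, fun w => ?_⟩
    have h1 := hg' (g.trans g'.symm w)
    have h3 := hg w
    simp only [LinearEquiv.trans_apply, LinearEquiv.apply_symm_apply] at h1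
    exact h1.symm.trans h3
  · exact absurd (hiff.mp (plus_of_model g hg hd)) (not_plus_of_model hm hζ' g' hg' hd')
  · exact absurd (hiff.mpr (plus_of_model g' hg' hd')) (not_plus_of_model hm hζ g hg hd)
  · obtain ⟨h, hh⟩ := Cfsg.Agent.Lib.Classical.OrthAut.MinusA.exists_isometry_minus (m - 1)
      (Cfsg.Agent.Lib.Classical.Witt.Index.anisotropic_of_no_root hζ') (Cfsg.Agent.Lib.Classical.Witt.Index.anisotropic_of_no_root hζ)
    refine ⟨g.trans (h.trans g'.symm), fun w => ?_⟩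
    have h1 := hg' (g.trans (h.trans g'.symm) w)
    have h3 := hg w
    simp only [LinearEquiv.trans_apply, LinearEquiv.apply_symm_apply] at h1
    have h5 := hh (g w)
    rw [← minusQ_apply, ← minusQ_apply, h1] at h5
    exact h5.trans h3

end Models

/-- **A non-degenerate subspace of half the dimension, where this is even, in a space of plus type.** -/
theorem half_plus (hQ : IsNondegenerateQuadraticForm Q) (hplus : IsPlusTypeOn Q ⊤) (hn : 5 ≤ Fintype.card ι) (hH : IsMaximalIn (omegaGL Q) H) (hle : H ≤ isometryGroup F Q)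
    {n : ℕ} (hn3 : 2 ≤ n) (hc : Fintype.card ι = 2 * (2 * n))
    {W : Submodule F (ι → F)} (hnd : IsNondegenerateOn (polar Q) W) (hd : finrank F W = 2 * n) (hst : H ≤ subspaceStabilizer W) :
    ∃ D : Fin 2 → Submodule F (ι → F), IsOrthogonalMDecomposition Q (2 * n) D ∧ H = decompositionStabilizer D ⊓ omegaGL Q := by
  classical
  obtain ⟨D, hD, hDst, hcompl, -⟩ := half_dec hQ hle (by omega) hc hnd hd hst
  have hiff : IsPlusTypeOn Q (D 0) ↔ IsPlusTypeOn Q (D 1) := by
    constructor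
    · rintro ⟨U, hU, hts, hUd⟩
      exact perp_plus hQ hplus hcompl (hD.orthogonal 0 1 (by decide)) hU hts hUd
    · rintro ⟨U, hU, hts, hUd⟩
      exact perp_plus hQ hplus hcompl.symm (hD.orthogonal 1 0 (by decide)) hU hts hUd
  obtain ⟨Q', rfl, hQ'⟩ := exists_quadraticForm hQ
  have hI := isometric_of_type (Q' := Q') (m := n) (by omega) (hD.decomp.finrank_eq 0) (hD.decomp.finrank_eq 1) (hD.nondegenerate 0) (hD.nondegenerate 1) hiff
  exact ⟨D, omd_pair hD hI, eq_decomp hQ hn hH hD.decomp (Or.inr (by omega)) hDst⟩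

/-- **Tensor decompositions of alternating forms.** -/
theorem eq_tensor_alt (hQ : IsNondegenerateQuadraticForm Q) (hn : 5 ≤ Fintype.card ι) (hH : IsMaximalIn (omegaGL Q) H) {d k : ℕ} (hd : 2 ≤ d) (hk : 3 ≤ k)
    {e : ι ≃ Fin d × Fin k} {P : GL ι F} {f₁ : (Fin d → F) → (Fin d → F) → F} {f₂ : (Fin k → F) → (Fin k → F) → F}
    (h1 : IsSymplecticForm f₁) (h3 : IsSymplecticForm f₂) (hs : IsTensorFormStructure id (polar Q) f₁ f₂ e P)
    (hv : ∀ x y, Q ((P : Matrix ι ι F) *ᵥ kr e x y) = 0) (hle : H ≤ tensorProductSubgroup d k e P) : H = tensorProductSubgroup d k e P ⊓ omegaGL Q := by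
  classical
  obtain ⟨Q', rfl, hQ'⟩ := exists_quadraticForm hQ
  haveI : Nonempty (Fin d) := ⟨⟨0, by omega⟩⟩
  haveI : Nonempty (Fin k) := ⟨⟨0, by omega⟩⟩
  obtain ⟨u₁, hu₁⟩ : ∃ w₀ : Fin d → F, w₀ ≠ 0 := ⟨Pi.single (Classical.arbitrary _) 1, fun h => by
    have := congrFun h (Classical.arbitrary _)
    simp at this⟩
  obtain ⟨u₀, hu₀⟩ := (h1.nondegenerate u₁ hu₁).2
  obtain ⟨v₁, hv₁⟩ : ∃ w₀ : Fin k → F, w₀ ≠ 0 := ⟨Pi.single (Classical.arbitrary _) 1, fun h => by
    have := congrFun h (Classical.arbitrary _)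
    simp at this⟩
  obtain ⟨v₀, hv₀⟩ := (h3.nondegenerate v₁ hv₁).2
  let L : (Fin k → F) →ₗ[F] (Fin 2 → F) :=
    { toFun := fun x => ![f₂ v₁ x, f₂ x v₀]
      map_add' := fun x y => by
        funext i
        fin_cases i
        · exact h3.bilinear.add_right _ _ _
        · exact h3.bilinear.add_left _ _ _
      map_smul' := fun c x => by
        funext i
        fin_cases i
        · exact h3.bilinear.smul_right _ _ _
        · exact h3.bilinear.smul_left _ _ _ }
  have hker : LinearMap.ker L ≠ ⊥ := LinearMap.ker_ne_bot_of_finrank_lt (by simpa using (by omega : 2 < k))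
  obtain ⟨v₂, hv₂, hv₂0⟩ := (Submodule.ne_bot_iff _).mp hker
  have h12 : f₂ v₁ v₂ = 0 := congrFun (LinearMap.mem_ker.mp hv₂) 0
  have h20 : f₂ v₂ v₀ = 0 := congrFun (LinearMap.mem_ker.mp hv₂) 1
  refine NotSp.eq_inf_of_le' hH hle ?_
  refine NotO2.not_le_tensor hQ' hn h1.bilinear h3.bilinear hs (u₀ := u₀) (u₁ := u₁) (v₀ := v₀) (v₁ := v₁) (v₂ := v₂) (h1.alternating _) (h1.alternating _) ?_ hu₀ hv₀ h12 h20 hv₂0 (hv _ _) (hv _ _)
  rw [h1.skew]
  exact neg_ne_zero.mpr hu₀

/-- **Alternating tensor factors of dimension two over the field with two elements**: the factor `GL₂(2)` normalises a field of degree two. -/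
theorem field_of_two_factor [Nonempty ι] (hq : Fintype.card F = 2) {k : ℕ} {e : ι ≃ Fin 2 × Fin k} {P : GL ι F} (hle : H ≤ tensorProductSubgroup 2 k e P) :
    ∃ K : Subalgebra F (Matrix ι ι F), IsFieldSubalgebra 2 K ∧ H ≤ subalgebraNormalizer K := by
  classical
  have hval : ∀ c : F, c = 0 ∨ c = 1 := by
    intro c
    by_contra hcon
    push Not at hcon
    have h1 : ({0, 1, c} : Finset F).card ≤ Fintype.card F := Finset.card_le_univ _
    rw [hq, Finset.card_insert_of_notMem (by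
      simp only [Finset.mem_insert, Finset.mem_singleton, not_or]
      exact ⟨zero_ne_one, hcon.1.symm⟩), Finset.card_insert_of_notMem (by
      simp only [Finset.mem_singleton]
      exact hcon.2.symm), Finset.card_singleton] at h1
    omega
  have h2 : (2 : F) = 0 := by
    rcases hval 2 with h | h
    · exact h
    · exfalso
      have h3 : (1 : F) = 0 := by linear_combination h
      exact one_ne_zero h3
  have h11 : (1 : F) + 1 = 0 := by linear_combination h2
  set j : Matrix (Fin 2) (Fin 2) F := !![0, 1; 1, 1] with hj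
  have hjj : j * j = (1 : F) • j + (1 : F) • (1 : Matrix (Fin 2) (Fin 2) F) := by
    ext a b
    fin_cases a <;> fin_cases b <;> simp [hj, Matrix.mul_apply, Fin.sum_univ_two]
  have hconj : ∀ a : Matrix (Fin 2) (Fin 2) F, a.det ≠ 0 → ∃ c : F, a * j = j * a + c • a := by
    intro a ha
    rw [Matrix.det_fin_two] at ha
    rcases hval (a 0 0) with h00 | h00 <;> rcases hval (a 0 1) with h01 | h01 <;> rcases hval (a 1 0) with h10 | h10 <;> rcases hval (a 1 1) with h3 | h3 <;>
      rw [h00, h01, h10, h3] at ha <;>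
      first
      | (exfalso; apply ha; simp; done)
      | (refine ⟨0, ?_⟩
         rw [Matrix.eta_fin_two a, h00, h01, h10, h3, hj]
         simp only [Matrix.mul_fin_two]
         ext r s
         fin_cases r <;> fin_cases s <;> simp [h11] <;> done)
      | (refine ⟨1, ?_⟩
         rw [Matrix.eta_fin_two a, h00, h01, h10, h3, hj]
         simp only [Matrix.mul_fin_two]
         ext r s
         fin_cases r <;> fin_cases s <;> simp [h11] <;> done)
  set X' : Matrix (Fin 2 × Fin k) (Fin 2 × Fin k) F := j ⊗ₖ (1 : Matrix (Fin k) (Fin k) F) with hX'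
  set X : Matrix ι ι F := X'.submatrix e e with hX
  have hXX : X * X = (1 : F) • X + (1 : F) • (1 : Matrix ι ι F) := by
    rw [hX, hX', Matrix.submatrix_mul_equiv, ← Matrix.mul_kronecker_mul, hjj, mul_one]
    simp only [one_smul]
    rw [Matrix.add_kronecker, Matrix.one_kronecker_one]
    ext a b
    simp only [Matrix.submatrix_apply, Matrix.add_apply, Matrix.one_apply, e.injective.eq_iff]
  set Pm : Matrix ι ι F := (P : Matrix ι ι F) with hPm
  set Pi' : Matrix ι ι F := ((P⁻¹ : GL ι F) : Matrix ι ι F) with hPi'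
  have hPP : Pi' * Pm = 1 := by
    rw [hPm, hPi', ← Units.val_mul, inv_mul_cancel, Units.val_one]
  have hPP' : Pm * Pi' = 1 := by
    rw [hPm, hPi', ← Units.val_mul, mul_inv_cancel, Units.val_one]
  set N : Matrix ι ι F := Pm * X * Pi' with hNd
  have hN : N * N = (1 : F) • N + (1 : F) • (1 : Matrix ι ι F) := by
    calc N * N = Pm * (X * (Pi' * Pm) * X) * Pi' := by simp only [hNd, mul_assoc]
      _ = Pm * ((1 : F) • X + (1 : F) • (1 : Matrix ι ι F)) * Pi' := by rw [hPP, mul_one, hXX]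
      _ = _ := by
        simp only [one_smul]
        rw [mul_add, add_mul, mul_one, hPP']
  have hroot : ∀ t : F, t * t ≠ (1 : F) * t + 1 := by
    intro t ht
    rcases hval t with rfl | rfl
    · simp at ht
    · apply one_ne_zero (α := F)
      linear_combination ht + h2
  refine ⟨quadAlg N hN, quadAlg_field N hN hroot, fun g hg => ?_⟩
  obtain ⟨a, b, hab⟩ := Main.mem_tensorProductSubgroup_iff.mp (hle hg)
  have hdet : (a : Matrix (Fin 2) (Fin 2) F).det ≠ 0 := ((Matrix.isUnit_iff_isUnit_det _).mp a.isUnit).ne_zero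
  obtain ⟨c, hc⟩ := hconj _ hdet
  set B : Matrix ι ι F := ((P⁻¹ * g * P : GL ι F) : Matrix ι ι F) with hB
  have hBe : B = ((a : Matrix (Fin 2) (Fin 2) F) ⊗ₖ (b : Matrix (Fin k) (Fin k) F)).submatrix e e := by
    ext i i'
    rw [hab]
    rfl
  have hcomm : B * X = X * B + c • B := by
    rw [hX, hX', hBe, Matrix.submatrix_mul_equiv, Matrix.submatrix_mul_equiv, ← Matrix.mul_kronecker_mul, ← Matrix.mul_kronecker_mul,
      one_mul, mul_one, hc]
    ext r s
    simp [Matrix.add_apply, add_mul, Matrix.smul_apply, mul_assoc]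
  have hgB : (g : Matrix ι ι F) = Pm * B * Pi' := by
    rw [hB, hPm, hPi', ← Units.val_mul, ← Units.val_mul]
    congr 1
    group
  refine mem_normalizer_quadAlg N hN g (l := 1) (κ := c) one_ne_zero ?_
  rw [one_smul]
  calc (g : Matrix ι ι F) * N = Pm * (B * (Pi' * Pm) * X) * Pi' := by
        rw [hgB, hNd]
        simp only [mul_assoc]
    _ = Pm * (B * X) * Pi' := by rw [hPP, mul_one]
    _ = Pm * (X * (Pi' * Pm) * B) * Pi' + c • (Pm * B * Pi') := by
        rw [hcomm, hPP, mul_one, mul_add, add_mul, mul_smul_comm, smul_mul_assoc]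
    _ = _ := by
        rw [hgB, hNd]
        simp only [mul_assoc]

section FourTwo

/-- Vectors of the model space. -/
def mkV {F : Type*} [Field F] (x₀ x₁ y₀ y₁ : F) : Fin 2 ⊕ Fin 2 → F := Sum.elim ![x₀, x₁] ![y₀, y₁]

theorem plusQ_mkV (x₀ x₁ y₀ y₁ : F) : plusQ 2 F (mkV x₀ x₁ y₀ y₁) = x₀ * y₀ + x₁ * y₁ := by
  simp [plusQ_apply, Cfsg.quadFormPlus, Fin.sum_univ_two, mkV]

theorem mkV_add (x₀ x₁ y₀ y₁ a₀ a₁ b₀ b₁ : F) : mkV x₀ x₁ y₀ y₁ + mkV a₀ a₁ b₀ b₁ = mkV (x₀ + a₀) (x₁ + a₁) (y₀ + b₀) (y₁ + b₁) := by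
  funext j
  rcases j with i | i <;> fin_cases i <;> simp [mkV]

theorem polar_mkV (x₀ x₁ y₀ y₁ a₀ a₁ b₀ b₁ : F) :
    polar (⇑(plusQ 2 F)) (mkV x₀ x₁ y₀ y₁) (mkV a₀ a₁ b₀ b₁) = x₀ * b₀ + a₀ * y₀ + x₁ * b₁ + a₁ * y₁ := by
  simp only [polar]
  rw [mkV_add, plusQ_mkV, plusQ_mkV, plusQ_mkV]
  ring

theorem eq_mkV (v : Fin 2 ⊕ Fin 2 → F) : v = mkV (v (Sum.inl 0)) (v (Sum.inl 1)) (v (Sum.inr 0)) (v (Sum.inr 1)) := by
  funext j
  rcases j with i | i <;> fin_cases i <;> simp [mkV]

/-- The four vectors of the two minus planes in the model space. -/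
def Mv (F : Type*) [Field F] : Fin 2 → Fin 2 → (Fin 2 ⊕ Fin 2 → F) :=
  ![![mkV 1 1 1 0, mkV 1 0 1 1], ![mkV 1 1 0 1, mkV 0 1 1 1]]

theorem card_two_val (hq : Fintype.card F = 2) (c : F) : c = 0 ∨ c = 1 := by
  classical
  by_contra hcon
  push Not at hcon
  have h1 : ({0, 1, c} : Finset F).card ≤ Fintype.card F := Finset.card_le_univ _
  rw [hq, Finset.card_insert_of_notMem (by
    simp only [Finset.mem_insert, Finset.mem_singleton, not_or]
    exact ⟨zero_ne_one, hcon.1.symm⟩), Finset.card_insert_of_notMem (by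
    simp only [Finset.mem_singleton]
    exact hcon.2.symm), Finset.card_singleton] at h1
  omega

theorem card_two_two (hq : Fintype.card F = 2) : (2 : F) = 0 := by
  rcases card_two_val hq 2 with h | h
  · exact h
  · exfalso
    have h3 : (1 : F) = 0 := by linear_combination h
    exact one_ne_zero h3

/-- The vectors of norm one in the model space. -/
theorem model_one (hq : Fintype.card F = 2) (v : Fin 2 ⊕ Fin 2 → F) (hv : plusQ 2 F v = 1) :
    ∃ a, v = Mv F a 0 ∨ v = Mv F a 1 ∨ v = Mv F a 0 + Mv F a 1 := by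
  have h2 := card_two_two hq
  have hval := card_two_val hq
  have h11 : (1 : F) + 1 = 0 := by linear_combination h2
  rw [eq_mkV v] at hv ⊢
  rw [plusQ_mkV] at hv
  generalize v (Sum.inl 0) = x₀ at hv ⊢
  generalize v (Sum.inl 1) = x₁ at hv ⊢
  generalize v (Sum.inr 0) = y₀ at hv ⊢
  generalize v (Sum.inr 1) = y₁ at hv ⊢
  have hM : ∀ a b, Mv F a b = ![![mkV (1 : F) 1 1 0, mkV (1 : F) 0 1 1], ![mkV (1 : F) 1 0 1, mkV (0 : F) 1 1 1]] a b := fun a b => rfl
  rcases hval x₀ with rfl | rfl <;> rcases hval x₁ with rfl | rfl <;> rcases hval y₀ with rfl | rfl <;> rcases hval y₁ with rfl | rfl <;>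
    first
    | (exfalso; simp [h11] at hv; done)
    | (refine ⟨0, Or.inl ?_⟩; simp [hM]; done)
    | (refine ⟨0, Or.inr (Or.inl ?_)⟩; simp [hM]; done)
    | (refine ⟨1, Or.inl ?_⟩; simp [hM]; done)
    | (refine ⟨1, Or.inr (Or.inl ?_)⟩; simp [hM]; done)
    | (refine ⟨0, Or.inr (Or.inr ?_)⟩; simp [hM, mkV_add, h11]; done)
    | (refine ⟨1, Or.inr (Or.inr ?_)⟩; simp [hM, mkV_add, h11]; done)

variable {Q' : QuadraticForm F (ι → F)}

/-- **The two minus planes of a plus four-space over the field with two elements.** -/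
theorem four_struct (hq : Fintype.card F = 2) (hQ : IsNondegenerateQuadraticForm Q) {W : Submodule F (ι → F)} (hd : finrank F W = 4) (hnd : IsNondegenerateOn (polar Q) W) (hp : IsPlusTypeOn Q W) :
    ∃ c : Fin 2 → Fin 2 → ι → F, (∀ a b, c a b ∈ W) ∧ (∀ a b, Q (c a b) = 1) ∧ (∀ a, polar Q (c a 0) (c a 1) = 1) ∧ (∀ b b', polar Q (c 0 b) (c 1 b') = 0) ∧
      (∀ y ∈ W, Q y = 1 → ∃ a, y = c a 0 ∨ y = c a 1 ∨ y = c a 0 + c a 1) := by
  obtain ⟨Q', rfl, hQ'⟩ := exists_quadraticForm hQ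
  have h2 := card_two_two hq
  rcases Cfsg.Agent.Lib.Classical.Witt.Index.exists_isometry_plus_or_minus (m := 2) (by norm_num) hd (Q'.comp W.subtype) (nondeg_restrict hnd) with ⟨g, hg⟩ | ⟨ζ, hζ, g, hg⟩
  swap
  · exact absurd hp (not_plus_of_model (m := 2) (by norm_num) hζ g hg hd)
  have hQv : ∀ v, Q' ((g.symm v : W) : ι → F) = plusQ 2 F v := by
    intro v
    have h1 := hg (g.symm v)
    rw [LinearEquiv.apply_symm_apply] at h1
    exact h1.symm
  have hpol : ∀ v v', polar (⇑Q') ((g.symm v : W) : ι → F) ((g.symm v' : W) : ι → F) = polar (⇑(plusQ 2 F)) v v' := by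
    intro v v'
    simp only [polar]
    have h1 : ((g.symm v : W) : ι → F) + ((g.symm v' : W) : ι → F) = ((g.symm (v + v') : W) : ι → F) := by
      rw [map_add]
      rfl
    rw [h1, hQv, hQv, hQv]
  have hM : ∀ a b, Mv F a b = ![![mkV (1 : F) 1 1 0, mkV (1 : F) 0 1 1], ![mkV (1 : F) 1 0 1, mkV (0 : F) 1 1 1]] a b := fun a b => rfl
  refine ⟨fun a b => ((g.symm (Mv F a b) : W) : ι → F), fun a b => (g.symm (Mv F a b)).2, fun a b => ?_, fun a => ?_, fun b b' => ?_, fun y hy hy1 => ?_⟩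
  · rw [hQv]
    fin_cases a <;> fin_cases b <;> simp [hM, plusQ_mkV]
  · rw [hpol]
    fin_cases a <;> simp [hM, polar_mkV] <;> linear_combination h2
  · rw [hpol]
    fin_cases b <;> fin_cases b' <;> simp [hM, polar_mkV] <;> linear_combination h2
  · have h1 : plusQ 2 F (g ⟨y, hy⟩) = 1 := by
      rw [hg]
      exact hy1
    obtain ⟨a, ha⟩ := model_one hq _ h1
    have hy' : y = ((g.symm (g ⟨y, hy⟩) : W) : ι → F) := by
      rw [LinearEquiv.symm_apply_apply]
    refine ⟨a, ?_⟩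
    rcases ha with ha | ha | ha
    · left
      rw [hy', ha]
    · right; left
      rw [hy', ha]
    · right; right
      rw [hy', ha, map_add]
      rfl

end FourTwo

/-- **Refining a decomposition into plus four-spaces over the field with two elements to minus planes.** -/
theorem minus_planes_of_four (hq : Fintype.card F = 2) (hQ : IsNondegenerateQuadraticForm Q) {t : ℕ} {D : Fin t → Submodule F (ι → F)}
    (hD : IsOrthogonalMDecomposition Q 4 D) (hp : ∀ i, IsPlusTypeOn Q (D i)) :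
    ∃ D' : Fin (t * 2) → Submodule F (ι → F), IsOrthogonalMDecomposition Q 2 D' ∧ (∀ i, ¬ IsPlusTypeOn Q (D' i)) ∧
      ∀ g ∈ isometryGroup F Q, g ∈ decompositionStabilizer D → g ∈ decompositionStabilizer D' := by
  classical
  have h2 := card_two_two hq
  have hval := card_two_val (F := F) hq
  have hbil := hQ.polar_bilinear
  have hdec := hD.decomp.decomp
  have ht := hdec.two_le
  have hcard := Block.card_eq_mul hdec
  have h4s := fun i => four_struct hq hQ (hdec.finrank_eq i) (hD.decomp.nondegenerate i) (hp i)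
  choose c hcm hcQ hc01 hcorth hcall using h4s
  let E : Fin (t * 2) ≃ Fin t × Fin 2 := finProdFinEquiv.symm
  let pl : Fin t × Fin 2 → Fin 2 → ι → F := fun x => ![c x.1 x.2 0, c x.1 x.2 1]
  let D₀ : Fin t × Fin 2 → Submodule F (ι → F) := fun x => Submodule.span F (Set.range (pl x))
  have hmem : ∀ x w, w ∈ D₀ x ↔ ∃ α β : F, w = α • c x.1 x.2 0 + β • c x.1 x.2 1 := by
    intro x w
    simp only [D₀]
    rw [Submodule.mem_span_range_iff_exists_fun]
    constructor
    · rintro ⟨s, rfl⟩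
      refine ⟨s 0, s 1, ?_⟩
      rw [Fin.sum_univ_two]
      rfl
    · rintro ⟨α, β, rfl⟩
      refine ⟨![α, β], ?_⟩
      rw [Fin.sum_univ_two]
      rfl
  have hc0 : ∀ x, c x.1 x.2 0 ∈ D₀ x := fun x => (hmem x _).mpr ⟨1, 0, by simp⟩
  have hc1 : ∀ x, c x.1 x.2 1 ∈ D₀ x := fun x => (hmem x _).mpr ⟨0, 1, by simp⟩
  have hself : ∀ y : ι → F, Q y = 1 → polar Q y y = 0 := by
    intro y hy
    rw [polar_self_eq hQ, hy, h2, zero_mul]
  have h10 : ∀ i a, polar Q (c i a 1) (c i a 0) = 1 := fun i a => by rw [polar_comm]; exact hc01 i a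
  have hpl : ∀ (x : Fin t × Fin 2) (α β : F), polar Q (α • c x.1 x.2 0 + β • c x.1 x.2 1) (c x.1 x.2 1) = α ∧ polar Q (α • c x.1 x.2 0 + β • c x.1 x.2 1) (c x.1 x.2 0) = β := by
    intro x α β
    constructor
    · rw [hbil.add_left, hbil.smul_left, hbil.smul_left, hc01, hself _ (hcQ _ _ _)]
      ring
    · rw [hbil.add_left, hbil.smul_left, hbil.smul_left, h10, hself _ (hcQ _ _ _)]
      ring
  have hli : ∀ x, LinearIndependent F (pl x) := by
    intro x
    refine LinearIndependent.pair_iff.mpr fun α β h0 => ?_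
    obtain ⟨h5, h6⟩ := hpl x α β
    rw [h0] at h5 h6
    have hzl : ∀ z : ι → F, polar Q 0 z = 0 := fun z => by simpa using hbil.smul_left 0 0 z
    rw [hzl] at h5 h6
    exact ⟨h5.symm, h6.symm⟩
  have hfr : ∀ x, finrank F (D₀ x) = 2 := fun x => by
    simp only [D₀]
    rw [finrank_span_eq_card (hli x), Fintype.card_fin]
  have hnd : ∀ x, IsNondegenerateOn (polar Q) (D₀ x) := by
    intro x w hw hw0
    obtain ⟨α, β, rfl⟩ := (hmem x w).mp hw
    obtain ⟨h5, h6⟩ := hpl x α β
    have h7 : α ≠ 0 ∨ β ≠ 0 := by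
      by_contra hcon
      push Not at hcon
      apply hw0
      rw [hcon.1, hcon.2, zero_smul, zero_smul, add_zero]
    rcases h7 with h7 | h7
    · exact ⟨⟨_, hc1 x, by rwa [polar_comm, h5]⟩, ⟨_, hc1 x, by rwa [h5]⟩⟩
    · exact ⟨⟨_, hc0 x, by rwa [polar_comm, h6]⟩, ⟨_, hc0 x, by rwa [h6]⟩⟩
  have hornd : ∀ x y : Fin t × Fin 2, x ≠ y → ∀ b b', polar Q (c x.1 x.2 b) (c y.1 y.2 b') = 0 := by
    rintro ⟨i, a⟩ ⟨j, a'⟩ hne b b'
    by_cases hij : i = j
    · subst hij
      have haa : a ≠ a' := fun h => hne (by rw [h])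
      simp only
      fin_cases a <;> fin_cases a'
      · exact absurd rfl haa
      · exact hcorth i b b'
      · change polar Q (c i 1 b) (c i 0 b') = 0
        rw [polar_comm]
        exact hcorth i b' b
      · exact absurd rfl haa
    · exact hD.decomp.orthogonal i j hij _ (hcm i a b) _ (hcm j a' b')
  have horth : ∀ x y, x ≠ y → AreOrthogonalFor (polar Q) (D₀ x) (D₀ y) := by
    intro x y hxy u hu v hv
    obtain ⟨α, β, rfl⟩ := (hmem x u).mp hu
    obtain ⟨α', β', rfl⟩ := (hmem y v).mp hv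
    simp only [hbil.add_left, hbil.add_right, hbil.smul_left, hbil.smul_right, hornd x y hxy]
    ring
  have hQpl : ∀ (x : Fin t × Fin 2) (α β : F), Q (α • c x.1 x.2 0 + β • c x.1 x.2 1) = α ^ 2 + β ^ 2 + α * β := by
    intro x α β
    rw [Q_add' Q, hQ.smul, hQ.smul, hcQ, hcQ, hbil.smul_left, hbil.smul_right, hc01]
    ring
  let D' : Fin (t * 2) → Submodule F (ι → F) := fun j => D₀ (E j)
  have hnd' : ∀ j, IsNondegenerateOn (polar Q) (D' j) := fun j => hnd _
  have horth' : ∀ i j, i ≠ j → AreOrthogonalFor (polar Q) (D' i) (D' j) := fun i j hij => horth _ _ fun h => hij (E.injective h)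
  have hindep : iSupIndep D' := indep_of_orth hbil hnd' horth'
  have hnt : 2 ≤ t * 2 := by omega
  have htop : iSup D' = ⊤ := by
    apply Submodule.eq_top_of_finrank_eq
    rw [finrank_iSup_indep hindep, finrank_fintype_fun_eq_card, hcard]
    simp only [D', hfr]
    simp
    ring
  refine ⟨D', ⟨⟨⟨hnt, by norm_num, fun j => hfr _, hindep, htop⟩, hnd', horth'⟩, fun j j' => ?_⟩, fun j => ?_, ?_⟩
  · obtain ⟨Q', rfl, hQ'⟩ := exists_quadraticForm hQ
    have hv : ∀ (x : Fin t × Fin 2) (r s : Fin 2), polar (⇑Q') (pl x r) (pl x s) = polar (⇑Q') (pl (E j) r) (pl (E j) s) ∨ True := fun _ _ _ => Or.inr trivial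
    obtain ⟨g, -, hg⟩ := Cfsg.Agent.Lib.Classical.Witt.Index.exists_isometry_of_bases (Q'.comp (D' j).subtype) (Q'.comp (D' j').subtype)
      (Module.Basis.span (hli (E j))) (Module.Basis.span (hli (E j')))
      (fun r => by
        change Q' ((Module.Basis.span (hli (E j)) r : _) : ι → F) = Q' ((Module.Basis.span (hli (E j')) r : _) : ι → F)
        rw [Module.Basis.span_apply, Module.Basis.span_apply]
        fin_cases r
        · change Q' (c _ _ 0) = Q' (c _ _ 0)
          rw [hcQ, hcQ]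
        · change Q' (c _ _ 1) = Q' (c _ _ 1)
          rw [hcQ, hcQ])
      (fun r s => by
        change polar (⇑Q') ((Module.Basis.span (hli (E j)) r : _) : ι → F) ((Module.Basis.span (hli (E j)) s : _) : ι → F) =
          polar (⇑Q') ((Module.Basis.span (hli (E j')) r : _) : ι → F) ((Module.Basis.span (hli (E j')) s : _) : ι → F)
        rw [Module.Basis.span_apply, Module.Basis.span_apply, Module.Basis.span_apply, Module.Basis.span_apply]
        fin_cases r <;> fin_cases s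
        · change polar (⇑Q') (c _ _ 0) (c _ _ 0) = polar (⇑Q') (c _ _ 0) (c _ _ 0)
          rw [hself _ (hcQ _ _ _), hself _ (hcQ _ _ _)]
        · change polar (⇑Q') (c _ _ 0) (c _ _ 1) = polar (⇑Q') (c _ _ 0) (c _ _ 1)
          rw [hc01, hc01]
        · change polar (⇑Q') (c _ _ 1) (c _ _ 0) = polar (⇑Q') (c _ _ 1) (c _ _ 0)
          rw [h10, h10]
        · change polar (⇑Q') (c _ _ 1) (c _ _ 1) = polar (⇑Q') (c _ _ 1) (c _ _ 1)
          rw [hself _ (hcQ _ _ _), hself _ (hcQ _ _ _)])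
    exact ⟨g, fun w => hg w⟩
  · rintro ⟨U, hUW, hU, hUd⟩
    rw [hfr] at hUd
    have hU0 : U ≠ ⊥ := by
      rintro rfl
      rw [finrank_bot] at hUd
      omega
    obtain ⟨y, hy, hy0⟩ := (Submodule.ne_bot_iff _).mp hU0
    obtain ⟨α, β, rfl⟩ := (hmem _ y).mp (hUW hy)
    have h5 := hU _ hy
    rw [hQpl] at h5
    rcases hval α with rfl | rfl <;> rcases hval β with rfl | rfl
    · apply hy0
      simp
    · simp at h5
    · simp at h5
    · have h6 : (1 : F) = 0 := by linear_combination h5 - h2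
      exact one_ne_zero h6
  · rintro g hgI ⟨σ, hσ⟩
    have hisom : ∀ u v, polar Q ((g : Matrix ι ι F) *ᵥ u) ((g : Matrix ι ι F) *ᵥ v) = polar Q u v := isometry_le_isomG hgI
    have him : ∀ x : Fin t × Fin 2, ∃ a', ∀ b, (g : Matrix ι ι F) *ᵥ c x.1 x.2 b ∈ D₀ (σ x.1, a') := by
      intro x
      have hmemg : ∀ b, (g : Matrix ι ι F) *ᵥ c x.1 x.2 b ∈ D (σ x.1) := by
        intro b
        rw [← hσ x.1]
        exact ⟨_, hcm _ _ _, rfl⟩
      have hQg : ∀ b, Q ((g : Matrix ι ι F) *ᵥ c x.1 x.2 b) = 1 := fun b => by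
        rw [Q_act_eq hgI, hcQ]
      have htri : ∀ b, ∃ a', (g : Matrix ι ι F) *ᵥ c x.1 x.2 b ∈ D₀ (σ x.1, a') := by
        intro b
        obtain ⟨a', ha'⟩ := hcall _ _ (hmemg b) (hQg b)
        refine ⟨a', ?_⟩
        rcases ha' with h | h | h
        · rw [h]
          exact hc0 (σ x.1, a')
        · rw [h]
          exact hc1 (σ x.1, a')
        · rw [h]
          exact Submodule.add_mem _ (hc0 (σ x.1, a')) (hc1 (σ x.1, a'))
      obtain ⟨a₀, ha₀⟩ := htri 0
      obtain ⟨a₁, ha₁⟩ := htri 1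
      have haa : a₀ = a₁ := by
        by_contra hne
        have h5 := horth (σ x.1, a₀) (σ x.1, a₁) (fun h => hne (Prod.mk.inj h).2) _ ha₀ _ ha₁
        rw [hisom, hc01] at h5
        exact one_ne_zero h5
      refine ⟨a₀, fun b => ?_⟩
      fin_cases b
      · exact ha₀
      · rw [haa]
        exact ha₁
    choose ρ hρ using him
    let ρ' : Fin t × Fin 2 → Fin t × Fin 2 := fun x => (σ x.1, ρ x)
    have hmap : ∀ x, (D₀ x).map (Matrix.toLin' (g : Matrix ι ι F)) = D₀ (ρ' x) := by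
      intro x
      apply Submodule.eq_of_le_of_finrank_eq
      · rintro _ ⟨v, hv, rfl⟩
        obtain ⟨α, β, rfl⟩ := (hmem x v).mp hv
        rw [Matrix.toLin'_apply, Matrix.mulVec_add, Matrix.mulVec_smul, Matrix.mulVec_smul]
        exact Submodule.add_mem _ (Submodule.smul_mem _ _ (hρ x 0)) (Submodule.smul_mem _ _ (hρ x 1))
      · rw [hfr, ← hfr x]
        refine (Submodule.equivMapOfInjective _ ?_ _).finrank_eq.symm
        intro u v huv
        rw [Matrix.toLin'_apply, Matrix.toLin'_apply] at huv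
        exact mulVec_injective g huv
    have hinj : Function.Injective ρ' := by
      intro x y hxy
      by_contra hne
      have h5 : D₀ x = D₀ y := by
        have h6 : (D₀ x).map (Matrix.toLin' (g : Matrix ι ι F)) = (D₀ y).map (Matrix.toLin' (g : Matrix ι ι F)) := by
          rw [hmap, hmap, hxy]
        refine Submodule.map_injective_of_injective ?_ h6
        intro u v huv
        rw [Matrix.toLin'_apply, Matrix.toLin'_apply] at huv
        exact mulVec_injective g huv
      have h6 := horth x y hne _ (hc0 x) _ (h5 ▸ hc1 x)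
      rw [hc01] at h6
      exact one_ne_zero h6
    let R : Equiv.Perm (Fin t × Fin 2) := Equiv.ofBijective ρ' (Finite.injective_iff_bijective.mp hinj)
    refine ⟨E.trans (R.trans E.symm), fun j => ?_⟩
    change (D₀ (E j)).map _ = D₀ (E (E.symm (ρ' (E j))))
    rw [hmap, E.apply_symm_apply]

end Cfsg.Agent.Lib.Classical.Asch.OKey6
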