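import Mathlib
import Cfsg.Agent.Lib.Classical.Asch.OKey6
import Cfsg.Agent.Lib.Classical.Asch.SkolemNoether

/-!
# Proper isometries of the determinant form on two by two matrices, and symmetric tensor factors of dimensions three and four
-/

set_option autoImplicit false
set_option linter.style.haveILetI false
set_option linter.unusedSectionVars false

namespace Cfsg.Agent.Lib.Classical.Asch.OKey7

open scoped MatrixGroups Matrix Kronecker
open Module Cfsg Cfsg.Geo QuadraticMap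
open Cfsg.Agent.Lib.Classical.Asch.Basic Cfsg.Agent.Lib.Classical.Asch.Forms
open Cfsg.Agent.Lib.Classical.Asch.FormO Cfsg.Agent.Lib.Classical.Asch.FormOE
open Cfsg.Agent.Lib.Classical.Asch.SpThree Cfsg.Agent.Lib.Classical.Asch.OType
open Cfsg.Agent.Lib.Classical.Asch.OField Cfsg.Agent.Lib.Classical.Asch.OEMax
open Cfsg.Agent.Lib.Classical.Asch.FormPerp Cfsg.Agent.Lib.Classical.Asch.Adj
open Cfsg.Agent.Lib.Classical.Asch.FormSympType
open Cfsg.Agent.Lib.Classical.Asch.OKey Cfsg.Agent.Lib.Classical.Asch.OKey3 Cfsg.Agent.Lib.Classical.Asch.OKey4 Cfsg.Agent.Lib.Classical.Asch.OKey5 Cfsg.Agent.Lib.Classical.Asch.OKey6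
open Cfsg.Agent.Lib.Classical.Asch
open Cfsg.Agent.Lib.Classical.Geo.OPts
open Cfsg.Agent.Lib.Linalg.OrthModels

section SO4

variable {F : Type*} [Field F]

/-- Coordinates of a two by two matrix. -/
def vec4 (X : Matrix (Fin 2) (Fin 2) F) : Fin 4 → F := ![X 0 0, X 0 1, X 1 0, X 1 1]

/-- The two by two matrix with given coordinates. -/
def tm4 (v : Fin 4 → F) : Matrix (Fin 2) (Fin 2) F := !![v 0, v 1; v 2, v 3]

theorem tm4_vec4 (X : Matrix (Fin 2) (Fin 2) F) : tm4 (vec4 X) = X := by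
  ext i j
  fin_cases i <;> fin_cases j <;> simp [tm4, vec4]

theorem vec4_tm4 (v : Fin 4 → F) : vec4 (tm4 v) = v := by
  funext i
  fin_cases i <;> simp [tm4, vec4]

theorem tm4_add (v w : Fin 4 → F) : tm4 (v + w) = tm4 v + tm4 w := by
  ext i j
  fin_cases i <;> fin_cases j <;> simp [tm4]

theorem tm4_smul (c : F) (v : Fin 4 → F) : tm4 (c • v) = c • tm4 v := by
  ext i j
  fin_cases i <;> fin_cases j <;> simp [tm4]

theorem vec4_add (X Y : Matrix (Fin 2) (Fin 2) F) : vec4 (X + Y) = vec4 X + vec4 Y := by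
  funext i
  fin_cases i <;> simp [vec4]

theorem vec4_smul (c : F) (X : Matrix (Fin 2) (Fin 2) F) : vec4 (c • X) = c • vec4 X := by
  funext i
  fin_cases i <;> simp [vec4]

/-- The volume form on the space of two by two matrices. -/
def vol4 (W X Y Z : Matrix (Fin 2) (Fin 2) F) : F := Matrix.det (Matrix.of ![vec4 W, vec4 X, vec4 Y, vec4 Z])

/-- The commutator in terms of the volume form. -/
theorem tri_eq_vol (X Y Z : Matrix (Fin 2) (Fin 2) F) : Matrix.trace ((X * Y - Y * X) * Z) = - vol4 1 X Y Z := by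
  simp only [vol4, vec4]
  rw [Matrix.det_succ_row_zero]
  simp only [Fin.sum_univ_four, Matrix.trace_fin_two, Matrix.mul_apply, Fin.sum_univ_two, Matrix.sub_apply, Matrix.det_fin_three]
  simp [Matrix.submatrix_apply, Fin.succAbove]
  ring

end SO4

section SO4

variable {F : Type*} [Field F]

/-- Left multiplication in coordinates. -/
def lmul4 (u : Matrix (Fin 2) (Fin 2) F) : Matrix (Fin 4) (Fin 4) F :=
  !![u 0 0, 0, u 0 1, 0; 0, u 0 0, 0, u 0 1; u 1 0, 0, u 1 1, 0; 0, u 1 0, 0, u 1 1]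

theorem lmul4_mulVec (u : Matrix (Fin 2) (Fin 2) F) (v : Fin 4 → F) : tm4 (lmul4 u *ᵥ v) = u * tm4 v := by
  ext i j
  fin_cases i <;> fin_cases j <;> simp [tm4, lmul4, Matrix.mul_apply, Fin.sum_univ_two, Matrix.mulVec, dotProduct, Fin.sum_univ_four]

theorem det_lmul4 (u : Matrix (Fin 2) (Fin 2) F) : (lmul4 u).det = u.det ^ 2 := by
  rw [lmul4, Matrix.det_succ_row_zero, Matrix.det_fin_two]
  simp only [Fin.sum_univ_four, Matrix.det_fin_three]
  simp [Matrix.submatrix_apply, Fin.succAbove]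
  ring

theorem of_mulVec (Φ : Matrix (Fin 4) (Fin 4) F) (a b c d : Fin 4 → F) :
    Matrix.of ![Φ *ᵥ a, Φ *ᵥ b, Φ *ᵥ c, Φ *ᵥ d] = (Matrix.of ![a, b, c, d]) * Φᵀ := by
  ext i j
  rw [Matrix.mul_apply]
  fin_cases i <;> simp [Matrix.mulVec, dotProduct, mul_comm]

/-- **Unital proper isometries of the determinant form are algebra endomorphisms.** -/
theorem so4_unital (h2 : (2 : F) ≠ 0) (Φ : Matrix (Fin 4) (Fin 4) F) (hq : ∀ v, (tm4 (Φ *ᵥ v)).det = (tm4 v).det) (hd : Φ.det = 1)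
    (h1 : tm4 (Φ *ᵥ vec4 1) = 1) :
    ∃ τ : Matrix (Fin 2) (Fin 2) F →ₐ[F] Matrix (Fin 2) (Fin 2) F, ∀ v, τ (tm4 v) = tm4 (Φ *ᵥ v) := by
  classical
  let l : Matrix (Fin 2) (Fin 2) F →ₗ[F] Matrix (Fin 2) (Fin 2) F :=
    { toFun := fun X => tm4 (Φ *ᵥ vec4 X)
      map_add' := fun X Y => by rw [vec4_add, Matrix.mulVec_add, tm4_add]
      map_smul' := fun c X => by rw [vec4_smul, Matrix.mulVec_smul, tm4_smul]; rfl }
  have hl : ∀ X, l X = tm4 (Φ *ᵥ vec4 X) := fun X => rfl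
  have hl1 : l 1 = 1 := h1
  have hdet : ∀ X, (l X).det = X.det := by
    intro X
    rw [hl, hq, tm4_vec4]
  set p : Matrix (Fin 2) (Fin 2) F → Matrix (Fin 2) (Fin 2) F → F := fun X Y => (X + Y).det - X.det - Y.det with hp
  have hpl : ∀ X Y, p (l X) (l Y) = p X Y := by
    intro X Y
    simp only [hp]
    rw [← map_add, hdet, hdet, hdet]
  have hp1 : ∀ X, p X 1 = Matrix.trace X := by
    intro X
    simp only [hp, Matrix.det_fin_two, Matrix.trace_fin_two, Matrix.add_apply, Matrix.one_apply]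
    simp
    ring
  have htr : ∀ X, Matrix.trace (l X) = Matrix.trace X := by
    intro X
    have h3 := hpl X 1
    rw [hl1, hp1, hp1] at h3
    exact h3
  have htrmul0 : ∀ X Y : Matrix (Fin 2) (Fin 2) F, Matrix.trace (X * Y) = p X (Matrix.trace Y • 1 - Y) := by
    intro X Y
    simp only [hp, Matrix.det_fin_two, Matrix.trace_fin_two, Matrix.add_apply, Matrix.mul_apply, Fin.sum_univ_two, Matrix.sub_apply, Matrix.smul_apply, smul_eq_mul, Matrix.one_apply]
    simp
    ring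
  have hladj : ∀ Y, l (Matrix.trace Y • 1 - Y) = Matrix.trace (l Y) • 1 - l Y := by
    intro Y
    rw [map_sub, map_smul, hl1, htr]
  have htrl : ∀ X Y, Matrix.trace (l X * l Y) = Matrix.trace (X * Y) := by
    intro X Y
    rw [htrmul0, htrmul0 X Y, ← hladj, hpl]
  have hvol : ∀ W X Y Z, vol4 (l W) (l X) (l Y) (l Z) = vol4 W X Y Z := by
    intro W X Y Z
    simp only [vol4, hl, vec4_tm4]
    rw [of_mulVec, Matrix.det_mul, Matrix.det_transpose, hd, mul_one]
  have hinv : Φ * Φ⁻¹ = 1 := Matrix.mul_nonsing_inv Φ (by rw [hd]; exact isUnit_one)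
  have hsurj : ∀ T, ∃ Z, l Z = T := by
    intro T
    refine ⟨tm4 (Φ⁻¹ *ᵥ vec4 T), ?_⟩
    rw [hl, vec4_tm4, Matrix.mulVec_mulVec, hinv, Matrix.one_mulVec, tm4_vec4]
  have hnd : ∀ D : Matrix (Fin 2) (Fin 2) F, (∀ T, Matrix.trace (D * T) = 0) → D = 0 := by
    intro D h
    ext i j
    have h3 := h (Matrix.single j i 1)
    fin_cases i <;> fin_cases j <;> simpa [Matrix.trace_fin_two, Matrix.mul_apply, Fin.sum_univ_two] using h3
  have hcomm : ∀ X Y, l (X * Y - Y * X) = l X * l Y - l Y * l X := by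
    intro X Y
    rw [← sub_eq_zero]
    apply hnd
    intro T
    obtain ⟨Z, rfl⟩ := hsurj T
    have hv : vol4 1 (l X) (l Y) (l Z) = vol4 1 X Y Z := by
      have h3 := hvol 1 X Y Z
      rwa [hl1] at h3
    rw [sub_mul, Matrix.trace_sub, htrl, tri_eq_vol, tri_eq_vol, hv, sub_self]
  have hsym : ∀ X Y : Matrix (Fin 2) (Fin 2) F, X * Y + Y * X = Matrix.trace X • Y + Matrix.trace Y • X - p X Y • 1 := by
    intro X Y
    ext i j
    simp only [hp, Matrix.det_fin_two, Matrix.trace_fin_two, Matrix.add_apply, Matrix.mul_apply, Fin.sum_univ_two, Matrix.sub_apply, Matrix.smul_apply, smul_eq_mul, Matrix.one_apply]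
    fin_cases i <;> fin_cases j <;> simp <;> ring
  have hmul : ∀ X Y, l (X * Y) = l X * l Y := by
    intro X Y
    have h3 : l (X * Y) + l (Y * X) = l X * l Y + l Y * l X := by
      rw [← map_add, hsym, hsym (l X) (l Y), map_sub, map_add, map_smul, map_smul, map_smul, hl1, htr, htr, hpl]
    have h5 : l (X * Y) - l (Y * X) = l X * l Y - l Y * l X := by
      rw [← map_sub, hcomm]
    have h6 : (2 : F) • l (X * Y) = (2 : F) • (l X * l Y) := by
      have h7 : (2 : F) • l (X * Y) = (l (X * Y) + l (Y * X)) + (l (X * Y) - l (Y * X)) := by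
        rw [two_smul]
        abel
      have h8 : (2 : F) • (l X * l Y) = (l X * l Y + l Y * l X) + (l X * l Y - l Y * l X) := by
        rw [two_smul]
        abel
      rw [h7, h8, h3, h5]
    exact smul_right_injective _ h2 h6
  refine ⟨AlgHom.ofLinearMap l hl1 hmul, fun v => ?_⟩
  change l (tm4 v) = _
  rw [hl, vec4_tm4]

/-- **Proper isometries of the determinant form** on two by two matrices are of the form `X ↦ A X B`. -/
theorem so4 (h2 : (2 : F) ≠ 0) (Φ : Matrix (Fin 4) (Fin 4) F) (hq : ∀ v, (tm4 (Φ *ᵥ v)).det = (tm4 v).det) (hd : Φ.det = 1) :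
    ∃ A B : GL (Fin 2) F, ∀ v, tm4 (Φ *ᵥ v) = (A : Matrix (Fin 2) (Fin 2) F) * tm4 v * (B : Matrix (Fin 2) (Fin 2) F) := by
  classical
  set U : Matrix (Fin 2) (Fin 2) F := tm4 (Φ *ᵥ vec4 1) with hU
  have hUd : U.det = 1 := by
    rw [hU, hq, tm4_vec4, Matrix.det_one]
  have hUu : IsUnit U.det := by
    rw [hUd]
    exact isUnit_one
  have hUi : U⁻¹ * U = 1 := Matrix.nonsing_inv_mul U hUu
  have hUi' : U * U⁻¹ = 1 := Matrix.mul_nonsing_inv U hUu
  have hUid : (U⁻¹).det = 1 := by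
    have h3 := Matrix.det_mul U⁻¹ U
    rw [hUi, Matrix.det_one, hUd, mul_one] at h3
    exact h3.symm
  set Φ₁ := lmul4 U⁻¹ * Φ with hΦ₁
  have hact : ∀ v, tm4 (Φ₁ *ᵥ v) = U⁻¹ * tm4 (Φ *ᵥ v) := by
    intro v
    rw [hΦ₁, ← Matrix.mulVec_mulVec, lmul4_mulVec]
  obtain ⟨τ, hτ⟩ := so4_unital h2 Φ₁ (fun v => by rw [hact, Matrix.det_mul, hUid, one_mul, hq])
    (by rw [hΦ₁, Matrix.det_mul, det_lmul4, hUid, hd]; simp) (by rw [hact, ← hU, hUi])
  obtain ⟨C, hC⟩ := SkolemNoether.skolem_noether τ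
  refine ⟨Matrix.GeneralLinearGroup.mkOfDetNeZero U (by rw [hUd]; exact one_ne_zero) * C, C⁻¹, fun v => ?_⟩
  have h3 : tm4 (Φ *ᵥ v) = U * τ (tm4 v) := by
    rw [hτ, hact, ← mul_assoc, hUi', one_mul]
  rw [h3, hC]
  simp only [Units.val_mul, Matrix.GeneralLinearGroup.val_mkOfDetNeZero, mul_assoc]

end SO4

variable {ι : Type} [Fintype ι] [DecidableEq ι] {F : Type*} [Field F] [Fintype F] {Q : (ι → F) → F} {H : Subgroup (GL ι F)}

/-- The polar form of the determinant on coordinates. -/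
def polDet {F : Type*} [Field F] (v w : Fin 4 → F) : F := (tm4 (v + w)).det - (tm4 v).det - (tm4 w).det

/-- The quadratic form of a symmetric bilinear form. -/
theorem quad_of_symm (h2 : (2 : F) ≠ 0) {κ : Type} [Fintype κ] [DecidableEq κ] {f : (κ → F) → (κ → F) → F} (h : IsSymmetricForm f) :
    IsNondegenerateQuadraticForm (fun v => 2⁻¹ * f v v) ∧ ∀ x y, polar (fun v => 2⁻¹ * f v v) x y = f x y := by
  have hp : ∀ x y, polar (fun v => 2⁻¹ * f v v) x y = f x y := by
    intro x y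
    simp only [polar]
    rw [h.bilinear.add_left, h.bilinear.add_right, h.bilinear.add_right, h.symm y x]
    field_simp
    ring
  have he : polar (fun v => 2⁻¹ * f v v) = f := by
    funext x y
    exact hp x y
  refine ⟨⟨fun c v => ?_, ?_, ?_⟩, hp⟩
  · rw [h.bilinear.smul_left, h.bilinear.smul_right]
    ring
  · rw [he]
    exact h.bilinear
  · rw [he]
    exact h.nondegenerate

/-- **Forms of plus type in dimension four are the determinant form.** -/
theorem exists_R (h2 : (2 : F) ≠ 0) {f₂ : (Fin 4 → F) → (Fin 4 → F) → F} (h : IsSymmetricForm f₂) (hd : IsSquare (gramMatrix f₂).det) :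
    ∃ R : GL (Fin 4) F, ∀ v w, f₂ ((R : Matrix (Fin 4) (Fin 4) F) *ᵥ v) ((R : Matrix (Fin 4) (Fin 4) F) *ᵥ w) = polDet v w := by
  classical
  obtain ⟨hq, hpol⟩ := quad_of_symm h2 h
  have hplus : IsPlusTypeOn (fun v => 2⁻¹ * f₂ v v) ⊤ := by
    refine (plus_iff_disc h2 hq (m := 2) (by norm_num) (by simp) (Pi.basisFun F (Fin 4))).mpr ?_
    have he : (Matrix.of fun i j => polar (fun v => 2⁻¹ * f₂ v v) (Pi.basisFun F (Fin 4) i) (Pi.basisFun F (Fin 4) j)) = gramMatrix f₂ := by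
      ext i j
      rw [Matrix.of_apply, hpol, Pi.basisFun_apply, Pi.basisFun_apply]
      rfl
    rw [he]
    simpa using hd
  obtain ⟨Q', hQ'c, hQ'⟩ := exists_quadraticForm hq
  rw [← hQ'c] at hplus
  have hnd : IsNondegenerateOn (polar (⇑Q')) (⊤ : Submodule F (Fin 4 → F)) := by
    intro w _ hw0
    rw [hQ'c] at *
    obtain ⟨⟨x, hx⟩, ⟨y, hy⟩⟩ := hq.nondegenerate w hw0
    exact ⟨⟨x, trivial, hx⟩, ⟨y, trivial, hy⟩⟩
  have hdim : finrank F (⊤ : Submodule F (Fin 4 → F)) = 2 * 2 := by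
    rw [finrank_top]
    simp
  rcases Cfsg.Agent.Lib.Classical.Witt.Index.exists_isometry_plus_or_minus (m := 2) (by norm_num) hdim (Q'.comp (⊤ : Submodule F (Fin 4 → F)).subtype) (nondeg_restrict hnd) with
    ⟨g, hg⟩ | ⟨ζ, hζ, g, hg⟩
  swap
  · exact absurd hplus (not_plus_of_model (m := 2) (by norm_num) hζ g hg hdim)
  let mm : (Fin 4 → F) →ₗ[F] (Fin 2 ⊕ Fin 2 → F) :=
    { toFun := fun v => mkV (v 0) (v 1) (v 3) (-v 2)
      map_add' := fun v w => by
        simp only [Pi.add_apply, mkV_add, neg_add]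
      map_smul' := fun c v => by
        funext j
        rcases j with i | i <;> fin_cases i <;> simp [mkV] }
  have hmm : ∀ v, plusQ 2 F (mm v) = (tm4 v).det := by
    intro v
    change plusQ 2 F (mkV (v 0) (v 1) (v 3) (-v 2)) = _
    rw [plusQ_mkV, tm4, Matrix.det_fin_two_of]
    ring
  have hmminj : Function.Injective mm := by
    rw [injective_iff_map_eq_zero]
    intro v hv
    have h3 : mkV (v 0) (v 1) (v 3) (-v 2) = 0 := hv
    have e0 := congrFun h3 (Sum.inl 0)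
    have e1 := congrFun h3 (Sum.inl 1)
    have e3 := congrFun h3 (Sum.inr 0)
    have e2 := congrFun h3 (Sum.inr 1)
    simp [mkV] at e0 e1 e2 e3
    funext i
    fin_cases i
    · exact e0
    · exact e1
    · exact e2
    · exact e3
  let T : (Fin 4 → F) →ₗ[F] (Fin 4 → F) :=
    (⊤ : Submodule F (Fin 4 → F)).subtype.comp (g.symm.toLinearMap.comp mm)
  have hT : ∀ v, T v = ((g.symm (mm v) : (⊤ : Submodule F (Fin 4 → F))) : Fin 4 → F) := fun v => rfl
  have hTinj : Function.Injective T := by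
    intro v w hvw
    rw [hT, hT] at hvw
    exact hmminj (g.symm.injective (Subtype.ext hvw))
  have hQT : ∀ v, Q' (T v) = (tm4 v).det := by
    intro v
    have h1 := hg (g.symm (mm v))
    rw [LinearEquiv.apply_symm_apply, hmm] at h1
    rw [hT]
    exact h1.symm
  have hunit : IsUnit (LinearMap.toMatrix' T) := by
    rw [← Matrix.mulVec_injective_iff_isUnit]
    intro v w hvw
    apply hTinj
    rwa [LinearMap.toMatrix'_mulVec, LinearMap.toMatrix'_mulVec] at hvw
  obtain ⟨R, hR⟩ := hunit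
  refine ⟨R, fun v w => ?_⟩
  rw [hR, LinearMap.toMatrix'_mulVec, LinearMap.toMatrix'_mulVec, ← hpol, ← hQ'c]
  simp only [polar]
  rw [← map_add, hQT, hQT, hQT]
  rfl

/-- The discriminant of the factor of a tensor decomposition of a space of plus type. -/
theorem square_of_plus (h2 : (2 : F) ≠ 0) (hQ : IsNondegenerateQuadraticForm Q) (hplus : IsPlusTypeOn Q ⊤) {e : ι ≃ Fin 3 × Fin 4} {P : GL ι F}
    {f₁ : (Fin 3 → F) → (Fin 3 → F) → F} {f₂ : (Fin 4 → F) → (Fin 4 → F) → F} (h1 : IsSymmetricForm f₁) (h3 : IsSymmetricForm f₂)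
    (hs : IsTensorFormStructure id (polar Q) f₁ f₂ e P) : IsSquare (gramMatrix f₂).det := by
  classical
  have hc : Fintype.card ι = 2 * 6 := by
    rw [Fintype.card_congr e]
    simp
  obtain ⟨c, hc0, heq⟩ := hs
  let LP : (ι → F) ≃ₗ[F] (ι → F) := LinearEquiv.ofBijective (Matrix.toLin' (P : Matrix ι ι F)) ⟨by
      intro x y hxy
      rw [Matrix.toLin'_apply, Matrix.toLin'_apply] at hxy
      exact mulVec_injective P hxy, by
      intro y
      refine ⟨((P⁻¹ : GL ι F) : Matrix ι ι F) *ᵥ y, ?_⟩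
      rw [Matrix.toLin'_apply]
      exact mulVec_inv_mulVec P y⟩
  let b : Basis (Fin 3 × Fin 4) F (ι → F) := (Pi.basisFun F (Fin 3 × Fin 4)).map ((LinearEquiv.funCongrLeft F F e).trans LP)
  have hb : ∀ p, b p = (P : Matrix ι ι F) *ᵥ ((Pi.single p 1 : Fin 3 × Fin 4 → F) ∘ e) := by
    intro p
    simp only [b, Basis.map_apply, Pi.basisFun_apply, LinearEquiv.trans_apply]
    rfl
  have hplus' := (plus_iff_disc h2 hQ (m := 6) (by norm_num) hc b).mp hplus
  have he : (Matrix.of fun i j => polar Q (b i) (b j)) = c • (gramMatrix f₁ ⊗ₖ gramMatrix f₂) := by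
    ext p q
    rw [Matrix.of_apply, hb, hb, heq]
    simp [formOfGram, Pi.single_apply, Finset.sum_ite_eq, Finset.sum_ite_eq', Matrix.smul_apply]
  rw [he, Matrix.det_smul, Matrix.det_kronecker] at hplus'
  simp only [Fintype.card_prod, Fintype.card_fin] at hplus'
  set d₁ := (gramMatrix f₁).det with hd₁
  set d₂ := (gramMatrix f₂).det with hd₂
  have hd₁0 : d₁ ≠ 0 := ((Matrix.isUnit_iff_isUnit_det _).mp (isUnit_gram_of_nondeg h1.bilinear h1.nondegenerate)).ne_zero
  have hd₂0 : d₂ ≠ 0 := ((Matrix.isUnit_iff_isUnit_det _).mp (isUnit_gram_of_nondeg h3.bilinear h3.nondegenerate)).ne_zero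
  have h5 : (-1 : F) ^ 6 * (c ^ (3 * 4) * (d₁ ^ 4 * d₂ ^ 3)) = (c ^ 6 * d₁ ^ 2 * d₂) ^ 2 * d₂ := by
    ring
  rw [h5] at hplus'
  exact (Cfsg.Agent.Lib.Classical.Witt.Disc.isSquare_sq_mul_iff (mul_ne_zero (mul_ne_zero (pow_ne_zero _ hc0) (pow_ne_zero _ hd₁0)) hd₂0)).mp hplus'

/-- Normalising the factors of a tensor decomposition of dimensions three and four. -/
theorem proper_of_mem {e : ι ≃ Fin 3 × Fin 4} {P g : GL ι F}
    {f₁ : (Fin 3 → F) → (Fin 3 → F) → F} {f₂ : (Fin 4 → F) → (Fin 4 → F) → F} (h1 : IsSymmetricForm f₁) (h3 : IsSymmetricForm f₂)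
    (hs : IsTensorFormStructure id (polar Q) f₁ f₂ e P) (hg : g ∈ isometryGroup F Q) (hdet : (g : Matrix ι ι F).det = 1) {a : GL (Fin 3) F} {b : GL (Fin 4) F}
    (hab : ∀ i j, ((P⁻¹ * g * P : GL ι F) : Matrix ι ι F) i j = (a : Matrix (Fin 3) (Fin 3) F) (e i).1 (e j).1 * (b : Matrix (Fin 4) (Fin 4) F) (e i).2 (e j).2) :
    ∃ (a' : GL (Fin 3) F) (b' : GL (Fin 4) F), (∀ x y, f₂ ((b' : Matrix (Fin 4) (Fin 4) F) *ᵥ x) ((b' : Matrix (Fin 4) (Fin 4) F) *ᵥ y) = f₂ x y) ∧
      (b' : Matrix (Fin 4) (Fin 4) F).det = 1 ∧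
      ∀ i j, ((P⁻¹ * g * P : GL ι F) : Matrix ι ι F) i j = (a' : Matrix (Fin 3) (Fin 3) F) (e i).1 (e j).1 * (b' : Matrix (Fin 4) (Fin 4) F) (e i).2 (e j).2 := by
  classical
  obtain ⟨μ, hμ, hsa⟩ := factor_sim h1.bilinear h3.bilinear h1.nondegenerate h3.nondegenerate hs hg hab
  obtain ⟨μ', hμ', hsb⟩ := factor_sim (a := b) (b := a) h3.bilinear h1.bilinear h3.nondegenerate h1.nondegenerate (tensor_swap hs) hg (fun i j => by
    rw [hab, mul_comm]
    rfl)
  obtain ⟨c, hc, hR⟩ := pol_kr h1.bilinear h3.bilinear hs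
  have hμμ : μ * μ' = 1 := by
    obtain ⟨x, hx⟩ : ∃ x : Fin 3 → F, x ≠ 0 := ⟨Pi.single 0 1, fun h => by
      have := congrFun h 0
      simp at this⟩
    obtain ⟨x', hx'⟩ := (h1.nondegenerate x hx).2
    obtain ⟨y, hy⟩ : ∃ y : Fin 4 → F, y ≠ 0 := ⟨Pi.single 0 1, fun h => by
      have := congrFun h 0
      simp at this⟩
    obtain ⟨y', hy'⟩ := (h3.nondegenerate y hy).2
    have h5 := isometry_le_isomG hg ((P : Matrix ι ι F) *ᵥ kr e x y) ((P : Matrix ι ι F) *ᵥ kr e x' y')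
    rw [conj_mulVec_P (g := g) (P := P) (kr e x y), conj_mulVec_P (g := g) (P := P) (kr e x' y'), tensor_action hab, tensor_action hab, hR, hR, hsa, hsb] at h5
    have h6 : (μ * μ' - 1) * (c * (f₁ x x' * f₂ y y')) = 0 := by linear_combination h5
    exact sub_eq_zero.mp ((mul_eq_zero.mp h6).resolve_right (mul_ne_zero hc (mul_ne_zero hx' hy')))
  have hd₁0 : (gramMatrix f₁).det ≠ 0 := ((Matrix.isUnit_iff_isUnit_det _).mp (isUnit_gram_of_nondeg h1.bilinear h1.nondegenerate)).ne_zero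
  have hd₂0 : (gramMatrix f₂).det ≠ 0 := ((Matrix.isUnit_iff_isUnit_det _).mp (isUnit_gram_of_nondeg h3.bilinear h3.nondegenerate)).ne_zero
  have hda : (a : Matrix (Fin 3) (Fin 3) F).det ^ 2 = μ ^ 3 := by
    have h5 := congrArg Matrix.det (gram_sim h1.bilinear hsa)
    rw [Matrix.det_mul, Matrix.det_mul, Matrix.det_transpose, Matrix.det_smul, Fintype.card_fin] at h5
    have h6 : ((a : Matrix (Fin 3) (Fin 3) F).det ^ 2 - μ ^ 3) * (gramMatrix f₁).det = 0 := by linear_combination h5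
    exact sub_eq_zero.mp ((mul_eq_zero.mp h6).resolve_right hd₁0)
  have hdb : (b : Matrix (Fin 4) (Fin 4) F).det ^ 2 = μ' ^ 4 := by
    have h5 := congrArg Matrix.det (gram_sim h3.bilinear hsb)
    rw [Matrix.det_mul, Matrix.det_mul, Matrix.det_transpose, Matrix.det_smul, Fintype.card_fin] at h5
    have h6 : ((b : Matrix (Fin 4) (Fin 4) F).det ^ 2 - μ' ^ 4) * (gramMatrix f₂).det = 0 := by linear_combination h5
    exact sub_eq_zero.mp ((mul_eq_zero.mp h6).resolve_right hd₂0)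
  have hdaa : (a : Matrix (Fin 3) (Fin 3) F).det ≠ 0 := ((Matrix.isUnit_iff_isUnit_det _).mp a.isUnit).ne_zero
  have hdbb : (b : Matrix (Fin 4) (Fin 4) F).det ≠ 0 := ((Matrix.isUnit_iff_isUnit_det _).mp b.isUnit).ne_zero
  set da := (a : Matrix (Fin 3) (Fin 3) F).det with hdad
  set db := (b : Matrix (Fin 4) (Fin 4) F).det with hdbd
  set l : F := da / μ with hl
  have hl0 : l ≠ 0 := div_ne_zero hdaa hμ
  have hll : l * l = μ := by
    rw [hl]
    field_simp
    linear_combination hda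
  -- the determinant of the Kronecker product
  have hk : da ^ 4 * db ^ 3 = 1 := by
    have h5 : ((P⁻¹ * g * P : GL ι F) : Matrix ι ι F).det = 1 := by
      simp only [Units.val_mul, Matrix.det_mul]
      have h6 : ((P⁻¹ : GL ι F) : Matrix ι ι F).det * (P : Matrix ι ι F).det = 1 := by
        rw [← Matrix.det_mul, ← Units.val_mul, inv_mul_cancel, Units.val_one, Matrix.det_one]
      rw [hdet, mul_one, h6]
    have h6 : ((P⁻¹ * g * P : GL ι F) : Matrix ι ι F) = ((a : Matrix (Fin 3) (Fin 3) F) ⊗ₖ (b : Matrix (Fin 4) (Fin 4) F)).submatrix e e := by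
      ext i j
      rw [hab]
      rfl
    rw [h6, Matrix.det_submatrix_equiv_self, Matrix.det_kronecker] at h5
    simpa using h5
  let a' : GL (Fin 3) F := Matrix.GeneralLinearGroup.mkOfDetNeZero (l⁻¹ • (a : Matrix (Fin 3) (Fin 3) F)) (by
    rw [Matrix.det_smul]
    exact mul_ne_zero (pow_ne_zero _ (inv_ne_zero hl0)) hdaa)
  let b' : GL (Fin 4) F := Matrix.GeneralLinearGroup.mkOfDetNeZero (l • (b : Matrix (Fin 4) (Fin 4) F)) (by
    rw [Matrix.det_smul]
    exact mul_ne_zero (pow_ne_zero _ hl0) hdbb)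
  have ha' : (a' : Matrix (Fin 3) (Fin 3) F) = l⁻¹ • (a : Matrix (Fin 3) (Fin 3) F) := rfl
  have hb' : (b' : Matrix (Fin 4) (Fin 4) F) = l • (b : Matrix (Fin 4) (Fin 4) F) := rfl
  have hdb' : (b' : Matrix (Fin 4) (Fin 4) F).det = l ^ 4 * db := by
    rw [hb', Matrix.det_smul, Fintype.card_fin]
  refine ⟨a', b', fun x y => ?_, ?_, fun i j => ?_⟩
  · rw [hb', Matrix.smul_mulVec, Matrix.smul_mulVec, h3.bilinear.smul_left, h3.bilinear.smul_right, hsb]
    calc l * (l * (μ' * f₂ x y)) = (l * l) * μ' * f₂ x y := by ring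
      _ = f₂ x y := by rw [hll, hμμ, one_mul]
  · rw [hdb']
    set t := l ^ 4 * db with ht
    have ht2 : t ^ 2 = 1 := by
      have h5 : (l * l) ^ 4 = μ ^ 4 := by rw [hll]
      calc t ^ 2 = (l * l) ^ 4 * db ^ 2 := by rw [ht]; ring
        _ = (μ * μ') ^ 4 := by rw [h5, hdb]; ring
        _ = 1 := by rw [hμμ, one_pow]
    have ht3 : t ^ 3 = 1 := by
      have h5 : (l * l) ^ 6 = μ ^ 6 := by rw [hll]
      have h6 : da ^ 4 = μ ^ 6 := by
        calc da ^ 4 = (da ^ 2) ^ 2 := by ring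
          _ = μ ^ 6 := by rw [hda]; ring
      calc t ^ 3 = (l * l) ^ 6 * db ^ 3 := by rw [ht]; ring
        _ = da ^ 4 * db ^ 3 := by rw [h5, h6]
        _ = 1 := hk
    calc t = t ^ 3 := by
          have h7 : t ^ 3 = t * t ^ 2 := by ring
          rw [h7, ht2, mul_one]
      _ = 1 := ht3
  · rw [hab, ha', hb']
    simp only [Matrix.smul_apply, smul_eq_mul]
    field_simp

/-- Coordinates of two by two matrices. -/
def E4 : Fin 4 ≃ Fin 2 × Fin 2 where
  toFun := ![(0, 0), (0, 1), (1, 0), (1, 1)]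
  invFun := fun p => ![![0, 1], ![2, 3]] p.1 p.2
  left_inv := by
    intro i
    fin_cases i <;> rfl
  right_inv := by
    rintro ⟨a, b⟩
    fin_cases a <;> fin_cases b <;> rfl

/-- Coordinates of `Fin 2 × Fin 3`. -/
def E6 : Fin 6 ≃ Fin 2 × Fin 3 := (finProdFinEquiv : Fin 2 × Fin 3 ≃ Fin (2 * 3)).symm

theorem tm4_apply (v : Fin 4 → F) (i j : Fin 2) : tm4 v i j = v (E4.symm (i, j)) := by
  fin_cases i <;> fin_cases j <;> rfl

/-- The symplectic form on the plane. -/
def alt2 {F : Type*} [Field F] (x y : Fin 2 → F) : F := x 0 * y 1 - x 1 * y 0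

theorem alt2_symp : IsSymplecticForm (alt2 (F := F)) := by
  refine ⟨⟨fun x y v => ?_, fun c x v => ?_, fun v x y => ?_, fun c v x => ?_⟩, fun v w => ?_, fun v => ?_, fun v hv => ?_⟩
  · simp only [alt2, Pi.add_apply]
    ring
  · simp only [alt2, Pi.smul_apply, smul_eq_mul]
    ring
  · simp only [alt2, Pi.add_apply]
    ring
  · simp only [alt2, Pi.smul_apply, smul_eq_mul]
    ring
  · simp only [alt2]
    ring
  · simp only [alt2]
    ring
  · have h1 : v 0 ≠ 0 ∨ v 1 ≠ 0 := by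
      by_contra hcon
      push Not at hcon
      apply hv
      funext i
      fin_cases i
      · exact hcon.1
      · exact hcon.2
    rcases h1 with h1 | h1
    · refine ⟨⟨![0, 1], ?_⟩, ⟨![0, 1], ?_⟩⟩
      · simp [alt2, h1]
      · simp [alt2, h1]
    · refine ⟨⟨![1, 0], ?_⟩, ⟨![1, 0], ?_⟩⟩
      · simp [alt2, h1]
      · simp [alt2, h1]

/-- The alternating form on a sum of two copies of a space with a symmetric form. -/
def altSym {κ : Type} {d : ℕ} {F : Type*} [Field F] (E₀ : κ ≃ Fin 2 × Fin d) (f : (Fin d → F) → (Fin d → F) → F) (v w : κ → F) : F :=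
  f (fun j => v (E₀.symm (0, j))) (fun j => w (E₀.symm (1, j))) - f (fun j => v (E₀.symm (1, j))) (fun j => w (E₀.symm (0, j)))

theorem altSym_symp {κ : Type} [DecidableEq κ] {d : ℕ} (E₀ : κ ≃ Fin 2 × Fin d) {f : (Fin d → F) → (Fin d → F) → F} (h : IsSymmetricForm f) :
    IsSymplecticForm (altSym E₀ f) := by
  classical
  have hb := h.bilinear
  have hskew : ∀ v w, altSym E₀ f v w = - altSym E₀ f w v := by
    intro v w
    simp only [altSym]
    rw [h.symm (fun j => w (E₀.symm (0, j))), h.symm (fun j => w (E₀.symm (1, j)))]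
    ring
  have hzr : ∀ x : Fin d → F, f x 0 = 0 := fun x => by simpa using hb.smul_right 0 x 0
  have hzl : ∀ x : Fin d → F, f 0 x = 0 := fun x => by simpa using hb.smul_left 0 0 x
  have hne : ∀ v : κ → F, v ≠ 0 → ∃ x, altSym E₀ f v x ≠ 0 := by
    intro v hv
    obtain ⟨u, hu⟩ : ∃ u, v u ≠ 0 := by
      by_contra hcon
      push Not at hcon
      exact hv (funext hcon)
    have hu' : v (E₀.symm ((E₀ u).1, (E₀ u).2)) ≠ 0 := by
      rw [Prod.mk.eta, E₀.symm_apply_apply]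
      exact hu
    generalize (E₀ u).1 = s at hu'
    generalize (E₀ u).2 = j at hu'
    have h0 : (fun j => v (E₀.symm (s, j))) ≠ 0 := fun h0 => hu' (congrFun h0 j)
    obtain ⟨y, hy⟩ := (h.nondegenerate _ h0).2
    fin_cases s
    · refine ⟨fun u => if (E₀ u).1 = 1 then y (E₀ u).2 else 0, ?_⟩
      simp only [altSym, Equiv.apply_symm_apply, if_true]
      have e0 : (fun j : Fin d => if (0 : Fin 2) = 1 then y j else 0) = 0 := by
        funext j
        simp
      simp only [e0, hzr, sub_zero]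
      exact hy
    · refine ⟨fun u => if (E₀ u).1 = 0 then y (E₀ u).2 else 0, ?_⟩
      simp only [altSym, Equiv.apply_symm_apply, if_true]
      have e0 : (fun j : Fin d => if (1 : Fin 2) = 0 then y j else 0) = 0 := by
        funext j
        simp
      simp only [e0, hzr, zero_sub]
      exact neg_ne_zero.mpr hy
  refine ⟨⟨fun x y v => ?_, fun c x v => ?_, fun v x y => ?_, fun c v x => ?_⟩, hskew, fun v => ?_, fun v hv => ?_⟩
  · simp only [altSym]
    have e1 : ∀ a, (fun j => (x + y) (E₀.symm (a, j))) = (fun j => x (E₀.symm (a, j))) + (fun j => y (E₀.symm (a, j))) := fun a => rfl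
    rw [e1, e1, hb.add_left, hb.add_left]
    ring
  · simp only [altSym]
    have e1 : ∀ a, (fun j => (c • x) (E₀.symm (a, j))) = c • (fun j => x (E₀.symm (a, j))) := fun a => rfl
    rw [e1, e1, hb.smul_left, hb.smul_left]
    ring
  · simp only [altSym]
    have e1 : ∀ a, (fun j => (x + y) (E₀.symm (a, j))) = (fun j => x (E₀.symm (a, j))) + (fun j => y (E₀.symm (a, j))) := fun a => rfl
    rw [e1, e1, hb.add_right, hb.add_right]
    ring
  · simp only [altSym]
    have e1 : ∀ a, (fun j => (c • x) (E₀.symm (a, j))) = c • (fun j => x (E₀.symm (a, j))) := fun a => rfl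
    rw [e1, e1, hb.smul_right, hb.smul_right]
    ring
  · simp only [altSym]
    rw [h.symm (fun j => v (E₀.symm (1, j)))]
    ring
  · obtain ⟨x, hx⟩ := hne v hv
    refine ⟨⟨x, ?_⟩, ⟨x, hx⟩⟩
    rw [hskew]
    exact neg_ne_zero.mpr hx

/-- The values of the alternating form on a basis. -/
theorem altSym_single {κ : Type} [DecidableEq κ] {d : ℕ} (E₀ : κ ≃ Fin 2 × Fin d) {f : (Fin d → F) → (Fin d → F) → F} (hb : IsBilinearForm f) (s s' : Fin 2) (j j' : Fin d) :
    altSym E₀ f (Pi.single (E₀.symm (s, j)) 1) (Pi.single (E₀.symm (s', j')) 1) = alt2 (Pi.single s 1) (Pi.single s' 1) * f (Pi.single j 1) (Pi.single j' 1) := by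
  classical
  have hzr : ∀ x : Fin d → F, f x 0 = 0 := fun x => by simpa using hb.smul_right 0 x 0
  have hzl : ∀ x : Fin d → F, f 0 x = 0 := fun x => by simpa using hb.smul_left 0 0 x
  have hsl : ∀ a s j, (fun j₁ => (Pi.single (E₀.symm (s, j)) 1 : κ → F) (E₀.symm (a, j₁))) = if a = s then Pi.single j 1 else 0 := by
    intro a s j
    funext j₁
    by_cases has : a = s
    · subst has
      simp [Pi.single_apply, E₀.symm.injective.eq_iff]
    · simp [Pi.single_apply, E₀.symm.injective.eq_iff, has]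
  simp only [altSym, hsl]
  fin_cases s <;> fin_cases s' <;> simp [alt2, hzr, hzl]

theorem polDet_single (r s r' s' : Fin 2) :
    polDet (F := F) (Pi.single (E4.symm (r, s)) 1) (Pi.single (E4.symm (r', s')) 1) = alt2 (Pi.single r 1) (Pi.single r' 1) * alt2 (Pi.single s 1) (Pi.single s' 1) := by
  fin_cases r <;> fin_cases s <;> fin_cases r' <;> fin_cases s' <;>
    simp [polDet, tm4, Matrix.det_fin_two_of, alt2, E4, Pi.single_apply]

/-- The Gram criterion for a tensor form structure. -/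
theorem tensor_of_gram {d k : ℕ} {e : ι ≃ Fin d × Fin k} {P : GL ι F} {f : (ι → F) → (ι → F) → F} (hb : IsBilinearForm f)
    {φ₁ : (Fin d → F) → (Fin d → F) → F} {φ₂ : (Fin k → F) → (Fin k → F) → F} {c : F} (hc : c ≠ 0)
    (h : ∀ p q : Fin d × Fin k, f ((P : Matrix ι ι F) *ᵥ ((Pi.single p 1 : Fin d × Fin k → F) ∘ e)) ((P : Matrix ι ι F) *ᵥ ((Pi.single q 1 : Fin d × Fin k → F) ∘ e)) =
      c * (gramMatrix φ₁ p.1 q.1 * gramMatrix φ₂ p.2 q.2)) :
    IsTensorFormStructure id f φ₁ φ₂ e P := by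
  classical
  refine ⟨c, hc, fun x y => ?_⟩
  have hx : ∀ x : Fin d × Fin k → F, (P : Matrix ι ι F) *ᵥ (x ∘ e) = ∑ p, x p • ((P : Matrix ι ι F) *ᵥ ((Pi.single p 1 : Fin d × Fin k → F) ∘ e)) := by
    intro x
    have e1 : x ∘ e = ∑ p, x p • ((Pi.single p 1 : Fin d × Fin k → F) ∘ e) := by
      funext i
      simp [Finset.sum_apply, Pi.single_apply]
    rw [e1, Matrix.mulVec_sum]
    refine Finset.sum_congr rfl fun p _ => ?_
    rw [Matrix.mulVec_smul]
  rw [hx x, hx y, (isSesq_of_bilinear hb).sum_left]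
  simp only [formOfGram, Finset.mul_sum]
  refine Finset.sum_congr rfl fun a _ => ?_
  rw [hb.smul_left, (isSesq_of_bilinear hb).sum_right, Finset.mul_sum]
  refine Finset.sum_congr rfl fun q _ => ?_
  rw [hb.smul_right, h]
  simp only [Matrix.kroneckerMap_apply, id]
  ring

/-- Elements of the commutator subgroup of the isometry group have determinant one. -/
theorem det_of_omega {g : GL ι F} (hg : g ∈ omegaGL Q) : (g : Matrix ι ι F).det = 1 := by
  obtain ⟨x, hx, rfl⟩ := hg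
  let φ : isometryGroup F Q →* Fˣ := Matrix.GeneralLinearGroup.det.comp (isometryGroup F Q).subtype
  have hle : commutator (isometryGroup F Q) ≤ φ.ker := by
    rw [commutator_def, Subgroup.commutator_le]
    intro a _ b _
    rw [MonoidHom.mem_ker, map_commutatorElement, commutatorElement_eq_one_iff_mul_comm]
    exact mul_comm _ _
  have h1 := hle hx
  rw [MonoidHom.mem_ker] at h1
  have h3 := congrArg Units.val h1
  exact h3

theorem mul_single_mul (A B : Matrix (Fin 2) (Fin 2) F) (r s r' s' : Fin 2) :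
    (A * Matrix.single r' s' (1 : F) * B) r s = A r r' * B s' s := by
  fin_cases r <;> fin_cases s <;> fin_cases r' <;> fin_cases s' <;>
    simp [Matrix.mul_apply, Fin.sum_univ_two, Matrix.single_apply]

/-- **Symmetric tensor factors of dimensions three and four in a space of plus type** give alternating tensor factors of dimensions two and six. -/
theorem tensor_three_four (h2 : (2 : F) ≠ 0) (hQ : IsNondegenerateQuadraticForm Q) (hplus : IsPlusTypeOn Q ⊤) (hle : H ≤ isometryGroup F Q) (hdetH : H ≤ omegaGL Q)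
    {e : ι ≃ Fin 3 × Fin 4} {P : GL ι F} {f₁ : (Fin 3 → F) → (Fin 3 → F) → F} {f₂ : (Fin 4 → F) → (Fin 4 → F) → F} (h1 : IsSymmetricForm f₁) (h3 : IsSymmetricForm f₂)
    (hs : IsTensorFormStructure id (polar Q) f₁ f₂ e P) (hst : H ≤ tensorProductSubgroup 3 4 e P) :
    ∃ (e' : ι ≃ Fin 2 × Fin 6) (P' : GL ι F) (φ₁ : (Fin 2 → F) → (Fin 2 → F) → F) (φ₂ : (Fin 6 → F) → (Fin 6 → F) → F),
      IsSymplecticForm φ₁ ∧ IsSymplecticForm φ₂ ∧ IsTensorFormStructure id (polar Q) φ₁ φ₂ e' P' ∧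
      (∀ x y, Q ((P' : Matrix ι ι F) *ᵥ kr e' x y) = 0) ∧ H ≤ tensorProductSubgroup 2 6 e' P' := by
  classical
  obtain ⟨R, hR⟩ := exists_R h2 h3 (square_of_plus h2 hQ hplus h1 h3 hs)
  set Rm : Matrix (Fin 4) (Fin 4) F := (R : Matrix (Fin 4) (Fin 4) F) with hRm
  set Ri : Matrix (Fin 4) (Fin 4) F := ((R⁻¹ : GL (Fin 4) F) : Matrix (Fin 4) (Fin 4) F) with hRi
  have hRR : Rm * Ri = 1 := by
    rw [hRm, hRi, ← Units.val_mul, mul_inv_cancel, Units.val_one]
  have hRR' : Ri * Rm = 1 := by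
    rw [hRm, hRi, ← Units.val_mul, inv_mul_cancel, Units.val_one]
  let T : Fin 3 × Fin 4 ≃ Fin 2 × Fin 6 :=
    { toFun := fun p => ((E4 p.2).1, E6.symm ((E4 p.2).2, p.1))
      invFun := fun q => ((E6 q.2).2, E4.symm (q.1, (E6 q.2).1))
      left_inv := by
        rintro ⟨j, l⟩
        simp
      right_inv := by
        rintro ⟨r, u⟩
        simp }
  let e' : ι ≃ Fin 2 × Fin 6 := e.trans T
  have he' : ∀ i, e' i = ((E4 (e i).2).1, E6.symm ((E4 (e i).2).2, (e i).1)) := fun i => rfl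
  set S₁ : Matrix ι ι F := ((1 : Matrix (Fin 3) (Fin 3) F) ⊗ₖ Rm).submatrix e e with hS₁
  set S₂ : Matrix ι ι F := ((1 : Matrix (Fin 3) (Fin 3) F) ⊗ₖ Ri).submatrix e e with hS₂
  have hS12 : S₁ * S₂ = 1 := by
    rw [hS₁, hS₂, Matrix.submatrix_mul_equiv, ← Matrix.mul_kronecker_mul, hRR, mul_one, Matrix.one_kronecker_one, Matrix.submatrix_one_equiv]
  have hS21 : S₂ * S₁ = 1 := by
    rw [hS₁, hS₂, Matrix.submatrix_mul_equiv, ← Matrix.mul_kronecker_mul, hRR', mul_one, Matrix.one_kronecker_one, Matrix.submatrix_one_equiv]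
  let S : GL ι F := ⟨S₁, S₂, hS12, hS21⟩
  let P' : GL ι F := P * S
  have hP'v : ∀ z y, (P' : Matrix ι ι F) *ᵥ kr e z y = (P : Matrix ι ι F) *ᵥ kr e z (Rm *ᵥ y) := by
    intro z y
    have e1 : (P' : Matrix ι ι F) = (P : Matrix ι ι F) * S₁ := rfl
    have e2 := tensor_action (e := e) (X := S₁) (a := (1 : Matrix (Fin 3) (Fin 3) F)) (b := Rm) (fun i j => rfl) z y
    rw [e1, ← Matrix.mulVec_mulVec, e2, Matrix.one_mulVec]
  obtain ⟨c, hc, hRk⟩ := pol_kr h1.bilinear h3.bilinear hs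
  have hbil := hQ.polar_bilinear
  have hsingle : ∀ (r : Fin 2) (s : Fin 2) (j : Fin 3), ((Pi.single (r, E6.symm (s, j)) 1 : Fin 2 × Fin 6 → F) ∘ e') = kr e (Pi.single j 1) (Pi.single (E4.symm (r, s)) 1) := by
    intro r s j
    funext i
    simp only [Function.comp_apply, kr, he']
    obtain ⟨j₁, l₁⟩ := e i
    simp only
    have hl : (E4 l₁).1 = r ∧ (E4 l₁).2 = s ↔ l₁ = E4.symm (r, s) := by
      rw [Equiv.eq_symm_apply, Prod.ext_iff]
    by_cases h5 : l₁ = E4.symm (r, s)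
    · subst h5
      simp [Pi.single_apply, E6.symm.injective.eq_iff]
    · have h6 : ¬ ((E4 l₁).1 = r ∧ (E4 l₁).2 = s) := fun h => h5 (hl.mp h)
      simp only [Pi.single_apply, Prod.mk.injEq, E6.symm.injective.eq_iff, if_neg h5, mul_zero]
      rw [if_neg]
      intro h7
      exact h6 ⟨h7.1, h7.2.1⟩
  have hstruct : IsTensorFormStructure id (polar Q) (alt2 (F := F)) (altSym E6 f₁) e' P' := by
    refine tensor_of_gram hbil hc fun p q => ?_
    obtain ⟨r, u⟩ := p
    obtain ⟨r', u'⟩ := q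
    obtain ⟨⟨s, j⟩, rfl⟩ := E6.symm.surjective u
    obtain ⟨⟨s', j'⟩, rfl⟩ := E6.symm.surjective u'
    rw [hsingle, hsingle, hP'v, hP'v, hRk, hR, polDet_single]
    simp only [gramMatrix]
    rw [altSym_single E6 h1.bilinear]
    ring
  obtain ⟨c', hc', hRk'⟩ := pol_kr alt2_symp.bilinear (altSym_symp E6 h1).bilinear hstruct
  refine ⟨e', P', alt2, altSym E6 f₁, alt2_symp, altSym_symp E6 h1, hstruct, fun x y => ?_, fun g hg => ?_⟩
  · refine Q_kr_odd h2 hQ hRk' ?_
    rw [alt2_symp.alternating, zero_mul]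
  · obtain ⟨a, b, hab⟩ := Main.mem_tensorProductSubgroup_iff.mp (hst hg)
    obtain ⟨a', b', hiso, hb'd, hab'⟩ := proper_of_mem h1 h3 hs (hle hg) (det_of_omega (hdetH hg)) hab
    set bm : Matrix (Fin 4) (Fin 4) F := (b' : Matrix (Fin 4) (Fin 4) F) with hbm
    set Φ : Matrix (Fin 4) (Fin 4) F := Ri * bm * Rm with hΦ
    have hRΦ : ∀ v, Rm *ᵥ (Φ *ᵥ v) = bm *ᵥ (Rm *ᵥ v) := by
      intro v
      rw [Matrix.mulVec_mulVec, Matrix.mulVec_mulVec, hΦ, ← mul_assoc, ← mul_assoc, hRR, one_mul]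
    have hpd : ∀ v w, polDet (Φ *ᵥ v) (Φ *ᵥ w) = polDet v w := by
      intro v w
      rw [← hR, ← hR, hRΦ, hRΦ, hiso]
    have hself : ∀ v : Fin 4 → F, polDet v v = 2 * (tm4 v).det := by
      intro v
      simp only [polDet, tm4, Pi.add_apply, Matrix.det_fin_two_of]
      ring
    have hΦq : ∀ v, (tm4 (Φ *ᵥ v)).det = (tm4 v).det := by
      intro v
      have h5 := hpd v v
      rw [hself, hself] at h5
      exact mul_left_cancel₀ h2 h5
    have hΦd : Φ.det = 1 := by
      rw [hΦ, Matrix.det_mul, Matrix.det_mul, hb'd, mul_one, ← Matrix.det_mul, hRR', Matrix.det_one]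
    obtain ⟨A, B, hAB⟩ := so4 h2 Φ hΦq hΦd
    have hΦe : ∀ l l', Φ l l' = (A : Matrix (Fin 2) (Fin 2) F) (E4 l).1 (E4 l').1 * (B : Matrix (Fin 2) (Fin 2) F) (E4 l').2 (E4 l).2 := by
      intro l l'
      have h5 := congrFun (congrFun (hAB (Pi.single l' 1)) (E4 l).1) (E4 l).2
      have h6 : tm4 (Pi.single l' 1 : Fin 4 → F) = Matrix.single (E4 l').1 (E4 l').2 (1 : F) := by
        ext i j
        rw [tm4_apply]
        simp only [Matrix.single_apply, Pi.single_apply]
        by_cases hc : E4.symm (i, j) = l'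
        · rw [if_pos hc, if_pos]
          subst hc
          simp
        · rw [if_neg hc, if_neg]
          rintro ⟨rfl, rfl⟩
          apply hc
          simp
      rw [h6, mul_single_mul, tm4_apply] at h5
      simp only [Prod.mk.eta, Equiv.symm_apply_apply, Matrix.mulVec_single_one] at h5
      exact h5
    have hCdet : (((B : Matrix (Fin 2) (Fin 2) F)ᵀ ⊗ₖ (a' : Matrix (Fin 3) (Fin 3) F)).submatrix E6 E6).det ≠ 0 := by
      rw [Matrix.det_submatrix_equiv_self, Matrix.det_kronecker, Matrix.det_transpose]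
      exact mul_ne_zero (pow_ne_zero _ ((Matrix.isUnit_iff_isUnit_det _).mp B.isUnit).ne_zero) (pow_ne_zero _ ((Matrix.isUnit_iff_isUnit_det _).mp a'.isUnit).ne_zero)
    refine Main.mem_tensorProductSubgroup_iff.mpr ⟨A, Matrix.GeneralLinearGroup.mkOfDetNeZero _ hCdet, fun i j => ?_⟩
    have hconj : P'⁻¹ * g * P' = S⁻¹ * (P⁻¹ * g * P) * S := by
      simp only [P']
      group
    have hB₀ : ((P⁻¹ * g * P : GL ι F) : Matrix ι ι F) = ((a' : Matrix (Fin 3) (Fin 3) F) ⊗ₖ bm).submatrix e e := by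
      ext i j
      rw [hab']
      rfl
    have hm : ((P'⁻¹ * g * P' : GL ι F) : Matrix ι ι F) = ((a' : Matrix (Fin 3) (Fin 3) F) ⊗ₖ Φ).submatrix e e := by
      rw [hconj]
      have e1 : ((S⁻¹ * (P⁻¹ * g * P) * S : GL ι F) : Matrix ι ι F) = S₂ * ((P⁻¹ * g * P : GL ι F) : Matrix ι ι F) * S₁ := rfl
      rw [e1, hB₀, hS₁, hS₂, Matrix.submatrix_mul_equiv, Matrix.submatrix_mul_equiv, ← Matrix.mul_kronecker_mul, ← Matrix.mul_kronecker_mul, one_mul, mul_one]
    rw [hm, Matrix.submatrix_apply, Matrix.kroneckerMap_apply, hΦe, he', he']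
    simp only [Matrix.GeneralLinearGroup.val_mkOfDetNeZero, Matrix.submatrix_apply, Equiv.apply_symm_apply, Matrix.kroneckerMap_apply, Matrix.transpose_apply]
    ring

end Cfsg.Agent.Lib.Classical.Asch.OKey7
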