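import Mathlib
import Cfsg.Agent.Lib.Classical.Asch.Small

/-!
# Maximal subgroups of the special linear group: the refined list with numerical conditions
-/

set_option autoImplicit false
set_option linter.style.haveILetI false
set_option linter.unusedSectionVars false

namespace Cfsg.Agent.Lib.Classical.Asch.Rows

open scoped MatrixGroups Matrix Kronecker
open Cfsg.Geo Cfsg.Agent.Lib.Classical.Asch.Basic
open Cfsg.Agent.Lib.Classical.Asch.NotSL Cfsg.Agent.Lib.Classical.Asch.MaxCases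
open Cfsg.Agent.Lib.Classical.Asch.Block Cfsg.Agent.Lib.Classical.Asch.Small

variable {ι : Type} [Fintype ι] [DecidableEq ι] {F : Type*} [Field F]

/-- The refined raw list. -/
theorem max_cases' {F : Type*} [Field F] [Fintype F] (n : ℕ) (hn : 3 ≤ n) (H : Subgroup (GL (Fin n) F))
    (hH : IsMaximalIn (specialLinear (Fin n) F) H) :
    (∃ W : Submodule F (Fin n → F), W ≠ ⊥ ∧ W ≠ ⊤ ∧ H = subspaceStabilizer W ⊓ specialLinear (Fin n) F) ∨
    (∃ (t m : ℕ) (D : Fin t → Submodule F (Fin n → F)), IsMDecomposition m D ∧ (m = 1 → 5 ≤ Fintype.card F) ∧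
      (m = 2 → 3 ≤ Fintype.card F) ∧ t * m = n ∧ H = decompositionStabilizer D ⊓ specialLinear (Fin n) F) ∨
    (∃ (r : ℕ) (K : Subalgebra F (Matrix (Fin n) (Fin n) F)), r.Prime ∧ r ∣ n ∧ IsFieldSubalgebra r K ∧
      H = subalgebraNormalizer K ⊓ specialLinear (Fin n) F) ∨
    (∃ (d k : ℕ) (e : Fin n ≃ Fin d × Fin k) (P : GL (Fin n) F), 2 ≤ d ∧ d < k ∧ (d = 2 → 3 ≤ Fintype.card F) ∧ d * k = n ∧
      H = tensorProductSubgroup d k e P ⊓ specialLinear (Fin n) F) ∨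
    (∃ (F₀ : Subfield F) (r : ℕ) (P : GL (Fin n) F), r.Prime ∧ Fintype.card F = Nat.card F₀ ^ r ∧
      H = subfieldSubgroup F₀ P ⊓ specialLinear (Fin n) F) ∨
    (∃ (r : ℕ) (R : Subgroup (GL (Fin n) F)) (m : ℕ), IsLinearSymplecticTypeData r R ∧ n = r ^ m ∧
      H = subgroupNormalizer R ⊓ specialLinear (Fin n) F) ∨
    (∃ (d t : ℕ) (e : Fin n ≃ (Fin t → Fin d)) (P : GL (Fin n) F), 3 ≤ d ∧ 2 ≤ t ∧ n = d ^ t ∧
      H = tensorWreathSubgroup d t e P ⊓ specialLinear (Fin n) F) ∨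
    (∃ f : (Fin n → F) → (Fin n → F) → F, IsSymplecticForm f ∧ Even n ∧ H = similarityGroup f ⊓ specialLinear (Fin n) F) ∨
    (∃ (σ : F ≃+* F) (f : (Fin n → F) → (Fin n → F) → F), IsUnitaryForm σ f ∧
      H = similarityGroup f ⊓ specialLinear (Fin n) F) ∨
    (∃ Q : (Fin n → F) → F, IsNondegenerateQuadraticForm Q ∧ Odd (Fintype.card F) ∧
      H = quadSimilarityGroup Q ⊓ specialLinear (Fin n) F) ∨
    InLinearResidualClass H := by
  classical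
  have hcard : Fintype.card (Fin n) = n := Fintype.card_fin n
  have hc3 : 3 ≤ Fintype.card (Fin n) := by rw [hcard]; exact hn
  have hc2 : 2 ≤ Fintype.card (Fin n) := by omega
  have hq2 : 2 ≤ Fintype.card F := Fintype.one_lt_card
  have cSymp : ∀ f : (Fin n → F) → (Fin n → F) → F, IsSymplecticForm f → H ≤ similarityGroup f →
      (∃ f : (Fin n → F) → (Fin n → F) → F, IsSymplecticForm f ∧ Even n ∧ H = similarityGroup f ⊓ specialLinear (Fin n) F) := by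
    intro f hf hle
    refine ⟨f, hf, ?_, eq_inf_of_le hH hle (not_le_similarity hc3 hf.bilinear.add_left hf.bilinear.smul_left hf.nondegenerate)⟩
    have := Forms.even_card_of_symplectic hf
    rwa [hcard] at this
  have cFieldE : ∀ (r : ℕ) (K : Subalgebra F (Matrix (Fin n) (Fin n) F)), r.Prime → IsFieldSubalgebra r K → H ≤ subalgebraNormalizer K →
      (∃ (r : ℕ) (K : Subalgebra F (Matrix (Fin n) (Fin n) F)), r.Prime ∧ r ∣ n ∧ IsFieldSubalgebra r K ∧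
      H = subalgebraNormalizer K ⊓ specialLinear (Fin n) F) := by
    intro r K hr hK hle
    refine ⟨r, K, hr, ?_, hK, eq_inf_of_le hH hle (not_le_subalgebraNormalizer hc3 hr.two_le hK)⟩
    have := dvd_card_of_field hK
    rwa [hcard] at this
  rcases max_cases n hn H hH with h | ⟨t, m, D, hD, hH'⟩ | ⟨r, K, hr, hK, hH'⟩ | ⟨d, k, e, P, hd, hk, hH'⟩ | h |
    ⟨r, R, m, h1, h2, hH'⟩ | ⟨d, t, e, P, hd, ht, hH'⟩ | ⟨f, hf, hH'⟩ | h | h | h
  · exact Or.inl h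
  · -- decompositions
    have hle : H ≤ decompositionStabilizer D := by rw [hH']; exact inf_le_left
    have htm : t * m = n := by rw [← card_eq_mul hD, hcard]
    by_cases h1 : m = 1 ∧ Fintype.card F < 5
    · obtain ⟨rfl, hlt⟩ := h1
      have hq : Fintype.card F = 2 ∨ Fintype.card F = 3 ∨ Fintype.card F = 4 := by omega
      rcases hq with hq | hq | hq
      · obtain ⟨W, h1, h2, hl⟩ := lines_two hq hD
        exact Or.inl ⟨W, h1, h2, eq_inf_of_le hH (hle.trans hl) (not_le_subspaceStabilizer hc2 h1 h2)⟩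
      · obtain ⟨Q, hQ, hl⟩ := lines_three hq hD
        refine Or.inr (Or.inr (Or.inr (Or.inr (Or.inr (Or.inr (Or.inr (Or.inr (Or.inr (Or.inl ⟨Q, hQ, ?_,
          eq_inf_of_le hH (hle.trans hl) (not_le_quadSimilarity hc3 hQ)⟩)))))))))
        rw [hq]
        decide
      · obtain ⟨σ, f, hf, hl⟩ := lines_four hq hD
        exact Or.inr (Or.inr (Or.inr (Or.inr (Or.inr (Or.inr (Or.inr (Or.inr (Or.inl ⟨σ, f, hf,
          eq_inf_of_le hH (hle.trans hl) (not_le_similarity hc3 hf.add_left hf.smul_left hf.nondegenerate)⟩))))))))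
    by_cases h2 : m = 2 ∧ Fintype.card F < 3
    · obtain ⟨rfl, hlt⟩ := h2
      have hq : Fintype.card F = 2 := by omega
      obtain ⟨f, hf, hl⟩ := planes_two hq hD
      exact Or.inr (Or.inr (Or.inr (Or.inr (Or.inr (Or.inr (Or.inr (Or.inl (cSymp f hf (hle.trans hl)))))))))
    refine Or.inr (Or.inl ⟨t, m, D, hD, fun h => ?_, fun h => ?_, htm, hH'⟩)
    · by_contra hcon
      exact h1 ⟨h, by omega⟩
    · by_contra hcon
      exact h2 ⟨h, by omega⟩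
  · have hle : H ≤ subalgebraNormalizer K := by rw [hH']; exact inf_le_left
    exact Or.inr (Or.inr (Or.inl (cFieldE r K hr hK hle)))
  · have hle : H ≤ tensorProductSubgroup d k e P := by rw [hH']; exact inf_le_left
    have hdk : d * k = n := by
      have := Fintype.card_congr e
      simpa [hcard] using this.symm
    by_cases h2 : d = 2 ∧ Fintype.card F < 3
    · obtain ⟨rfl, hlt⟩ := h2
      have hq : Fintype.card F = 2 := by omega
      obtain ⟨K, hK, hl⟩ := tensor_two_two hq (by omega) e P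
      exact Or.inr (Or.inr (Or.inl (cFieldE 2 K Nat.prime_two hK (hle.trans hl))))
    refine Or.inr (Or.inr (Or.inr (Or.inl ⟨d, k, e, P, hd, hk, fun h => ?_, hdk, hH'⟩)))
    by_contra hcon
    exact h2 ⟨h, by omega⟩
  · exact Or.inr (Or.inr (Or.inr (Or.inr (Or.inl h))))
  · exact Or.inr (Or.inr (Or.inr (Or.inr (Or.inr (Or.inl ⟨r, R, m, h1, h2, hH'⟩)))))
  · have hn' : n = d ^ t := by
      have := Fintype.card_congr e
      simpa [hcard] using this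
    exact Or.inr (Or.inr (Or.inr (Or.inr (Or.inr (Or.inr (Or.inl ⟨d, t, e, P, hd, ht, hn', hH'⟩))))))
  · have hle : H ≤ similarityGroup f := by rw [hH']; exact inf_le_left
    exact Or.inr (Or.inr (Or.inr (Or.inr (Or.inr (Or.inr (Or.inr (Or.inl (cSymp f hf hle))))))))
  · exact Or.inr (Or.inr (Or.inr (Or.inr (Or.inr (Or.inr (Or.inr (Or.inr (Or.inl h))))))))
  · exact Or.inr (Or.inr (Or.inr (Or.inr (Or.inr (Or.inr (Or.inr (Or.inr (Or.inr (Or.inl h)))))))))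
  · exact Or.inr (Or.inr (Or.inr (Or.inr (Or.inr (Or.inr (Or.inr (Or.inr (Or.inr (Or.inr h)))))))))

/-! ### Arithmetic of the class-6 data -/

theorem eq_of_dvd_pow {s r n m : ℕ} (hs : s.Prime) (hr : r.Prime) (hd : s ∣ n) (h : n = r ^ m) : s = r := by
  rw [h] at hd
  exact (Nat.prime_dvd_prime_iff_eq hs hr).mp (hs.dvd_of_dvd_pow hd)

theorem dvd_sub_one_iff {p z d : ℕ} (hp : 0 < p) : z ∣ p ^ d - 1 ↔ (p % z) ^ d % z = 1 % z := by
  rw [← Nat.modEq_iff_dvd' (Nat.one_le_pow _ _ hp), Nat.ModEq, Nat.pow_mod]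
  exact eq_comm

/-- Odd `r`: the numbers of the class-6 data. -/
theorem data_odd [Fintype F] {r : ℕ} {R : Subgroup (GL ι F)} (D : IsLinearSymplecticTypeData r R) (hr : Odd r) :
    ∃ p e : ℕ, p.Prime ∧ CharP F p ∧ r ≠ p ∧ Fintype.card F = p ^ e ∧ Odd e ∧ r ∣ p ^ e - 1 ∧
      ∀ d : ℕ, 0 < d → d < e → ¬ r ∣ p ^ d - 1 := by
  obtain ⟨p, e, hne, ⟨hp, hc, hq, hdvd, hmin⟩, h⟩ := D.field
  rcases h with ⟨_, he, hz, _⟩ | ⟨h2, -⟩ | ⟨h2, -⟩
  · rw [hz] at hdvd hmin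
    exact ⟨p, e, hp, hc, hne, hq, he, hdvd, hmin⟩
  · subst h2
    exact absurd hr (by decide)
  · subst h2
    exact absurd hr (by decide)

/-- `r = 2`. -/
theorem data_two [Fintype F] {R : Subgroup (GL ι F)} (D : IsLinearSymplecticTypeData 2 R) (hι : 4 ≤ Fintype.card ι) :
    ∃ p : ℕ, p.Prime ∧ Fintype.card F = p ∧ p % 4 = 1 := by
  obtain ⟨p, e, hne, ⟨hp, hc, hq, hdvd, hmin⟩, h⟩ := D.field
  rcases h with ⟨h2, -⟩ | ⟨-, he, hz, -⟩ | ⟨-, -, h2, -⟩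
  · exact absurd h2 (by decide)
  · subst he
    rw [hz, dvd_sub_one_iff hp.pos, pow_one] at hdvd
    rw [pow_one] at hq
    refine ⟨p, hp, hq, ?_⟩
    rw [Nat.mod_mod] at hdvd
    exact hdvd
  · omega

/-- Reduction to the residue. -/
theorem residue_ne_zero {r p : ℕ} (hr : r.Prime) (hp : p.Prime) (hne : r ≠ p) : p % r ≠ 0 := by
  intro h
  exact hne ((Nat.prime_dvd_prime_iff_eq hr hp).mp (Nat.dvd_of_mod_eq_zero h))

theorem data_three [Fintype F] {R : Subgroup (GL ι F)} (D : IsLinearSymplecticTypeData 3 R) :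
    ∃ p : ℕ, p.Prime ∧ Fintype.card F = p ∧ p % 3 = 1 := by
  obtain ⟨p, e, hp, hc, hne, hq, ho, hdvd, hmin⟩ := data_odd D (by decide)
  have h0 := residue_ne_zero Nat.prime_three hp hne
  have hlt : p % 3 < 3 := Nat.mod_lt _ (by norm_num)
  have key : ∀ a e : Fin 3, a.1 ≠ 0 → e.1 % 2 = 1 → a.1 ^ e.1 % 3 = 1 % 3 → (∀ d : Fin 3, d.1 < e.1 → 0 < d.1 → a.1 ^ d.1 % 3 ≠ 1 % 3) →
      (e.1 = 1 ∧ a.1 = 1) := by decide
  have fermat : ∀ a : Fin 3, a.1 ≠ 0 → a.1 ^ 2 % 3 = 1 % 3 := by decide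
  have hle : e ≤ 2 := by
    by_contra hcon
    exact hmin 2 (by norm_num) (by omega) ((dvd_sub_one_iff hp.pos).mpr (fermat ⟨_, hlt⟩ h0))
  obtain ⟨he, ha⟩ := key ⟨_, hlt⟩ ⟨e, Nat.lt_succ_of_le hle⟩ h0 (Nat.odd_iff.mp ho) ((dvd_sub_one_iff hp.pos).mp hdvd)
    (fun d h1 h2 h3 => hmin d.1 h2 h1 ((dvd_sub_one_iff hp.pos).mpr h3))
  change e = 1 at he
  subst he
  exact ⟨p, hp, by simpa using hq, ha⟩

theorem data_five [Fintype F] {R : Subgroup (GL ι F)} (D : IsLinearSymplecticTypeData 5 R) :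
    ∃ p : ℕ, p.Prime ∧ Fintype.card F = p ∧ p % 5 = 1 := by
  obtain ⟨p, e, hp, hc, hne, hq, ho, hdvd, hmin⟩ := data_odd D (by decide)
  have h0 := residue_ne_zero Nat.prime_five hp hne
  have hlt : p % 5 < 5 := Nat.mod_lt _ (by norm_num)
  have key : ∀ a e : Fin 5, a.1 ≠ 0 → e.1 % 2 = 1 → a.1 ^ e.1 % 5 = 1 % 5 → (∀ d : Fin 5, d.1 < e.1 → 0 < d.1 → a.1 ^ d.1 % 5 ≠ 1 % 5) →
      (e.1 = 1 ∧ a.1 = 1) := by decide
  have fermat : ∀ a : Fin 5, a.1 ≠ 0 → a.1 ^ 4 % 5 = 1 % 5 := by decide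
  have hle : e ≤ 4 := by
    by_contra hcon
    exact hmin 4 (by norm_num) (by omega) ((dvd_sub_one_iff hp.pos).mpr (fermat ⟨_, hlt⟩ h0))
  obtain ⟨he, ha⟩ := key ⟨_, hlt⟩ ⟨e, Nat.lt_succ_of_le hle⟩ h0 (Nat.odd_iff.mp ho) ((dvd_sub_one_iff hp.pos).mp hdvd)
    (fun d h1 h2 h3 => hmin d.1 h2 h1 ((dvd_sub_one_iff hp.pos).mpr h3))
  change e = 1 at he
  subst he
  exact ⟨p, hp, by simpa using hq, ha⟩

theorem data_seven [Fintype F] {R : Subgroup (GL ι F)} (D : IsLinearSymplecticTypeData 7 R) :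
    ∃ p : ℕ, p.Prime ∧ CharP F p ∧ ((Fintype.card F = p ∧ p % 7 = 1) ∨
      (Fintype.card F = p ^ 3 ∧ (p % 7 = 2 ∨ p % 7 = 4))) := by
  obtain ⟨p, e, hp, hc, hne, hq, ho, hdvd, hmin⟩ := data_odd D (by decide)
  have h0 := residue_ne_zero (by norm_num : Nat.Prime 7) hp hne
  have hlt : p % 7 < 7 := Nat.mod_lt _ (by norm_num)
  have key : ∀ a e : Fin 7, a.1 ≠ 0 → e.1 % 2 = 1 → a.1 ^ e.1 % 7 = 1 % 7 → (∀ d : Fin 7, d.1 < e.1 → 0 < d.1 → a.1 ^ d.1 % 7 ≠ 1 % 7) →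
      ((e.1 = 1 ∧ a.1 = 1) ∨ (e.1 = 3 ∧ (a.1 = 2 ∨ a.1 = 4))) := by decide
  have fermat : ∀ a : Fin 7, a.1 ≠ 0 → a.1 ^ 6 % 7 = 1 % 7 := by decide
  have hle : e ≤ 6 := by
    by_contra hcon
    exact hmin 6 (by norm_num) (by omega) ((dvd_sub_one_iff hp.pos).mpr (fermat ⟨_, hlt⟩ h0))
  rcases key ⟨_, hlt⟩ ⟨e, Nat.lt_succ_of_le hle⟩ h0 (Nat.odd_iff.mp ho) ((dvd_sub_one_iff hp.pos).mp hdvd)
    (fun d h1 h2 h3 => hmin d.1 h2 h1 ((dvd_sub_one_iff hp.pos).mpr h3)) with ⟨he, ha⟩ | ⟨he, ha⟩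
  · change e = 1 at he
    subst he
    exact ⟨p, hp, hc, Or.inl ⟨by simpa using hq, ha⟩⟩
  · change e = _ at he
    subst he
    exact ⟨p, hp, hc, Or.inr ⟨hq, ha⟩⟩

set_option maxRecDepth 100000 in
set_option synthInstance.maxSize 5000 in
set_option synthInstance.maxHeartbeats 400000 in
theorem data_eleven [Fintype F] {R : Subgroup (GL ι F)} (D : IsLinearSymplecticTypeData 11 R) :
    ∃ p : ℕ, p.Prime ∧ CharP F p ∧ ((Fintype.card F = p ∧ p % 11 = 1) ∨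
      (Fintype.card F = p ^ 5 ∧ (p % 11 = 3 ∨ p % 11 = 4 ∨ p % 11 = 5 ∨ p % 11 = 9))) := by
  obtain ⟨p, e, hp, hc, hne, hq, ho, hdvd, hmin⟩ := data_odd D (by decide)
  have h0 := residue_ne_zero (by norm_num : Nat.Prime 11) hp hne
  have hlt : p % 11 < 11 := Nat.mod_lt _ (by norm_num)
  have key : ∀ a e : Fin 11, a.1 ≠ 0 → e.1 % 2 = 1 → a.1 ^ e.1 % 11 = 1 % 11 → (∀ d : Fin 11, d.1 < e.1 → 0 < d.1 → a.1 ^ d.1 % 11 ≠ 1 % 11) →
      ((e.1 = 1 ∧ a.1 = 1) ∨ (e.1 = 5 ∧ (a.1 = 3 ∨ a.1 = 4 ∨ a.1 = 5 ∨ a.1 = 9))) := by decide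
  have fermat : ∀ a : Fin 11, a.1 ≠ 0 → a.1 ^ 10 % 11 = 1 % 11 := by decide
  have hle : e ≤ 10 := by
    by_contra hcon
    exact hmin 10 (by norm_num) (by omega) ((dvd_sub_one_iff hp.pos).mpr (fermat ⟨_, hlt⟩ h0))
  rcases key ⟨_, hlt⟩ ⟨e, Nat.lt_succ_of_le hle⟩ h0 (Nat.odd_iff.mp ho) ((dvd_sub_one_iff hp.pos).mp hdvd)
    (fun d h1 h2 h3 => hmin d.1 h2 h1 ((dvd_sub_one_iff hp.pos).mpr h3)) with ⟨he, ha⟩ | ⟨he, ha⟩
  · change e = 1 at he
    subst he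
    exact ⟨p, hp, hc, Or.inl ⟨by simpa using hq, ha⟩⟩
  · change e = _ at he
    subst he
    exact ⟨p, hp, hc, Or.inr ⟨hq, ha⟩⟩

theorem wreath_num {n d t : ℕ} (hd : 3 ≤ d) (ht : 2 ≤ t) (hn : n = d ^ t) (h12 : n ≤ 12) : n = 9 ∧ d = 3 ∧ t = 2 := by
  have h2 : d ^ 2 ≤ d ^ t := Nat.pow_le_pow_right (by omega) ht
  have h3 : 3 ^ 2 ≤ d ^ 2 := Nat.pow_le_pow_left hd 2
  have hd3 : d = 3 := by
    by_contra hne
    have h4 : 4 ^ 2 ≤ d ^ 2 := Nat.pow_le_pow_left (by omega) 2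
    omega
  subst hd3
  have ht2 : t = 2 := by
    by_contra hne
    have h4 : 3 ^ 3 ≤ 3 ^ t := Nat.pow_le_pow_right (by omega) (by omega)
    omega
  subst ht2
  exact ⟨by rw [hn]; norm_num, rfl, rfl⟩

end Cfsg.Agent.Lib.Classical.Asch.Rows
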