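import Mathlib
import Cfsg.Agent.Lib.Classical.Asch.Rows

/-!
# `SL₄`: frames over `F₅` and planes over `F₃`

Over the field with five elements, the stabiliser in `SL₄` of a frame lies properly inside the normaliser of the
group `4 ∘ 2^{1+4}`, so it is not maximal. Over the field with three elements, a decomposition into two planes
preserves a symplectic form up to scalars, when the determinant is one.
-/

set_option autoImplicit false
set_option linter.style.haveILetI false
set_option linter.unusedSectionVars false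

namespace Cfsg.Agent.Lib.Classical.Asch.SLFour

open scoped MatrixGroups Matrix
open Cfsg.Geo Cfsg.Agent.Lib.Classical.Asch.Basic Cfsg.Agent.Lib.Classical.Asch

abbrev X := Fin 4

/-! ### Combinatorics on four points -/

def xr (a b : X) : X := ⟨(a.val ^^^ b.val) % 4, Nat.mod_lt _ (by norm_num)⟩

lemma xr_xr : ∀ w x : X, xr w (xr w x) = x := by decide

def tt (w : X) : Equiv.Perm X := ⟨xr w, xr w, xr_xr w, xr_xr w⟩

lemma tt_apply (w x : X) : tt w x = xr w x := rfl

def dd (u x : X) : ZMod 4 :=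
  if ((u.val % 2) * (x.val % 2) + (u.val / 2) * (x.val / 2)) % 2 = 1 then 2 else 0

def cf (k : ZMod 4) (u x : X) : ZMod 4 := k + dd u x

lemma xr_assoc : ∀ a b c : X, xr a (xr b c) = xr (xr a b) c := by decide
lemma xr_comm : ∀ a b : X, xr a b = xr b a := by decide
lemma xr_zero_left : ∀ a : X, xr 0 a = a := by decide
lemma dd_zero_left : ∀ a : X, dd 0 a = 0 := by decide
lemma dd_xr_right : ∀ u x y : X, dd u (xr x y) = dd u x + dd u y := by decide
lemma dd_add : ∀ u u' x : X, dd u x + dd u' x = dd (xr u u') x := by decide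
lemma dd_vals : ∀ u x : X, dd u x = 0 ∨ dd u x = 2 := by decide
lemma dd_two : ∀ u x : X, dd u x + dd u x = 0 := by decide

lemma perm_key : ∀ (σ : Equiv.Perm X) (w u : X), ∃ w' k' u', ∀ x : X,
    σ (xr w x) = xr w' (σ x) ∧ cf 0 u x = cf k' u' (σ x) := by
  decide +kernel

lemma diag_key : ∀ b0 b1 b2 b3 : ZMod 4, (b0 + b1 + b2 + b3 = 0 ∨ b0 + b1 + b2 + b3 = 2) → ∀ w : X,
    ∃ k' u', ∀ x : X, (![b0, b1, b2, b3] : X → ZMod 4) (xr w x) - (![b0, b1, b2, b3] : X → ZMod 4) x = cf k' u' x := by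
  decide +kernel

lemma diag_key' (b : X → ZMod 4) (h : b 0 + b 1 + b 2 + b 3 = 0 ∨ b 0 + b 1 + b 2 + b 3 = 2) (w : X) :
    ∃ k' u', ∀ x : X, b (xr w x) - b x = cf k' u' x := by
  have e : b = ![b 0, b 1, b 2, b 3] := by
    funext x
    fin_cases x <;> rfl
  rw [e]
  exact diag_key _ _ _ _ h w

lemma tt_mul (w w' : X) : tt w * tt w' = tt (xr w w') := by
  ext x
  show (xr w (xr w' x)).val = (xr (xr w w') x).val
  rw [xr_assoc]

lemma cliff_1 {A : Type*} [Ring A] {a : A} (h : a * a = -1) : (1 + a) * (1 - a) = 1 + 1 := by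
  linear_combination (norm := noncomm_ring) -h

lemma cliff_2 {A : Type*} [Ring A] {a : A} (h : a * a = -1) : (1 - a) * (1 + a) = 1 + 1 := by
  linear_combination (norm := noncomm_ring) -h

lemma cliff_3 {A : Type*} [Ring A] {a Y : A} (h1 : a * Y = -(Y * a)) (h2 : a * a = -1) :
    (1 + a) * Y = Y * (-a) * (1 + a) := by
  linear_combination (norm := noncomm_ring) h1 + Y * h2

section Five

variable {F : Type*} [Field F]

/-- Powers of the element `2`, a square root of `-1` when `5 = 0`. -/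
def pw (F : Type*) [Field F] (k : ZMod 4) : F := (2 : F) ^ (ZMod.val k)

variable (h5 : (5 : F) = 0)
include h5

lemma i_sq : (2 : F) * 2 = -1 := by linear_combination h5

lemma i_four : (2 : F) ^ 4 = 1 := by linear_combination (3 : F) * h5

lemma pw_add (k l : ZMod 4) : pw F (k + l) = pw F k * pw F l := by
  unfold pw
  rw [ZMod.val_add, ← pow_add]
  exact (pow_eq_pow_mod _ (i_four h5)).symm

lemma pw_zero' : pw F 0 = 1 := by
  simp [pw]

lemma pw_ne_zero (k : ZMod 4) : pw F k ≠ 0 := by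
  unfold pw
  apply pow_ne_zero
  intro h
  have h1 : (1 : F) = 0 := by linear_combination h5 - (2 : F) * h
  exact one_ne_zero h1

lemma pw_neg (k : ZMod 4) : pw F k * pw F (-k) = 1 := by
  rw [← pw_add h5, add_neg_cancel, pw_zero' h5]

lemma pw_two : pw F 2 = -1 := by
  have : ZMod.val (2 : ZMod 4) = 2 := rfl
  simp only [pw, this]
  linear_combination h5

lemma pw_one : pw F 1 = 2 := by
  have : ZMod.val (1 : ZMod 4) = 1 := rfl
  simp only [pw, this, pow_one]

lemma pw_three : pw F 3 = -2 := by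
  have : ZMod.val (3 : ZMod 4) = 3 := rfl
  simp only [pw, this]
  linear_combination (2 : F) * h5

omit h5

/-- Monomial matrices. -/
def mon (F : Type*) [Field F] (σ : Equiv.Perm X) (a : X → ZMod 4) : Matrix X X F :=
  fun y x => if y = σ x then pw F (a x) else 0

include h5

lemma mon_mul (σ τ : Equiv.Perm X) (a b : X → ZMod 4) :
    mon F σ a * mon F τ b = mon F (σ * τ) (fun x => a (τ x) + b x) := by
  ext y x
  rw [Matrix.mul_apply, Finset.sum_eq_single (τ x)]
  · have h1 : mon F τ b (τ x) x = pw F (b x) := if_pos rfl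
    rw [h1]
    show (if y = σ (τ x) then pw F (a (τ x)) else 0) * pw F (b x)
      = if y = σ (τ x) then pw F (a (τ x) + b x) else 0
    by_cases h : y = σ (τ x)
    · rw [if_pos h, if_pos h, pw_add h5]
    · rw [if_neg h, if_neg h, zero_mul]
  · intro z _ hz
    have h1 : mon F τ b z x = 0 := if_neg hz
    rw [h1, mul_zero]
  · simp

lemma mon_one : mon F (1 : Equiv.Perm X) (fun _ => 0) = 1 := by
  ext y x
  by_cases h : y = x
  · subst h
    simp [mon, pw_zero' h5]
  · simp [mon, h, Matrix.one_apply]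

/-- Monomial elements of the general linear group. -/
def monGL (σ : Equiv.Perm X) (a : X → ZMod 4) : GL X F :=
  { val := mon F σ a
    inv := mon F σ⁻¹ (fun x => - a (σ⁻¹ x))
    val_inv := by
      rw [mon_mul h5, mul_inv_cancel]
      have : (fun x => a (σ⁻¹ x) + - a (σ⁻¹ x)) = fun _ => (0 : ZMod 4) := by
        funext x; simp
      rw [this, mon_one h5]
    inv_val := by
      rw [mon_mul h5, inv_mul_cancel]
      have : (fun x => - a (σ⁻¹ (σ x)) + a x) = fun _ => (0 : ZMod 4) := by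
        funext x; simp
      rw [this, mon_one h5] }

lemma monGL_val (σ : Equiv.Perm X) (a : X → ZMod 4) :
    ((monGL h5 σ a : GL X F) : Matrix X X F) = mon F σ a := rfl

lemma monGL_mul (σ τ : Equiv.Perm X) (a b : X → ZMod 4) :
    (monGL h5 σ a : GL X F) * monGL h5 τ b = monGL h5 (σ * τ) (fun x => a (τ x) + b x) :=
  Units.ext (mon_mul h5 σ τ a b)

lemma monGL_one : (monGL h5 1 (fun _ => 0) : GL X F) = 1 :=
  Units.ext (mon_one h5)

/-- The elements of the group `R₀`. -/
def rr (w : X) (k : ZMod 4) (u : X) : GL X F := monGL h5 (tt w) (cf k u)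

lemma rr_mul (w w' u u' : X) (k k' : ZMod 4) :
    (rr h5 w k u : GL X F) * rr h5 w' k' u' = rr h5 (xr w w') (k + k' + dd u w') (xr u u') := by
  unfold rr
  rw [monGL_mul, tt_mul]
  congr 1
  funext x
  simp only [cf, tt_apply]
  rw [dd_xr_right, ← dd_add]
  have := dd_xr_right u w' x
  ring

lemma rr_zero : (rr h5 0 0 0 : GL X F) = 1 := by
  rw [← monGL_one h5]
  unfold rr
  have h1 : tt 0 = 1 := by
    ext x
    show (xr 0 x).val = x.val
    rw [xr_zero_left]
  rw [h1]
  congr 1
  funext x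
  simp [cf, dd_zero_left]

/-- The group `4 ∘ 2^{1+4}`. -/
def R₀ : Subgroup (GL X F) where
  carrier := {g | ∃ w k u, g = rr h5 w k u}
  mul_mem' := by
    rintro _ _ ⟨w, k, u, rfl⟩ ⟨w', k', u', rfl⟩
    exact ⟨_, _, _, rr_mul h5 _ _ _ _ _ _⟩
  one_mem' := ⟨0, 0, 0, (rr_zero h5).symm⟩
  inv_mem' := by
    rintro _ ⟨w, k, u, rfl⟩
    refine ⟨w, - k - dd u w, u, ?_⟩
    rw [inv_eq_iff_mul_eq_one, rr_mul]
    have h1 : xr w w = 0 := by revert w; decide
    have h2 : xr u u = 0 := by revert u; decide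
    rw [h1, h2, ← rr_zero h5]
    congr 1
    ring

lemma mem_R₀ {g : GL X F} : g ∈ R₀ h5 ↔ ∃ w k u, g = rr h5 w k u := Iff.rfl

lemma rr_comm_scalar (w w' u u' : X) (k k' : ZMod 4) :
    (rr h5 w k u : GL X F) * rr h5 w' k' u' = rr h5 0 (dd u w' - dd u' w) 0 * (rr h5 w' k' u' * rr h5 w k u) := by
  rw [rr_mul, rr_mul, rr_mul]
  have h1 : xr 0 (xr w' w) = xr w w' := by rw [xr_zero_left, xr_comm]
  have h2 : xr 0 (xr u' u) = xr u u' := by rw [xr_zero_left, xr_comm]
  rw [h1, h2, dd_zero_left]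
  congr 1
  ring

lemma rr_scalar_val (k : ZMod 4) :
    ((rr h5 0 k 0 : GL X F) : Matrix X X F) = pw F k • (1 : Matrix X X F) := by
  have h1 : tt 0 = 1 := by
    ext x
    show (xr 0 x).val = x.val
    rw [xr_zero_left]
  ext y x
  show (if y = tt 0 x then pw F (cf k 0 x) else 0) = _
  rw [h1]
  by_cases h : y = x
  · subst h
    simp [cf, dd_zero_left]
  · simp [h]

lemma rr_scalar_mem (k : ZMod 4) : (rr h5 0 k 0 : GL X F) ∈ scalars X F := by
  rw [mem_scalars_iff]
  exact ⟨Units.mk0 (pw F k) (pw_ne_zero h5 k), rr_scalar_val h5 k⟩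

/-- Commutators in `R₀` are scalar. -/
lemma comm_scalar : ∀ x ∈ R₀ (F := F) h5, ∀ y ∈ R₀ (F := F) h5, x * y * x⁻¹ * y⁻¹ ∈ scalars X F := by
  rintro _ ⟨w, k, u, rfl⟩ _ ⟨w', k', u', rfl⟩
  have e := rr_comm_scalar h5 w w' u u' k k' (F := F)
  have : (rr h5 w k u : GL X F) * rr h5 w' k' u' * (rr h5 w k u)⁻¹ * (rr h5 w' k' u')⁻¹
      = rr h5 0 (dd u w' - dd u' w) 0 := by
    rw [e]
    group
  rw [this]
  exact rr_scalar_mem h5 _

lemma R₀_not_scalar : ¬ R₀ (F := F) h5 ≤ scalars X F := by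
  intro hle
  have h1 := hle (⟨1, 0, 0, rfl⟩ : (rr h5 1 0 0 : GL X F) ∈ R₀ h5)
  rw [mem_scalars_iff] at h1
  obtain ⟨c, hc⟩ := h1
  have h2 := congrFun (congrFun hc 1) 0
  have h3 : ((rr h5 1 0 0 : GL X F) : Matrix X X F) 1 0 = pw F (cf 0 0 0) := by
    show (if (1 : X) = tt 1 0 then pw F (cf 0 0 0) else 0) = _
    rw [if_pos]
    decide
  rw [h3] at h2
  have h4 : ((c : F) • (1 : Matrix X X F)) 1 0 = 0 := by
    simp
  rw [h4] at h2
  exact pw_ne_zero h5 _ h2

/-- One-sided normaliser criterion in a finite group. -/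
lemma mem_normalizer_of_conj [Finite F] {g : GL X F} (hg : ∀ r ∈ R₀ (F := F) h5, g * r * g⁻¹ ∈ R₀ (F := F) h5) :
    g ∈ subgroupNormalizer (R₀ (F := F) h5) := by
  classical
  rw [subgroupNormalizer, Subgroup.mem_normalizer_iff_map_conj_eq]
  apply Subgroup.eq_of_le_of_card_ge
  · rintro _ ⟨r, hr, rfl⟩
    exact hg r hr
  · rw [Subgroup.card_map_of_injective (MulAut.conj g).injective]

/-- Permutation matrices normalise `R₀`. -/
lemma perm_mem [Finite F] (σ : Equiv.Perm X) :
    (monGL h5 σ (fun _ => 0) : GL X F) ∈ subgroupNormalizer (R₀ (F := F) h5) := by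
  apply mem_normalizer_of_conj
  rintro _ ⟨w, k, u, rfl⟩
  obtain ⟨w', k', u', hx⟩ := perm_key σ w u
  refine ⟨w', k + k', u', ?_⟩
  rw [mul_inv_eq_iff_eq_mul]
  unfold rr
  rw [monGL_mul, monGL_mul]
  congr 1
  · ext x
    exact congrArg Fin.val (hx x).1
  · funext x
    have h1 := (hx x).2
    simp only [cf, add_zero, zero_add] at h1 ⊢
    rw [h1]
    ring

/-- Diagonal matrices with even exponent sum normalise `R₀`. -/
lemma diag_mem [Finite F] (b : X → ZMod 4) (h : b 0 + b 1 + b 2 + b 3 = 0 ∨ b 0 + b 1 + b 2 + b 3 = 2) :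
    (monGL h5 1 b : GL X F) ∈ subgroupNormalizer (R₀ (F := F) h5) := by
  apply mem_normalizer_of_conj
  rintro _ ⟨w, k, u, rfl⟩
  obtain ⟨k', u', hx⟩ := diag_key' b h w
  refine ⟨w, k + k', xr u u', ?_⟩
  rw [mul_inv_eq_iff_eq_mul]
  unfold rr
  rw [monGL_mul, monGL_mul, one_mul, mul_one]
  congr 1
  funext x
  have h1 := hx x
  have h3 := dd_add u u' x
  simp only [cf, Equiv.Perm.one_apply, tt_apply] at h1 ⊢
  rw [← h3]
  linear_combination h1

/-- Monomial matrices with square determinant-part normalise `R₀`. -/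
lemma mon_mem [Finite F] (σ : Equiv.Perm X) (b : X → ZMod 4)
    (h : b 0 + b 1 + b 2 + b 3 = 0 ∨ b 0 + b 1 + b 2 + b 3 = 2) :
    (monGL h5 σ b : GL X F) ∈ subgroupNormalizer (R₀ (F := F) h5) := by
  have e : (monGL h5 σ b : GL X F) = monGL h5 σ (fun _ => 0) * monGL h5 1 b := by
    rw [monGL_mul, mul_one]
    congr 1
    funext x
    simp
  rw [e]
  exact Subgroup.mul_mem _ (perm_mem h5 σ) (diag_mem h5 b h)

lemma two_ne_zero' : (2 : F) ≠ 0 := by
  intro h
  have h1 : (1 : F) = 0 := by linear_combination h5 - (2 : F) * h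
  exact one_ne_zero h1

lemma T_entry (t y x : X) : mon F (tt t) (fun _ => 0) y x = if y = xr t x then 1 else 0 := by
  show (if y = tt t x then pw F 0 else 0) = _
  rw [pw_zero' h5]
  rfl

lemma T_sq (t : X) : mon F (tt t) (fun _ => 0) * mon F (tt t) (fun _ => 0) = 1 := by
  rw [mon_mul h5, tt_mul]
  have h1 : xr t t = 0 := by revert t; decide
  have h2 : tt 0 = 1 := by
    ext x
    show (xr 0 x).val = x.val
    rw [xr_zero_left]
  rw [h1, h2]
  have : (fun x : X => (0 : ZMod 4) + 0) = fun _ => 0 := by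
    funext x; simp
  rw [this, mon_one h5]

lemma a_sq (t : X) : ((2 : F) • mon F (tt t) (fun _ => 0)) * ((2 : F) • mon F (tt t) (fun _ => 0)) = -1 := by
  rw [smul_mul_assoc, mul_smul_comm, T_sq h5, smul_smul, i_sq h5, neg_smul, one_smul]

lemma half_two : (2 : F)⁻¹ • ((1 : Matrix X X F) + 1) = 1 := by
  have h2 := two_ne_zero' h5
  rw [← two_smul F (1 : Matrix X X F), smul_smul, inv_mul_cancel₀ h2, one_smul]

/-- The Clifford element `1 + i T`. -/
def GLT (t : X) : GL X F :=
  { val := 1 + (2 : F) • mon F (tt t) (fun _ => 0)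
    inv := (2 : F)⁻¹ • (1 - (2 : F) • mon F (tt t) (fun _ => 0))
    val_inv := by
      rw [Matrix.mul_smul, cliff_1 (a_sq h5 t), half_two h5]
    inv_val := by
      rw [Matrix.smul_mul, cliff_2 (a_sq h5 t), half_two h5] }

lemma GLT_val (t : X) : ((GLT h5 t : GL X F) : Matrix X X F) = 1 + (2 : F) • mon F (tt t) (fun _ => 0) := rfl

lemma rr_T (t : X) : ((rr h5 t 0 0 : GL X F) : Matrix X X F) = mon F (tt t) (fun _ => 0) := by
  show mon F (tt t) (cf 0 0) = _
  congr 1
  funext x
  simp [cf, dd_zero_left]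

lemma rr_three (t : X) : ((rr h5 t 3 0 : GL X F) : Matrix X X F) = (-2 : F) • mon F (tt t) (fun _ => 0) := by
  ext y x
  show (if y = xr t x then pw F (cf 3 0 x) else 0) = _
  rw [Matrix.smul_apply, T_entry h5]
  by_cases h : y = xr t x
  · rw [if_pos h, if_pos h]
    simp only [cf, dd_zero_left, add_zero, pw_three h5, smul_eq_mul, mul_one]
  · rw [if_neg h, if_neg h]
    simp

/-- The Clifford element normalises `R₀`. -/
lemma GLT_mem [Finite F] (t : X) : (GLT h5 t : GL X F) ∈ subgroupNormalizer (R₀ (F := F) h5) := by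
  apply mem_normalizer_of_conj
  rintro _ ⟨w, k, u, rfl⟩
  set y : GL X F := rr h5 w k u with hy
  have hsc : (y : Matrix X X F) * mon F (tt t) (fun _ => 0)
      = pw F (dd u t) • (mon F (tt t) (fun _ => 0) * (y : Matrix X X F)) := by
    have h1 := rr_comm_scalar h5 w t u 0 k 0 (F := F)
    have h2 := congrArg (fun g : GL X F => (g : Matrix X X F)) h1
    simp only [Units.val_mul] at h2
    rw [rr_scalar_val h5, rr_T h5, dd_zero_left, sub_zero, smul_mul_assoc, one_mul] at h2
    exact h2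
  rcases dd_vals u t with h0 | h0
  · rw [h0, pw_zero' h5, one_smul] at hsc
    have : GLT h5 t * y = y * GLT h5 t := by
      apply Units.ext
      show (1 + (2 : F) • mon F (tt t) (fun _ => 0)) * (y : Matrix X X F)
        = (y : Matrix X X F) * (1 + (2 : F) • mon F (tt t) (fun _ => 0))
      rw [add_mul, mul_add, one_mul, mul_one, smul_mul_assoc, mul_smul_comm, hsc]
    rw [this, mul_inv_cancel_right]
    exact ⟨w, k, u, rfl⟩
  · rw [h0, pw_two h5, neg_smul, one_smul] at hsc
    have : GLT h5 t * y * (GLT h5 t)⁻¹ = y * rr h5 t 3 0 := by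
      rw [mul_inv_eq_iff_eq_mul]
      apply Units.ext
      show (1 + (2 : F) • mon F (tt t) (fun _ => 0)) * (y : Matrix X X F)
        = (y : Matrix X X F) * ((rr h5 t 3 0 : GL X F) : Matrix X X F) * (1 + (2 : F) • mon F (tt t) (fun _ => 0))
      have h3 : ((2 : F) • mon F (tt t) (fun _ => 0)) * (y : Matrix X X F)
          = - ((y : Matrix X X F) * ((2 : F) • mon F (tt t) (fun _ => 0))) := by
        rw [smul_mul_assoc, mul_smul_comm, ← smul_neg]
        congr 1
        rw [hsc, neg_neg]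
      have h4 : ((rr h5 t 3 0 : GL X F) : Matrix X X F) = -((2 : F) • mon F (tt t) (fun _ => 0)) := by
        rw [rr_three h5, neg_smul]
      rw [h4]
      exact cliff_3 h3 (a_sq h5 t)
    rw [this]
    exact (R₀ h5).mul_mem ⟨w, k, u, rfl⟩ ⟨t, 3, 0, rfl⟩

lemma G1_eq : ((GLT h5 1 : GL X F) : Matrix X X F) = !![1, 2, 0, 0; 2, 1, 0, 0; 0, 0, 1, 2; 0, 0, 2, 1] := by
  rw [GLT_val]
  ext y x
  rw [Matrix.add_apply, Matrix.smul_apply, T_entry h5]
  fin_cases y <;> fin_cases x <;> simp [xr]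

lemma G2_eq : ((GLT h5 2 : GL X F) : Matrix X X F) = !![1, 0, 2, 0; 0, 1, 0, 2; 2, 0, 1, 0; 0, 2, 0, 1] := by
  rw [GLT_val]
  ext y x
  rw [Matrix.add_apply, Matrix.smul_apply, T_entry h5]
  fin_cases y <;> fin_cases x <;> simp [xr]

lemma det_G1 : ((GLT h5 1 : GL X F) : Matrix X X F).det = -1 := by
  rw [G1_eq h5, Matrix.det_succ_row_zero]
  simp [Fin.sum_univ_four, Matrix.det_fin_three, Fin.succAbove, Matrix.submatrix]
  linear_combination (2 : F) * h5

lemma det_G2 : ((GLT h5 2 : GL X F) : Matrix X X F).det = -1 := by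
  rw [G2_eq h5, Matrix.det_succ_row_zero]
  simp [Fin.sum_univ_four, Matrix.det_fin_three, Fin.succAbove, Matrix.submatrix]
  linear_combination (2 : F) * h5

/-- Every nonzero element of the field with five elements is a power of `2`. -/
lemma exists_pw [Fintype F] (hq : Fintype.card F = 5) {z : F} (hz : z ≠ 0) : ∃ k : ZMod 4, pw F k = z := by
  have h1 := FiniteField.pow_card_sub_one_eq_one z hz
  rw [hq] at h1
  have h2 : (z - 1) * ((z + 1) * ((z - 2) * (z + 2))) = 0 := by
    have h3 : (z - 1) * ((z + 1) * ((z - 2) * (z + 2))) = z ^ 4 - 5 * z ^ 2 + 4 := by ring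
    rw [h3]
    simp only [show 5 - 1 = 4 from rfl] at h1
    rw [h1, h5]
    linear_combination h5
  rcases mul_eq_zero.mp h2 with h | h
  · exact ⟨0, by rw [pw_zero' h5]; exact (sub_eq_zero.mp h).symm⟩
  rcases mul_eq_zero.mp h with h | h
  · refine ⟨2, ?_⟩
    rw [pw_two h5]
    exact (eq_neg_of_add_eq_zero_left h).symm
  rcases mul_eq_zero.mp h with h | h
  · refine ⟨1, ?_⟩
    rw [pw_one h5]
    exact (sub_eq_zero.mp h).symm
  · refine ⟨3, ?_⟩
    rw [pw_three h5]
    exact (eq_neg_of_add_eq_zero_left h).symm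

lemma det_mon_perm (σ : Equiv.Perm X) : (mon F σ (fun _ => 0)).det = 1 ∨ (mon F σ (fun _ => 0)).det = -1 := by
  have e : mon F σ (fun _ => 0) = σ⁻¹.permMatrix F := by
    ext y x
    show (if y = σ x then pw F 0 else 0) = _
    rw [pw_zero' h5, Equiv.Perm.permMatrix, PEquiv.toMatrix_apply]
    by_cases h : y = σ x
    · subst h
      simp
    · have h2 : ¬ σ⁻¹ y = x := by
        intro h3
        apply h
        rw [← h3]
        simp
      simp [h]
      exact h2
  rw [e, Matrix.det_permutation]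
  rcases Int.units_eq_one_or (Equiv.Perm.sign σ⁻¹) with h | h <;> simp [h]

lemma det_mon_diag (b : X → ZMod 4) : (mon F (1 : Equiv.Perm X) b).det = pw F (b 0 + b 1 + b 2 + b 3) := by
  have e : mon F (1 : Equiv.Perm X) b = Matrix.diagonal (fun x => pw F (b x)) := by
    ext y x
    show (if y = x then pw F (b x) else 0) = _
    by_cases h : y = x
    · subst h
      simp
    · simp [h]
  rw [e, Matrix.det_diagonal, Fin.prod_univ_four, pw_add h5, pw_add h5, pw_add h5]

/-- A monomial matrix of determinant one has even exponent sum. -/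
lemma even_of_det (σ : Equiv.Perm X) (b : X → ZMod 4) (hd : (mon F σ b).det = 1) :
    b 0 + b 1 + b 2 + b 3 = 0 ∨ b 0 + b 1 + b 2 + b 3 = 2 := by
  have e : mon F σ b = mon F σ (fun _ => 0) * mon F 1 b := by
    rw [mon_mul h5, mul_one]
    congr 1
    funext x
    simp
  rw [e, Matrix.det_mul, det_mon_diag h5] at hd
  have h3 : ((3 : F)) ≠ 0 := by
    intro h
    have h1 : (1 : F) = 0 := by linear_combination (2 : F) * h - h5
    exact one_ne_zero h1
  have h2 := two_ne_zero' h5
  have hval : ∀ k : ZMod 4, (pw F k = 1 ∨ pw F k = -1) → k = 0 ∨ k = 2 := by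
    intro k hk
    have hk'' : ∀ k : ZMod 4, k = 0 ∨ k = 1 ∨ k = 2 ∨ k = 3 := by decide
    rcases hk'' k with rfl | rfl | rfl | rfl
    · exact Or.inl rfl
    · exfalso
      rw [pw_one h5] at hk
      rcases hk with h | h
      · have h1 : (1 : F) = 0 := by linear_combination h
        exact one_ne_zero h1
      · exact h3 (by linear_combination h)
    · exact Or.inr rfl
    · exfalso
      rw [pw_three h5] at hk
      rcases hk with h | h
      · exact h3 (by linear_combination -h)
      · have h1 : (1 : F) = 0 := by linear_combination -h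
        exact one_ne_zero h1
  apply hval
  rcases det_mon_perm h5 σ with h | h
  · rw [h, one_mul] at hd
    exact Or.inl hd
  · rw [h] at hd
    right
    linear_combination -hd

end Five

section Frames

variable {F : Type*} [Field F] [Fintype F]

/-- **The frame stabiliser in `SL₄(5)` is not maximal.** -/
theorem frames_five (hq : Fintype.card F = 5) {D : Fin 4 → Submodule F (Fin 4 → F)} (hD : IsMDecomposition 1 D)
    {H : Subgroup (GL (Fin 4) F)} (hH : IsMaximalIn (specialLinear (Fin 4) F) H)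
    (hE : H = decompositionStabilizer D ⊓ specialLinear (Fin 4) F) : False := by
  classical
  have h5 : (5 : F) = 0 := by
    have h := FiniteField.cast_card_eq_zero F
    rw [hq] at h
    exact_mod_cast h
  obtain ⟨B, hB⟩ := Block.exists_lineBasis hD
  let E := Pi.basisFun F (Fin 4)
  let P : GL (Fin 4) F :=
    { val := E.toMatrix B
      inv := B.toMatrix E
      val_inv := Module.Basis.toMatrix_mul_toMatrix_flip _ _
      inv_val := Module.Basis.toMatrix_mul_toMatrix_flip _ _ }
  have hPe : ∀ x : Fin 4, (P : Matrix (Fin 4) (Fin 4) F) *ᵥ (Pi.single x 1) = B x := by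
    intro x
    rw [Matrix.mulVec_single_one]
    ext j
    show E.toMatrix B j x = _
    rw [Module.Basis.toMatrix_apply]
    simp [E]
  have hPi : ∀ u : Fin 4 → F, ((P⁻¹ : GL (Fin 4) F) : Matrix (Fin 4) (Fin 4) F) *ᵥ u = fun i => B.repr u i := by
    intro u
    have h1 := Module.Basis.toMatrix_mulVec_repr E B u
    have h2 : E.equivFun u = u := by simp [E]
    have h3 : ⇑(E.repr u) = u := by
      ext i
      simp [E]
    rw [h3] at h1
    exact h1
  -- the matrix in the adapted basis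
  have hM : ∀ g ∈ decompositionStabilizer D, ∃ (π : Equiv.Perm (Fin 4)) (c : Fin 4 → F), (∀ i, c i ≠ 0) ∧
      ∀ y x, ((P⁻¹ * g * P : GL (Fin 4) F) : Matrix (Fin 4) (Fin 4) F) y x = if y = π x then c x else 0 := by
    intro g hg
    obtain ⟨π, c, hc, hform⟩ := hB g hg
    refine ⟨π, c, hc, fun y x => ?_⟩
    have h1 : ((P⁻¹ * g * P : GL (Fin 4) F) : Matrix (Fin 4) (Fin 4) F) *ᵥ (Pi.single x 1)
        = fun i => B.repr ((g : Matrix (Fin 4) (Fin 4) F) *ᵥ B x) i := by
      rw [Units.val_mul, Units.val_mul, ← Matrix.mulVec_mulVec, ← Matrix.mulVec_mulVec, hPe, hPi]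
    have h2 := congrFun h1 y
    rw [Matrix.mulVec_single_one] at h2
    have h3 : ((P⁻¹ * g * P : GL (Fin 4) F) : Matrix (Fin 4) (Fin 4) F) y x
        = B.repr ((g : Matrix (Fin 4) (Fin 4) F) *ᵥ B x) y := h2
    rw [h3]
    obtain ⟨k, rfl⟩ := π.surjective y
    rw [hform, Module.Basis.repr_self, Finsupp.single_apply]
    by_cases h : x = k
    · subst h
      simp
    · have h4 : ¬ π k = π x := fun h5 => h (π.injective h5).symm
      simp [h, h4]
  let N₀ : Subgroup (GL (Fin 4) F) := subgroupNormalizer (R₀ (F := F) h5)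
  let L : Subgroup (GL (Fin 4) F) := N₀.comap (MulAut.conj P⁻¹).toMonoidHom
  have hL : ∀ g, g ∈ L ↔ P⁻¹ * g * P ∈ N₀ := by
    intro g
    show (MulAut.conj P⁻¹) g ∈ N₀ ↔ _
    rw [MulAut.conj_apply, inv_inv]
  have hdetc : ∀ g : GL (Fin 4) F, ((P⁻¹ * g * P : GL (Fin 4) F) : Matrix (Fin 4) (Fin 4) F).det
      = (g : Matrix (Fin 4) (Fin 4) F).det := by
    intro g
    have hPP : ((P⁻¹ : GL (Fin 4) F) : Matrix (Fin 4) (Fin 4) F).det * (P : Matrix (Fin 4) (Fin 4) F).det = 1 := by
      rw [← Matrix.det_mul]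
      have : (((P⁻¹ : GL (Fin 4) F) : Matrix (Fin 4) (Fin 4) F) * (P : Matrix (Fin 4) (Fin 4) F)) = 1 := Units.inv_mul P
      rw [this, Matrix.det_one]
    rw [Units.val_mul, Units.val_mul, Matrix.det_mul, Matrix.det_mul]
    linear_combination ((g : Matrix (Fin 4) (Fin 4) F).det) * hPP
  have hmemSL : ∀ g : GL (Fin 4) F, g ∈ specialLinear (Fin 4) F ↔ (g : Matrix (Fin 4) (Fin 4) F).det = 1 := by
    intro g
    rw [specialLinear, MonoidHom.mem_ker, Units.ext_iff]
    simp
  have hle : H ≤ L ⊓ specialLinear (Fin 4) F := by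
    intro g hg
    rw [hE] at hg
    obtain ⟨hg1, hg2⟩ := hg
    refine ⟨(hL g).mpr ?_, hg2⟩
    obtain ⟨π, c, hc, hform⟩ := hM g hg1
    choose b hb using fun x => exists_pw h5 hq (hc x)
    have e : P⁻¹ * g * P = monGL h5 π b := by
      apply Units.ext
      ext y x
      rw [hform, monGL_val]
      show _ = if y = π x then pw F (b x) else 0
      rw [hb]
    rw [e]
    apply mon_mem
    apply even_of_det h5 π b
    rw [← monGL_val h5, ← e, hdetc]
    exact (hmemSL g).mp hg2
  rcases hH.2 (L ⊓ specialLinear (Fin 4) F) hle inf_le_right with h | h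
  · let g₀ : GL (Fin 4) F := GLT h5 1 * GLT h5 2
    have hg₀N : g₀ ∈ N₀ := N₀.mul_mem (GLT_mem h5 1) (GLT_mem h5 2)
    have hg₀d : (g₀ : Matrix (Fin 4) (Fin 4) F).det = 1 := by
      show (((GLT h5 1 : GL (Fin 4) F) : Matrix (Fin 4) (Fin 4) F) * ((GLT h5 2 : GL (Fin 4) F) : Matrix (Fin 4) (Fin 4) F)).det = 1
      rw [Matrix.det_mul, det_G1 h5, det_G2 h5]
      ring
    have hback : P⁻¹ * (P * g₀ * P⁻¹) * P = g₀ := by group
    have hs : P * g₀ * P⁻¹ ∈ L ⊓ specialLinear (Fin 4) F := by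
      refine Subgroup.mem_inf.mpr ⟨(hL _).mpr (by rw [hback]; exact hg₀N), ?_⟩
      rw [hmemSL, ← hdetc, hback]
      exact hg₀d
    rw [h, hE] at hs
    obtain ⟨π, c, hc, hform⟩ := hM _ hs.1
    rw [hback] at hform
    have hentry : ∀ y x, (g₀ : Matrix (Fin 4) (Fin 4) F) y x = if y = π x then c x else 0 := hform
    have hg₀m : (g₀ : Matrix (Fin 4) (Fin 4) F) = !![1, 2, 0, 0; 2, 1, 0, 0; 0, 0, 1, 2; 0, 0, 2, 1] * !![1, 0, 2, 0; 0, 1, 0, 2; 2, 0, 1, 0; 0, 2, 0, 1] := by
      show ((GLT h5 1 : GL (Fin 4) F) : Matrix (Fin 4) (Fin 4) F) * ((GLT h5 2 : GL (Fin 4) F) : Matrix (Fin 4) (Fin 4) F) = _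
      rw [G1_eq h5, G2_eq h5]
    have h00 : (g₀ : Matrix (Fin 4) (Fin 4) F) 0 0 = 1 := by
      rw [hg₀m]
      simp [Matrix.mul_apply, Fin.sum_univ_four]
    have h10 : (g₀ : Matrix (Fin 4) (Fin 4) F) 1 0 = 2 := by
      rw [hg₀m]
      simp [Matrix.mul_apply, Fin.sum_univ_four]
    have h2ne := two_ne_zero' h5
    have h3 : (0 : Fin 4) = π 0 := by
      by_contra hne
      have := hentry 0 0
      rw [if_neg hne, h00] at this
      exact one_ne_zero this
    have h4 : (1 : Fin 4) = π 0 := by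
      by_contra hne
      have := hentry 1 0
      rw [if_neg hne, h10] at this
      exact h2ne this
    exact absurd (h3.trans h4.symm) (by decide)
  · have hSL : specialLinear (Fin 4) F ≤ N₀ := by
      intro y hy
      have hs : P * y * P⁻¹ ∈ specialLinear (Fin 4) F := by
        rw [hmemSL, ← hdetc]
        have : P⁻¹ * (P * y * P⁻¹) * P = y := by group
        rw [this]
        exact (hmemSL y).mp hy
      rw [← h] at hs
      have h3 := (hL _).mp hs.1
      have : P⁻¹ * (P * y * P⁻¹) * P = y := by group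
      rwa [this] at h3
    exact NotSL.not_le_subgroupNormalizer (by simp) (R₀_not_scalar h5) (comm_scalar h5) hSL

end Frames

section Planes

variable {ι : Type} [Fintype ι] [DecidableEq ι] {F : Type*} [Field F] [Fintype F]

lemma sign_prod_swap : ∀ π : Equiv.Perm (Fin 2),
    Equiv.Perm.sign (Equiv.prodCongr (Equiv.refl (Fin 2)) π) = 1 := by
  decide

/-- The determinant of a block-monomial element with two blocks of dimension two. -/
lemma det_blocks (B : Module.Basis (Fin 2 × Fin 2) F (ι → F)) {D : Fin 2 → Submodule F (ι → F)} (hB : ∀ i j, B (i, j) ∈ D i)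
    (hB' : ∀ i, ∀ w ∈ D i, ∀ k, k ≠ i → ∀ j, B.repr w (k, j) = 0)
    {g : GL ι F} {π : Equiv.Perm (Fin 2)} (hπ : ∀ i, (D i).map (Matrix.toLin' (g : Matrix ι ι F)) = D (π i))
    {A : Fin 2 → Matrix (Fin 2) (Fin 2) F}
    (hform : ∀ u i j, B.repr ((g : Matrix ι ι F) *ᵥ u) (π i, j) = ∑ j', A i j j' * B.repr u (i, j')) :
    (g : Matrix ι ι F).det = (A 0).det * (A 1).det := by
  classical
  -- the matrix of `g` in the basis `B`
  let M : Matrix (Fin 2 × Fin 2) (Fin 2 × Fin 2) F := LinearMap.toMatrix B B (Matrix.toLin' (g : Matrix ι ι F))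
  have hdet : M.det = (g : Matrix ι ι F).det := by
    simp only [M]
    rw [LinearMap.det_toMatrix, LinearMap.det_toLin']
  have hM : ∀ k j i j', M (k, j) (i, j') = if k = π i then A i j j' else 0 := by
    intro k j i j'
    simp only [M]
    rw [LinearMap.toMatrix_apply, Matrix.toLin'_apply]
    by_cases h : k = π i
    · subst h
      rw [if_pos rfl, hform]
      simp only [Module.Basis.repr_self, Finsupp.single_apply, Prod.mk.injEq, true_and]
      simp
    · rw [if_neg h]
      exact hB' (π i) _ (Block.mulVec_mem hπ (hB i j')) k h j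
  let σ : Equiv.Perm (Fin 2 × Fin 2) := Equiv.prodCongr (Equiv.refl (Fin 2)) π
  -- reorder to block diagonal
  let e : (Fin 2 × Fin 2) ≃ (Fin 2 × Fin 2) := Equiv.prodComm _ _
  let N : Matrix (Fin 2 × Fin 2) (Fin 2 × Fin 2) F := M.submatrix e e
  have hN : N.det = M.det := Matrix.det_submatrix_equiv_self e M
  have hfac : N = (σ⁻¹.permMatrix F) * Matrix.blockDiagonal A := by
    ext ⟨j, k⟩ ⟨j', i⟩
    rw [Matrix.mul_apply]
    rw [Finset.sum_eq_single (j, π⁻¹ k)]
    · have h1 : (σ⁻¹.permMatrix F) (j, k) (j, π⁻¹ k) = 1 := by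
        rw [Equiv.Perm.permMatrix, PEquiv.toMatrix_apply]
        simp [σ]
      rw [h1, one_mul]
      show M (k, j) (i, j') = _
      rw [hM, Matrix.blockDiagonal_apply]
      by_cases h : π⁻¹ k = i
      · subst h
        simp
      · have h2 : ¬ k = π i := by
          intro h3
          apply h
          rw [h3]
          simp
        rw [if_neg h2, if_neg h]
    · rintro ⟨a, b⟩ _ hab
      have h1 : (σ⁻¹.permMatrix F) (j, k) (a, b) = 0 := by
        rw [Equiv.Perm.permMatrix, PEquiv.toMatrix_apply]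
        rw [if_neg]
        intro h2
        apply hab
        have h3 : σ⁻¹ (j, k) = (a, b) := by simpa using h2
        rw [← h3]
        rfl
      rw [h1, zero_mul]
    · simp
  rw [← hdet, ← hN, hfac, Matrix.det_mul, Matrix.det_permutation, Matrix.det_blockDiagonal, Fin.prod_univ_two]
  have hs : Equiv.Perm.sign σ⁻¹ = 1 := by
    rw [Equiv.Perm.sign_inv]
    exact sign_prod_swap π
  rw [hs]
  simp

/-- **Over `F₃`, a decomposition into two planes preserves a symplectic form, in determinant one.** -/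
theorem planes_three (hq : Fintype.card F = 3) {D : Fin 2 → Submodule F (ι → F)} (hD : IsMDecomposition 2 D) :
    ∃ f : (ι → F) → (ι → F) → F, IsSymplecticForm f ∧
      decompositionStabilizer D ⊓ specialLinear ι F ≤ similarityGroup f := by
  classical
  obtain ⟨B, hB, hB'⟩ := Block.exists_blockBasis hD
  refine ⟨Block.blockForm B, Block.blockForm_symplectic B, ?_⟩
  rintro g ⟨⟨π, hπ⟩, hg⟩
  obtain ⟨A, hA, hform⟩ := Block.exists_blocks B hB hB' hπ
  have hdg : (g : Matrix ι ι F).det = 1 := by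
    have h3 : Matrix.GeneralLinearGroup.det g = 1 := hg
    have h4 := congrArg Units.val h3
    simpa using h4
  have hd := det_blocks B hB hB' hπ hform
  rw [hdg] at hd
  have h0 := FiniteField.pow_card_sub_one_eq_one _ (hA 0)
  have h1 := FiniteField.pow_card_sub_one_eq_one _ (hA 1)
  rw [hq] at h0 h1
  simp only [show 3 - 1 = 2 from rfl] at h0 h1
  have heq : (A 0).det = (A 1).det := by
    linear_combination (A 1).det * (-hd) - (A 0).det * h1
  refine ⟨Units.mk0 (A 0).det (hA 0), fun u v => ?_⟩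
  rw [Block.blockForm_mulVec B hform]
  unfold Block.blockForm
  rw [Fin.sum_univ_two, Fin.sum_univ_two, ← heq, Units.val_mk0]
  ring

end Planes

end Cfsg.Agent.Lib.Classical.Asch.SLFour
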