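import Mathlib
import Cfsg.Agent.Lib.Classical.Asch.NotSU2

/-!
# The maximal subgroups of the special unitary groups: the list
-/

set_option autoImplicit false
set_option linter.style.haveILetI false
set_option linter.unusedSectionVars false

namespace Cfsg.Agent.Lib.Classical.Asch.SUMax

open scoped MatrixGroups Matrix commutatorElement Kronecker
open Cfsg Cfsg.Geo Cfsg.Agent.Lib.Classical.Asch.Basic
open Cfsg.Agent.Lib.Classical.Herm.Basic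
open Cfsg.Agent.Lib.Classical.Geo.HermTv
open Cfsg.Agent.Lib.Classical.Asch Cfsg.Agent.Lib.Classical.Asch.NotSU Cfsg.Agent.Lib.Classical.Asch.NotSU2

variable {F : Type*} [Field F] [Fintype F] {n q : ℕ}

local notation "⟪" x ", " y "⟫" => hermForm _ _ q x y

/-- The list of `Out`, with equalities. -/
def OutEq (n q : ℕ) (H : Subgroup (GL (Fin n) F)) : Prop :=
  (∃ W : Submodule F (Fin n → F), W ≠ ⊥ ∧ IsTotallySingularFor (hermForm n F q) W ∧ H = subspaceStabilizer W ⊓ II n F q) ∨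
  (∃ W : Submodule F (Fin n → F), W ≠ ⊥ ∧ IsNondegenerateOn (hermForm n F q) W ∧ 2 * Module.finrank F W < n ∧
      H = subspaceStabilizer W ⊓ II n F q) ∨
  (∃ (t k : ℕ) (D : Fin t → Submodule F (Fin n → F)), IsNondegenerateMDecomposition (hermForm n F q) k D ∧
      H = decompositionStabilizer D ⊓ II n F q) ∨
  (∃ (k : ℕ) (D : Fin 2 → Submodule F (Fin n → F)), 2 * k = n ∧ IsMDecomposition k D ∧
      (∀ i, IsTotallySingularFor (hermForm n F q) (D i)) ∧ H = decompositionStabilizer D ⊓ II n F q) ∨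
  (∃ (F₀ : Subfield F) (r : ℕ) (P : GL (Fin n) F), r.Prime ∧ Odd r ∧ Fintype.card F = Nat.card F₀ ^ r ∧
      IsFormRationalStructure (hermForm n F q) F₀ 1 P ∧ H = subfieldSubgroup F₀ P ⊓ II n F q) ∨
  (∃ (F₀ : Subfield F) (P : GL (Fin n) F), Odd q ∧ Fintype.card F = Nat.card F₀ ^ 2 ∧
      IsFormRationalStructure (hermForm n F q) F₀ 1 P ∧ H = subfieldSubgroup F₀ P ⊓ II n F q) ∨
  (∃ (F₀ : Subfield F) (P : GL (Fin n) F) (ζ : F), Even n ∧ Fintype.card F = Nat.card F₀ ^ 2 ∧ ζ ≠ 0 ∧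
      ζ + ζ ^ q = 0 ∧ IsFormRationalStructure (hermForm n F q) F₀ ζ P ∧
      (∀ u : Fin n → F, (∀ i, u i ∈ F₀) → hermForm n F q ((P : Matrix (Fin n) (Fin n) F) *ᵥ u) ((P : Matrix (Fin n) (Fin n) F) *ᵥ u) = 0) ∧
      H = subfieldSubgroup F₀ P ⊓ II n F q) ∨
  (∃ (r : ℕ) (R : Subgroup (GL (Fin n) F)) (p e k : ℕ), IsSymplecticTypeGroup r R ∧
      ActsAbsolutelyIrreducibly (matrixSet R) ∧ R ≤ similarityGroup (hermForm n F q) ∧ r ≠ p ∧
      IsMinimalFieldFor (Nat.card (Subgroup.center R)) p e F ∧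
      ((Odd r ∧ Nat.card (Subgroup.center R) = r ∧ 1 ≤ k ∧ Nat.card R = r ^ (1 + 2 * k)) ∨
       (r = 2 ∧ e = 2 ∧ Nat.card (Subgroup.center R) = 4 ∧ Nat.card R = 2 ^ (2 + 2 * k))) ∧
      H = subgroupNormalizer R ⊓ II n F q ∧ n = r ^ k ∧ R ≤ GU n F q) ∨
  (∃ (r : ℕ) (K : Subalgebra F (Matrix (Fin n) (Fin n) F)), r.Prime ∧ Odd r ∧ IsFieldSubalgebra r K ∧
      IsAdjointClosedFor (hermForm n F q) K ∧ H = subalgebraNormalizer K ⊓ II n F q) ∨
  (∃ (n₁ n₂ : ℕ) (e : Fin n ≃ Fin n₁ × Fin n₂) (P : GL (Fin n) F)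
      (f₁ : (Fin n₁ → F) → (Fin n₁ → F) → F) (f₂ : (Fin n₂ → F) → (Fin n₂ → F) → F),
      2 ≤ n₁ ∧ n₁ < n₂ ∧ IsUnitaryFormPow q f₁ ∧ IsUnitaryFormPow q f₂ ∧
      IsTensorFormStructure (fun x : F => x ^ q) (hermForm n F q) f₁ f₂ e P ∧ H = tensorProductSubgroup n₁ n₂ e P ⊓ II n F q) ∨
  (∃ (k t : ℕ) (e : Fin n ≃ (Fin t → Fin k)) (P : GL (Fin n) F) (f₁ : (Fin k → F) → (Fin k → F) → F),
      3 ≤ k ∧ 2 ≤ t ∧ ¬ (q = 2 ∧ k = 3) ∧ IsUnitaryFormPow q f₁ ∧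
      IsTensorPowerFormStructure (fun x : F => x ^ q) (hermForm n F q) f₁ e P ∧ H ≤ tensorWreathSubgroup k t e P)

theorem not_le_scalars_of_irr (hn : 2 ≤ n) {R : Subgroup (GL (Fin n) F)} (hR : ActsAbsolutelyIrreducibly (matrixSet R)) :
    ¬ R ≤ scalars (Fin n) F := by
  classical
  intro hle
  let v : Fin n → F := Pi.single ⟨0, by omega⟩ 1
  have hv : v ≠ 0 := by
    intro h
    have := congrFun h ⟨0, by omega⟩
    simp [v] at this
  have h1 := hR.1 (Submodule.span F {v}) (by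
    rintro _ ⟨g, hg, rfl⟩ _ ⟨w, hw, rfl⟩
    obtain ⟨c, hc⟩ := (mem_scalars_iff' g).mp (hle hg)
    obtain ⟨d, rfl⟩ := Submodule.mem_span_singleton.mp hw
    rw [Matrix.toLin'_apply]
    change (g : Matrix (Fin n) (Fin n) F) *ᵥ (d • v) ∈ _
    rw [hc]
    simp only [Matrix.smul_mulVec, Matrix.one_mulVec]
    exact Submodule.smul_mem _ _ (Submodule.smul_mem _ _ (Submodule.mem_span_singleton_self _)))
  rcases h1 with h1 | h1
  · rw [Submodule.span_singleton_eq_bot] at h1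
    exact hv h1
  · have h2 : Module.finrank F (Submodule.span F {v}) = 1 := finrank_span_singleton hv
    rw [h1, finrank_top, Module.finrank_fin_fun] at h2
    omega

theorem tv_pow_mulVec (c : F) (a : Fin n → F) (ha : ⟪a, a⟫ = 0) (l : ℕ) (x : Fin n → F) :
    (((hT q c a ha ^ l : GL (Fin n) F)) : Matrix (Fin n) (Fin n) F) *ᵥ x = x + ((l : F) * (c * ⟪x, a⟫)) • a := by
  induction l generalizing x with
  | zero => simp
  | succ l ih =>
    rw [pow_succ, Units.val_mul, ← Matrix.mulVec_mulVec, hT_mulVec, ih, hermForm_add_left, hermForm_smul_left, ha]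
    push_cast
    simp only [mul_zero, add_zero]
    rw [add_assoc, ← add_smul]
    congr 2
    ring

theorem tv_not_mem_of_pGroup (hF : Fintype.card F = q ^ 2) {r p : ℕ} (hr : r.Prime) (hp : p.Prime) [CharP F p] (hrp : r ≠ p)
    {R : Subgroup (GL (Fin n) F)} (hR : IsPGroup r R) (a : Fin n → F) (c : F) (ha : ⟪a, a⟫ = 0) (ha0 : a ≠ 0) (hc0 : c ≠ 0) :
    hT q c a ha ∉ R := by
  intro hmem
  obtain ⟨m, hm⟩ := hR ⟨_, hmem⟩
  have h1 : (hT q c a ha) ^ (r ^ m) = 1 := by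
    have := congrArg Subtype.val hm
    simpa using this
  obtain ⟨x, hx⟩ := exists_not_perp (q := q) hF ha0
  have h2 := tv_pow_mulVec c a ha (r ^ m) x
  rw [h1, Units.val_one, Matrix.one_mulVec] at h2
  have h3 : ((((r ^ m : ℕ) : F)) * (c * ⟪x, a⟫)) • a = 0 := by
    have := congrArg (fun v => v - x) h2
    simpa using this.symm
  have h4 : ((r ^ m : ℕ) : F) * (c * ⟪x, a⟫) = 0 := (smul_eq_zero.mp h3).resolve_right ha0
  have h5 : ((r ^ m : ℕ) : F) = 0 := (mul_eq_zero.mp h4).resolve_right (mul_ne_zero hc0 hx)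
  rw [CharP.cast_eq_zero_iff F p] at h5
  have h6 := (Nat.prime_dvd_prime_iff_eq hp hr).mp (hp.dvd_of_dvd_pow h5)
  exact hrp h6.symm

/-- **Maximal subgroups of the special unitary groups**: the raw list. -/
theorem su_max_cases (hF : Fintype.card F = q ^ 2) (hn : 3 ≤ n) (h32 : ¬ (n = 3 ∧ q = 2)) {H : Subgroup (GL (Fin n) F)}
    (hH : IsMaximalIn (II n F q) H) : OutEq n q H ∨ InUnitaryResidualClass H := by
  classical
  have hn2 : 2 ≤ n := by omega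
  have hGU : H ≤ GU n F q := hH.1.le.trans inf_le_left
  rcases SUNine.su_main hF hn hGU with h | h
  swap
  · exact Or.inr h
  left
  rcases h with ⟨W, h0, hts, hle⟩ | ⟨W, h0, hnd, hd, hle⟩ | ⟨t, k, D, hD, hle⟩ | ⟨k, D, hk, hD, hts, hle⟩ |
    ⟨F₀, r, P, hr, ho, hc, hR, hle⟩ | ⟨F₀, P, ho, hc, hR, hle⟩ | ⟨F₀, P, ζ, hev, hc, hζ0, hζ, hR, halt, hle⟩ |
    ⟨r, R, p, e, k, h1, h2, h3, h4, h5, h6, hle, h7, h8⟩ | ⟨r, K, hr, ho, hK, hadj, hle⟩ |
    ⟨n₁, n₂, e, P, f₁, f₂, hn₁, hlt, h1, h2, hs, hle⟩ | ⟨k, t, e, P, f₁, hk, ht, hne, h1, hs, hle⟩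
  · refine Or.inl ⟨W, h0, hts, NotSp.eq_inf_of_le' hH hle (not_le_subspaceStabilizer_su hF hn2 h0 ?_)⟩
    rintro rfl
    obtain ⟨v, hv, hv0⟩ := exists_iso_ne_zero' (q := q) hF hn2
    obtain ⟨x, hx⟩ := exists_not_perp (q := q) hF hv0
    exact hx (hts x trivial v trivial)
  · refine Or.inr (Or.inl ⟨W, h0, hnd, hd, NotSp.eq_inf_of_le' hH hle (not_le_subspaceStabilizer_su hF hn2 h0 ?_)⟩)
    rintro rfl
    rw [finrank_top, Module.finrank_fin_fun] at hd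
    omega
  · refine Or.inr (Or.inr (Or.inl ⟨t, k, D, hD, NotSp.eq_inf_of_le' hH hle ?_⟩))
    by_cases hk : k = 1
    · subst hk
      exact not_le_frame hF hn h32 hD
    · have := hD.decomp.pos
      exact not_le_decomp_of_two_le hF hn2 hD.decomp (by omega)
  · refine Or.inr (Or.inr (Or.inr (Or.inl ⟨k, D, hk, hD, hts, NotSp.eq_inf_of_le' hH hle ?_⟩)))
    exact not_le_decomp_of_two_le hF hn2 hD (by omega)
  · exact Or.inr (Or.inr (Or.inr (Or.inr (Or.inl ⟨F₀, r, P, hr, ho, hc, hR,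
      NotSp.eq_inf_of_le' hH hle (not_le_subfieldSubgroup_su hF hn hr.two_le hc P)⟩))))
  · exact Or.inr (Or.inr (Or.inr (Or.inr (Or.inr (Or.inl ⟨F₀, P, ho, hc, hR,
      NotSp.eq_inf_of_le' hH hle (not_le_subfieldSubgroup_su hF hn le_rfl hc P)⟩)))))
  · exact Or.inr (Or.inr (Or.inr (Or.inr (Or.inr (Or.inr (Or.inl ⟨F₀, P, ζ, hev, hc, hζ0, hζ, hR, halt,
      NotSp.eq_inf_of_le' hH hle (not_le_subfieldSubgroup_su hF hn le_rfl hc P)⟩))))))
  · obtain ⟨hp, hch, -, -, -⟩ := id h5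
    haveI := hch
    exact Or.inr (Or.inr (Or.inr (Or.inr (Or.inr (Or.inr (Or.inr (Or.inl ⟨r, R, p, e, k, h1, h2, h3, h4, h5, h6,
      NotSp.eq_inf_of_le' hH hle (not_le_subgroupNormalizer_su hF hn h32 h8 (not_le_scalars_of_irr hn2 h2) fun a c ha ha0 hc0 _ =>
        tv_not_mem_of_pGroup hF h1.prime hp h4 h1.pGroup a c ha ha0 hc0), h7, h8⟩)))))))
  · exact Or.inr (Or.inr (Or.inr (Or.inr (Or.inr (Or.inr (Or.inr (Or.inr (Or.inl ⟨r, K, hr, ho, hK, hadj,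
      NotSp.eq_inf_of_le' hH hle (not_le_subalgebraNormalizer_su hF hn hr.two_le hK)⟩))))))))
  · exact Or.inr (Or.inr (Or.inr (Or.inr (Or.inr (Or.inr (Or.inr (Or.inr (Or.inr (Or.inl ⟨n₁, n₂, e, P, f₁, f₂, hn₁, hlt, h1, h2, hs,
      NotSp.eq_inf_of_le' hH hle (not_le_tensor_su hF hn hn₁ (by omega) h1 h2 hs)⟩)))))))))
  · exact Or.inr (Or.inr (Or.inr (Or.inr (Or.inr (Or.inr (Or.inr (Or.inr (Or.inr (Or.inr ⟨k, t, e, P, f₁, hk, ht, hne, h1, hs, hle⟩)))))))))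

/-! ### Numerics -/

theorem card_even (hF : Fintype.card F = q ^ 2) {p e : ℕ} (hp : p.Prime) (hch : CharP F p) (he : Fintype.card F = p ^ e) :
    ∃ f, 0 < f ∧ e = 2 * f ∧ q = p ^ f := by
  obtain ⟨p', k, hp', hc', hq⟩ := exists_char_pow hF
  have hpp : p' = p := CharP.eq F hc' hch
  subst hpp
  have hq2 := two_le_q hF
  have h1 : p' ^ e = p' ^ (k * 2) := by
    rw [← he, hF, hq, pow_mul]
  have h2 : e = k * 2 := Nat.pow_right_injective hp'.two_le h1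
  refine ⟨k, ?_, by omega, hq⟩
  rcases Nat.eq_zero_or_pos k with rfl | h
  · rw [pow_zero] at hq
    omega
  · exact h

theorem dvd_pow_sub_one_iff {z p d : ℕ} (hz : 1 < z) (hp : 0 < p) : z ∣ p ^ d - 1 ↔ (p % z) ^ d % z = 1 := by
  have h1 : 1 ≤ p ^ d := Nat.one_le_pow _ _ hp
  rw [← Nat.pow_mod, Nat.dvd_iff_mod_eq_zero] 
  constructor
  · intro h
    have h2 : p ^ d = (p ^ d - 1) + 1 := by omega
    rw [h2, Nat.add_mod, h]
    simp
    exact Nat.mod_eq_of_lt hz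
  · intro h
    have h2 : p ^ d = (p ^ d - 1) + 1 := by omega
    have h3 := Nat.div_add_mod (p ^ d) z
    rw [h] at h3
    have h4 : p ^ d - 1 = z * (p ^ d / z) := by omega
    rw [h4]
    simp

theorem table7 : ∀ a : Fin 7, ∀ f : Fin 4, a.1 ≠ 0 → 0 < f.1 → a.1 ^ (2 * f.1) % 7 = 1 →
    (∀ d : Fin 7, 0 < d.1 → d.1 < 2 * f.1 → ¬ a.1 ^ d.1 % 7 = 1) → (f.1 = 1 ∧ a.1 = 6) ∨ (f.1 = 3 ∧ (a.1 = 3 ∨ a.1 = 5)) := by
  decide +kernel

theorem table11 : ∀ a : Fin 11, ∀ f : Fin 6, a.1 ≠ 0 → 0 < f.1 → a.1 ^ (2 * f.1) % 11 = 1 →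
    (∀ d : Fin 11, 0 < d.1 → d.1 < 2 * f.1 → ¬ a.1 ^ d.1 % 11 = 1) →
    (f.1 = 1 ∧ a.1 = 10) ∨ (f.1 = 5 ∧ (a.1 = 2 ∨ a.1 = 6 ∨ a.1 = 7 ∨ a.1 = 8)) := by
  decide +kernel

theorem table5 : ∀ a : Fin 5, ∀ f : Fin 3, a.1 ≠ 0 → 0 < f.1 → a.1 ^ (2 * f.1) % 5 = 1 →
    (∀ d : Fin 5, 0 < d.1 → d.1 < 2 * f.1 → ¬ a.1 ^ d.1 % 5 = 1) → (f.1 = 1 ∧ a.1 = 4) ∨ (f.1 = 2 ∧ (a.1 = 2 ∨ a.1 = 3)) := by
  decide +kernel

theorem table3 : ∀ a : Fin 3, ∀ f : Fin 2, a.1 ≠ 0 → 0 < f.1 → a.1 ^ (2 * f.1) % 3 = 1 →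
    (∀ d : Fin 3, 0 < d.1 → d.1 < 2 * f.1 → ¬ a.1 ^ d.1 % 3 = 1) → (f.1 = 1 ∧ a.1 = 2) := by
  decide +kernel

/-- The numerics of the extraspecial case, for a prime dimension seven. -/
theorem numerics7 (hF : Fintype.card F = q ^ 2) {p e : ℕ} (hne : 7 ≠ p) (hmin : IsMinimalFieldFor 7 p e F) :
    p.Prime ∧ CharP F p ∧ ((q = p ∧ p % 7 = 6) ∨ (q = p ^ 3 ∧ (p % 7 = 3 ∨ p % 7 = 5))) := by
  obtain ⟨hp, hch, he, h1, h2⟩ := hmin
  haveI := hch
  refine ⟨hp, hch, ?_⟩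
  obtain ⟨f, hf, rfl, hq⟩ := card_even hF hp hch he
  have hpos := hp.pos
  have ha0 : p % 7 ≠ 0 := by
    intro h
    have h3 := (Nat.prime_dvd_prime_iff_eq (by norm_num) hp).mp (Nat.dvd_of_mod_eq_zero h)
    exact hne h3
  have hlt : p % 7 < 7 := Nat.mod_lt _ (by norm_num)
  have hf3 : f < 4 := by
    by_contra hc
    have h4 := h2 6 (by norm_num) (by omega)
    rw [dvd_pow_sub_one_iff (by norm_num) hpos] at h4
    apply h4
    generalize p % 7 = a at ha0 hlt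
    interval_cases a <;> simp_all
  have h5 := table7 ⟨p % 7, hlt⟩ ⟨f, hf3⟩ ha0 hf ((dvd_pow_sub_one_iff (by norm_num) hpos).mp h1)
    (fun d hd hd' h6 => h2 d.1 hd hd' ((dvd_pow_sub_one_iff (by norm_num) hpos).mpr h6))
  rcases h5 with ⟨h6, h7⟩ | ⟨h6, h7⟩
  · left
    simp only at h6 h7
    subst h6
    exact ⟨by simpa using hq, h7⟩
  · right
    simp only at h6 h7
    subst h6
    exact ⟨hq, h7⟩

theorem numerics11 (hF : Fintype.card F = q ^ 2) {p e : ℕ} (hne : 11 ≠ p) (hmin : IsMinimalFieldFor 11 p e F) :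
    p.Prime ∧ CharP F p ∧ ((q = p ∧ p % 11 = 10) ∨ (q = p ^ 5 ∧ (p % 11 = 2 ∨ p % 11 = 6 ∨ p % 11 = 7 ∨ p % 11 = 8))) := by
  obtain ⟨hp, hch, he, h1, h2⟩ := hmin
  haveI := hch
  refine ⟨hp, hch, ?_⟩
  obtain ⟨f, hf, rfl, hq⟩ := card_even hF hp hch he
  have hpos := hp.pos
  have ha0 : p % 11 ≠ 0 := by
    intro h
    have h3 := (Nat.prime_dvd_prime_iff_eq (by norm_num) hp).mp (Nat.dvd_of_mod_eq_zero h)
    exact hne h3
  have hlt : p % 11 < 11 := Nat.mod_lt _ (by norm_num)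
  have hf3 : f < 6 := by
    by_contra hc
    have h4 := h2 10 (by norm_num) (by omega)
    rw [dvd_pow_sub_one_iff (by norm_num) hpos] at h4
    apply h4
    generalize p % 11 = a at ha0 hlt
    interval_cases a <;> simp_all
  have h5 := table11 ⟨p % 11, hlt⟩ ⟨f, hf3⟩ ha0 hf ((dvd_pow_sub_one_iff (by norm_num) hpos).mp h1)
    (fun d hd hd' h6 => h2 d.1 hd hd' ((dvd_pow_sub_one_iff (by norm_num) hpos).mpr h6))
  rcases h5 with ⟨h6, h7⟩ | ⟨h6, h7⟩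
  · left
    simp only at h6 h7
    subst h6
    exact ⟨by simpa using hq, h7⟩
  · right
    simp only at h6 h7
    subst h6
    exact ⟨hq, h7⟩

theorem numerics5 (hF : Fintype.card F = q ^ 2) {p e : ℕ} (hne : 5 ≠ p) (hmin : IsMinimalFieldFor 5 p e F) :
    p.Prime ∧ CharP F p ∧ ((q = p ∧ p % 5 = 4) ∨ (q = p ^ 2 ∧ (p % 5 = 2 ∨ p % 5 = 3))) := by
  obtain ⟨hp, hch, he, h1, h2⟩ := hmin
  haveI := hch
  refine ⟨hp, hch, ?_⟩
  obtain ⟨f, hf, rfl, hq⟩ := card_even hF hp hch he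
  have hpos := hp.pos
  have ha0 : p % 5 ≠ 0 := by
    intro h
    have h3 := (Nat.prime_dvd_prime_iff_eq (by norm_num) hp).mp (Nat.dvd_of_mod_eq_zero h)
    exact hne h3
  have hlt : p % 5 < 5 := Nat.mod_lt _ (by norm_num)
  have hf3 : f < 3 := by
    by_contra hc
    have h4 := h2 4 (by norm_num) (by omega)
    rw [dvd_pow_sub_one_iff (by norm_num) hpos] at h4
    apply h4
    generalize p % 5 = a at ha0 hlt
    interval_cases a <;> simp_all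
  have h5 := table5 ⟨p % 5, hlt⟩ ⟨f, hf3⟩ ha0 hf ((dvd_pow_sub_one_iff (by norm_num) hpos).mp h1)
    (fun d hd hd' h6 => h2 d.1 hd hd' ((dvd_pow_sub_one_iff (by norm_num) hpos).mpr h6))
  rcases h5 with ⟨h6, h7⟩ | ⟨h6, h7⟩
  · left
    simp only at h6 h7
    subst h6
    exact ⟨by simpa using hq, h7⟩
  · right
    simp only at h6 h7
    subst h6
    exact ⟨hq, h7⟩

theorem numerics3 (hF : Fintype.card F = q ^ 2) {p e : ℕ} (hne : 3 ≠ p) (hmin : IsMinimalFieldFor 3 p e F) :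
    p.Prime ∧ CharP F p ∧ q = p ∧ p % 3 = 2 := by
  obtain ⟨hp, hch, he, h1, h2⟩ := hmin
  haveI := hch
  refine ⟨hp, hch, ?_⟩
  obtain ⟨f, hf, rfl, hq⟩ := card_even hF hp hch he
  have hpos := hp.pos
  have ha0 : p % 3 ≠ 0 := by
    intro h
    have h3 := (Nat.prime_dvd_prime_iff_eq (by norm_num) hp).mp (Nat.dvd_of_mod_eq_zero h)
    exact hne h3
  have hlt : p % 3 < 3 := Nat.mod_lt _ (by norm_num)
  have hf3 : f < 2 := by
    by_contra hc
    have h4 := h2 2 (by norm_num) (by omega)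
    rw [dvd_pow_sub_one_iff (by norm_num) hpos] at h4
    apply h4
    generalize p % 3 = a at ha0 hlt
    interval_cases a <;> simp_all
  have h5 := table3 ⟨p % 3, hlt⟩ ⟨f, hf3⟩ ha0 hf ((dvd_pow_sub_one_iff (by norm_num) hpos).mp h1)
    (fun d hd hd' h6 => h2 d.1 hd hd' ((dvd_pow_sub_one_iff (by norm_num) hpos).mpr h6))
  obtain ⟨h6, h7⟩ := h5
  simp only at h6 h7
  subst h6
  exact ⟨by simpa using hq, h7⟩

theorem numerics4 (hF : Fintype.card F = q ^ 2) {p : ℕ} (hne : 2 ≠ p) (hmin : IsMinimalFieldFor 4 p 2 F) :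
    p.Prime ∧ q = p ∧ p % 4 = 3 := by
  obtain ⟨hp, hch, he, h1, h2⟩ := hmin
  haveI := hch
  refine ⟨hp, ?_, ?_⟩
  · obtain ⟨f, hf, h3, hq⟩ := card_even hF hp hch he
    have h4 : f = 1 := by omega
    subst h4
    simpa using hq
  · have h3 := h2 1 (by norm_num) (by norm_num)
    have hpos := hp.pos
    rw [dvd_pow_sub_one_iff (by norm_num) hpos] at h3
    have h4 : p % 2 = 1 := by
      rcases hp.eq_two_or_odd with h | h
      · exact absurd h.symm hne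
      · exact h
    simp only [pow_one] at h3
    have h5 : (p % 4) % 4 = p % 4 := Nat.mod_mod _ _
    rw [h5] at h3
    omega

end Cfsg.Agent.Lib.Classical.Asch.SUMax
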