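import Mathlib
import Cfsg.Agent.Lib.Classical.Asch.SUMax
import Cfsg.Agent.Lib.Classical.Asch.SpThree

/-!
# The unitary groups over the field with four elements: refinements

A non-degenerate plane for the Hermitian form over the field with four elements has a unique orthogonal frame.
-/

set_option autoImplicit false
set_option linter.style.haveILetI false
set_option linter.unusedSectionVars false

namespace Cfsg.Agent.Lib.Classical.Asch.SUTwo

open scoped MatrixGroups Matrix commutatorElement Kronecker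
open Cfsg Cfsg.Geo Cfsg.Agent.Lib.Classical.Asch.Basic
open Cfsg.Agent.Lib.Classical.Herm.Basic
open Cfsg.Agent.Lib.Classical.Geo.HermTv
open Cfsg.Agent.Lib.Classical.Asch Cfsg.Agent.Lib.Classical.Asch.NotSU Cfsg.Agent.Lib.Classical.Asch.NotSU2
open Cfsg.Agent.Lib.Classical.Asch.SpThree (kr kr_smul_right tensor_action)

variable {F : Type*} [Field F] [Fintype F] {n : ℕ}

local notation "⟪" x ", " y "⟫" => hermForm _ _ 2 x y

section Field

variable (hF : Fintype.card F = 2 ^ 2)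
include hF

theorem two_zero : (2 : F) = 0 := by
  apply Forms.two_eq_zero_of_not_odd
  rw [hF]
  decide

theorem norm_of_ne {x : F} (hx : x ≠ 0) : x * x ^ 2 = 1 := by
  have h := FiniteField.pow_card_sub_one_eq_one x hx
  rw [hF] at h
  linear_combination h

theorem self_eq_one {m : ℕ} {v : Fin m → F} (h : ⟪v, v⟫ ≠ 0) : ⟪v, v⟫ = 1 := by
  have h1 := hermForm_self_pow_q hF m v
  have h3 : ⟪v, v⟫ * (⟪v, v⟫ - 1) = 0 := by
    linear_combination h1
  exact sub_eq_zero.mp ((mul_eq_zero.mp h3).resolve_left h)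

/-- Two norms add to one: exactly one of the elements is non-zero. -/
theorem norm_add_eq_one {x y : F} (h : x * x ^ 2 + y * y ^ 2 = 1) : (x ≠ 0 ∧ y = 0) ∨ (x = 0 ∧ y ≠ 0) := by
  have h2 := two_zero hF
  by_cases hx : x = 0
  · right
    refine ⟨hx, ?_⟩
    rintro rfl
    rw [hx] at h
    simp at h
  · left
    refine ⟨hx, ?_⟩
    by_contra hy
    rw [norm_of_ne hF hx, norm_of_ne hF hy] at h
    have : (1 : F) = 0 := by linear_combination h
    exact one_ne_zero this

/-- Orthogonal non-degenerate subspaces are independent. -/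
theorem herm_indep {t : ℕ} {D : Fin t → Submodule F (Fin n → F)} (hnd : ∀ i, IsNondegenerateOn (hermForm n F 2) (D i))
    (horth : ∀ i j, i ≠ j → AreOrthogonalFor (hermForm n F 2) (D i) (D j)) : iSupIndep D := by
  intro i
  rw [Submodule.disjoint_def]
  intro v hv hv'
  by_contra h0
  obtain ⟨-, x, hx, hxv⟩ := hnd i v hv h0
  apply hxv
  have hle : (⨆ j, ⨆ (_ : j ≠ i), D j) ≤ LinearMap.ker (hLin 2 x) := by
    refine iSup₂_le fun j hj => ?_
    intro w hw
    rw [LinearMap.mem_ker, hLin_apply]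
    exact horth j i hj w hw x hx
  have := hle hv'
  rwa [LinearMap.mem_ker, hLin_apply] at this

theorem trace_ne : ∃ t : F, t + t ^ 2 ≠ 0 :=
  Cfsg.Agent.Lib.Classical.Herm.Isotropic.exists_trace_ne_zero hF

/-- An orthonormal basis of a non-degenerate plane. -/
theorem plane_basis {W : Submodule F (Fin n → F)} (hd : Module.finrank F W = 2) (hW : IsNondegenerateOn (hermForm n F 2) W) :
    ∃ a ∈ W, ∃ b ∈ W, ⟪a, a⟫ = 1 ∧ ⟪b, b⟫ = 1 ∧ ⟪a, b⟫ = 0 ∧ ∀ w ∈ W, ∃ α β : F, w = α • a + β • b := by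
  classical
  -- an anisotropic vector
  obtain ⟨a, ha, haa⟩ : ∃ a ∈ W, ⟪a, a⟫ ≠ 0 := by
    have hbot : W ≠ ⊥ := by
      rintro rfl
      rw [finrank_bot] at hd
      omega
    obtain ⟨x, hx, hx0⟩ := Submodule.exists_mem_ne_zero_of_ne_bot hbot
    obtain ⟨-, y, hy, hxy⟩ := hW x hx hx0
    by_cases hxx : ⟪x, x⟫ = 0
    swap
    · exact ⟨x, hx, hxx⟩
    by_cases hyy : ⟪y, y⟫ = 0
    swap
    · exact ⟨y, hy, hyy⟩
    obtain ⟨t, ht⟩ := trace_ne hF
    refine ⟨x + (t / ⟪x, y⟫) ^ 2 • y, W.add_mem hx (W.smul_mem _ hy), ?_⟩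
    have hyx : ⟪y, x⟫ = ⟪x, y⟫ ^ 2 := (hermForm_pow_q hF n x y).symm
    set l : F := (t / ⟪x, y⟫) ^ 2 with hl
    have hl2 : l ^ 2 = t / ⟪x, y⟫ := pow_q_pow_q hF _
    have h1 : ⟪x + l • y, x + l • y⟫ = l ^ 2 * ⟪x, y⟫ + (l ^ 2 * ⟪x, y⟫) ^ 2 := by
      rw [hermForm_add_left, hermForm_add_right hF, hermForm_add_right hF, hermForm_smul_left, hermForm_smul_right,
        hermForm_smul_right, hermForm_smul_left, hxx, hyy, hyx, mul_pow, pow_q_pow_q hF]
      ring
    rw [h1, hl2, div_mul_cancel₀ _ hxy]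
    exact ht
  have h1 : Module.finrank F (Submodule.span F {a}) = 1 := by
    refine finrank_span_singleton ?_
    rintro rfl
    exact haa (hermForm_zero_left _ _)
  -- a second vector
  obtain ⟨w, hw, hwa⟩ : ∃ w ∈ W, w ∉ Submodule.span F {a} := by
    by_contra hc
    push Not at hc
    have := Submodule.finrank_mono (show W ≤ Submodule.span F {a} from hc)
    omega
  set b : Fin n → F := w - (⟪w, a⟫ / ⟪a, a⟫) • a with hb
  have hbW : b ∈ W := W.sub_mem hw (W.smul_mem _ ha)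
  have hb0 : b ≠ 0 := by
    intro h
    apply hwa
    have : w = (⟪w, a⟫ / ⟪a, a⟫) • a := sub_eq_zero.mp h
    rw [this]
    exact Submodule.smul_mem _ _ (Submodule.mem_span_singleton_self _)
  have hba : ⟪b, a⟫ = 0 := by
    rw [hb, Cfsg.Agent.Lib.Classical.Herm.Tv.hermForm_sub_left, hermForm_smul_left]
    field_simp
    ring
  have hab : ⟪a, b⟫ = 0 := by
    rw [← hermForm_pow_q hF n b a, hba, zero_pow_q hF]
  -- the span
  have hli : LinearIndependent F ![a, b] := by
    rw [LinearIndependent.pair_iff]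
    intro x y hxy
    have h3 := congrArg (fun v => ⟪v, a⟫) hxy
    simp only [hermForm_add_left, hermForm_smul_left, hba, hermForm_zero_left] at h3
    have hx : x = 0 := by
      have : x * ⟪a, a⟫ = 0 := by linear_combination h3
      exact (mul_eq_zero.mp this).resolve_right haa
    subst hx
    rw [zero_smul, zero_add] at hxy
    exact ⟨rfl, (smul_eq_zero.mp hxy).resolve_right hb0⟩
  have hle : Submodule.span F (Set.range ![a, b]) ≤ W := by
    rw [Submodule.span_le]
    rintro _ ⟨j, rfl⟩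
    fin_cases j
    · exact ha
    · exact hbW
  have hfr : Module.finrank F (Submodule.span F (Set.range ![a, b])) = Module.finrank F W := by
    rw [finrank_span_eq_card hli, hd]
    simp
  have heq := Submodule.eq_of_le_of_finrank_eq hle hfr
  have hexp : ∀ w ∈ W, ∃ α β : F, w = α • a + β • b := by
    intro w hw
    rw [← heq] at hw
    obtain ⟨c, hc⟩ := (Submodule.mem_span_range_iff_exists_fun F).mp hw
    refine ⟨c 0, c 1, ?_⟩
    rw [← hc]
    simp [Fin.sum_univ_two]
  have hbb : ⟪b, b⟫ ≠ 0 := by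
    intro h0
    obtain ⟨-, z, hz, hbz⟩ := hW b hbW hb0
    obtain ⟨α, β, rfl⟩ := hexp z hz
    apply hbz
    rw [hermForm_add_right hF, hermForm_smul_right, hermForm_smul_right, hba, h0]
    ring
  exact ⟨a, ha, b, hbW, self_eq_one hF haa, self_eq_one hF hbb, hab, hexp⟩

/-- **Planes**: a decomposition into non-degenerate planes refines to an orthogonal frame, preserved by the isometries. -/
theorem frame_of_planes {t : ℕ} {D : Fin t → Submodule F (Fin n → F)} (hD : IsNondegenerateMDecomposition (hermForm n F 2) 2 D) :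
    ∃ D' : Fin n → Submodule F (Fin n → F), IsNondegenerateMDecomposition (hermForm n F 2) 1 D' ∧
      ∀ g ∈ GU n F 2, g ∈ decompositionStabilizer D → g ∈ decompositionStabilizer D' := by
  classical
  have hcd := Block.card_eq_mul hD.decomp
  rw [Fintype.card_fin] at hcd
  have ht := hD.decomp.two_le
  have hb := fun i => plane_basis hF (hD.decomp.finrank_eq i) (hD.nondegenerate i)
  choose a ha b hbm haa hbb hab hexp using hb
  let c : Fin t × Fin 2 → Fin n → F := fun x => if x.2 = 0 then a x.1 else b x.1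
  have hc0 : ∀ i, c (i, 0) = a i := fun i => by simp [c]
  have hc1 : ∀ i, c (i, 1) = b i := fun i => by simp [c]
  have hcmem : ∀ x, c x ∈ D x.1 := by
    rintro ⟨i, l⟩
    fin_cases l
    · exact ha i
    · exact hbm i
  have hcc : ∀ x y, ⟪c x, c y⟫ = if x = y then 1 else 0 := by
    rintro ⟨i, l⟩ ⟨j, l'⟩
    by_cases hij : i = j
    · subst hij
      have hba : ⟪b i, a i⟫ = 0 := by
        rw [← hermForm_pow_q hF n (a i) (b i), hab, zero_pow_q hF]
      fin_cases l <;> fin_cases l' <;> simp [c, haa, hbb, hab, hba]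
    · have h1 := hD.orthogonal i j hij _ (hcmem (i, l)) _ (hcmem (j, l'))
      rw [if_neg (by simp [hij])]
      exact h1
  have hcne : ∀ x, c x ≠ 0 := by
    intro x h
    have := hcc x x
    rw [h, hermForm_zero_left, if_pos rfl] at this
    exact zero_ne_one this
  have hcardκ : Fintype.card (Fin n) = Fintype.card (Fin t × Fin 2) := by
    simp [hcd]
  let E : Fin n ≃ Fin t × Fin 2 := Fintype.equivOfCardEq hcardκ
  let D' : Fin n → Submodule F (Fin n → F) := fun j => Submodule.span F {c (E j)}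
  have hmemD' : ∀ j, ∀ w ∈ D' j, ∃ s : F, w = s • c (E j) := by
    intro j w hw
    obtain ⟨s, rfl⟩ := Submodule.mem_span_singleton.mp hw
    exact ⟨s, rfl⟩
  have hnd : ∀ j, IsNondegenerateOn (hermForm n F 2) (D' j) := by
    intro j w hw hw0
    obtain ⟨s, rfl⟩ := hmemD' j w hw
    have hs : s ≠ 0 := by
      rintro rfl
      exact hw0 (zero_smul _ _)
    refine ⟨⟨c (E j), Submodule.mem_span_singleton_self _, ?_⟩, ⟨c (E j), Submodule.mem_span_singleton_self _, ?_⟩⟩
    · rw [hermForm_smul_right, hcc, if_pos rfl, mul_one]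
      exact pow_ne_zero _ hs
    · rw [hermForm_smul_left, hcc, if_pos rfl, mul_one]
      exact hs
  have horth : ∀ i j, i ≠ j → AreOrthogonalFor (hermForm n F 2) (D' i) (D' j) := by
    intro i j hij u hu v hv
    obtain ⟨s, rfl⟩ := hmemD' i u hu
    obtain ⟨s', rfl⟩ := hmemD' j v hv
    rw [hermForm_smul_left, hermForm_smul_right, hcc, if_neg (fun h => hij (E.injective h))]
    ring
  have htop : iSup D' = ⊤ := by
    rw [eq_top_iff, ← hD.decomp.iSup_eq_top]
    refine iSup_le fun i => ?_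
    intro w hw
    obtain ⟨α, β, rfl⟩ := hexp i w hw
    refine Submodule.add_mem _ (Submodule.smul_mem _ _ ?_) (Submodule.smul_mem _ _ ?_)
    · refine Submodule.mem_iSup_of_mem (E.symm (i, 0)) ?_
      have : c (E (E.symm (i, 0))) = a i := by rw [E.apply_symm_apply, hc0]
      rw [← this]
      exact Submodule.mem_span_singleton_self _
    · refine Submodule.mem_iSup_of_mem (E.symm (i, 1)) ?_
      have : c (E (E.symm (i, 1))) = b i := by rw [E.apply_symm_apply, hc1]
      rw [← this]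
      exact Submodule.mem_span_singleton_self _
  refine ⟨D', ⟨⟨by omega, one_pos, fun j => finrank_span_singleton (hcne _), herm_indep hF hnd horth, htop⟩, hnd, horth⟩, ?_⟩
  rintro g hgU ⟨σ, hσ⟩
  have hiso : ∀ u v, ⟪(g : Matrix (Fin n) (Fin n) F) *ᵥ u, (g : Matrix (Fin n) (Fin n) F) *ᵥ v⟫ = ⟪u, v⟫ := hgU
  have himg : ∀ x, ∃ (z : Fin t × Fin 2) (s : F), s ≠ 0 ∧ (g : Matrix (Fin n) (Fin n) F) *ᵥ c x = s • c z := by
    intro x
    have h1 : (g : Matrix (Fin n) (Fin n) F) *ᵥ c x ∈ D (σ x.1) := by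
      rw [← hσ x.1]
      exact ⟨c x, hcmem x, rfl⟩
    obtain ⟨α, β, hαβ⟩ := hexp _ _ h1
    have h2 := hiso (c x) (c x)
    rw [hcc, if_pos rfl, hαβ] at h2
    have hba : ⟪b (σ x.1), a (σ x.1)⟫ = 0 := by
      rw [← hermForm_pow_q hF n (a _) (b _), hab, zero_pow_q hF]
    rw [hermForm_add_left, hermForm_add_right hF, hermForm_add_right hF, hermForm_smul_left, hermForm_smul_right,
      hermForm_smul_right, hermForm_smul_left, hermForm_smul_left, hermForm_smul_right, hermForm_smul_left, hermForm_smul_right,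
      haa, hbb, hab, hba] at h2
    have h3 : α * α ^ 2 + β * β ^ 2 = 1 := by linear_combination h2
    rcases norm_add_eq_one hF h3 with ⟨h4, h5⟩ | ⟨h4, h5⟩
    · refine ⟨(σ x.1, 0), α, h4, ?_⟩
      rw [hαβ, h5, zero_smul, add_zero, hc0]
    · refine ⟨(σ x.1, 1), β, h5, ?_⟩
      rw [hαβ, h4, zero_smul, zero_add, hc1]
  choose ρ s hs hρ using himg
  have hinj : Function.Injective ρ := by
    intro x y hxy
    by_contra hne
    have h1 := hiso (c x) (c y)
    rw [hρ, hρ, hxy, hermForm_smul_left, hermForm_smul_right, hcc, hcc, if_pos rfl, if_neg hne] at h1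
    have h2 : s x * s y ^ 2 = 0 := by linear_combination h1
    exact mul_ne_zero (hs x) (pow_ne_zero _ (hs y)) h2
  let R : Equiv.Perm (Fin t × Fin 2) := Equiv.ofBijective ρ (Finite.injective_iff_bijective.mp hinj)
  refine ⟨E.trans (R.trans E.symm), fun j => ?_⟩
  change (Submodule.span F {c (E j)}).map _ = Submodule.span F {c (E (E.symm (ρ (E j))))}
  rw [Submodule.map_span, Set.image_singleton, Matrix.toLin'_apply, hρ, E.apply_symm_apply]
  exact Submodule.span_singleton_smul_eq (IsUnit.mk0 _ (hs _)) _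

/-- Similarities of the standard form in dimension two are monomial. -/
theorem monomial_two (a : GL (Fin 2) F) {ν : F} (hν : ν ≠ 0)
    (h : ∀ z z' : Fin 2 → F, ⟪(a : Matrix (Fin 2) (Fin 2) F) *ᵥ z, (a : Matrix (Fin 2) (Fin 2) F) *ᵥ z'⟫ = ν * ⟪z, z'⟫) :
    ∃ (π : Equiv.Perm (Fin 2)) (s : Fin 2 → F), (∀ i, s i ≠ 0) ∧
      ∀ i, (a : Matrix (Fin 2) (Fin 2) F) *ᵥ (Pi.single i 1) = s i • Pi.single (π i) 1 := by
  classical
  have h2F := two_zero hF
  have hν1 : ν = 1 := by
    have h1 := h (Pi.single 0 1) (Pi.single 0 1)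
    rw [herm_single hF, if_pos rfl, mul_one] at h1
    by_contra hne
    have h3 := self_eq_one hF (v := (a : Matrix (Fin 2) (Fin 2) F) *ᵥ (Pi.single 0 1)) (by rw [h1]; exact hν)
    rw [h1] at h3
    exact hne h3
  subst hν1
  have hex : ∀ i, ∃ (l : Fin 2) (s : F), s ≠ 0 ∧ (a : Matrix (Fin 2) (Fin 2) F) *ᵥ (Pi.single i 1) = s • Pi.single l 1 := by
    intro i
    set w := (a : Matrix (Fin 2) (Fin 2) F) *ᵥ (Pi.single i 1 : Fin 2 → F) with hw
    have h1 := h (Pi.single i 1) (Pi.single i 1)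
    rw [herm_single hF, if_pos rfl, mul_one, hermForm_apply, Fin.sum_univ_two] at h1
    rcases norm_add_eq_one hF h1 with ⟨h4, h5⟩ | ⟨h4, h5⟩
    · refine ⟨0, w 0, h4, ?_⟩
      funext j
      fin_cases j <;> simp [show w 1 = 0 from h5]
    · refine ⟨1, w 1, h5, ?_⟩
      funext j
      fin_cases j <;> simp [show w 0 = 0 from h4]
  choose ρ s hs hρ using hex
  have hinj : Function.Injective ρ := by
    intro i i' hii
    by_contra hne
    have h1 := h (Pi.single i 1) (Pi.single i' 1)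
    rw [hρ, hρ, hii, hermForm_smul_left, hermForm_smul_right, herm_single hF, herm_single hF, if_pos rfl, if_neg hne] at h1
    have h2 : s i * s i' ^ 2 = 0 := by linear_combination h1
    exact mul_ne_zero (hs i) (pow_ne_zero _ (hs i')) h2
  exact ⟨Equiv.ofBijective ρ (Finite.injective_iff_bijective.mp hinj), s, hs, hρ⟩

/-- **Tensor products with a factor of dimension two**. -/
theorem decomp_of_tensor_two {k : ℕ} (hk : 0 < k) {e : Fin n ≃ Fin 2 × Fin k} {P : GL (Fin n) F}
    {f₁ : (Fin 2 → F) → (Fin 2 → F) → F} {f₂ : (Fin k → F) → (Fin k → F) → F}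
    (hf₁ : IsUnitaryFormPow 2 f₁) (hf₂ : IsUnitaryFormPow 2 f₂)
    (hs : IsTensorFormStructure (fun x : F => x ^ 2) (hermForm n F 2) f₁ f₂ e P) :
    ∃ D : Fin 2 → Submodule F (Fin n → F), IsNondegenerateMDecomposition (hermForm n F 2) k D ∧
      ∀ g ∈ GU n F 2, g ∈ tensorProductSubgroup 2 k e P → g ∈ decompositionStabilizer D := by
  classical
  obtain ⟨T₁, h₁⟩ := exists_gram_normal hF hf₁
  obtain ⟨T₂, h₂⟩ := exists_gram_normal hF hf₂
  obtain ⟨c, hc, hform⟩ := tensor_normal hF hs h₁ h₂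
  set P' : GL (Fin n) F := P * FormSU2.kronE e T₁ T₂ with hP'
  have R1 : ∀ (z z' : Fin 2 → F) (y y' : Fin k → F), ⟪(P' : Matrix (Fin n) (Fin n) F) *ᵥ kr e z y, (P' : Matrix (Fin n) (Fin n) F) *ᵥ kr e z' y'⟫ =
      c * (⟪z, z'⟫ * ⟪y, y'⟫) := by
    intro z z' y y'
    rw [hform]
    congr 1
    exact herm_pure hF e z z' y y'
  let Li : Fin 2 → (Fin k → F) →ₗ[F] (Fin n → F) := fun i =>
    { toFun := fun y => (P' : Matrix (Fin n) (Fin n) F) *ᵥ kr e (Pi.single i 1) y
      map_add' := fun a b => by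
        rw [← Matrix.mulVec_add]
        congr 1
        funext j
        simp [kr, mul_add]
      map_smul' := fun a b => by
        rw [RingHom.id_apply, ← Matrix.mulVec_smul]
        congr 1
        funext j
        simp [kr]
        ring }
  have hLi : ∀ i y, Li i y = (P' : Matrix (Fin n) (Fin n) F) *ᵥ kr e (Pi.single i 1) y := fun i y => rfl
  have hR : ∀ i j y y', ⟪Li i y, Li j y'⟫ = c * ((if i = j then 1 else 0) * ⟪y, y'⟫) := by
    intro i j y y'
    rw [hLi, hLi, R1, herm_single hF]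
  have hinj : ∀ i, Function.Injective (Li i) := by
    intro i
    rw [← LinearMap.ker_eq_bot, LinearMap.ker_eq_bot']
    intro z hz
    by_contra h0
    obtain ⟨z', hz'⟩ := exists_not_perp (q := 2) hF h0
    have hz'' : ⟪z, z'⟫ ≠ 0 := by
      rw [← hermForm_pow_q hF k z' z]
      exact pow_ne_zero _ hz'
    have h3 := hR i i z z'
    rw [hz, hermForm_zero_left, if_pos rfl, one_mul] at h3
    exact mul_ne_zero hc hz'' h3.symm
  let D : Fin 2 → Submodule F (Fin n → F) := fun i => LinearMap.range (Li i)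
  have hnd : ∀ i, IsNondegenerateOn (hermForm n F 2) (D i) := by
    rintro i _ ⟨z, rfl⟩ hz
    have hz0 : z ≠ 0 := by
      rintro rfl
      exact hz (map_zero _)
    obtain ⟨z', hz'⟩ := exists_not_perp (q := 2) hF hz0
    have hz'' : ⟪z, z'⟫ ≠ 0 := by
      rw [← hermForm_pow_q hF k z' z]
      exact pow_ne_zero _ hz'
    refine ⟨⟨Li i z', ⟨z', rfl⟩, ?_⟩, ⟨Li i z', ⟨z', rfl⟩, ?_⟩⟩
    · rw [hR, if_pos rfl, one_mul]
      exact mul_ne_zero hc hz'
    · rw [hR, if_pos rfl, one_mul]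
      exact mul_ne_zero hc hz''
  have horth : ∀ i j, i ≠ j → AreOrthogonalFor (hermForm n F 2) (D i) (D j) := by
    rintro i j hij _ ⟨z, rfl⟩ _ ⟨z', rfl⟩
    rw [hR, if_neg hij]
    simp
  have htop : iSup D = ⊤ := by
    rw [eq_top_iff]
    intro u _
    have hu : u = (P' : Matrix (Fin n) (Fin n) F) *ᵥ (((P'⁻¹ : GL (Fin n) F) : Matrix (Fin n) (Fin n) F) *ᵥ u) := (Basic.mulVec_inv_mulVec P' u).symm
    rw [hu]
    generalize ((P'⁻¹ : GL (Fin n) F) : Matrix (Fin n) (Fin n) F) *ᵥ u = v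
    rw [Forms.sum_single_eq v, Matrix.mulVec_sum]
    refine Submodule.sum_mem _ fun j _ => ?_
    rw [Matrix.mulVec_smul]
    refine Submodule.smul_mem _ _ ?_
    have h3 : (Pi.single j 1 : Fin n → F) = kr e (Pi.single (e j).1 1) (Pi.single (e j).2 1) := by
      funext l
      by_cases hl : l = j
      · subst hl
        simp [kr]
      · have h4 : ¬ ((e l).1 = (e j).1 ∧ (e l).2 = (e j).2) := by
          rintro ⟨h5, h6⟩
          exact hl (e.injective (Prod.ext h5 h6))
        simp only [kr, Pi.single_apply, hl, if_false]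
        by_cases h5 : (e l).1 = (e j).1
        · have h6 : (e l).2 ≠ (e j).2 := fun h6 => h4 ⟨h5, h6⟩
          simp [h6]
        · simp [h5]
    rw [h3]
    exact Submodule.mem_iSup_of_mem (e j).1 ⟨_, rfl⟩
  have hdecomp : IsMDecomposition k D :=
    { two_le := le_rfl
      pos := hk
      finrank_eq := fun i => by
        change Module.finrank F (LinearMap.range (Li i)) = k
        rw [LinearMap.finrank_range_of_inj (hinj i), Module.finrank_fin_fun]
      indep := herm_indep hF hnd horth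
      iSup_eq_top := htop }
  refine ⟨D, ⟨hdecomp, hnd, horth⟩, fun g hgU hg => ?_⟩
  have hg' := FormSU2.tensorProductSubgroup_change e P T₁ T₂ hg
  obtain ⟨a, b, hab⟩ := Main.mem_tensorProductSubgroup_iff.mp hg'
  have hgP : ∀ z y, (g : Matrix (Fin n) (Fin n) F) *ᵥ ((P' : Matrix (Fin n) (Fin n) F) *ᵥ kr e z y) =
      (P' : Matrix (Fin n) (Fin n) F) *ᵥ kr e ((a : Matrix (Fin 2) (Fin 2) F) *ᵥ z) ((b : Matrix (Fin k) (Fin k) F) *ᵥ y) := by
    intro z y
    rw [SpThree.conj_mulVec_P, tensor_action hab]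
  have hiso : ∀ u v, ⟪(g : Matrix (Fin n) (Fin n) F) *ᵥ u, (g : Matrix (Fin n) (Fin n) F) *ᵥ v⟫ = ⟪u, v⟫ := hgU
  have hrel : ∀ (z z' : Fin 2 → F) (y y' : Fin k → F), ⟪(a : Matrix (Fin 2) (Fin 2) F) *ᵥ z, (a : Matrix (Fin 2) (Fin 2) F) *ᵥ z'⟫ *
      ⟪(b : Matrix (Fin k) (Fin k) F) *ᵥ y, (b : Matrix (Fin k) (Fin k) F) *ᵥ y'⟫ = ⟪z, z'⟫ * ⟪y, y'⟫ := by
    intro z z' y y'
    have h3 := hiso ((P' : Matrix (Fin n) (Fin n) F) *ᵥ kr e z y) ((P' : Matrix (Fin n) (Fin n) F) *ᵥ kr e z' y')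
    rw [hgP, hgP, R1, R1] at h3
    exact mul_left_cancel₀ hc h3
  let y₀ : Fin k → F := Pi.single ⟨0, hk⟩ 1
  have hy₀ : ⟪y₀, y₀⟫ = 1 := by
    rw [herm_single hF, if_pos rfl]
  set μ := ⟪(b : Matrix (Fin k) (Fin k) F) *ᵥ y₀, (b : Matrix (Fin k) (Fin k) F) *ᵥ y₀⟫ with hμ
  have hμ0 : μ ≠ 0 := by
    intro h0
    have h3 := hrel (Pi.single 0 1) (Pi.single 0 1) y₀ y₀
    rw [hy₀, ← hμ, h0, mul_zero, herm_single hF, if_pos rfl] at h3
    simp at h3
  obtain ⟨π, s, hs, hπ⟩ := monomial_two hF a (ν := μ⁻¹) (inv_ne_zero hμ0) (fun z z' => by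
    have h3 := hrel z z' y₀ y₀
    rw [hy₀, ← hμ, mul_one] at h3
    rw [← h3]
    field_simp)
  have hgL : ∀ i y, (g : Matrix (Fin n) (Fin n) F) *ᵥ Li i y = Li (π i) (s i • ((b : Matrix (Fin k) (Fin k) F) *ᵥ y)) := by
    intro i y
    rw [hLi, hLi, hgP, hπ, kr_smul_right]
  refine ⟨π, fun i => ?_⟩
  ext w
  constructor
  · rintro ⟨_, ⟨z, rfl⟩, rfl⟩
    exact ⟨s i • ((b : Matrix (Fin k) (Fin k) F) *ᵥ z), by rw [Matrix.toLin'_apply, hgL]⟩
  · rintro ⟨z', rfl⟩
    refine ⟨Li i ((s i)⁻¹ • (((b⁻¹ : GL (Fin k) F) : Matrix (Fin k) (Fin k) F) *ᵥ z')), ⟨_, rfl⟩, ?_⟩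
    rw [Matrix.toLin'_apply, hgL, Matrix.mulVec_smul, Basic.mulVec_inv_mulVec, smul_smul, mul_inv_cancel₀ (hs i), one_smul]

end Field

end Cfsg.Agent.Lib.Classical.Asch.SUTwo
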