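import Mathlib
import Cfsg.Agent.Lib.Classical.Asch.SUTwo
import Cfsg.Agent.Lib.Classical.Asch.Small

/-!
# The maximal subgroups of the special unitary groups: the list with numerical conditions
-/

set_option autoImplicit false
set_option linter.style.haveILetI false
set_option linter.unusedSectionVars false

namespace Cfsg.Agent.Lib.Classical.Asch.SURows

open scoped MatrixGroups Matrix commutatorElement Kronecker
open Cfsg Cfsg.Geo Cfsg.Agent.Lib.Classical.Asch.Basic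
open Cfsg.Agent.Lib.Classical.Asch Cfsg.Agent.Lib.Classical.Asch.NotSU Cfsg.Agent.Lib.Classical.Asch.NotSU2
open Cfsg.Agent.Lib.Classical.Asch.SUMax

variable {F : Type*} [Field F] [Fintype F] {n q : ℕ}

/-- The list of `OutEq`, with numerical conditions. -/
def OutRef (n q : ℕ) (H : Subgroup (GL (Fin n) F)) : Prop :=
  (∃ W : Submodule F (Fin n → F), W ≠ ⊥ ∧ IsTotallySingularFor (hermForm n F q) W ∧ H = subspaceStabilizer W ⊓ II n F q) ∨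
  (∃ W : Submodule F (Fin n → F), W ≠ ⊥ ∧ IsNondegenerateOn (hermForm n F q) W ∧ 2 * Module.finrank F W < n ∧
      H = subspaceStabilizer W ⊓ II n F q) ∨
  (∃ (t k : ℕ) (D : Fin t → Submodule F (Fin n → F)), IsNondegenerateMDecomposition (hermForm n F q) k D ∧
      t * k = n ∧ 0 < k ∧ 2 ≤ t ∧ (k = 2 → 3 ≤ q) ∧ H = decompositionStabilizer D ⊓ II n F q) ∨
  (∃ (k : ℕ) (D : Fin 2 → Submodule F (Fin n → F)), 2 * k = n ∧ IsMDecomposition k D ∧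
      (∀ i, IsTotallySingularFor (hermForm n F q) (D i)) ∧ H = decompositionStabilizer D ⊓ II n F q) ∨
  (∃ (F₀ : Subfield F) (r : ℕ) (P : GL (Fin n) F), r.Prime ∧ Odd r ∧ Fintype.card F = Nat.card F₀ ^ r ∧
      IsFormRationalStructure (hermForm n F q) F₀ 1 P ∧ H = subfieldSubgroup F₀ P ⊓ II n F q) ∨
  (∃ (F₀ : Subfield F) (P : GL (Fin n) F), Odd q ∧ Fintype.card F = Nat.card F₀ ^ 2 ∧
      IsFormRationalStructure (hermForm n F q) F₀ 1 P ∧ H = subfieldSubgroup F₀ P ⊓ II n F q) ∨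
  (∃ (F₀ : Subfield F) (P : GL (Fin n) F) (ζ : F), Even n ∧ Fintype.card F = Nat.card F₀ ^ 2 ∧ ζ ≠ 0 ∧
      ζ + ζ ^ q = 0 ∧ IsFormRationalStructure (hermForm n F q) F₀ ζ P ∧
      (∀ u : Fin n → F, (∀ i, u i ∈ F₀) → hermForm n F q ((P : Matrix (Fin n) (Fin n) F) *ᵥ u) ((P : Matrix (Fin n) (Fin n) F) *ᵥ u) = 0) ∧
      H = subfieldSubgroup F₀ P ⊓ II n F q) ∨
  (∃ (r : ℕ) (R : Subgroup (GL (Fin n) F)) (p e k : ℕ), IsSymplecticTypeGroup r R ∧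
      ActsAbsolutelyIrreducibly (matrixSet R) ∧ R ≤ similarityGroup (hermForm n F q) ∧ r ≠ p ∧
      IsMinimalFieldFor (Nat.card (Subgroup.center R)) p e F ∧
      ((Odd r ∧ Nat.card (Subgroup.center R) = r ∧ 1 ≤ k ∧ Nat.card R = r ^ (1 + 2 * k)) ∨
       (r = 2 ∧ e = 2 ∧ Nat.card (Subgroup.center R) = 4 ∧ Nat.card R = 2 ^ (2 + 2 * k))) ∧
      H = subgroupNormalizer R ⊓ II n F q ∧ n = r ^ k ∧ R ≤ GU n F q) ∨
  (∃ (r : ℕ) (K : Subalgebra F (Matrix (Fin n) (Fin n) F)), r.Prime ∧ Odd r ∧ r ∣ n ∧ IsFieldSubalgebra r K ∧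
      IsAdjointClosedFor (hermForm n F q) K ∧ H = subalgebraNormalizer K ⊓ II n F q) ∨
  (∃ (n₁ n₂ : ℕ) (e : Fin n ≃ Fin n₁ × Fin n₂) (P : GL (Fin n) F)
      (f₁ : (Fin n₁ → F) → (Fin n₁ → F) → F) (f₂ : (Fin n₂ → F) → (Fin n₂ → F) → F),
      2 ≤ n₁ ∧ n₁ < n₂ ∧ n₁ * n₂ = n ∧ (n₁ = 2 → 3 ≤ q) ∧ IsUnitaryFormPow q f₁ ∧ IsUnitaryFormPow q f₂ ∧
      IsTensorFormStructure (fun x : F => x ^ q) (hermForm n F q) f₁ f₂ e P ∧ H = tensorProductSubgroup n₁ n₂ e P ⊓ II n F q) ∨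
  (∃ (k t : ℕ) (e : Fin n ≃ (Fin t → Fin k)) (P : GL (Fin n) F) (f₁ : (Fin k → F) → (Fin k → F) → F),
      3 ≤ k ∧ 2 ≤ t ∧ k ^ t = n ∧ ¬ (q = 2 ∧ k = 3) ∧ IsUnitaryFormPow q f₁ ∧
      IsTensorPowerFormStructure (fun x : F => x ^ q) (hermForm n F q) f₁ e P ∧ H ≤ tensorWreathSubgroup k t e P)

/-- **Maximal subgroups of the special unitary groups**, with numerical conditions. -/
theorem su_rows (hF : Fintype.card F = q ^ 2) (hn : 3 ≤ n) (h32 : ¬ (n = 3 ∧ q = 2)) {H : Subgroup (GL (Fin n) F)}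
    (hH : IsMaximalIn (II n F q) H) : OutRef n q H ∨ InUnitaryResidualClass H := by
  classical
  have hq2 := Cfsg.Agent.Lib.Classical.Herm.Basic.two_le_q hF
  have hGU : H ≤ GU n F q := hH.1.le.trans inf_le_left
  rcases su_max_cases hF hn h32 hH with
    (⟨W, h0, hts, hE⟩ | ⟨W, h0, hnd, hd, hE⟩ | ⟨t, k, D, hD, hE⟩ | ⟨k, D, hk, hD, hts, hE⟩ |
    ⟨F₀, r, P, hr, ho, hc, hR, hE⟩ | ⟨F₀, P, ho, hc, hR, hE⟩ | ⟨F₀, P, ζ, hev, hc, hζ0, hζ, hR, halt, hE⟩ |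
    ⟨r, R, p, e, k, h1, h2, h3, h4, h5, h6, hE, h7, h8⟩ | ⟨r, K, hr, ho, hK, hadj, hE⟩ |
    ⟨n₁, n₂, e, P, f₁, f₂, hn₁, hlt, h1, h2, hs, hE⟩ | ⟨k, t, e, P, f₁, hk, ht, hne, h1, hs, hle⟩) | hres
  · exact Or.inl (Or.inl ⟨W, h0, hts, hE⟩)
  · exact Or.inl (Or.inr (Or.inl ⟨W, h0, hnd, hd, hE⟩))
  · have hcd := Block.card_eq_mul hD.decomp
    rw [Fintype.card_fin] at hcd
    by_cases hk2 : k = 2 ∧ q = 2
    · obtain ⟨rfl, rfl⟩ := hk2
      obtain ⟨D', hD', hg⟩ := SUTwo.frame_of_planes hF hD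
      have hcd' := Block.card_eq_mul hD'.decomp
      rw [Fintype.card_fin] at hcd'
      refine Or.inl (Or.inr (Or.inr (Or.inl ⟨n, 1, D', hD', by omega, one_pos, hD'.decomp.two_le, by omega, ?_⟩)))
      refine NotSp.eq_inf_of_le' hH (fun g hg' => hg g (hGU hg') ?_) (not_le_frame hF hn h32 hD')
      rw [hE] at hg'
      exact hg'.1
    · refine Or.inl (Or.inr (Or.inr (Or.inl ⟨t, k, D, hD, hcd.symm, hD.decomp.pos, hD.decomp.two_le, fun h => ?_, hE⟩)))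
      by_contra hc
      exact hk2 ⟨h, by omega⟩
  · exact Or.inl (Or.inr (Or.inr (Or.inr (Or.inl ⟨k, D, hk, hD, hts, hE⟩))))
  · exact Or.inl (Or.inr (Or.inr (Or.inr (Or.inr (Or.inl ⟨F₀, r, P, hr, ho, hc, hR, hE⟩)))))
  · exact Or.inl (Or.inr (Or.inr (Or.inr (Or.inr (Or.inr (Or.inl ⟨F₀, P, ho, hc, hR, hE⟩))))))
  · exact Or.inl (Or.inr (Or.inr (Or.inr (Or.inr (Or.inr (Or.inr (Or.inl ⟨F₀, P, ζ, hev, hc, hζ0, hζ, hR, halt, hE⟩)))))))
  · exact Or.inl (Or.inr (Or.inr (Or.inr (Or.inr (Or.inr (Or.inr (Or.inr (Or.inl ⟨r, R, p, e, k, h1, h2, h3, h4, h5, h6, hE, h7, h8⟩))))))))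
  · have hd := Small.dvd_card_of_field hK
    rw [Fintype.card_fin] at hd
    exact Or.inl (Or.inr (Or.inr (Or.inr (Or.inr (Or.inr (Or.inr (Or.inr (Or.inr (Or.inl ⟨r, K, hr, ho, hd, hK, hadj, hE⟩)))))))))
  · have hcd := Fintype.card_congr e
    simp only [Fintype.card_fin, Fintype.card_prod] at hcd
    by_cases hq : n₁ = 2 ∧ q = 2
    · obtain ⟨rfl, rfl⟩ := hq
      obtain ⟨D, hD, hg⟩ := SUTwo.decomp_of_tensor_two hF (by omega : 0 < n₂) h1 h2 hs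
      refine Or.inl (Or.inr (Or.inr (Or.inl ⟨2, n₂, D, hD, by omega, by omega, le_rfl, by omega, ?_⟩)))
      refine NotSp.eq_inf_of_le' hH (fun g hg' => hg g (hGU hg') ?_) (not_le_decomp_of_two_le hF (by omega) hD.decomp (by omega))
      rw [hE] at hg'
      exact hg'.1
    · refine Or.inl (Or.inr (Or.inr (Or.inr (Or.inr (Or.inr (Or.inr (Or.inr (Or.inr (Or.inr (Or.inl
        ⟨n₁, n₂, e, P, f₁, f₂, hn₁, hlt, hcd.symm, fun h => ?_, h1, h2, hs, hE⟩))))))))))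
      by_contra hc
      exact hq ⟨h, by omega⟩
  · have hcd := Fintype.card_congr e
    simp only [Fintype.card_fin, Fintype.card_fun] at hcd
    exact Or.inl (Or.inr (Or.inr (Or.inr (Or.inr (Or.inr (Or.inr (Or.inr (Or.inr (Or.inr (Or.inr
      ⟨k, t, e, P, f₁, hk, ht, hcd.symm, hne, h1, hs, hle⟩))))))))))
  · exact Or.inr hres

end Cfsg.Agent.Lib.Classical.Asch.SURows
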