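import Mathlib
import Cfsg.Agent.Lib.Classical.Asch.FiveTable
import Cfsg.Agent.Lib.Classical.Asch.SURows

/-!
# `SU₅(2)`: the normaliser of a quintic subfield is not maximal

It lies in a subgroup `L₂(11)`.
-/

set_option autoImplicit false
set_option linter.style.haveILetI false
set_option linter.unusedSectionVars false

namespace Cfsg.Agent.Lib.Classical.Asch.SUFive

open scoped MatrixGroups Matrix
open Cfsg Cfsg.Geo Cfsg.Agent.Lib.Classical.Asch.Basic Cfsg.Agent.Lib.Classical.Asch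
open Cfsg.Agent.Lib.Classical.Asch.NotSU Cfsg.Agent.Lib.Classical.Asch.FiveTable
open Cfsg.Agent.Lib.Classical.Asch.FourTable
open Cfsg.Agent.Lib.Classical.Herm.Basic
open Cfsg.Agent.Lib.Classical.Herm.PSLGraphField (sigE sigE_apply)

/-- A general fact on conjugacy of elements of prime order in a group whose order has the prime only once. -/
theorem exists_conj_of_prime {G : Type*} [Group G] [Finite G] {p : ℕ} [hp : Fact p.Prime] {a b : G}
    (ha : orderOf a = p) (hb : orderOf b = p) (hc : ¬ p ^ 2 ∣ Nat.card G) :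
    ∃ s : G, s * a * s⁻¹ ∈ Subgroup.zpowers b := by
  classical
  have hA : IsPGroup p (Subgroup.zpowers a) := by
    apply IsPGroup.of_card (n := 1)
    rw [Nat.card_zpowers, ha, pow_one]
  have hB : IsPGroup p (Subgroup.zpowers b) := by
    apply IsPGroup.of_card (n := 1)
    rw [Nat.card_zpowers, hb, pow_one]
  obtain ⟨P, hP⟩ := hA.exists_le_sylow
  obtain ⟨Q, hQ⟩ := hB.exists_le_sylow
  have hcard : ∀ R : Sylow p G, Subgroup.zpowers b ≤ (R : Subgroup G) → (R : Subgroup G) = Subgroup.zpowers b := by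
    intro R hR
    symm
    apply Subgroup.eq_of_le_of_card_ge hR
    rw [Nat.card_zpowers, hb]
    obtain ⟨n, hn⟩ := (IsPGroup.iff_card.mp R.isPGroup' : ∃ n, Nat.card R = p ^ n)
    have h1 : p ^ n ∣ Nat.card G := by
      rw [← hn]
      exact Subgroup.card_subgroup_dvd_card _
    have h2 : n ≤ 1 := by
      by_contra hn2
      exact hc ((pow_dvd_pow p (by omega)).trans h1)
    rw [hn]
    calc p ^ n ≤ p ^ 1 := Nat.pow_le_pow_right hp.out.pos h2
      _ = p := pow_one p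
  obtain ⟨s, hs⟩ := MulAction.exists_smul_eq G P Q
  refine ⟨s, ?_⟩
  rw [← hcard Q hQ]
  rw [← hs]
  rw [Sylow.smul_def]
  exact ⟨a, hP (Subgroup.mem_zpowers a), rfl⟩

section Model

variable {F : Type*} [Field F] [Fintype F] {ω : F}

lemma det_eq_one_of_pow (hF : Fintype.card F = 2 ^ 2) {g : GL (Fin 5) F} {k : ℕ} (hk : k % 3 = 2) (hg : g ^ k = 1) :
    (g : Matrix (Fin 5) (Fin 5) F).det = 1 := by
  have h0 : (g : Matrix (Fin 5) (Fin 5) F).det ≠ 0 := ((Matrix.isUnit_iff_isUnit_det _).mp g.isUnit).ne_zero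
  set d := (g : Matrix (Fin 5) (Fin 5) F).det with hd
  have h3 : d ^ 3 = 1 := by
    have := FiniteField.pow_card_sub_one_eq_one d h0
    rw [hF] at this
    exact this
  have hk1 : d ^ k = 1 := by
    have h1 := congrArg (fun x : GL (Fin 5) F => (x : Matrix (Fin 5) (Fin 5) F).det) hg
    simp only [Units.val_pow_eq_pow_val, Matrix.det_pow, Units.val_one, Matrix.det_one] at h1
    exact h1
  have h2 : d ^ 2 = 1 := by
    have e : k = 3 * (k / 3) + 2 := by omega
    rw [e, pow_add, pow_mul, h3, one_pow, one_mul] at hk1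
    exact hk1
  have h4 : d * d ^ 2 = 1 := by linear_combination h3
  rw [h2, mul_one] at h4
  exact h4

variable (hF : Fintype.card F = 2 ^ 2) (h2 : (2 : F) = 0) (hω : ω * ω = ω + 1)

/-- The element of the general linear group given by a unitary table. -/
def glOf (h2 : (2 : F) = 0) (hω : ω * ω = ω + 1) (m : M5) (h : m.mul m.star = one5) (h' : m.star.mul m = one5) : GL (Fin 5) F where
  val := liftM ω m
  inv := liftM ω m.star
  val_inv := by rw [← liftM_mul h2 hω, h, liftM_one]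
  inv_val := by rw [← liftM_mul h2 hω, h', liftM_one]

lemma glOf_val (m : M5) (h : m.mul m.star = one5) (h' : m.star.mul m = one5) :
    ((glOf h2 hω m h h' : GL (Fin 5) F) : Matrix (Fin 5) (Fin 5) F) = liftM ω m := rfl

include hF in
lemma glOf_mem (m : M5) (h : m.mul m.star = one5) (h' : m.star.mul m = one5) (hg : m.tr.mul m.cjm = one5) {k : ℕ} (hk : k % 3 = 2)
    (hp : M5.pow m k = one5) : glOf h2 hω m h h' ∈ II 5 F 2 := by
  refine ⟨?_, ?_⟩
  · apply FormSU2.mem_GU_of_gram hF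
    have e : (liftM ω m).map (sigE hF) = liftM ω m.cjm := by
      rw [liftM_cjm h2 hω]
      ext i j
      simp [sigE_apply]
    rw [glOf_val, e, ← liftM_tr, ← liftM_mul h2 hω, hg, liftM_one]
  · show _ ∈ specialLinear (Fin 5) F
    rw [Cfsg.Agent.Lib.Classical.Geo.Basic.mem_specialLinear_iff]
    apply det_eq_one_of_pow hF hk
    apply Units.ext
    rw [Units.val_pow_eq_pow_val, glOf_val, ← liftM_pow h2 hω, hp, liftM_one]
    rfl

/-- The stabiliser of a finite set of vectors. -/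
def stabY (Y : Set (Fin 5 → F)) : Subgroup (GL (Fin 5) F) where
  carrier := {g | ∀ v ∈ Y, (g : Matrix (Fin 5) (Fin 5) F) *ᵥ v ∈ Y}
  mul_mem' := by
    intro a b ha hb v hv
    rw [Units.val_mul, ← Matrix.mulVec_mulVec]
    exact ha _ (hb _ hv)
  one_mem' := by
    intro v hv
    simpa using hv
  inv_mem' := by
    intro a ha v hv
    let f : Y → Y := fun x => ⟨(a : Matrix (Fin 5) (Fin 5) F) *ᵥ x.1, ha _ x.2⟩
    have hf : Function.Injective f := by
      intro x y hxy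
      have h1 : (a : Matrix (Fin 5) (Fin 5) F) *ᵥ x.1 = (a : Matrix (Fin 5) (Fin 5) F) *ᵥ y.1 := congrArg Subtype.val hxy
      have h2 := congrArg (fun w => ((a⁻¹ : GL (Fin 5) F) : Matrix (Fin 5) (Fin 5) F) *ᵥ w) h1
      simp only [Matrix.mulVec_mulVec, ← Units.val_mul, inv_mul_cancel, Units.val_one, Matrix.one_mulVec] at h2
      exact Subtype.ext h2
    obtain ⟨x, hx⟩ := (Finite.injective_iff_surjective.mp hf) ⟨v, hv⟩
    have h1 : (a : Matrix (Fin 5) (Fin 5) F) *ᵥ x.1 = v := congrArg Subtype.val hx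
    rw [← h1, Matrix.mulVec_mulVec, ← Units.val_mul, inv_mul_cancel, Units.val_one, Matrix.one_mulVec]
    exact x.2

/-- The set of lifted vectors. -/
def YY (ω : F) : Set (Fin 5 → F) := {v | ∃ w, inY w = true ∧ liftV ω w = v}

/-- The elements of the table. -/
def gA (h2 : (2 : F) = 0) (hω : ω * ω = ω + 1) : GL (Fin 5) F :=
  glOf h2 hω A5 (M5.eq_of_eqb chk_A.1) (M5.eq_of_eqb chk_A.2.1)
def gPh (h2 : (2 : F) = 0) (hω : ω * ω = ω + 1) : GL (Fin 5) F :=
  glOf h2 hω Ph5 (M5.eq_of_eqb chk_Ph.1) (M5.eq_of_eqb chk_Ph.2.1)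
def gL (h2 : (2 : F) = 0) (hω : ω * ω = ω + 1) : GL (Fin 5) F :=
  glOf h2 hω L5 (M5.eq_of_eqb chk_L.1) (M5.eq_of_eqb chk_L.2.1)
def gT (h2 : (2 : F) = 0) (hω : ω * ω = ω + 1) : GL (Fin 5) F :=
  glOf h2 hω T5 (M5.eq_of_eqb chk_T.1) (M5.eq_of_eqb chk_T.2.1)

include hF in
lemma gA_mem : gA h2 hω ∈ II 5 F 2 :=
  glOf_mem hF h2 hω _ _ _ (M5.eq_of_eqb chk_gramMat.1) (k := 11) rfl (M5.eq_of_eqb chk_A.2.2)
include hF in
lemma gPh_mem : gPh h2 hω ∈ II 5 F 2 :=
  glOf_mem hF h2 hω _ _ _ (M5.eq_of_eqb chk_gramMat.2.1) (k := 5) rfl (M5.eq_of_eqb chk_Ph.2.2)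
include hF in
lemma gL_mem : gL h2 hω ∈ II 5 F 2 :=
  glOf_mem hF h2 hω _ _ _ (M5.eq_of_eqb chk_gramMat.2.2.1) (k := 2) rfl (M5.eq_of_eqb chk_L.2.2)
include hF in
lemma gT_mem : gT h2 hω ∈ II 5 F 2 :=
  glOf_mem hF h2 hω _ _ _ (M5.eq_of_eqb chk_gramMat.2.2.2) (k := 2) rfl (M5.eq_of_eqb chk_T.2.2)

lemma Y_all {v : V5} (hv : inY v = true) : inY (A5.app v) = true ∧ inY (Ph5.app v) = true ∧ inY (L5.app v) = true := by
  obtain ⟨v', hv', he⟩ := List.any_eq_true.mp hv
  obtain rfl := V5.eq_of_eqb he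
  have h := List.all_eq_true.mp chk_Y _ hv'
  simp only [Bool.and_eq_true] at h
  exact ⟨h.1.1, h.1.2, h.2⟩

lemma gA_Y : gA h2 hω ∈ stabY (YY ω) := by
  rintro _ ⟨w, hw, rfl⟩
  exact ⟨_, (Y_all hw).1, (liftM_app h2 hω _ _).symm⟩

lemma gPh_Y : gPh h2 hω ∈ stabY (YY ω) := by
  rintro _ ⟨w, hw, rfl⟩
  exact ⟨_, (Y_all hw).2.1, (liftM_app h2 hω _ _).symm⟩

lemma gL_Y : gL h2 hω ∈ stabY (YY ω) := by
  rintro _ ⟨w, hw, rfl⟩
  exact ⟨_, (Y_all hw).2.2, (liftM_app h2 hω _ _).symm⟩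

lemma gT_not_Y : gT h2 hω ∉ stabY (YY ω) := by
  intro hT
  have h := chk_T_Y
  have h1 : (Y5.all fun v => inY (T5.app v)) = true := by
    rw [List.all_eq_true]
    intro v hv
    have hv' : inY v = true := List.any_eq_true.mpr ⟨v, hv, V5.eqb_self v⟩
    obtain ⟨w, hw, he⟩ := hT _ ⟨v, hv', rfl⟩
    have e : liftM ω T5 *ᵥ liftV ω v = liftV ω (T5.app v) := liftM_app h2 hω _ _
    have e2 : liftV ω w = liftV ω (T5.app v) := by
      rw [he, ← e]
      rfl
    rw [← liftV_inj h2 hω e2]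
    exact hw
  rw [h] at h1
  exact absurd h1 (by decide)

/-- Powers of the element of order eleven. -/
lemma gA_pow_val (k : ℕ) : ((gA h2 hω ^ k : GL (Fin 5) F) : Matrix (Fin 5) (Fin 5) F) = liftM ω (M5.pow A5 k) := by
  rw [Units.val_pow_eq_pow_val, liftM_pow h2 hω]
  rfl

lemma gPh_pow_val (k : ℕ) : ((gPh h2 hω ^ k : GL (Fin 5) F) : Matrix (Fin 5) (Fin 5) F) = liftM ω (M5.pow Ph5 k) := by
  rw [Units.val_pow_eq_pow_val, liftM_pow h2 hω]
  rfl

lemma gA_pow_eleven : gA h2 hω ^ 11 = 1 := by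
  apply Units.ext
  rw [gA_pow_val, M5.eq_of_eqb chk_A.2.2, liftM_one]
  rfl

lemma gA_ne_one : gA h2 hω ≠ 1 := by
  intro h
  have h1 : liftM ω A5 = liftM ω one5 := by
    rw [liftM_one]
    exact congrArg Units.val h
  have h3 := liftM_inj h2 hω h1
  exact absurd h3 (by
    intro h4
    have : M5.eqb A5 one5 = false := by decide +kernel
    rw [h4] at this
    simp [M5.eqb, V5.eqb, Four.eqb_self] at this)

lemma gA_orderOf : orderOf (gA h2 hω) = 11 := by
  haveI : Fact (Nat.Prime 11) := ⟨by norm_num⟩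
  exact orderOf_eq_prime (gA_pow_eleven h2 hω) (gA_ne_one h2 hω)

/-- Conjugation by powers of `Ph5`. -/
theorem chk_conj_pow : (([(0, 1), (1, 4), (2, 5), (3, 9), (4, 3)] : List (ℕ × ℕ)).all fun p =>
    M5.eqb ((M5.pow Ph5 p.1).mul A5) ((M5.pow A5 p.2).mul (M5.pow Ph5 p.1))) = true := by
  decide +kernel

lemma exists_Ph_pow {j : ℕ} (hj : j = 1 ∨ j = 4 ∨ j = 5 ∨ j = 9 ∨ j = 3) :
    ∃ i, gPh h2 hω ^ i * gA h2 hω = gA h2 hω ^ j * gPh h2 hω ^ i := by
  have hall := List.all_eq_true.mp chk_conj_pow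
  have key : ∀ i, M5.eqb ((M5.pow Ph5 i).mul A5) ((M5.pow A5 j).mul (M5.pow Ph5 i)) = true →
      gPh h2 hω ^ i * gA h2 hω = gA h2 hω ^ j * gPh h2 hω ^ i := by
    intro i hi
    apply Units.ext
    rw [Units.val_mul, Units.val_mul, gA_pow_val, gPh_pow_val]
    show liftM ω (M5.pow Ph5 i) * liftM ω A5 = _
    rw [← liftM_mul h2 hω, ← liftM_mul h2 hω, M5.eq_of_eqb hi]
  rcases hj with rfl | rfl | rfl | rfl | rfl
  · exact ⟨0, key 0 (hall (0, 1) (by simp))⟩
  · exact ⟨1, key 1 (hall (1, 4) (by simp))⟩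
  · exact ⟨2, key 2 (hall (2, 5) (by simp))⟩
  · exact ⟨3, key 3 (hall (3, 9) (by simp))⟩
  · exact ⟨4, key 4 (hall (4, 3) (by simp))⟩

/-- The trace separates residues from non-residues. -/
lemma residue_of_conj {g : GL (Fin 5) F} {j : ℕ} (hj : j < 11) (hg : g * gA h2 hω = gA h2 hω ^ j * g) :
    j = 1 ∨ j = 4 ∨ j = 5 ∨ j = 9 ∨ j = 3 := by
  have h1 : gA h2 hω ^ j = g * gA h2 hω * g⁻¹ := by
    rw [hg]
    group
  have h3 : (liftM ω (M5.pow A5 j)).trace = (liftM ω A5).trace := by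
    rw [← gA_pow_val h2 hω, h1, Units.val_mul, Units.val_mul, Matrix.trace_mul_comm, ← mul_assoc, ← Units.val_mul,
      inv_mul_cancel]
    simp [gA, glOf_val]
  rw [trace_lift h2 hω, trace_lift h2 hω] at h3
  have h4 := emb_injective h2 hω h3
  have h5 := List.all_eq_true.mp chk_trace j (List.mem_range.mpr hj)
  rw [h4, Four.eqb_self] at h5
  simp at h5
  omega

omit hF h2 hω in
lemma gramChk_spec (w : V5) (ts : List Four) (cur : V5) :
    gramChk w cur ts = true ↔ ∀ k (hk : k < ts.length), herm5 w (A5.app^[k] cur) = ts[k] := by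
  induction ts generalizing cur with
  | nil => simp [gramChk]
  | cons t ts ih =>
    simp only [gramChk, Bool.and_eq_true, ih]
    constructor
    · rintro ⟨h1, h3⟩ k hk
      cases k with
      | zero => exact Four.eq_of_eqb h1
      | succ k =>
        rw [Function.iterate_succ_apply]
        exact h3 k (by simpa using hk)
    · intro h
      refine ⟨?_, fun k hk => ?_⟩
      · have := h 0 (by simp)
        simp only [Function.iterate_zero, id_eq, List.getElem_cons_zero] at this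
        rw [this]
        exact Four.eqb_self t
      · have := h (k + 1) (by simpa using hk)
        rwa [Function.iterate_succ_apply] at this

lemma lift_iterate (w : V5) (k : ℕ) :
    liftV ω (A5.app^[k] w) = ((gA h2 hω ^ k : GL (Fin 5) F) : Matrix (Fin 5) (Fin 5) F) *ᵥ liftV ω w := by
  induction k with
  | zero => simp
  | succ k ih =>
    rw [Function.iterate_succ_apply', ← liftM_app h2 hω, ih, pow_succ', Units.val_mul, Matrix.mulVec_mulVec]
    rfl

include h2 hω in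
lemma lift_smul (c : Four) (v : V5) : liftV ω (smul5 c v) = emb ω c • liftV ω v := by
  funext i
  fin_cases i <;> simp [liftV, smul5, emb_mul h2 hω]

include hF in
/-- The centraliser of the element of order eleven in `SU₅(2)`. -/
theorem eq_pow_of_comm {y : GL (Fin 5) F} (hy : y ∈ II 5 F 2) (hc : y * gA h2 hω = gA h2 hω * y) :
    ∃ l, y = gA h2 hω ^ l := by
  have hF4 : ∀ x : F, x ^ 4 = x := by
    intro x
    have h3 := FiniteField.pow_card x
    rw [hF] at h3
    exact h3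
  have hU : ∀ u v : Fin 5 → F, hermForm 5 F 2 ((y : Matrix (Fin 5) (Fin 5) F) *ᵥ u) ((y : Matrix (Fin 5) (Fin 5) F) *ᵥ v)
      = hermForm 5 F 2 u v := hy.1
  have hcp : ∀ k, ((gA h2 hω ^ k : GL (Fin 5) F) : Matrix (Fin 5) (Fin 5) F) * (y : Matrix (Fin 5) (Fin 5) F)
      = (y : Matrix (Fin 5) (Fin 5) F) * ((gA h2 hω ^ k : GL (Fin 5) F) : Matrix (Fin 5) (Fin 5) F) := by
    intro k
    rw [← Units.val_mul, ← Units.val_mul]
    congr 1
    exact ((Commute.symm hc).pow_left k)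
  set e₀ : Fin 5 → F := liftV ω e5 with he₀
  obtain ⟨w₀, hw₀⟩ := liftV_surj h2 hω hF4 ((y : Matrix (Fin 5) (Fin 5) F) *ᵥ e₀)
  have hgc : gramChk w₀ w₀ gramT = true := by
    rw [gramChk_spec]
    intro k hk
    have h1 := (gramChk_spec e5 gramT e5).mp chk_gramT k hk
    apply emb_injective h2 hω
    rw [← h1, ← herm_lift h2 hω, ← herm_lift h2 hω, lift_iterate h2 hω, lift_iterate h2 hω, hw₀, Matrix.mulVec_mulVec, hcp,
      ← Matrix.mulVec_mulVec, hU]
  -- the vector
  have hmem : orbList.any (V5.eqb w₀) = true := by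
    have h1 : ∀ a b c d e : Four, (!(gramChk ⟨a, b, c, d, e⟩ ⟨a, b, c, d, e⟩ gramT) || orbList.any (V5.eqb ⟨a, b, c, d, e⟩)) = true := by
      intro a b c d e
      exact Four.all4_spec (Four.all4_spec (Four.all4_spec (Four.all4_spec (Four.all4_spec chk_gram a) b) c) d) e
    obtain ⟨a, b, c, d, e⟩ := w₀
    have h3 := h1 a b c d e
    rw [hgc] at h3
    simpa using h3
  obtain ⟨v, hv, hev⟩ := List.any_eq_true.mp hmem
  obtain rfl := V5.eq_of_eqb hev
  obtain ⟨c, hc', hv2⟩ := List.mem_flatMap.mp hv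
  obtain ⟨l, hl, rfl⟩ := List.mem_map.mp hv2
  have hye : (y : Matrix (Fin 5) (Fin 5) F) *ᵥ e₀ = emb ω c • (((gA h2 hω ^ l : GL (Fin 5) F) : Matrix (Fin 5) (Fin 5) F) *ᵥ e₀) := by
    rw [← hw₀, lift_smul h2 hω, ← liftM_app h2 hω, gA_pow_val]
  -- the columns of the matrix `C`
  have hC : ∀ j : Fin 5, liftM ω C5 *ᵥ (Pi.single j 1) = ((gA h2 hω ^ (j : ℕ) : GL (Fin 5) F) : Matrix (Fin 5) (Fin 5) F) *ᵥ e₀ := by
    intro j
    rw [Matrix.mulVec_single_one, he₀, ← lift_iterate h2 hω]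
    have h1 : Matrix.col (liftM ω C5) j = (liftM ω C5)ᵀ j := by
      ext i
      rfl
    rw [h1, ← liftM_tr]
    have hchk := chk_C
    fin_cases j
    · show liftV ω C5.tr.r0 = _
      rw [V5.eq_of_eqb hchk.2.1]
      rfl
    · show liftV ω C5.tr.r1 = _
      rw [V5.eq_of_eqb hchk.2.2.1]
      rfl
    · show liftV ω C5.tr.r2 = _
      rw [V5.eq_of_eqb hchk.2.2.2.1]
      rfl
    · show liftV ω C5.tr.r3 = _
      rw [V5.eq_of_eqb hchk.2.2.2.2.1]
      rfl
    · show liftV ω C5.tr.r4 = _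
      rw [V5.eq_of_eqb hchk.2.2.2.2.2]
      rfl
  set Z : Matrix (Fin 5) (Fin 5) F := emb ω c • ((gA h2 hω ^ l : GL (Fin 5) F) : Matrix (Fin 5) (Fin 5) F) with hZ
  have hyC : (y : Matrix (Fin 5) (Fin 5) F) * liftM ω C5 = Z * liftM ω C5 := by
    have hk : ∀ j, ((y : Matrix (Fin 5) (Fin 5) F) * liftM ω C5) *ᵥ (Pi.single j 1) = (Z * liftM ω C5) *ᵥ (Pi.single j 1) := by
      intro j
      rw [← Matrix.mulVec_mulVec, ← Matrix.mulVec_mulVec, hC, Matrix.mulVec_mulVec, ← hcp, ← Matrix.mulVec_mulVec, hye, hZ,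
        Matrix.mulVec_smul, Matrix.smul_mulVec, Matrix.mulVec_mulVec, Matrix.mulVec_mulVec, ← Units.val_mul, ← Units.val_mul, pow_mul_comm]
    ext i j
    have := congrFun (hk j) i
    simpa [Matrix.mulVec_single_one] using this
  have hCi : liftM ω C5 * liftM ω Ci5 = 1 := by
    rw [← liftM_mul h2 hω, M5.eq_of_eqb chk_C.1, liftM_one]
  have hyZ : (y : Matrix (Fin 5) (Fin 5) F) = Z := by
    calc (y : Matrix (Fin 5) (Fin 5) F) = (y : Matrix (Fin 5) (Fin 5) F) * (liftM ω C5 * liftM ω Ci5) := by rw [hCi, mul_one]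
      _ = Z * (liftM ω C5 * liftM ω Ci5) := by rw [← mul_assoc, hyC, mul_assoc]
      _ = Z := by rw [hCi, mul_one]
  -- the scalar is trivial
  have hdy : (y : Matrix (Fin 5) (Fin 5) F).det = 1 := (Cfsg.Agent.Lib.Classical.Geo.Basic.mem_specialLinear_iff _).mp hy.2
  have hdA : (gA h2 hω : Matrix (Fin 5) (Fin 5) F).det = 1 :=
    (Cfsg.Agent.Lib.Classical.Geo.Basic.mem_specialLinear_iff _).mp (gA_mem hF h2 hω).2
  have hc0 : emb ω c ≠ 0 := by
    intro h0
    rw [hyZ, hZ, h0, zero_smul] at hdy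
    simp at hdy
  have h5 : emb ω c ^ 5 = 1 := by
    rw [hyZ, hZ, Matrix.det_smul, Units.val_pow_eq_pow_val, Matrix.det_pow, hdA, one_pow, mul_one] at hdy
    simpa using hdy
  have h3 : emb ω c ^ 3 = 1 := by
    have := FiniteField.pow_card_sub_one_eq_one _ hc0
    rw [hF] at this
    exact this
  have h1 : emb ω c = 1 := by
    have e : emb ω c * (emb ω c ^ 2) = 1 := by linear_combination h3
    have e2 : emb ω c ^ 2 = 1 := by
      have e3 : emb ω c ^ 2 * (emb ω c ^ 3) = 1 := by linear_combination h5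
      rw [h3, mul_one] at e3
      exact e3
    rw [e2, mul_one] at e
    exact e
  refine ⟨l, Units.ext ?_⟩
  rw [hyZ, hZ, h1, one_smul]

include hF in
/-- **A member of `SU₅(2)` normalising the cyclic group of order eleven stabilises the set `Y`.** -/
theorem mem_stab_of_conj {g : GL (Fin 5) F} (hg : g ∈ II 5 F 2) {j : ℕ} (hj : j < 11) (hc : g * gA h2 hω = gA h2 hω ^ j * g) :
    g ∈ stabY (YY ω) := by
  have hres := residue_of_conj h2 hω hj hc
  obtain ⟨i, hi⟩ := exists_Ph_pow h2 hω hres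
  set t := gPh h2 hω ^ i with ht
  have htm : t ∈ II 5 F 2 := (II 5 F 2).pow_mem (gPh_mem hF h2 hω) i
  have hy : t⁻¹ * g ∈ II 5 F 2 := (II 5 F 2).mul_mem ((II 5 F 2).inv_mem htm) hg
  have hcomm : (t⁻¹ * g) * gA h2 hω = gA h2 hω * (t⁻¹ * g) := by
    have h1 : gA h2 hω * t⁻¹ = t⁻¹ * gA h2 hω ^ j := by
      rw [eq_inv_mul_iff_mul_eq, ← mul_assoc, hi, mul_assoc, mul_inv_cancel, mul_one]
    rw [mul_assoc, hc, ← mul_assoc, ← mul_assoc, h1]
  obtain ⟨l, hl⟩ := eq_pow_of_comm hF h2 hω hy hcomm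
  have e : g = t * gA h2 hω ^ l := by
    rw [← hl]
    group
  rw [e]
  exact (stabY (YY ω)).mul_mem ((stabY (YY ω)).pow_mem (gPh_Y h2 hω) i) ((stabY (YY ω)).pow_mem (gA_Y h2 hω) l)

/-- The element `L` does not normalise the cyclic group. -/
lemma gL_not_conj {j : ℕ} (hj : j < 11) : gL h2 hω * gA h2 hω ≠ gA h2 hω ^ j * gL h2 hω := by
  intro h
  have h1 : liftM ω (L5.mul A5) = liftM ω ((M5.pow A5 j).mul L5) := by
    rw [liftM_mul h2 hω, liftM_mul h2 hω, ← gA_pow_val h2 hω]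
    exact congrArg Units.val h
  have h3 := liftM_inj h2 hω h1
  have h4 := List.all_eq_true.mp chk_L_norm j (List.mem_range.mpr hj)
  rw [h3] at h4
  have h5 : M5.eqb ((M5.pow A5 j).mul L5) ((M5.pow A5 j).mul L5) = true := by
    simp [M5.eqb, V5.eqb_self]
  rw [h5] at h4
  exact absurd h4 (by decide)

end Model

section Field

open Cfsg.Agent.Lib.Classical.Herm.Descent (fixF mem_fixF card_eq_pow_fix)

/-- An element of order eleven and norm one. -/
theorem exists_norm_one_eleven {L : Type*} [Field L] [Finite L] (hc : Nat.card L = 1024) (σ : L ≃+* L)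
    (hσ : ∀ x, σ (σ x) = x) (hne : ∃ x, σ x ≠ x) : ∃ x : L, x ≠ 1 ∧ x ^ 11 = 1 ∧ x * σ x = 1 := by
  classical
  letI : Fintype L := Fintype.ofFinite _
  haveI : Fact (Nat.Prime 2) := ⟨Nat.prime_two⟩
  have hord : orderOf σ = 2 := by
    apply orderOf_eq_prime
    · ext x
      simpa [pow_two] using hσ x
    · intro h
      obtain ⟨x, hx⟩ := hne
      apply hx
      rw [h]
      rfl
  have hfix := card_eq_pow_fix σ
  rw [hc, hord] at hfix
  have h32 : Nat.card (fixF σ) = 32 := by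
    have : (Nat.card (fixF σ)) ^ 2 = 32 ^ 2 := by
      rw [← hfix]
      norm_num
    exact Nat.pow_left_injective (by norm_num : 2 ≠ 0) this
  letI : Fintype (fixF σ) := Fintype.ofFinite _
  have hnorm : ∀ y : L, y ≠ 0 → (y * σ y) ^ 31 = 1 := by
    intro y hy
    have hm : y * σ y ∈ fixF σ := by
      rw [mem_fixF, map_mul, hσ, mul_comm]
    have hne0 : (⟨y * σ y, hm⟩ : fixF σ) ≠ 0 := by
      intro h
      have h1 : y * σ y = 0 := congrArg Subtype.val h
      rcases mul_eq_zero.mp h1 with h3 | h3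
      · exact hy h3
      · exact hy ((map_eq_zero σ).mp h3)
    have h3 := FiniteField.pow_card_sub_one_eq_one _ hne0
    rw [← Nat.card_eq_fintype_card, h32] at h3
    exact congrArg Subtype.val h3
  obtain ⟨ζ, hζ⟩ := IsCyclic.exists_generator (α := Lˣ)
  have hordζ : orderOf ζ = 1023 := by
    rw [orderOf_eq_card_of_forall_mem_zpowers hζ, Nat.card_units, hc]
  have hpow : ((ζ : L)) ^ 1023 = 1 := by
    have := pow_orderOf_eq_one ζ
    rw [hordζ] at this
    have h := congrArg Units.val this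
    simpa using h
  refine ⟨(ζ : L) ^ 93, ?_, ?_, ?_⟩
  · intro h
    have h1 : ζ ^ 93 = 1 := Units.ext (by simpa using h)
    have := orderOf_dvd_of_pow_eq_one h1
    rw [hordζ] at this
    norm_num at this
  · rw [← pow_mul]
    exact hpow
  · have h1 := hnorm (ζ : L) ζ.ne_zero
    have e : (ζ : L) ^ 93 * σ ((ζ : L) ^ 93) = (((ζ : L) * σ (ζ : L)) ^ 31) ^ 3 := by
      rw [map_pow]
      ring
    rw [e, h1, one_pow]

/-- The roots of unity of order eleven in a field. -/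
theorem exists_pow_of_eleven {L : Type*} [Field L] {a w : L} (ha : a ≠ 1) (ha11 : a ^ 11 = 1) (hw : w ^ 11 = 1) :
    ∃ i < 11, a ^ i = w := by
  haveI : Fact (Nat.Prime 11) := ⟨by norm_num⟩
  have h1 : orderOf a = 11 := orderOf_eq_prime ha11 ha
  have h2 : IsPrimitiveRoot a 11 := by
    rw [← h1]
    exact IsPrimitiveRoot.orderOf a
  exact h2.eq_pow_of_pow_eq_one hw

end Field

section Final

open Cfsg.Agent.Lib.Classical.Asch.Adj

variable {F : Type*} [Field F] [Fintype F]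

/-- The order of the general linear group. -/
lemma not_dvd_card (hF : Fintype.card F = 2 ^ 2) : ¬ 11 ^ 2 ∣ Nat.card (II 5 F 2) := by
  intro h
  have h1 : Nat.card (II 5 F 2) ∣ Nat.card (GL (Fin 5) F) := Subgroup.card_subgroup_dvd_card _
  have h3 := Matrix.card_GL_field (𝔽 := F) 5
  rw [hF] at h3
  rw [h3] at h1
  have h4 := h.trans h1
  simp only [Fin.prod_univ_five] at h4
  norm_num at h4

/-- **In `SU₅(2)` the normaliser of an adjoint-closed quintic subfield is not maximal.** -/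
theorem quintic_two (hF : Fintype.card F = 2 ^ 2) {K : Subalgebra F (Matrix (Fin 5) (Fin 5) F)} (hK : IsFieldSubalgebra 5 K)
    (hadj : IsAdjointClosedFor (hermForm 5 F 2) K) {H : Subgroup (GL (Fin 5) F)} (hH : IsMaximalIn (II 5 F 2) H)
    (hE : H = subalgebraNormalizer K ⊓ II 5 F 2) : False := by
  classical
  have h2 : (2 : F) = 0 := FormSU.two_of_parity hF (by decide)
  have hF4 : ∀ x : F, x ^ 4 = x := by
    intro x
    have h3 := FiniteField.pow_card x
    rw [hF] at h3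
    exact h3
  obtain ⟨ω, hω⟩ : ∃ ω : F, ω * ω = ω + 1 := by
    obtain ⟨x, -, hx⟩ := Finset.exists_mem_notMem_of_card_lt_card (s := ({0, 1} : Finset F)) (t := Finset.univ) (by
      rw [Finset.card_univ, hF]
      exact (Finset.card_le_two).trans_lt (by norm_num))
    simp only [Finset.mem_insert, Finset.mem_singleton, not_or] at hx
    refine ⟨x, ?_⟩
    have h3 := hF4 x
    have h4 : x * (x + 1) * (x * x + x + 1) = 0 := by
      linear_combination h3 + (x + x ^ 2 + x ^ 3) * h2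
    have h5 : x + 1 ≠ 0 := by
      intro h6
      apply hx.2
      linear_combination h6 - h2
    have h6 := (mul_eq_zero.mp h4).resolve_left (mul_ne_zero hx.1 h5)
    linear_combination h6 - (x + 1) * h2
  have hf : ReflForm (sigE hF) 1 (hermForm 5 F 2) := FormSU.refl_hermForm hF
  have hcl : ∀ k ∈ K, adj (sigE hF) (hermForm 5 F 2) k ∈ K := by
    intro k hk
    obtain ⟨k', hk', h⟩ := hadj k hk
    rw [← hf.eq_adj h]
    exact hk'
  haveI : Nonempty (Fin 5) := ⟨0⟩
  letI instF : Field ↥K := (FormField.isField_of hK).toField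
  haveI : Finite ↥K := inferInstance
  -- the involution on the field
  let σK : ↥K ≃+* ↥K :=
    { toFun := fun k => ⟨adj (sigE hF) (hermForm 5 F 2) k.1, hcl _ k.2⟩
      invFun := fun k => ⟨adj (sigE hF) (hermForm 5 F 2) k.1, hcl _ k.2⟩
      left_inv := fun k => Subtype.ext (hf.adj_adj k.1)
      right_inv := fun k => Subtype.ext (hf.adj_adj k.1)
      map_mul' := fun x y => Subtype.ext (by
        show adj (sigE hF) (hermForm 5 F 2) (x.1 * y.1) = adj (sigE hF) (hermForm 5 F 2) x.1 * adj (sigE hF) (hermForm 5 F 2) y.1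
        rw [hf.adj_mul]
        exact hK.comm _ (hcl _ y.2) _ (hcl _ x.2))
      map_add' := fun x y => Subtype.ext (hf.adj_add x.1 y.1) }
  have hσK : ∀ x, σK (σK x) = x := fun k => Subtype.ext (hf.adj_adj k.1)
  have hcard : Nat.card ↥K = 1024 := by
    have h1 := Module.natCard_eq_pow_finrank (K := F) (V := ↥K)
    rw [hK.finrank_eq, Nat.card_eq_fintype_card (α := F), hF] at h1
    rw [h1]
    norm_num
  have hmoved : ∃ x, σK x ≠ x := by
    refine ⟨⟨ω • (1 : Matrix (Fin 5) (Fin 5) F), K.smul_mem K.one_mem ω⟩, fun h => ?_⟩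
    have h1 : adj (sigE hF) (hermForm 5 F 2) (ω • (1 : Matrix (Fin 5) (Fin 5) F)) = ω • (1 : Matrix (Fin 5) (Fin 5) F) :=
      congrArg Subtype.val h
    rw [hf.adj_smul, hf.adj_one, sigE_apply] at h1
    have h3 := congrFun (congrFun h1 0) 0
    simp only [Matrix.smul_apply, Matrix.one_apply_eq, smul_eq_mul, mul_one] at h3
    have h4 : (1 : F) = 0 := by
      rw [pow_two, hω] at h3
      linear_combination h3
    exact one_ne_zero h4
  obtain ⟨x, hx1, hx11, hxσ⟩ := exists_norm_one_eleven hcard σK hσK hmoved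
  set X : Matrix (Fin 5) (Fin 5) F := x.1 with hX
  have hXa : X * adj (sigE hF) (hermForm 5 F 2) X = 1 := congrArg Subtype.val hxσ
  have hXa' : adj (sigE hF) (hermForm 5 F 2) X * X = 1 := by
    rw [hK.comm _ (hcl _ x.2) _ x.2]
    exact hXa
  let xh : GL (Fin 5) F := ⟨X, adj (sigE hF) (hermForm 5 F 2) X, hXa, hXa'⟩
  have hxval : (xh : Matrix (Fin 5) (Fin 5) F) = X := rfl
  have hpowK : ∀ (y : ↥K) (n : ℕ), ((y ^ n : ↥K) : Matrix (Fin 5) (Fin 5) F) = (y : Matrix (Fin 5) (Fin 5) F) ^ n := by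
    intro y n
    induction n with
    | zero => rfl
    | succ n ih =>
      rw [pow_succ, pow_succ, ← ih]
      rfl
  have hxh11 : xh ^ 11 = 1 := by
    apply Units.ext
    rw [Units.val_pow_eq_pow_val, hxval, hX, ← hpowK, hx11]
    rfl
  have hxh1 : xh ≠ 1 := by
    intro h
    apply hx1
    apply Subtype.ext
    exact congrArg Units.val h
  haveI hp11 : Fact (Nat.Prime 11) := ⟨by norm_num⟩
  have hxord : orderOf xh = 11 := orderOf_eq_prime hxh11 hxh1
  have hxU : xh ∈ II 5 F 2 := by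
    refine ⟨?_, ?_⟩
    · intro u v
      show hermForm 5 F 2 (X *ᵥ u) (X *ᵥ v) = hermForm 5 F 2 u v
      rw [hf.adj_spec, Matrix.mulVec_mulVec, hXa', Matrix.one_mulVec]
    · show _ ∈ specialLinear (Fin 5) F
      rw [Cfsg.Agent.Lib.Classical.Geo.Basic.mem_specialLinear_iff]
      exact det_eq_one_of_pow hF (k := 11) rfl hxh11
  -- Sylow
  have hAU := gA_mem hF h2 hω
  obtain ⟨s', hs'⟩ := exists_conj_of_prime (G := ↥(II 5 F 2)) (p := 11) (a := ⟨xh, hxU⟩) (b := ⟨gA h2 hω, hAU⟩)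
    (by rw [Subgroup.orderOf_mk]; exact hxord) (by rw [Subgroup.orderOf_mk]; exact gA_orderOf h2 hω) (not_dvd_card hF)
  obtain ⟨k, hk⟩ := (mem_powers_iff_mem_zpowers).mpr hs'
  set s : GL (Fin 5) F := (s' : GL (Fin 5) F) with hs
  have hsU : s ∈ II 5 F 2 := s'.2
  have hk' : gA h2 hω ^ k = s * xh * s⁻¹ := congrArg Subtype.val hk
  set A' : GL (Fin 5) F := s⁻¹ * gA h2 hω * s with hA'
  have hA'pow : ∀ n, A' ^ n = s⁻¹ * gA h2 hω ^ n * s := by
    intro n
    induction n with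
    | zero => simp
    | succ n ih =>
      rw [pow_succ, ih, hA', pow_succ]
      group
  have hA'11 : A' ^ 11 = 1 := by
    rw [hA'pow, gA_pow_eleven]
    group
  have hA'1 : A' ≠ 1 := by
    intro h
    apply gA_ne_one h2 hω
    have : gA h2 hω = s * A' * s⁻¹ := by
      rw [hA']
      group
    rw [this, h]
    group
  have hxA : xh = A' ^ k := by
    rw [hA'pow, hk']
    group
  have hk0 : k % 11 ≠ 0 := by
    intro h0
    apply hxh1
    rw [hxA, pow_eq_pow_mod k hA'11, h0, pow_zero]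
  have hA'mem : (A' : Matrix (Fin 5) (Fin 5) F) ∈ K := by
    obtain ⟨t, -, ht⟩ := Nat.exists_mul_mod_eq_one_of_coprime (n := k) (k := 11)
      ((Nat.coprime_comm.mp ((Nat.Prime.coprime_iff_not_dvd hp11.out).mpr (fun h => hk0 (Nat.mod_eq_zero_of_dvd h))))) (by norm_num)
    have e : A' = xh ^ t := by
      rw [hxA, ← pow_mul, pow_eq_pow_mod (k * t) hA'11, ht, pow_one]
    rw [e, Units.val_pow_eq_pow_val, hxval]
    exact K.pow_mem x.2 t
  let a' : ↥K := ⟨A', hA'mem⟩
  have ha'1 : a' ≠ 1 := by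
    intro h
    apply hA'1
    apply Units.ext
    exact congrArg Subtype.val h
  have ha'11 : a' ^ 11 = 1 := by
    apply Subtype.ext
    rw [hpowK]
    have := congrArg Units.val hA'11
    simpa using this
  -- members of the normaliser
  have hconj : ∀ g ∈ subalgebraNormalizer K, ∃ j < 11, (s * g * s⁻¹) * gA h2 hω = gA h2 hω ^ j * (s * g * s⁻¹) := by
    intro g hg
    have h1 : (g : Matrix (Fin 5) (Fin 5) F) * (A' : Matrix (Fin 5) (Fin 5) F) * ((g⁻¹ : GL (Fin 5) F) : Matrix (Fin 5) (Fin 5) F) ∈ K :=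
      (hg _).mp hA'mem
    let w : ↥K := ⟨_, h1⟩
    have hwval : (w : Matrix (Fin 5) (Fin 5) F) = ((g * A' * g⁻¹ : GL (Fin 5) F) : Matrix (Fin 5) (Fin 5) F) := rfl
    have hw11 : w ^ 11 = 1 := by
      apply Subtype.ext
      rw [hpowK, hwval, ← Units.val_pow_eq_pow_val]
      have e : (g * A' * g⁻¹) ^ 11 = 1 := by
        rw [conj_pow, hA'11]
        group
      rw [e]
      rfl
    obtain ⟨j, hj, hjw⟩ := exists_pow_of_eleven ha'1 ha'11 hw11
    refine ⟨j, hj, ?_⟩
    have e1 : A' ^ j = g * A' * g⁻¹ := by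
      apply Units.ext
      rw [← hwval, ← hjw, hpowK, Units.val_pow_eq_pow_val]
    rw [hA'pow] at e1
    have e2 : gA h2 hω ^ j = s * (g * A' * g⁻¹) * s⁻¹ := by
      rw [← e1]
      group
    rw [e2, hA']
    group
  let M : Subgroup (GL (Fin 5) F) := (stabY (YY ω)).comap (MulAut.conj s).toMonoidHom
  have hM : ∀ g, g ∈ M ↔ s * g * s⁻¹ ∈ stabY (YY ω) := fun g => Iff.rfl
  have hle : H ≤ M ⊓ II 5 F 2 := by
    intro g hg
    rw [hE] at hg
    obtain ⟨hg1, hg2⟩ := hg
    refine ⟨(hM g).mpr ?_, hg2⟩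
    obtain ⟨j, hj, hc⟩ := hconj g hg1
    exact mem_stab_of_conj hF h2 hω ((II 5 F 2).mul_mem ((II 5 F 2).mul_mem hsU hg2) ((II 5 F 2).inv_mem hsU)) hj hc
  have hcj : ∀ y : GL (Fin 5) F, s * (s⁻¹ * y * s) * s⁻¹ = y := fun y => by group
  rcases hH.2 (M ⊓ II 5 F 2) hle inf_le_right with h | h
  · have hL : s⁻¹ * gL h2 hω * s ∈ M ⊓ II 5 F 2 := by
      refine ⟨(hM _).mpr ?_, (II 5 F 2).mul_mem ((II 5 F 2).mul_mem ((II 5 F 2).inv_mem hsU) (gL_mem hF h2 hω)) hsU⟩
      rw [hcj]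
      exact gL_Y h2 hω
    rw [h, hE] at hL
    obtain ⟨j, hj, hc⟩ := hconj _ hL.1
    rw [hcj] at hc
    exact gL_not_conj h2 hω hj hc
  · have hT : s⁻¹ * gT h2 hω * s ∈ M ⊓ II 5 F 2 := by
      rw [h]
      exact (II 5 F 2).mul_mem ((II 5 F 2).mul_mem ((II 5 F 2).inv_mem hsU) (gT_mem hF h2 hω)) hsU
    have := (hM _).mp hT.1
    rw [hcj] at this
    exact gT_not_Y h2 hω this

end Final

end Cfsg.Agent.Lib.Classical.Asch.SUFive
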