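import Mathlib
import Cfsg.Agent.Lib.Classical.Asch.SLFour
import Cfsg.Agent.Lib.Classical.Asch.SURows

/-!
# `SU₄(q)`, `q ≤ 3`: a pair of totally isotropic planes

Over the fields with four and nine elements, the stabiliser in `SU₄(q)` of a pair of complementary totally isotropic
planes preserves, up to scalars, an `F_q`-structure on which the form is alternating up to a scalar.
-/

set_option autoImplicit false
set_option linter.style.haveILetI false
set_option linter.unusedSectionVars false

namespace Cfsg.Agent.Lib.Classical.Asch.SUPair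

open scoped MatrixGroups Matrix
open Cfsg Cfsg.Geo Cfsg.Agent.Lib.Classical.Asch.Basic Cfsg.Agent.Lib.Classical.Asch
open Cfsg.Agent.Lib.Classical.Herm.Basic
open Cfsg.Agent.Lib.Classical.Asch.NotSU
open Cfsg.Agent.Lib.Classical.Herm.PSLGraphField (sigE sigE_apply)
open Cfsg.Agent.Lib.Classical.Herm.Descent (fixF mem_fixF)

variable {F : Type*} [Field F] [Fintype F] {q : ℕ}

local notation "⟪" x ", " y "⟫" => hermForm 4 F q x y

abbrev V (F : Type*) := Fin 4 → F

/-- A basis adapted to the pair with dual coordinates. -/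
theorem exists_dualBasis (hF : Fintype.card F = q ^ 2) {D : Fin 2 → Submodule F (V F)} (hD : IsMDecomposition 2 D)
    (hts : ∀ i, IsTotallySingularFor (hermForm 4 F q) (D i)) :
    ∃ B : Module.Basis (Fin 2 × Fin 2) F (V F), (∀ i j, B (i, j) ∈ D i) ∧
      (∀ i, ∀ w ∈ D i, ∀ k, k ≠ i → ∀ j, B.repr w (k, j) = 0) ∧
      (∀ w j, B.repr w (0, j) = ⟪w, B (1, j)⟫) ∧ (∀ w j, B.repr w (1, j) = ⟪w, B (0, j)⟫) := by
  classical
  obtain ⟨B₀, hB₀, hB₀'⟩ := Block.exists_blockBasis hD
  set G : Matrix (Fin 2) (Fin 2) F := fun i j => ⟪B₀ (0, i), B₀ (1, j)⟫ with hG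
  -- the Gram matrix is invertible
  have hdet : G.det ≠ 0 := by
    intro h0
    obtain ⟨v, hv, hGv⟩ := Matrix.exists_mulVec_eq_zero_iff.mpr h0
    set y : V F := ∑ j, (v j) ^ q • B₀ (1, j) with hy
    have hy1 : y ∈ D 1 := Submodule.sum_mem _ fun j _ => Submodule.smul_mem _ _ (hB₀ 1 j)
    have hy0 : ∀ i, ⟪B₀ (0, i), y⟫ = 0 := by
      intro i
      have h1 : ⟪B₀ (0, i), y⟫ = ∑ j, v j * G i j := by
        rw [hy, Fin.sum_univ_two, Fin.sum_univ_two, hermForm_add_right hF, hermForm_smul_right, hermForm_smul_right,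
          pow_q_pow_q hF, pow_q_pow_q hF]
      rw [h1]
      have h2 := congrFun hGv i
      simp only [Matrix.mulVec, dotProduct, Pi.zero_apply] at h2
      rw [← h2]
      exact Finset.sum_congr rfl fun _ _ => mul_comm _ _
    have hyz : y = 0 := by
      apply hermForm_nondegenerate_right hF 4 y
      intro x
      rw [← B₀.sum_repr x]
      have h3 : ∀ (s : Finset (Fin 2 × Fin 2)) (c : Fin 2 × Fin 2 → F),
          hermForm 4 F q (∑ k ∈ s, c k • B₀ k) y = ∑ k ∈ s, c k * hermForm 4 F q (B₀ k) y := by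
        intro s c
        induction s using Finset.cons_induction with
        | empty => simp [hermForm_zero_left]
        | cons a s ha ih =>
          rw [Finset.sum_cons, Finset.sum_cons, hermForm_add_left, hermForm_smul_left, ih]
      rw [h3]
      refine Finset.sum_eq_zero ?_
      rintro ⟨k, j⟩ _
      rcases (by omega : k = 0 ∨ k = 1) with rfl | rfl
      · rw [hy0, mul_zero]
      · rw [hts 1 _ (hB₀ 1 j) _ hy1, mul_zero]
    apply hv
    funext j
    have h4 := hyz
    rw [hy] at h4
    have h5 := congrArg (fun w => B₀.repr w (1, j)) h4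
    simp only [map_sum, map_smul, Finsupp.finsetSum_apply, Finsupp.smul_apply, Module.Basis.repr_self, map_zero,
      Finsupp.zero_apply, Finsupp.single_apply, Prod.mk.injEq, true_and, smul_eq_mul, mul_ite, mul_one, mul_zero] at h5
    simp only [Finset.sum_ite_eq', Finset.mem_univ, if_true] at h5
    exact (pow_eq_zero_iff (by have := two_le_q hF; omega)).mp h5
  have hdu : IsUnit G.det := isUnit_iff_ne_zero.mpr hdet
  set e : Fin 2 → V F := fun i => B₀ (0, i) with he
  set f : Fin 2 → V F := fun j => ∑ k, ((G⁻¹) k j) ^ q • B₀ (1, k) with hf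
  have hf1 : ∀ j, f j ∈ D 1 := fun j => Submodule.sum_mem _ fun k _ => Submodule.smul_mem _ _ (hB₀ 1 k)
  have he0 : ∀ i, e i ∈ D 0 := fun i => hB₀ 0 i
  have hef : ∀ i j, ⟪e i, f j⟫ = if i = j then 1 else 0 := by
    intro i j
    have h1 : ⟪e i, f j⟫ = ∑ k, G i k * (G⁻¹) k j := by
      simp only [hf, he, Fin.sum_univ_two]
      rw [hermForm_add_right hF, hermForm_smul_right, hermForm_smul_right, pow_q_pow_q hF, pow_q_pow_q hF]
      simp only [hG]
      ring
    rw [h1, ← Matrix.mul_apply, Matrix.mul_nonsing_inv G hdu, Matrix.one_apply]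
  have hfe : ∀ i j, ⟪f j, e i⟫ = if i = j then 1 else 0 := by
    intro i j
    have h1 := hermForm_pow_q hF 4 (e i) (f j)
    rw [hef] at h1
    rw [← h1]
    by_cases h : i = j
    · rw [if_pos h, one_pow]
    · rw [if_neg h, zero_pow (by have := two_le_q hF; omega)]
  have hee : ∀ i j, ⟪e i, e j⟫ = 0 := fun i j => hts 0 _ (he0 i) _ (he0 j)
  have hff : ∀ i j, ⟪f i, f j⟫ = 0 := fun i j => hts 1 _ (hf1 i) _ (hf1 j)
  let b : Fin 2 × Fin 2 → V F := fun x => if x.1 = 0 then e x.2 else f x.2
  have hb0 : ∀ j, b (0, j) = e j := fun j => rfl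
  have hb1 : ∀ j, b (1, j) = f j := fun j => rfl
  have hsum : ∀ (c : Fin 2 × Fin 2 → F) (z : V F), ⟪∑ x, c x • b x, z⟫
      = ∑ j, c (0, j) * ⟪e j, z⟫ + ∑ j, c (1, j) * ⟪f j, z⟫ := by
    intro c z
    rw [Fintype.sum_prod_type, Fin.sum_univ_two]
    simp only [hb0, hb1, Fin.sum_univ_two]
    rw [hermForm_add_left, hermForm_add_left, hermForm_add_left]
    simp only [hermForm_smul_left]
  have hind : LinearIndependent F b := by
    rw [Fintype.linearIndependent_iff]
    intro c hc x
    have h0 : ∀ j, c (0, j) = 0 := by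
      intro j
      have h1 := hsum c (f j)
      rw [hc, hermForm_zero_left] at h1
      simp only [Fin.sum_univ_two, hef, hff] at h1
      fin_cases j <;> simpa using h1.symm
    have h1 : ∀ j, c (1, j) = 0 := by
      intro j
      have h1 := hsum c (e j)
      rw [hc, hermForm_zero_left] at h1
      simp only [Fin.sum_univ_two, hfe, hee] at h1
      fin_cases j <;> simpa using h1.symm
    obtain ⟨k, j⟩ := x
    rcases (by omega : k = 0 ∨ k = 1) with rfl | rfl
    · exact h0 j
    · exact h1 j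
  have hcard : Fintype.card (Fin 2 × Fin 2) = Module.finrank F (V F) := by
    simp
  let B : Module.Basis (Fin 2 × Fin 2) F (V F) := basisOfLinearIndependentOfCardEqFinrank hind hcard
  have hBb : ∀ x, B x = b x := fun x => by
    simp [B]
  have hB0 : ∀ j, B (0, j) = e j := fun j => by rw [hBb]; rfl
  have hB1 : ∀ j, B (1, j) = f j := fun j => by rw [hBb]; rfl
  have hexp : ∀ w : V F, w = ∑ x, B.repr w x • b x := by
    intro w
    conv_lhs => rw [← B.sum_repr w]
    exact Finset.sum_congr rfl fun x _ => by rw [hBb]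
  have hrep0 : ∀ w j, B.repr w (0, j) = ⟪w, B (1, j)⟫ := by
    intro w j
    rw [hB1]
    conv_rhs => rw [hexp w]
    rw [hsum]
    simp only [Fin.sum_univ_two, hef, hff]
    fin_cases j <;> simp
  have hrep1 : ∀ w j, B.repr w (1, j) = ⟪w, B (0, j)⟫ := by
    intro w j
    rw [hB0]
    conv_rhs => rw [hexp w]
    rw [hsum]
    simp only [Fin.sum_univ_two, hfe, hee]
    fin_cases j <;> simp
  refine ⟨B, ?_, ?_, hrep0, hrep1⟩
  · intro i j
    rcases (by omega : i = 0 ∨ i = 1) with rfl | rfl
    · rw [hB0]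
      exact he0 j
    · rw [hB1]
      exact hf1 j
  · intro i w hw k hk j
    rcases (by omega : i = 0 ∨ i = 1) with rfl | rfl
    · have : k = 1 := by omega
      subst this
      rw [hrep1, hB0]
      exact hts 0 _ hw _ (he0 j)
    · have : k = 0 := by omega
      subst this
      rw [hrep0, hB1]
      exact hts 1 _ hw _ (hf1 j)

/-- The matrix with a given basis as columns. -/
theorem exists_glOfBasis {n : ℕ} (b : Module.Basis (Fin n) F (Fin n → F)) :
    ∃ P : GL (Fin n) F, (∀ x, (P : Matrix (Fin n) (Fin n) F) *ᵥ (Pi.single x 1) = b x) ∧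
      (∀ u : Fin n → F, ((P⁻¹ : GL (Fin n) F) : Matrix (Fin n) (Fin n) F) *ᵥ u = fun i => b.repr u i) ∧
      (∀ u : Fin n → F, (P : Matrix (Fin n) (Fin n) F) *ᵥ u = ∑ x, u x • b x) := by
  classical
  let E := Pi.basisFun F (Fin n)
  let P : GL (Fin n) F :=
    { val := E.toMatrix b
      inv := b.toMatrix E
      val_inv := Module.Basis.toMatrix_mul_toMatrix_flip _ _
      inv_val := Module.Basis.toMatrix_mul_toMatrix_flip _ _ }
  have hPe : ∀ x : Fin n, (P : Matrix (Fin n) (Fin n) F) *ᵥ (Pi.single x 1) = b x := by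
    intro x
    rw [Matrix.mulVec_single_one]
    ext j
    show E.toMatrix b j x = _
    rw [Module.Basis.toMatrix_apply]
    simp [E]
  have hPi : ∀ u : Fin n → F, ((P⁻¹ : GL (Fin n) F) : Matrix (Fin n) (Fin n) F) *ᵥ u = fun i => b.repr u i := by
    intro u
    have h1 := Module.Basis.toMatrix_mulVec_repr E b u
    have h3 : ⇑(E.repr u) = u := by
      ext i
      simp [E]
    rw [h3] at h1
    exact h1
  refine ⟨P, hPe, hPi, fun u => ?_⟩
  have h1 : u = ∑ x, u x • (Pi.single x 1 : Fin n → F) := by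
    funext i
    simp [Finset.sum_apply, Pi.single_apply]
  conv_lhs => rw [h1]
  rw [Matrix.mulVec_sum]
  refine Finset.sum_congr rfl fun x _ => ?_
  rw [Matrix.mulVec_smul, hPe]

section Main

variable (B : Module.Basis (Fin 2 × Fin 2) F (V F))

/-- The auxiliary bilinear form, in the second variable. -/
noncomputable def psiL (x : V F) : V F →ₗ[F] F :=
  (B.repr x (0, 0)) • B.coord (0, 1) - (B.repr x (0, 1)) • B.coord (0, 0)
    - (B.repr x (1, 0)) • B.coord (1, 1) + (B.repr x (1, 1)) • B.coord (1, 0)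

theorem psiL_apply (x y : V F) : psiL B x y = B.repr x (0, 0) * B.repr y (0, 1) - B.repr x (0, 1) * B.repr y (0, 0)
    - B.repr x (1, 0) * B.repr y (1, 1) + B.repr x (1, 1) * B.repr y (1, 0) := by
  simp [psiL]

/-- The vectors of the `F_q`-structure. -/
noncomputable def pv (a b : F) : V F := a • B (0, 0) + b • B (0, 1) + b ^ q • B (1, 0) - a ^ q • B (1, 1)

theorem repr_pv (a b : F) : B.repr (pv (q := q) B a b) (0, 0) = a ∧ B.repr (pv (q := q) B a b) (0, 1) = b ∧
    B.repr (pv (q := q) B a b) (1, 0) = b ^ q ∧ B.repr (pv (q := q) B a b) (1, 1) = - a ^ q := by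
  classical
  simp [pv]

variable {B}

/-- The form in coordinates. -/
theorem herm_coord (hF : Fintype.card F = q ^ 2)
    (hr0 : ∀ w j, B.repr w (0, j) = ⟪w, B (1, j)⟫) (hr1 : ∀ w j, B.repr w (1, j) = ⟪w, B (0, j)⟫) (x y : V F) :
    ⟪x, y⟫ = B.repr x (0, 0) * (B.repr y (1, 0)) ^ q + B.repr x (0, 1) * (B.repr y (1, 1)) ^ q
      + B.repr x (1, 0) * (B.repr y (0, 0)) ^ q + B.repr x (1, 1) * (B.repr y (0, 1)) ^ q := by
  classical
  have h1 : ∀ k, ⟪B k, y⟫ = (B.repr y (if k.1 = 0 then 1 else 0, k.2)) ^ q := by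
    rintro ⟨k, j⟩
    rcases (by omega : k = 0 ∨ k = 1) with rfl | rfl
    · simp only [if_true]
      rw [hr1, hermForm_pow_q hF]
    · simp only [show ((1 : Fin 2) = 0) = False from by simp, if_false]
      rw [hr0, hermForm_pow_q hF]
  conv_lhs => rw [← B.sum_repr x]
  have h3 : ∀ (s : Finset (Fin 2 × Fin 2)) (c : Fin 2 × Fin 2 → F),
      hermForm 4 F q (∑ k ∈ s, c k • B k) y = ∑ k ∈ s, c k * hermForm 4 F q (B k) y := by
    intro s c
    induction s using Finset.cons_induction with
    | empty => simp [hermForm_zero_left]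
    | cons a s ha ih =>
      rw [Finset.sum_cons, Finset.sum_cons, hermForm_add_left, hermForm_smul_left, ih]
  rw [h3, Fintype.sum_prod_type, Fin.sum_univ_two, Fin.sum_univ_two, Fin.sum_univ_two]
  simp only [h1]
  simp
  ring

theorem psi_pv (hF : Fintype.card F = q ^ 2)
    (hr0 : ∀ w j, B.repr w (0, j) = ⟪w, B (1, j)⟫) (hr1 : ∀ w j, B.repr w (1, j) = ⟪w, B (0, j)⟫) (x : V F) (a b : F) :
    psiL B x (pv (q := q) B a b) = ⟪x, pv (q := q) B a b⟫ := by
  obtain ⟨h1, h2, h3, h4⟩ := repr_pv (q := q) B a b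
  rw [herm_coord hF hr0 hr1, psiL_apply, h1, h2, h3, h4, pow_q_pow_q hF, pow_q_neg hF, pow_q_pow_q hF]
  ring

theorem herm_pv (hF : Fintype.card F = q ^ 2)
    (hr0 : ∀ w j, B.repr w (0, j) = ⟪w, B (1, j)⟫) (hr1 : ∀ w j, B.repr w (1, j) = ⟪w, B (0, j)⟫) (a b a' b' : F) :
    ⟪pv (q := q) B a b, pv (q := q) B a' b'⟫ = (a * b' - b * a') - (a * b' - b * a') ^ q := by
  obtain ⟨h1, h2, h3, h4⟩ := repr_pv (q := q) B a b
  obtain ⟨h1', h2', h3', h4'⟩ := repr_pv (q := q) B a' b'
  rw [herm_coord hF hr0 hr1, h1, h2, h3, h4, h1', h2', h3', h4', pow_q_pow_q hF, pow_q_neg hF, pow_q_pow_q hF,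
    pow_q_sub hF, mul_pow, mul_pow]
  ring

end Main

/-- **The stabiliser of a pair of totally isotropic planes, for `q ≤ 3`, preserves an `F_q`-structure up to scalars.** -/
theorem stab_le_subfield (hF : Fintype.card F = q ^ 2) (hq : q = 2 ∨ q = 3) {D : Fin 2 → Submodule F (V F)}
    (hD : IsMDecomposition 2 D) (hts : ∀ i, IsTotallySingularFor (hermForm 4 F q) (D i)) :
    ∃ (P : GL (Fin 4) F) (ζ : F), ζ ≠ 0 ∧ ζ + ζ ^ q = 0 ∧ IsFormRationalStructure (hermForm 4 F q) (fixF (sigE hF)) ζ P ∧
      (∀ u : Fin 4 → F, (∀ i, u i ∈ fixF (sigE hF)) →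
        hermForm 4 F q ((P : Matrix (Fin 4) (Fin 4) F) *ᵥ u) ((P : Matrix (Fin 4) (Fin 4) F) *ᵥ u) = 0) ∧
      decompositionStabilizer D ⊓ II 4 F q ≤ subfieldSubgroup (fixF (sigE hF)) P := by
  classical
  obtain ⟨B, hB, hB', hr0, hr1⟩ := exists_dualBasis hF hD hts
  have hq0 : q ≠ 0 := by have := two_le_q hF; omega
  obtain ⟨l, hl⟩ : ∃ l : F, l ^ q ≠ l := by
    by_contra hc
    push Not at hc
    apply sigma_ne_id hF
    ext x
    exact hc x
  let p : Fin 4 → V F := ![pv (q := q) B 1 0, pv (q := q) B l 0, pv (q := q) B 0 1, pv (q := q) B 0 l]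
  have hp : ∀ k, ∃ a b, p k = pv (q := q) B a b := by
    intro k
    fin_cases k
    · exact ⟨1, 0, rfl⟩
    · exact ⟨l, 0, rfl⟩
    · exact ⟨0, 1, rfl⟩
    · exact ⟨0, l, rfl⟩
  have hind : LinearIndependent F p := by
    rw [Fintype.linearIndependent_iff]
    intro c hc
    rw [Fin.sum_univ_four] at hc
    have hzq : (0 : F) ^ q = 0 := zero_pow hq0
    have hv : ∀ x, c 0 * B.repr (p 0) x + c 1 * B.repr (p 1) x + c 2 * B.repr (p 2) x + c 3 * B.repr (p 3) x = 0 := by
      intro x
      have := congrArg (fun w => B.repr w x) hc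
      simpa using this
    obtain ⟨h01, h02, h03, h04⟩ := repr_pv (q := q) B 1 0
    obtain ⟨h11, h12, h13, h14⟩ := repr_pv (q := q) B l 0
    obtain ⟨h21, h22, h23, h24⟩ := repr_pv (q := q) B 0 1
    obtain ⟨h31, h32, h33, h34⟩ := repr_pv (q := q) B 0 l
    have a1 := hv (0, 0)
    have a2 := hv (1, 1)
    have a3 := hv (0, 1)
    have a4 := hv (1, 0)
    simp only [p, Matrix.cons_val] at a1 a2 a3 a4
    rw [h01, h11, h21, h31] at a1
    rw [h04, h14, h24, h34, one_pow, hzq] at a2
    rw [h02, h12, h22, h32] at a3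
    rw [h03, h13, h23, h33, one_pow, hzq] at a4
    have hne : l - l ^ q ≠ 0 := fun h => hl (sub_eq_zero.mp h).symm
    have c1 : c 1 = 0 := by
      have : c 1 * (l - l ^ q) = 0 := by linear_combination a1 + a2
      exact (mul_eq_zero.mp this).resolve_right hne
    have c3 : c 3 = 0 := by
      have : c 3 * (l - l ^ q) = 0 := by linear_combination a3 - a4
      exact (mul_eq_zero.mp this).resolve_right hne
    have c0 : c 0 = 0 := by
      rw [c1] at a1
      linear_combination a1
    have c2 : c 2 = 0 := by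
      rw [c3] at a3
      linear_combination a3
    intro k
    fin_cases k
    · exact c0
    · exact c1
    · exact c2
    · exact c3
  let b : Module.Basis (Fin 4) F (V F) := basisOfLinearIndependentOfCardEqFinrank hind (by simp)
  have hbp : ∀ k, b k = p k := fun k => by simp [b]
  obtain ⟨P, hPe, hPi, hPu⟩ := exists_glOfBasis b
  obtain ⟨ζ, hζ0, hζ⟩ := exists_tz hF
  -- vectors of the structure
  have hPF : ∀ u : Fin 4 → F, (∀ i, u i ∈ fixF (sigE hF)) →
      (P : Matrix (Fin 4) (Fin 4) F) *ᵥ u = pv (q := q) B (u 0 + l * u 1) (u 2 + l * u 3) := by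
    intro u hu
    have hu' : ∀ i, (u i) ^ q = u i := fun i => by
      have := hu i
      rw [mem_fixF, sigE_apply] at this
      exact this
    rw [hPu, Fin.sum_univ_four]
    simp only [hbp, p, Matrix.cons_val, pv]
    rw [pow_q_add hF, pow_q_add hF, mul_pow, mul_pow, hu', hu', hu', hu', one_pow, zero_pow hq0]
    module
  refine ⟨P, ζ, hζ0, hζ, ?_, ?_, ?_⟩
  · intro u v hu hv
    rw [hPF u hu, hPF v hv, herm_pv hF hr0 hr1, mem_fixF, sigE_apply, mul_pow, pow_q_sub hF, pow_q_pow_q hF]
    generalize (u 0 + l * u 1) * (v 2 + l * v 3) - (u 2 + l * u 3) * (v 0 + l * v 1) = Δ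
    linear_combination (Δ ^ q - Δ) * hζ
  · intro u hu
    rw [hPF u hu, herm_pv hF hr0 hr1]
    have h : ∀ a c : F, a * c - c * a = 0 := fun a c => by ring
    rw [h, zero_pow hq0, sub_zero]
  · rintro g ⟨⟨π, hπ⟩, hgU, hgS⟩
    obtain ⟨A, hA, hform⟩ := Block.exists_blocks B hB hB' hπ
    have hdg : (g : Matrix (Fin 4) (Fin 4) F).det = 1 := by
      have h3 : Matrix.GeneralLinearGroup.det g = 1 := hgS
      have h4 := congrArg Units.val h3
      simpa using h4
    have hd := SLFour.det_blocks B hB hB' hπ hform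
    rw [hdg] at hd
    have hU : ∀ u v : V F, ⟪(g : Matrix (Fin 4) (Fin 4) F) *ᵥ u, (g : Matrix (Fin 4) (Fin 4) F) *ᵥ v⟫ = ⟪u, v⟫ := hgU
    have hπc : (π 0 = 0 ∧ π 1 = 1) ∨ (π 0 = 1 ∧ π 1 = 0) := by
      have : ∀ π : Equiv.Perm (Fin 2), (π 0 = 0 ∧ π 1 = 1) ∨ (π 0 = 1 ∧ π 1 = 0) := by decide
      exact this π
    have hselfr : ∀ i j l : Fin 2, B.repr (B (i, j)) (i, l) = if j = l then 1 else 0 := by
      intro i j l
      simp [Finsupp.single_apply]
    have hmid : ∀ i j k : Fin 2, i ≠ k → ∀ l, B.repr (B (i, j)) (k, l) = 0 := by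
      intro i j k hik l
      rw [Module.Basis.repr_self, Finsupp.single_apply, if_neg]
      intro h
      exact hik (congrArg Prod.fst h)
    have hgB : ∀ i j k l, B.repr ((g : Matrix (Fin 4) (Fin 4) F) *ᵥ B (i, j)) (k, l) = if k = π i then A i l j else 0 := by
      intro i j k l
      by_cases hk : k = π i
      · subst hk
        rw [if_pos rfl, hform, Finset.sum_eq_single j]
        · rw [hselfr, if_pos rfl, mul_one]
        · intro j' _ hj'
          rw [hselfr, if_neg hj'.symm, mul_zero]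
        · simp
      · rw [if_neg hk]
        exact hB' (π i) _ (Block.mulVec_mem hπ (hB i j)) k hk l
    -- the unitary relation
    have hrel : ∀ i' j', ∑ j, A 0 j i' * (A 1 j j') ^ q = if i' = j' then 1 else 0 := by
      intro i' j'
      have h1 := hU (B (0, i')) (B (1, j'))
      rw [← hr0, hselfr, herm_coord hF hr0 hr1] at h1
      rw [← h1, Fin.sum_univ_two]
      simp only [hgB]
      rcases hπc with ⟨h0, h1'⟩ | ⟨h0, h1'⟩
      · simp only [h0, h1']
        simp [zero_pow hq0]
      · simp only [h0, h1']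
        simp [zero_pow hq0]
    have hmat : (A 0)ᵀ * (A 1).map (sigE hF) = 1 := by
      ext i' j'
      rw [Matrix.mul_apply, Matrix.one_apply, ← hrel]
      simp only [Matrix.transpose_apply, Matrix.map_apply, sigE_apply]
    have hdet2 : (A 0).det * ((A 1).det) ^ q = 1 := by
      have h1 := congrArg Matrix.det hmat
      rw [Matrix.det_mul, Matrix.det_transpose, Matrix.det_one] at h1
      have h2 : ((A 1).map (sigE hF)).det = sigE hF (A 1).det := by
        have := RingHom.map_det ((sigE hF : F ≃+* F) : F →+* F) (A 1)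
        exact this.symm
      rw [h2, sigE_apply] at h1
      exact h1
    have hb : (A 1).det ^ q = (A 1).det := by
      have h1 : (A 0).det * ((A 1).det ^ q - (A 1).det) = 0 := by
        linear_combination hdet2 + hd
      exact sub_eq_zero.mp ((mul_eq_zero.mp h1).resolve_left (hA 0))
    have hbs : (A 1).det * (A 1).det = 1 := by
      have hne := hA 1
      rcases hq with rfl | rfl
      · have h3 : (A 1).det = 1 := by
          have h4 : (A 1).det * ((A 1).det - 1) = 0 := by linear_combination hb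
          exact sub_eq_zero.mp ((mul_eq_zero.mp h4).resolve_left hne)
        rw [h3, mul_one]
      · have h4 : (A 1).det * ((A 1).det * (A 1).det - 1) = 0 := by linear_combination hb
        exact sub_eq_zero.mp ((mul_eq_zero.mp h4).resolve_left hne)
    have hab : (A 0).det = (A 1).det := by
      linear_combination (-(A 0).det) * hbs - (A 1).det * hd
    -- the scalar
    obtain ⟨s, hs2, hpsi⟩ : ∃ s : F, s * s = 1 ∧ ∀ x y, psiL B ((g : Matrix (Fin 4) (Fin 4) F) *ᵥ x)
        ((g : Matrix (Fin 4) (Fin 4) F) *ᵥ y) = s * psiL B x y := by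
      rcases hπc with ⟨h0, h1'⟩ | ⟨h0, h1'⟩
      · refine ⟨(A 1).det, hbs, fun x y => ?_⟩
        have c0x := fun j => hform x 0 j
        have c1x := fun j => hform x 1 j
        have c0y := fun j => hform y 0 j
        have c1y := fun j => hform y 1 j
        simp only [h0, h1', Fin.sum_univ_two] at c0x c1x c0y c1y
        rw [psiL_apply, psiL_apply, c0x, c0x, c1x, c1x, c0y, c0y, c1y, c1y]
        have e0 := Matrix.det_fin_two (A 0)
        have e1 := Matrix.det_fin_two (A 1)
        rw [hab] at e0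
        linear_combination (norm := skip) (-(B.repr x (0, 0) * B.repr y (0, 1) - B.repr x (0, 1) * B.repr y (0, 0))) * e0
          + (B.repr x (1, 0) * B.repr y (1, 1) - B.repr x (1, 1) * B.repr y (1, 0)) * e1
        ring
      · refine ⟨-(A 1).det, by linear_combination hbs, fun x y => ?_⟩
        have c0x := fun j => hform x 0 j
        have c1x := fun j => hform x 1 j
        have c0y := fun j => hform y 0 j
        have c1y := fun j => hform y 1 j
        simp only [h0, h1', Fin.sum_univ_two] at c0x c1x c0y c1y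
        rw [psiL_apply, psiL_apply, c0x, c0x, c1x, c1x, c0y, c0y, c1y, c1y]
        have e0 := Matrix.det_fin_two (A 0)
        have e1 := Matrix.det_fin_two (A 1)
        rw [hab] at e0
        linear_combination (norm := skip) (-(B.repr x (1, 0) * B.repr y (1, 1) - B.repr x (1, 1) * B.repr y (1, 0))) * e1
          + (B.repr x (0, 0) * B.repr y (0, 1) - B.repr x (0, 1) * B.repr y (0, 0)) * e0
        ring
    -- the scaling
    obtain ⟨μ, hμ0, hμ⟩ : ∃ μ : F, μ ≠ 0 ∧ μ ^ q = μ * s := by
      have hs12 : s = 1 ∨ s = -1 := by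
        have : (s - 1) * (s + 1) = 0 := by linear_combination hs2
        rcases mul_eq_zero.mp this with h | h
        · exact Or.inl (sub_eq_zero.mp h)
        · exact Or.inr (eq_neg_of_add_eq_zero_left h)
      rcases hs12 with rfl | rfl
      · exact ⟨1, one_ne_zero, by simp⟩
      · rcases hq with rfl | rfl
        · have h2 : (2 : F) = 0 := FormSU.two_of_parity hF (by decide)
          refine ⟨1, one_ne_zero, ?_⟩
          linear_combination h2
        · have hc : Fintype.card F % 4 ≠ 3 := by rw [hF]; norm_num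
          obtain ⟨i, hi⟩ := FiniteField.isSquare_neg_one_iff.mpr hc
          refine ⟨i, ?_, ?_⟩
          · rintro rfl
            have h1 : (1 : F) = 0 := by linear_combination -hi
            exact one_ne_zero h1
          · linear_combination i * (- hi)
    refine FormSU2.mem_subfieldSubgroup_of_entries _ hμ0 fun k j => ?_
    have hent : ((P⁻¹ * g * P : GL (Fin 4) F) : Matrix (Fin 4) (Fin 4) F) k j
        = b.repr ((g : Matrix (Fin 4) (Fin 4) F) *ᵥ b j) k := by
      have h1 : ((P⁻¹ * g * P : GL (Fin 4) F) : Matrix (Fin 4) (Fin 4) F) *ᵥ (Pi.single j 1)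
          = fun i => b.repr ((g : Matrix (Fin 4) (Fin 4) F) *ᵥ b j) i := by
        rw [Units.val_mul, Units.val_mul, ← Matrix.mulVec_mulVec, ← Matrix.mulVec_mulVec, hPe, hPi]
      have h2 := congrFun h1 k
      rw [Matrix.mulVec_single_one] at h2
      exact h2
    rw [hent, mem_fixF, sigE_apply]
    set y := (g : Matrix (Fin 4) (Fin 4) F) *ᵥ b j with hy
    -- comparing the two forms
    have hyexp : y = ∑ k, b.repr y k • b k := (b.sum_repr y).symm
    have hpb : ∀ z k, psiL B z (b k) = ⟪z, b k⟫ := by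
      intro z k
      obtain ⟨a', b', h⟩ := hp k
      rw [hbp, h]
      exact psi_pv hF hr0 hr1 z a' b'
    have hsumR : ∀ (c : Fin 4 → F) (z : V F), ⟪z, ∑ k, c k • b k⟫ = ∑ k, (c k) ^ q * ⟪z, b k⟫ := by
      intro c z
      simp only [Fin.sum_univ_four]
      rw [hermForm_add_right hF, hermForm_add_right hF, hermForm_add_right hF, hermForm_smul_right, hermForm_smul_right,
        hermForm_smul_right, hermForm_smul_right]
    have hz : ∀ z : V F, ∑ k, (b.repr y k - s * (b.repr y k) ^ q) * ⟪z, b k⟫ = 0 := by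
      intro z
      let x : V F := ((g⁻¹ : GL (Fin 4) F) : Matrix (Fin 4) (Fin 4) F) *ᵥ z
      have hgx : (g : Matrix (Fin 4) (Fin 4) F) *ᵥ x = z := by
        simp only [x]
        rw [Matrix.mulVec_mulVec, ← Units.val_mul, mul_inv_cancel]
        simp
      have e1 : ⟪z, y⟫ = ⟪x, b j⟫ := by
        rw [← hgx, hy]
        exact hU _ _
      have e2 : psiL B z y = s * ⟪x, b j⟫ := by
        rw [← hpb, ← hpsi, hgx]
      have e3 : psiL B z y = ∑ k, b.repr y k * ⟪z, b k⟫ := by
        conv_lhs => rw [hyexp]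
        rw [map_sum]
        refine Finset.sum_congr rfl fun k _ => ?_
        rw [map_smul, smul_eq_mul, hpb]
      have e4 : ⟪z, y⟫ = ∑ k, (b.repr y k) ^ q * ⟪z, b k⟫ := by
        conv_lhs => rw [hyexp]
        exact hsumR _ z
      have e5 : ∑ k, (b.repr y k - s * (b.repr y k) ^ q) * ⟪z, b k⟫
          = ∑ k, b.repr y k * ⟪z, b k⟫ - s * ∑ k, (b.repr y k) ^ q * ⟪z, b k⟫ := by
        rw [Finset.mul_sum, ← Finset.sum_sub_distrib]
        exact Finset.sum_congr rfl fun k _ => by ring
      rw [e5, ← e3, ← e4, e1, e2]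
      ring
    have hzero : ∑ k, (b.repr y k - s * (b.repr y k) ^ q) ^ q • b k = 0 := by
      apply hermForm_nondegenerate_right hF 4 _
      intro z
      rw [hsumR, ← hz z]
      refine Finset.sum_congr rfl fun k _ => ?_
      rw [pow_q_pow_q hF]
    have hck : ∀ k, b.repr y k = s * (b.repr y k) ^ q := by
      intro k
      have h1 := (Fintype.linearIndependent_iff.mp b.linearIndependent _ hzero) k
      exact sub_eq_zero.mp ((pow_eq_zero_iff hq0).mp h1)
    rw [mul_pow, hμ, mul_assoc, ← hck k]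

end Cfsg.Agent.Lib.Classical.Asch.SUPair
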