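import Mathlib
import Cfsg.Agent.Lib.Classical.Asch.SLFour
import Cfsg.Agent.Lib.Classical.Asch.SURows
import Cfsg.Agent.Lib.Classical.Asch.SUPair

/-!
# `SU₄(3)`: the frame stabiliser is not maximal

Over the field with nine elements, the stabiliser in `SU₄(3)` of an orthogonal frame lies properly inside the normaliser of
the group `4 ∘ 2^{1+4}`.
-/

set_option autoImplicit false
set_option linter.style.haveILetI false
set_option linter.unusedSectionVars false

namespace Cfsg.Agent.Lib.Classical.Asch.SUFour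

open scoped MatrixGroups Matrix
open Cfsg Cfsg.Geo Cfsg.Agent.Lib.Classical.Asch.Basic Cfsg.Agent.Lib.Classical.Asch
open Cfsg.Agent.Lib.Classical.Asch.SLFour (X xr tt dd cf xr_xr tt_apply xr_assoc xr_comm xr_zero_left dd_zero_left dd_xr_right dd_add
  dd_vals dd_two perm_key diag_key diag_key' tt_mul cliff_1 cliff_2 cliff_3)

section Gen

variable {F : Type*} [Field F] {i : F}

/-- Powers of a square root of `-1`. -/
def pw (i : F) (k : ZMod 4) : F := i ^ (ZMod.val k)

variable (hi : i * i = -1)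
include hi

lemma i_four : i ^ 4 = 1 := by linear_combination (i * i - 1) * hi

lemma pw_add (k l : ZMod 4) : pw i (k + l) = pw i k * pw i l := by
  unfold pw
  rw [ZMod.val_add, ← pow_add]
  exact (pow_eq_pow_mod _ (i_four hi)).symm

lemma pw_zero' : pw i 0 = 1 := by
  simp [pw]

lemma i_ne_zero : i ≠ 0 := by
  rintro rfl
  have h1 : (1 : F) = 0 := by linear_combination hi
  exact one_ne_zero h1

lemma pw_ne_zero (k : ZMod 4) : pw i k ≠ 0 := by
  unfold pw
  exact pow_ne_zero _ (i_ne_zero hi)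

lemma pw_neg (k : ZMod 4) : pw i k * pw i (-k) = 1 := by
  rw [← pw_add hi, add_neg_cancel, pw_zero' hi]

lemma pw_two : pw i 2 = -1 := by
  have : ZMod.val (2 : ZMod 4) = 2 := rfl
  simp only [pw, this]
  linear_combination hi

lemma pw_one : pw i 1 = i := by
  have : ZMod.val (1 : ZMod 4) = 1 := rfl
  simp only [pw, this, pow_one]

lemma pw_three : pw i 3 = -i := by
  have : ZMod.val (3 : ZMod 4) = 3 := rfl
  simp only [pw, this]
  linear_combination i * hi

omit hi

/-- Monomial matrices. -/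
def mon (i : F) (σ : Equiv.Perm X) (a : X → ZMod 4) : Matrix X X F :=
  fun y x => if y = σ x then pw i (a x) else 0

include hi

lemma mon_mul (σ τ : Equiv.Perm X) (a b : X → ZMod 4) :
    mon i σ a * mon i τ b = mon i (σ * τ) (fun x => a (τ x) + b x) := by
  ext y x
  rw [Matrix.mul_apply, Finset.sum_eq_single (τ x)]
  · have h1 : mon i τ b (τ x) x = pw i (b x) := if_pos rfl
    rw [h1]
    show (if y = σ (τ x) then pw i (a (τ x)) else 0) * pw i (b x)
      = if y = σ (τ x) then pw i (a (τ x) + b x) else 0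
    by_cases h : y = σ (τ x)
    · rw [if_pos h, if_pos h, pw_add hi]
    · rw [if_neg h, if_neg h, zero_mul]
  · intro z _ hz
    have h1 : mon i τ b z x = 0 := if_neg hz
    rw [h1, mul_zero]
  · simp

lemma mon_one : mon i (1 : Equiv.Perm X) (fun _ => 0) = 1 := by
  ext y x
  by_cases h : y = x
  · subst h
    simp [mon, pw_zero' hi]
  · simp [mon, h]

/-- Monomial elements of the general linear group. -/
def monGL (σ : Equiv.Perm X) (a : X → ZMod 4) : GL X F :=
  { val := mon i σ a
    inv := mon i σ⁻¹ (fun x => - a (σ⁻¹ x))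
    val_inv := by
      rw [mon_mul hi, mul_inv_cancel]
      have : (fun x => a (σ⁻¹ x) + - a (σ⁻¹ x)) = fun _ => (0 : ZMod 4) := by
        funext x; simp
      rw [this, mon_one hi]
    inv_val := by
      rw [mon_mul hi, inv_mul_cancel]
      have : (fun x => - a (σ⁻¹ (σ x)) + a x) = fun _ => (0 : ZMod 4) := by
        funext x; simp
      rw [this, mon_one hi] }

lemma monGL_val (σ : Equiv.Perm X) (a : X → ZMod 4) :
    ((monGL hi σ a : GL X F) : Matrix X X F) = mon i σ a := rfl

lemma monGL_mul (σ τ : Equiv.Perm X) (a b : X → ZMod 4) :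
    (monGL hi σ a : GL X F) * monGL hi τ b = monGL hi (σ * τ) (fun x => a (τ x) + b x) :=
  Units.ext (mon_mul hi σ τ a b)

lemma monGL_one : (monGL hi 1 (fun _ => 0) : GL X F) = 1 :=
  Units.ext (mon_one hi)

/-- The elements of the group `R₀`. -/
def rr (w : X) (k : ZMod 4) (u : X) : GL X F := monGL hi (tt w) (cf k u)

lemma rr_mul (w w' u u' : X) (k k' : ZMod 4) :
    (rr hi w k u : GL X F) * rr hi w' k' u' = rr hi (xr w w') (k + k' + dd u w') (xr u u') := by
  unfold rr
  rw [monGL_mul, tt_mul]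
  congr 1
  funext x
  simp only [cf, tt_apply]
  rw [dd_xr_right, ← dd_add]
  have := dd_xr_right u w' x
  ring

lemma rr_zero : (rr hi 0 0 0 : GL X F) = 1 := by
  rw [← monGL_one hi]
  unfold rr
  have h1 : tt 0 = 1 := by
    ext x
    show (xr 0 x).val = x.val
    rw [xr_zero_left]
  rw [h1]
  congr 1
  funext x
  simp [cf, dd_zero_left]

/-- The group `4 ∘ 2^{1+4}`. -/
def R₀ : Subgroup (GL X F) where
  carrier := {g | ∃ w k u, g = rr hi w k u}
  mul_mem' := by
    rintro _ _ ⟨w, k, u, rfl⟩ ⟨w', k', u', rfl⟩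
    exact ⟨_, _, _, rr_mul hi _ _ _ _ _ _⟩
  one_mem' := ⟨0, 0, 0, (rr_zero hi).symm⟩
  inv_mem' := by
    rintro _ ⟨w, k, u, rfl⟩
    refine ⟨w, - k - dd u w, u, ?_⟩
    rw [inv_eq_iff_mul_eq_one, rr_mul]
    have h1 : xr w w = 0 := by revert w; decide
    have h2 : xr u u = 0 := by revert u; decide
    rw [h1, h2, ← rr_zero hi]
    congr 1
    ring

lemma mem_R₀ {g : GL X F} : g ∈ R₀ hi ↔ ∃ w k u, g = rr hi w k u := Iff.rfl

lemma rr_comm_scalar (w w' u u' : X) (k k' : ZMod 4) :
    (rr hi w k u : GL X F) * rr hi w' k' u' = rr hi 0 (dd u w' - dd u' w) 0 * (rr hi w' k' u' * rr hi w k u) := by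
  rw [rr_mul, rr_mul, rr_mul]
  have h1 : xr 0 (xr w' w) = xr w w' := by rw [xr_zero_left, xr_comm]
  have h2 : xr 0 (xr u' u) = xr u u' := by rw [xr_zero_left, xr_comm]
  rw [h1, h2, dd_zero_left]
  congr 1
  ring

lemma rr_scalar_val (k : ZMod 4) :
    ((rr hi 0 k 0 : GL X F) : Matrix X X F) = pw i k • (1 : Matrix X X F) := by
  have h1 : tt 0 = 1 := by
    ext x
    show (xr 0 x).val = x.val
    rw [xr_zero_left]
  ext y x
  show (if y = tt 0 x then pw i (cf k 0 x) else 0) = _
  rw [h1]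
  by_cases h : y = x
  · subst h
    simp [cf, dd_zero_left]
  · simp [h]

lemma rr_scalar_mem (k : ZMod 4) : (rr hi 0 k 0 : GL X F) ∈ scalars X F := by
  rw [mem_scalars_iff]
  exact ⟨Units.mk0 (pw i k) (pw_ne_zero hi k), rr_scalar_val hi k⟩

/-- Commutators in `R₀` are scalar. -/
lemma comm_scalar : ∀ x ∈ R₀ (F := F) hi, ∀ y ∈ R₀ (F := F) hi, x * y * x⁻¹ * y⁻¹ ∈ scalars X F := by
  rintro _ ⟨w, k, u, rfl⟩ _ ⟨w', k', u', rfl⟩
  have e := rr_comm_scalar hi w w' u u' k k' (F := F)
  have : (rr hi w k u : GL X F) * rr hi w' k' u' * (rr hi w k u)⁻¹ * (rr hi w' k' u')⁻¹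
      = rr hi 0 (dd u w' - dd u' w) 0 := by
    rw [e]
    group
  rw [this]
  exact rr_scalar_mem hi _

lemma R₀_not_scalar : ¬ R₀ (F := F) hi ≤ scalars X F := by
  intro hle
  have h1 := hle (⟨1, 0, 0, rfl⟩ : (rr hi 1 0 0 : GL X F) ∈ R₀ hi)
  rw [mem_scalars_iff] at h1
  obtain ⟨c, hc⟩ := h1
  have h2 := congrFun (congrFun hc 1) 0
  have h3 : ((rr hi 1 0 0 : GL X F) : Matrix X X F) 1 0 = pw i (cf 0 0 0) := by
    show (if (1 : X) = tt 1 0 then pw i (cf 0 0 0) else 0) = _
    rw [if_pos]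
    decide
  rw [h3] at h2
  have h4 : ((c : F) • (1 : Matrix X X F)) 1 0 = 0 := by
    simp
  rw [h4] at h2
  exact pw_ne_zero hi _ h2

/-- One-sided normaliser criterion in a finite group. -/
lemma mem_normalizer_of_conj [Finite F] {g : GL X F} (hg : ∀ r ∈ R₀ (F := F) hi, g * r * g⁻¹ ∈ R₀ (F := F) hi) :
    g ∈ subgroupNormalizer (R₀ (F := F) hi) := by
  classical
  rw [subgroupNormalizer, Subgroup.mem_normalizer_iff_map_conj_eq]
  apply Subgroup.eq_of_le_of_card_ge
  · rintro _ ⟨r, hr, rfl⟩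
    exact hg r hr
  · rw [Subgroup.card_map_of_injective (MulAut.conj g).injective]

/-- Permutation matrices normalise `R₀`. -/
lemma perm_mem [Finite F] (σ : Equiv.Perm X) :
    (monGL hi σ (fun _ => 0) : GL X F) ∈ subgroupNormalizer (R₀ (F := F) hi) := by
  apply mem_normalizer_of_conj
  rintro _ ⟨w, k, u, rfl⟩
  obtain ⟨w', k', u', hx⟩ := perm_key σ w u
  refine ⟨w', k + k', u', ?_⟩
  rw [mul_inv_eq_iff_eq_mul]
  unfold rr
  rw [monGL_mul, monGL_mul]
  congr 1
  · ext x
    exact congrArg Fin.val (hx x).1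
  · funext x
    have h1 := (hx x).2
    simp only [cf, add_zero, zero_add] at h1 ⊢
    rw [h1]
    ring

/-- Diagonal matrices with even exponent sum normalise `R₀`. -/
lemma diag_mem [Finite F] (b : X → ZMod 4) (h : b 0 + b 1 + b 2 + b 3 = 0 ∨ b 0 + b 1 + b 2 + b 3 = 2) :
    (monGL hi 1 b : GL X F) ∈ subgroupNormalizer (R₀ (F := F) hi) := by
  apply mem_normalizer_of_conj
  rintro _ ⟨w, k, u, rfl⟩
  obtain ⟨k', u', hx⟩ := diag_key' b h w
  refine ⟨w, k + k', xr u u', ?_⟩
  rw [mul_inv_eq_iff_eq_mul]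
  unfold rr
  rw [monGL_mul, monGL_mul, one_mul, mul_one]
  congr 1
  funext x
  have h1 := hx x
  have h3 := dd_add u u' x
  simp only [cf, Equiv.Perm.one_apply, tt_apply] at h1 ⊢
  rw [← h3]
  linear_combination h1

/-- Monomial matrices with square determinant-part normalise `R₀`. -/
lemma mon_mem [Finite F] (σ : Equiv.Perm X) (b : X → ZMod 4)
    (h : b 0 + b 1 + b 2 + b 3 = 0 ∨ b 0 + b 1 + b 2 + b 3 = 2) :
    (monGL hi σ b : GL X F) ∈ subgroupNormalizer (R₀ (F := F) hi) := by
  have e : (monGL hi σ b : GL X F) = monGL hi σ (fun _ => 0) * monGL hi 1 b := by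
    rw [monGL_mul, mul_one]
    congr 1
    funext x
    simp
  rw [e]
  exact Subgroup.mul_mem _ (perm_mem hi σ) (diag_mem hi b h)

lemma T_entry (t y x : X) : mon i (tt t) (fun _ => 0) y x = if y = xr t x then 1 else 0 := by
  show (if y = tt t x then pw i 0 else 0) = _
  rw [pw_zero' hi]
  rfl

lemma T_sq (t : X) : mon i (tt t) (fun _ => 0) * mon i (tt t) (fun _ => 0) = 1 := by
  rw [mon_mul hi, tt_mul]
  have h1 : xr t t = 0 := by revert t; decide
  have h2 : tt 0 = 1 := by
    ext x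
    show (xr 0 x).val = x.val
    rw [xr_zero_left]
  rw [h1, h2]
  have : (fun x : X => (0 : ZMod 4) + 0) = fun _ => 0 := by
    funext x; simp
  rw [this, mon_one hi]

lemma a_sq (t : X) : (i • mon i (tt t) (fun _ => 0)) * (i • mon i (tt t) (fun _ => 0)) = -1 := by
  rw [smul_mul_assoc, mul_smul_comm, T_sq hi, smul_smul, hi, neg_smul, one_smul]

omit hi in
lemma half_two (h2 : (2 : F) ≠ 0) : (2 : F)⁻¹ • ((1 : Matrix X X F) + 1) = 1 := by
  rw [← two_smul F (1 : Matrix X X F), smul_smul, inv_mul_cancel₀ h2, one_smul]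

/-- The Clifford element `1 + i T`. -/
def GLT (h2 : (2 : F) ≠ 0) (t : X) : GL X F :=
  { val := 1 + i • mon i (tt t) (fun _ => 0)
    inv := (2 : F)⁻¹ • (1 - i • mon i (tt t) (fun _ => 0))
    val_inv := by
      rw [Matrix.mul_smul, cliff_1 (a_sq hi t), half_two h2]
    inv_val := by
      rw [Matrix.smul_mul, cliff_2 (a_sq hi t), half_two h2] }

lemma GLT_val (h2 : (2 : F) ≠ 0) (t : X) : ((GLT hi h2 t : GL X F) : Matrix X X F) = 1 + i • mon i (tt t) (fun _ => 0) := rfl

lemma rr_T (t : X) : ((rr hi t 0 0 : GL X F) : Matrix X X F) = mon i (tt t) (fun _ => 0) := by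
  show mon i (tt t) (cf 0 0) = _
  congr 1
  funext x
  simp [cf, dd_zero_left]

lemma rr_three (t : X) : ((rr hi t 3 0 : GL X F) : Matrix X X F) = (-i : F) • mon i (tt t) (fun _ => 0) := by
  ext y x
  show (if y = xr t x then pw i (cf 3 0 x) else 0) = _
  rw [Matrix.smul_apply, T_entry hi]
  by_cases h : y = xr t x
  · rw [if_pos h, if_pos h]
    simp only [cf, dd_zero_left, add_zero, pw_three hi, smul_eq_mul, mul_one]
  · rw [if_neg h, if_neg h]
    simp

/-- The Clifford element normalises `R₀`. -/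
lemma GLT_mem [Finite F] (h2 : (2 : F) ≠ 0) (t : X) : (GLT hi h2 t : GL X F) ∈ subgroupNormalizer (R₀ (F := F) hi) := by
  apply mem_normalizer_of_conj
  rintro _ ⟨w, k, u, rfl⟩
  set y : GL X F := rr hi w k u with hy
  have hsc : (y : Matrix X X F) * mon i (tt t) (fun _ => 0)
      = pw i (dd u t) • (mon i (tt t) (fun _ => 0) * (y : Matrix X X F)) := by
    have h1 := rr_comm_scalar hi w t u 0 k 0 (F := F)
    have h2 := congrArg (fun g : GL X F => (g : Matrix X X F)) h1
    simp only [Units.val_mul] at h2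
    rw [rr_scalar_val hi, rr_T hi, dd_zero_left, sub_zero, smul_mul_assoc, one_mul] at h2
    exact h2
  rcases dd_vals u t with h0 | h0
  · rw [h0, pw_zero' hi, one_smul] at hsc
    have : GLT hi h2 t * y = y * GLT hi h2 t := by
      apply Units.ext
      show (1 + i • mon i (tt t) (fun _ => 0)) * (y : Matrix X X F)
        = (y : Matrix X X F) * (1 + i • mon i (tt t) (fun _ => 0))
      rw [add_mul, mul_add, one_mul, mul_one, smul_mul_assoc, mul_smul_comm, hsc]
    rw [this, mul_inv_cancel_right]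
    exact ⟨w, k, u, rfl⟩
  · rw [h0, pw_two hi, neg_smul, one_smul] at hsc
    have : GLT hi h2 t * y * (GLT hi h2 t)⁻¹ = y * rr hi t 3 0 := by
      rw [mul_inv_eq_iff_eq_mul]
      apply Units.ext
      show (1 + i • mon i (tt t) (fun _ => 0)) * (y : Matrix X X F)
        = (y : Matrix X X F) * ((rr hi t 3 0 : GL X F) : Matrix X X F) * (1 + i • mon i (tt t) (fun _ => 0))
      have h3 : (i • mon i (tt t) (fun _ => 0)) * (y : Matrix X X F)
          = - ((y : Matrix X X F) * (i • mon i (tt t) (fun _ => 0))) := by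
        rw [smul_mul_assoc, mul_smul_comm, ← smul_neg]
        congr 1
        rw [hsc, neg_neg]
      have h4 : ((rr hi t 3 0 : GL X F) : Matrix X X F) = -(i • mon i (tt t) (fun _ => 0)) := by
        rw [rr_three hi, neg_smul]
      rw [h4]
      exact cliff_3 h3 (a_sq hi t)
    rw [this]
    exact (R₀ hi).mul_mem ⟨w, k, u, rfl⟩ ⟨t, 3, 0, rfl⟩

lemma G1_eq (h2 : (2 : F) ≠ 0) : ((GLT hi h2 1 : GL X F) : Matrix X X F) = !![1, i, 0, 0; i, 1, 0, 0; 0, 0, 1, i; 0, 0, i, 1] := by
  rw [GLT_val]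
  ext y x
  rw [Matrix.add_apply, Matrix.smul_apply, T_entry hi]
  fin_cases y <;> fin_cases x <;> simp [xr]

lemma G2_eq (h2 : (2 : F) ≠ 0) : ((GLT hi h2 2 : GL X F) : Matrix X X F) = !![1, 0, i, 0; 0, 1, 0, i; i, 0, 1, 0; 0, i, 0, 1] := by
  rw [GLT_val]
  ext y x
  rw [Matrix.add_apply, Matrix.smul_apply, T_entry hi]
  fin_cases y <;> fin_cases x <;> simp [xr]

lemma det_G1 (h2 : (2 : F) ≠ 0) : ((GLT hi h2 1 : GL X F) : Matrix X X F).det = 4 := by
  rw [G1_eq hi, Matrix.det_succ_row_zero]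
  simp [Fin.sum_univ_four, Matrix.det_fin_three, Fin.succAbove, Matrix.submatrix]
  linear_combination (i * i - 3) * hi

lemma det_G2 (h2 : (2 : F) ≠ 0) : ((GLT hi h2 2 : GL X F) : Matrix X X F).det = 4 := by
  rw [G2_eq hi, Matrix.det_succ_row_zero]
  simp [Fin.sum_univ_four, Matrix.det_fin_three, Fin.succAbove, Matrix.submatrix]
  linear_combination (i * i - 3) * hi

/-- Every fourth root of unity is a power of `i`. -/
lemma exists_pw {z : F} (hz : z ^ 4 = 1) : ∃ k : ZMod 4, pw i k = z := by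
  have h2 : (z - 1) * ((z + 1) * ((z - i) * (z + i))) = 0 := by
    linear_combination hz + (1 - z * z) * hi
  rcases mul_eq_zero.mp h2 with h | h
  · exact ⟨0, by rw [pw_zero' hi]; exact (sub_eq_zero.mp h).symm⟩
  rcases mul_eq_zero.mp h with h | h
  · refine ⟨2, ?_⟩
    rw [pw_two hi]
    exact (eq_neg_of_add_eq_zero_left h).symm
  rcases mul_eq_zero.mp h with h | h
  · refine ⟨1, ?_⟩
    rw [pw_one hi]
    exact (sub_eq_zero.mp h).symm
  · refine ⟨3, ?_⟩
    rw [pw_three hi]
    exact (eq_neg_of_add_eq_zero_left h).symm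

lemma det_mon_perm (σ : Equiv.Perm X) : (mon i σ (fun _ => 0)).det = 1 ∨ (mon i σ (fun _ => 0)).det = -1 := by
  have e : mon i σ (fun _ => 0) = σ⁻¹.permMatrix F := by
    ext y x
    show (if y = σ x then pw i 0 else 0) = _
    rw [pw_zero' hi, Equiv.Perm.permMatrix, PEquiv.toMatrix_apply]
    by_cases h : y = σ x
    · subst h
      simp
    · have h2 : ¬ σ⁻¹ y = x := by
        intro h3
        apply h
        rw [← h3]
        simp
      simp [h]
      exact h2
  rw [e, Matrix.det_permutation]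
  rcases Int.units_eq_one_or (Equiv.Perm.sign σ⁻¹) with h | h <;> simp [h]

lemma det_mon_diag (b : X → ZMod 4) : (mon i (1 : Equiv.Perm X) b).det = pw i (b 0 + b 1 + b 2 + b 3) := by
  have e : mon i (1 : Equiv.Perm X) b = Matrix.diagonal (fun x => pw i (b x)) := by
    ext y x
    show (if y = x then pw i (b x) else 0) = _
    by_cases h : y = x
    · subst h
      simp
    · simp [h]
  rw [e, Matrix.det_diagonal, Fin.prod_univ_four, pw_add hi, pw_add hi, pw_add hi]

/-- A monomial matrix of determinant one has even exponent sum. -/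
lemma even_of_det (h2 : (2 : F) ≠ 0) (σ : Equiv.Perm X) (b : X → ZMod 4) (hd : (mon i σ b).det = 1) :
    b 0 + b 1 + b 2 + b 3 = 0 ∨ b 0 + b 1 + b 2 + b 3 = 2 := by
  have e : mon i σ b = mon i σ (fun _ => 0) * mon i 1 b := by
    rw [mon_mul hi, mul_one]
    congr 1
    funext x
    simp
  rw [e, Matrix.det_mul, det_mon_diag hi] at hd
  have hval : ∀ k : ZMod 4, (pw i k = 1 ∨ pw i k = -1) → k = 0 ∨ k = 2 := by
    intro k hk
    have hk'' : ∀ k : ZMod 4, k = 0 ∨ k = 1 ∨ k = 2 ∨ k = 3 := by decide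
    rcases hk'' k with rfl | rfl | rfl | rfl
    · exact Or.inl rfl
    · exfalso
      rw [pw_one hi] at hk
      rcases hk with h | h
      · rw [h] at hi
        exact h2 (by linear_combination hi)
      · rw [h] at hi
        exact h2 (by linear_combination hi)
    · exact Or.inr rfl
    · exfalso
      rw [pw_three hi] at hk
      rcases hk with h | h
      · have h' : i = -1 := by linear_combination -h
        rw [h'] at hi
        exact h2 (by linear_combination hi)
      · have h' : i = 1 := by linear_combination -h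
        rw [h'] at hi
        exact h2 (by linear_combination hi)
  apply hval
  rcases det_mon_perm hi σ with h | h
  · rw [h, one_mul] at hd
    exact Or.inl hd
  · rw [h] at hd
    right
    linear_combination -hd

end Gen

section Onb

variable {F : Type*} [Field F] [Fintype F] {q n : ℕ}

open Cfsg.Agent.Lib.Classical.Herm.Basic

theorem herm_sum_left {κ : Type*} (s : Finset κ) (a : κ → F) (v : κ → Fin n → F) (z : Fin n → F) :
    hermForm n F q (∑ x ∈ s, a x • v x) z = ∑ x ∈ s, a x * hermForm n F q (v x) z := by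
  classical
  induction s using Finset.cons_induction with
  | empty => simp [hermForm_zero_left]
  | cons a' s ha ih =>
    rw [Finset.sum_cons, Finset.sum_cons, hermForm_add_left, hermForm_smul_left, ih]

theorem herm_sum_right (hF : Fintype.card F = q ^ 2) {κ : Type*} (s : Finset κ) (a : κ → F) (v : κ → Fin n → F) (z : Fin n → F) :
    hermForm n F q z (∑ x ∈ s, a x • v x) = ∑ x ∈ s, (a x) ^ q * hermForm n F q z (v x) := by
  classical
  induction s using Finset.cons_induction with
  | empty => simp [hermForm_zero_right hF]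
  | cons a' s ha ih =>
    rw [Finset.sum_cons, Finset.sum_cons, hermForm_add_right hF, hermForm_smul_right, ih]

/-- An orthonormal basis adapted to a frame. -/
theorem exists_onb (hF : Fintype.card F = q ^ 2) {D : Fin n → Submodule F (Fin n → F)}
    (hD : IsNondegenerateMDecomposition (hermForm n F q) 1 D) :
    ∃ b : Module.Basis (Fin n) F (Fin n → F), (∀ x, b x ∈ D x) ∧
      ∀ x y, hermForm n F q (b x) (b y) = if x = y then 1 else 0 := by
  classical
  obtain ⟨B₀, hB, hB'⟩ := Block.exists_blockBasis hD.decomp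
  have hline : ∀ x, ∀ w ∈ D x, ∃ c : F, w = c • B₀ (x, 0) := by
    intro x w hw
    refine ⟨B₀.repr w (x, 0), ?_⟩
    conv_lhs => rw [← B₀.sum_repr w]
    rw [Fintype.sum_prod_type, Finset.sum_eq_single x]
    · simp
    · intro k _ hk
      refine Finset.sum_eq_zero fun j _ => ?_
      rw [hB' x w hw k hk j, zero_smul]
    · simp
  have hv : ∀ x, B₀ (x, 0) ≠ 0 := fun x => B₀.ne_zero _
  have ht : ∀ x, hermForm n F q (B₀ (x, 0)) (B₀ (x, 0)) ≠ 0 := by
    intro x h0
    obtain ⟨⟨y, hy, hne⟩, -⟩ := hD.nondegenerate x _ (hB x 0) (hv x)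
    obtain ⟨c, rfl⟩ := hline x y hy
    rw [hermForm_smul_left, h0, mul_zero] at hne
    exact hne rfl
  have hc : ∀ x, ∃ c : F, c ^ (q + 1) = (hermForm n F q (B₀ (x, 0)) (B₀ (x, 0)))⁻¹ := by
    intro x
    apply exists_norm_eq hF _ (inv_ne_zero (ht x))
    rw [inv_pow, hermForm_self_pow_q hF]
  choose c hc using hc
  let v : Fin n → Fin n → F := fun x => c x • B₀ (x, 0)
  have hvm : ∀ x, v x ∈ D x := fun x => Submodule.smul_mem _ _ (hB x 0)
  have hon : ∀ x y, hermForm n F q (v x) (v y) = if x = y then 1 else 0 := by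
    intro x y
    simp only [v]
    rw [hermForm_smul_left, hermForm_smul_right]
    by_cases h : x = y
    · subst h
      rw [if_pos rfl]
      have e : c x * (c x ^ q * hermForm n F q (B₀ (x, 0)) (B₀ (x, 0)))
          = c x ^ (q + 1) * hermForm n F q (B₀ (x, 0)) (B₀ (x, 0)) := by ring
      rw [e, hc, inv_mul_cancel₀ (ht x)]
    · rw [if_neg h, hD.orthogonal x y h _ (hB x 0) _ (hB y 0)]
      ring
  have hind : LinearIndependent F v := by
    rw [Fintype.linearIndependent_iff]
    intro a ha y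
    have h1 := herm_sum_left (q := q) Finset.univ a v (v y)
    rw [ha, hermForm_zero_left] at h1
    simpa [hon] using h1.symm
  haveI : Nonempty (Fin n) := ⟨⟨0, by have := hD.decomp.two_le; omega⟩⟩
  let b : Module.Basis (Fin n) F (Fin n → F) := basisOfLinearIndependentOfCardEqFinrank hind (by simp)
  have hb : ∀ x, b x = v x := fun x => by simp [b]
  refine ⟨b, fun x => by rw [hb]; exact hvm x, fun x y => by rw [hb, hb]; exact hon x y⟩

/-- A member of the stabiliser of a frame, in an adapted orthonormal basis. -/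
theorem frame_mon (hF : Fintype.card F = q ^ 2) {D : Fin n → Submodule F (Fin n → F)}
    (hD : IsNondegenerateMDecomposition (hermForm n F q) 1 D) {b : Module.Basis (Fin n) F (Fin n → F)}
    (hb : ∀ x, b x ∈ D x) (hon : ∀ x y, hermForm n F q (b x) (b y) = if x = y then 1 else 0)
    {g : GL (Fin n) F} (hg : g ∈ decompositionStabilizer D) (hU : g ∈ GU n F q) :
    ∃ (π : Equiv.Perm (Fin n)) (c : Fin n → F), (∀ x, c x ^ (q + 1) = 1) ∧
      ∀ x, (g : Matrix (Fin n) (Fin n) F) *ᵥ b x = c x • b (π x) := by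
  classical
  obtain ⟨π, hπ⟩ := hg
  have hexp : ∀ w : Fin n → F, w = ∑ y, hermForm n F q w (b y) • b y := by
    intro w
    conv_lhs => rw [← b.sum_repr w]
    refine Finset.sum_congr rfl fun y _ => ?_
    congr 1
    conv_rhs => rw [← b.sum_repr w]
    rw [herm_sum_left]
    simp [hon]
  have h1 : ∀ x, (g : Matrix (Fin n) (Fin n) F) *ᵥ b x
      = hermForm n F q ((g : Matrix (Fin n) (Fin n) F) *ᵥ b x) (b (π x)) • b (π x) := by
    intro x
    have hm := Block.mulVec_mem hπ (hb x)
    conv_lhs => rw [hexp ((g : Matrix (Fin n) (Fin n) F) *ᵥ b x)]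
    rw [Finset.sum_eq_single (π x)]
    · intro y _ hy
      rw [hD.orthogonal (π x) y hy.symm _ hm _ (hb y), zero_smul]
    · simp
  refine ⟨π, fun x => hermForm n F q ((g : Matrix (Fin n) (Fin n) F) *ᵥ b x) (b (π x)), fun x => ?_, h1⟩
  set c := hermForm n F q ((g : Matrix (Fin n) (Fin n) F) *ᵥ b x) (b (π x)) with hc
  have h2 : hermForm n F q ((g : Matrix (Fin n) (Fin n) F) *ᵥ b x) ((g : Matrix (Fin n) (Fin n) F) *ᵥ b x)
      = hermForm n F q (b x) (b x) := hU _ _
  rw [h1 x, ← hc, hermForm_smul_left, hermForm_smul_right, hon, hon, if_pos rfl, if_pos rfl, mul_one] at h2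
  rw [pow_succ]
  linear_combination h2

end Onb

section Three

variable {F : Type*} [Field F] [Fintype F]

open Cfsg.Agent.Lib.Classical.Herm.Basic Cfsg.Agent.Lib.Classical.Asch.NotSU
open Cfsg.Agent.Lib.Classical.Herm.PSLGraphField (sigE sigE_apply)
open Cfsg.Agent.Lib.Classical.Geo.HermTv

variable {i : F} (hi : i * i = -1)
include hi

lemma pw_pow_four (k : ZMod 4) : pw i k ^ 4 = 1 := by
  unfold pw
  rw [← pow_mul, mul_comm, pow_mul, i_four hi, one_pow]

lemma pw_mem_GU (hF : Fintype.card F = 3 ^ 2) (σ : Equiv.Perm X) (a : X → ZMod 4) :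
    (monGL hi σ a : GL X F) ∈ GU 4 F 3 := by
  apply FormSU2.mem_GU_of_gram hF
  ext x y
  rw [Matrix.mul_apply, monGL_val]
  simp only [Matrix.transpose_apply, Matrix.map_apply, sigE_apply, mon]
  rw [Finset.sum_eq_single (σ x)]
  · rw [if_pos rfl]
    by_cases h : x = y
    · subst h
      rw [if_pos rfl, Matrix.one_apply_eq, ← pow_succ', pw_pow_four hi]
    · have h' : ¬ σ x = σ y := fun h2 => h (σ.injective h2)
      rw [if_neg h', Matrix.one_apply_ne h]
      simp
  · intro k _ hk
    rw [if_neg hk, zero_mul]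
  · simp

lemma rr_four (w u : X) (k : ZMod 4) :
    (rr hi w k u : GL X F) * rr hi w k u * (rr hi w k u * rr hi w k u) = 1 := by
  rw [rr_mul, rr_mul]
  have key : ∀ (w u : X) (k : ZMod 4), xr (xr w w) (xr w w) = 0 ∧ xr (xr u u) (xr u u) = 0 ∧
      k + k + dd u w + (k + k + dd u w) + dd (xr u u) (xr w w) = 0 := by decide
  obtain ⟨h1, h2, h3⟩ := key w u k
  rw [h1, h2, h3, rr_zero]

lemma G_gram (hF : Fintype.card F = 3 ^ 2) (h2 : (2 : F) ≠ 0) (t : X) :
    ((GLT hi h2 t : GL X F) : Matrix X X F)ᵀ * ((GLT hi h2 t : GL X F) : Matrix X X F).map (sigE hF)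
      = (2 : F) • (1 : Matrix X X F) := by
  have h3 : (3 : F) = 0 := by
    have h := FiniteField.cast_card_eq_zero F
    rw [hF] at h
    have h' : (3 : F) * 3 = 0 := by
      push_cast at h
      linear_combination h
    simpa using h'
  have hT : (mon i (tt t) (fun _ => (0 : ZMod 4)))ᵀ = mon i (tt t) (fun _ => 0) := by
    ext y x
    rw [Matrix.transpose_apply, T_entry hi, T_entry hi]
    by_cases h : y = xr t x
    · rw [if_pos h, if_pos]
      rw [h, xr_xr]
    · rw [if_neg h, if_neg]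
      intro h4
      apply h
      rw [h4, xr_xr]
  have hi3 : i ^ 3 = -i := by linear_combination i * hi
  have hS : ((GLT hi h2 t : GL X F) : Matrix X X F).map (sigE hF) = 1 - i • mon i (tt t) (fun _ => 0) := by
    rw [GLT_val]
    ext y x
    simp only [Matrix.map_apply, Matrix.add_apply, Matrix.sub_apply, Matrix.smul_apply, T_entry hi, smul_eq_mul, sigE_apply]
    have hp : ∀ a b : F, (a + b) ^ 3 = a ^ 3 + b ^ 3 := fun a b => by
      linear_combination (a * a * b + a * b * b) * h3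
    rw [hp, mul_pow, hi3]
    by_cases h : y = xr t x
    · rw [if_pos h]
      by_cases h5 : y = x
      · subst h5
        simp
        ring
      · simp [h5]
    · rw [if_neg h]
      by_cases h5 : y = x
      · subst h5
        simp
      · simp [h5]
  rw [hS, GLT_val, Matrix.transpose_add, Matrix.transpose_one, Matrix.transpose_smul, hT, cliff_1 (a_sq hi t)]
  rw [two_smul]

lemma G_mem (hF : Fintype.card F = 3 ^ 2) (h2 : (2 : F) ≠ 0) :
    (GLT hi h2 1 : GL X F) * GLT hi h2 2 ∈ GU 4 F 3 := by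
  have h3 : (3 : F) = 0 := by
    have h := FiniteField.cast_card_eq_zero F
    rw [hF] at h
    have h' : (3 : F) * 3 = 0 := by
      push_cast at h
      linear_combination h
    simpa using h'
  apply FormSU2.mem_GU_of_gram hF
  rw [Units.val_mul, Matrix.transpose_mul, Matrix.map_mul]
  rw [mul_assoc, ← mul_assoc ((GLT hi h2 1 : GL X F) : Matrix X X F)ᵀ, G_gram hi hF, Matrix.smul_mul, Matrix.one_mul,
    Matrix.mul_smul, G_gram hi hF, smul_smul]
  have : (2 : F) * 2 = 1 := by linear_combination h3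
  rw [this, one_smul]

end Three

section Final

variable {F : Type*} [Field F] [Fintype F]

open Cfsg.Agent.Lib.Classical.Herm.Basic Cfsg.Agent.Lib.Classical.Asch.NotSU
open Cfsg.Agent.Lib.Classical.Herm.PSLGraphField (sigE sigE_apply)
open Cfsg.Agent.Lib.Classical.Geo.HermTv

/-- **The frame stabiliser in `SU₄(3)` is not maximal.** -/
theorem frames_three (hF : Fintype.card F = 3 ^ 2) {D : Fin 4 → Submodule F (Fin 4 → F)}
    (hD : IsNondegenerateMDecomposition (hermForm 4 F 3) 1 D)
    {H : Subgroup (GL (Fin 4) F)} (hH : IsMaximalIn (II 4 F 3) H)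
    (hE : H = decompositionStabilizer D ⊓ II 4 F 3) : False := by
  classical
  have h3 : (3 : F) = 0 := by
    have h := FiniteField.cast_card_eq_zero F
    rw [hF] at h
    have h' : (3 : F) * 3 = 0 := by
      push_cast at h
      linear_combination h
    simpa using h'
  have h2 : (2 : F) ≠ 0 := by
    intro h
    have h1 : (1 : F) = 0 := by linear_combination h3 - h
    exact one_ne_zero h1
  obtain ⟨i, hi'⟩ := FiniteField.isSquare_neg_one_iff.mpr (by rw [hF]; norm_num : Fintype.card F % 4 ≠ 3)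
  have hi : i * i = -1 := hi'.symm
  obtain ⟨b, hb, hon⟩ := exists_onb hF hD
  obtain ⟨P, hPe, hPi, hPu⟩ := SUPair.exists_glOfBasis b
  have hPcol : ∀ x k, (P : Matrix (Fin 4) (Fin 4) F) k x = b x k := by
    intro x k
    have := congrFun (hPe x) k
    rw [Matrix.mulVec_single_one] at this
    exact this
  have hPU : P ∈ GU 4 F 3 := by
    apply FormSU2.mem_GU_of_gram hF
    ext x y
    rw [Matrix.mul_apply]
    simp only [Matrix.transpose_apply, Matrix.map_apply, sigE_apply, hPcol]
    rw [Matrix.one_apply, ← hon, hermForm_apply]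
  let R : Subgroup (GL (Fin 4) F) := (R₀ hi).map (MulAut.conj P).toMonoidHom
  have hRmem : ∀ h, P⁻¹ * h * P ∈ R₀ hi → h ∈ R := by
    intro h hh
    refine ⟨_, hh, ?_⟩
    show P * (P⁻¹ * h * P) * P⁻¹ = h
    group
  have hRmem' : ∀ h ∈ R, P⁻¹ * h * P ∈ R₀ hi := by
    rintro _ ⟨r, hr, rfl⟩
    have : P⁻¹ * (MulAut.conj P).toMonoidHom r * P = r := by
      show P⁻¹ * (P * r * P⁻¹) * P = r
      group
    rw [this]
    exact hr
  have hLmem : ∀ g, P⁻¹ * g * P ∈ subgroupNormalizer (R₀ hi) → g ∈ subgroupNormalizer R := by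
    intro g hg
    rw [subgroupNormalizer, Subgroup.mem_normalizer_iff] at hg ⊢
    intro h
    have e : P⁻¹ * (g * h * g⁻¹) * P = (P⁻¹ * g * P) * (P⁻¹ * h * P) * (P⁻¹ * g * P)⁻¹ := by group
    constructor
    · intro hh
      apply hRmem
      rw [e]
      exact (hg _).mp (hRmem' h hh)
    · intro hh
      apply hRmem
      rw [hg]
      rw [← e]
      exact hRmem' _ hh
  -- the normaliser is proper
  have hnot : ¬ II 4 F 3 ≤ subgroupNormalizer R := by
    apply not_le_subgroupNormalizer_su hF (by norm_num) (by norm_num)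
    · rintro _ ⟨_, ⟨w, k, u, rfl⟩, rfl⟩
      show P * rr hi w k u * P⁻¹ ∈ GU 4 F 3
      exact (GU 4 F 3).mul_mem ((GU 4 F 3).mul_mem hPU (pw_mem_GU hi hF _ _)) ((GU 4 F 3).inv_mem hPU)
    · intro hle
      apply R₀_not_scalar hi
      intro r hr
      have h1 : P * r * P⁻¹ ∈ scalars (Fin 4) F := hle ⟨r, hr, rfl⟩
      rw [mem_scalars_iff'] at h1 ⊢
      obtain ⟨c, hc⟩ := h1
      refine ⟨c, ?_⟩
      have e : r = P⁻¹ * (P * r * P⁻¹) * P := by group
      rw [e, Units.val_mul, Units.val_mul, hc, Matrix.mul_smul, Matrix.mul_one, Matrix.smul_mul, ← Units.val_mul, inv_mul_cancel]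
      rfl
    · intro a c ha ha0 hc0 _ hmem
      obtain ⟨r, ⟨w, k, u, rfl⟩, hr⟩ := hmem
      have hT4 : hT 3 c a ha * hT 3 c a ha * (hT 3 c a ha * hT 3 c a ha) = 1 := by
        rw [← hr]
        show P * rr hi w k u * P⁻¹ * (P * rr hi w k u * P⁻¹) * (P * rr hi w k u * P⁻¹ * (P * rr hi w k u * P⁻¹)) = 1
        have e := rr_four hi w u k
        calc _ = P * (rr hi w k u * rr hi w k u * (rr hi w k u * rr hi w k u)) * P⁻¹ := by group
          _ = 1 := by rw [e]; group
      have hstep : ∀ (x : Fin 4 → F) (t : F), hermForm 4 F 3 (x + t • a) a = hermForm 4 F 3 x a := by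
        intro x t
        rw [hermForm_add_left, hermForm_smul_left, ha, mul_zero, add_zero]
      have hx : ∀ x : Fin 4 → F, (c * hermForm 4 F 3 x a) • a = 0 := by
        intro x
        have h1 := congrArg (fun g : GL (Fin 4) F => (g : Matrix (Fin 4) (Fin 4) F) *ᵥ x) hT4
        simp only [Units.val_mul, ← Matrix.mulVec_mulVec, Units.val_one, Matrix.one_mulVec] at h1
        simp only [hT_mulVec, hstep] at h1
        have e : (c * hermForm 4 F 3 x a) • a = ((x + (c * hermForm 4 F 3 x a) • a + (c * hermForm 4 F 3 x a) • a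
            + (c * hermForm 4 F 3 x a) • a + (c * hermForm 4 F 3 x a) • a) - x) - (3 : F) • ((c * hermForm 4 F 3 x a) • a) := by
          module
        rw [e, h1, h3]
        simp
      obtain ⟨x, hxa⟩ := exists_not_perp hF ha0
      have h5 := hx x
      rw [smul_eq_zero] at h5
      rcases h5 with h5 | h5
      · exact (mul_ne_zero hc0 hxa) h5
      · exact ha0 h5
  -- the members of the stabiliser
  have hmon : ∀ g ∈ decompositionStabilizer D, g ∈ GU 4 F 3 → ∃ (π : Equiv.Perm (Fin 4)) (c : Fin 4 → F), (∀ x, c x ^ 4 = 1) ∧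
      ∀ y x, ((P⁻¹ * g * P : GL (Fin 4) F) : Matrix (Fin 4) (Fin 4) F) y x = if y = π x then c x else 0 := by
    intro g hg hU
    obtain ⟨π, c, hc, hform⟩ := frame_mon hF hD hb hon hg hU
    refine ⟨π, c, hc, fun y x => ?_⟩
    have h1 : ((P⁻¹ * g * P : GL (Fin 4) F) : Matrix (Fin 4) (Fin 4) F) *ᵥ (Pi.single x 1)
        = fun i => b.repr ((g : Matrix (Fin 4) (Fin 4) F) *ᵥ b x) i := by
      rw [Units.val_mul, Units.val_mul, ← Matrix.mulVec_mulVec, ← Matrix.mulVec_mulVec, hPe, hPi]
    have h2 := congrFun h1 y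
    rw [Matrix.mulVec_single_one] at h2
    have h3' : ((P⁻¹ * g * P : GL (Fin 4) F) : Matrix (Fin 4) (Fin 4) F) y x
        = b.repr ((g : Matrix (Fin 4) (Fin 4) F) *ᵥ b x) y := h2
    rw [h3', hform, map_smul, Finsupp.smul_apply, Module.Basis.repr_self, Finsupp.single_apply]
    by_cases h : y = π x
    · subst h
      simp
    · have h4 : ¬ π x = y := fun h5 => h h5.symm
      simp [h, h4]
  have hdetc : ∀ g : GL (Fin 4) F, ((P⁻¹ * g * P : GL (Fin 4) F) : Matrix (Fin 4) (Fin 4) F).det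
      = (g : Matrix (Fin 4) (Fin 4) F).det := by
    intro g
    have hPP : ((P⁻¹ : GL (Fin 4) F) : Matrix (Fin 4) (Fin 4) F).det * (P : Matrix (Fin 4) (Fin 4) F).det = 1 := by
      rw [← Matrix.det_mul]
      have : (((P⁻¹ : GL (Fin 4) F) : Matrix (Fin 4) (Fin 4) F) * (P : Matrix (Fin 4) (Fin 4) F)) = 1 := Units.inv_mul P
      rw [this, Matrix.det_one]
    rw [Units.val_mul, Units.val_mul, Matrix.det_mul, Matrix.det_mul]
    linear_combination ((g : Matrix (Fin 4) (Fin 4) F).det) * hPP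
  have hmemSL : ∀ g : GL (Fin 4) F, g ∈ specialLinear (Fin 4) F ↔ (g : Matrix (Fin 4) (Fin 4) F).det = 1 := by
    intro g
    rw [specialLinear, MonoidHom.mem_ker, Units.ext_iff]
    simp
  have hle : H ≤ subgroupNormalizer R ⊓ II 4 F 3 := by
    intro g hg
    rw [hE] at hg
    obtain ⟨hg1, hg2⟩ := hg
    refine ⟨hLmem g ?_, hg2⟩
    obtain ⟨π, c, hc, hform⟩ := hmon g hg1 hg2.1
    choose a ha using fun x => exists_pw hi (hc x)
    have e : P⁻¹ * g * P = monGL hi π a := by
      apply Units.ext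
      ext y x
      rw [hform, monGL_val]
      show _ = if y = π x then pw i (a x) else 0
      rw [ha]
    rw [e]
    apply mon_mem
    apply even_of_det hi h2 π a
    rw [← monGL_val hi, ← e, hdetc]
    exact (hmemSL g).mp hg2.2
  rcases hH.2 (subgroupNormalizer R ⊓ II 4 F 3) hle inf_le_right with h | h
  · let g₀ : GL (Fin 4) F := GLT hi h2 1 * GLT hi h2 2
    have hg₀N : g₀ ∈ subgroupNormalizer (R₀ hi) :=
      (subgroupNormalizer (R₀ hi)).mul_mem (GLT_mem hi h2 1) (GLT_mem hi h2 2)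
    have hg₀U : g₀ ∈ GU 4 F 3 := G_mem hi hF h2
    have hg₀d : (g₀ : Matrix (Fin 4) (Fin 4) F).det = 1 := by
      show (((GLT hi h2 1 : GL (Fin 4) F) : Matrix (Fin 4) (Fin 4) F) * ((GLT hi h2 2 : GL (Fin 4) F) : Matrix (Fin 4) (Fin 4) F)).det = 1
      rw [Matrix.det_mul, det_G1 hi, det_G2 hi]
      linear_combination (5 : F) * h3
    have hback : P⁻¹ * (P * g₀ * P⁻¹) * P = g₀ := by group
    have hs : P * g₀ * P⁻¹ ∈ subgroupNormalizer R ⊓ II 4 F 3 := by
      refine Subgroup.mem_inf.mpr ⟨hLmem _ (by rw [hback]; exact hg₀N), ?_, ?_⟩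
      · exact (GU 4 F 3).mul_mem ((GU 4 F 3).mul_mem hPU hg₀U) ((GU 4 F 3).inv_mem hPU)
      · exact (hmemSL _).mpr (by rw [← hdetc, hback]; exact hg₀d)
    rw [h, hE] at hs
    obtain ⟨π, c, hc, hform⟩ := hmon _ hs.1 hs.2.1
    rw [hback] at hform
    have hentry : ∀ y x, (g₀ : Matrix (Fin 4) (Fin 4) F) y x = if y = π x then c x else 0 := hform
    have hg₀m : (g₀ : Matrix (Fin 4) (Fin 4) F) = !![1, i, 0, 0; i, 1, 0, 0; 0, 0, 1, i; 0, 0, i, 1] * !![1, 0, i, 0; 0, 1, 0, i; i, 0, 1, 0; 0, i, 0, 1] := by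
      show ((GLT hi h2 1 : GL (Fin 4) F) : Matrix (Fin 4) (Fin 4) F) * ((GLT hi h2 2 : GL (Fin 4) F) : Matrix (Fin 4) (Fin 4) F) = _
      rw [G1_eq hi, G2_eq hi]
    have h00 : (g₀ : Matrix (Fin 4) (Fin 4) F) 0 0 = 1 := by
      rw [hg₀m]
      simp [Matrix.mul_apply, Fin.sum_univ_four]
    have h10 : (g₀ : Matrix (Fin 4) (Fin 4) F) 1 0 = i := by
      rw [hg₀m]
      simp [Matrix.mul_apply, Fin.sum_univ_four]
    have hine := i_ne_zero hi
    have h3' : (0 : Fin 4) = π 0 := by
      by_contra hne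
      have := hentry 0 0
      rw [if_neg hne, h00] at this
      exact one_ne_zero this
    have h4 : (1 : Fin 4) = π 0 := by
      by_contra hne
      have := hentry 1 0
      rw [if_neg hne, h10] at this
      exact hine this
    exact absurd (h3'.trans h4.symm) (by decide)
  · exact hnot (inf_eq_right.mp h)

end Final

end Cfsg.Agent.Lib.Classical.Asch.SUFour
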