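import Mathlib
import Cfsg.Agent.Lib.Classical.Asch.SUFour
import Cfsg.Agent.Lib.Classical.Asch.SUFive

/-!
# `SU₆(2)`: frames and cubic subfields

Over the field with four elements, the stabiliser of an orthonormal frame of `F⁶` is not maximal in `SU₆(2)`: it lies
in the stabiliser of a set of `378` vectors (a subgroup `3.U₄(3).2`), which is proper and contains a non-monomial
transvection.
-/

set_option autoImplicit false
set_option linter.style.haveILetI false
set_option linter.unusedSectionVars false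

namespace Cfsg.Agent.Lib.Classical.Asch.SUSix

open scoped MatrixGroups Matrix
open Cfsg Cfsg.Geo Cfsg.Agent.Lib.Classical.Asch.Basic Cfsg.Agent.Lib.Classical.Asch
open Cfsg.Agent.Lib.Classical.Asch.NotSU
open Cfsg.Agent.Lib.Classical.Asch.FourTable
open Cfsg.Agent.Lib.Classical.Herm.Basic
open Cfsg.Agent.Lib.Classical.Herm.PSLGraphField (sigE sigE_apply)
open Cfsg.Agent.Lib.Classical.Geo.HermTv

/-- The set of vectors in the model. -/
def nz : Four → ℕ
  | .z => 0
  | _ => 1

/-- The product of six elements. -/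
def prod6 (a b c d e f : Four) : Four := Four.mul a (Four.mul b (Four.mul c (Four.mul d (Four.mul e f))))

/-- The sum of six elements. -/
def sum6 (a b c d e f : Four) : Four := Four.add a (Four.add b (Four.add c (Four.add d (Four.add e f))))

/-- The membership test. -/
def inYs (a b c d e f : Four) : Bool :=
  (nz a + nz b + nz c + nz d + nz e + nz f == 2) ||
    ((nz a + nz b + nz c + nz d + nz e + nz f == 6) && Four.eqb (prod6 a b c d e f) .o)

/-- The transvection preserves the set: the check. -/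
theorem chk_t : (Four.all4 fun a => Four.all4 fun b => Four.all4 fun c => Four.all4 fun d => Four.all4 fun e => Four.all4 fun f =>
    !inYs a b c d e f || inYs (Four.add a (sum6 a b c d e f)) (Four.add b (sum6 a b c d e f)) (Four.add c (sum6 a b c d e f))
      (Four.add d (sum6 a b c d e f)) (Four.add e (sum6 a b c d e f)) (Four.add f (sum6 a b c d e f))) = true := by
  decide +kernel

theorem chk_t' (a b c d e f : Four) (h : inYs a b c d e f = true) :
    inYs (Four.add a (sum6 a b c d e f)) (Four.add b (sum6 a b c d e f)) (Four.add c (sum6 a b c d e f))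
      (Four.add d (sum6 a b c d e f)) (Four.add e (sum6 a b c d e f)) (Four.add f (sum6 a b c d e f)) = true := by
  have h1 := Four.all4_spec (Four.all4_spec (Four.all4_spec (Four.all4_spec (Four.all4_spec (Four.all4_spec chk_t a) b) c) d) e) f
  rw [h] at h1
  simpa using h1

section Frames

open scoped _root_.Classical

variable {F : Type*} [Field F] [Fintype F] {n : ℕ}

/-- The stabiliser of a set of vectors. -/
def stabS (Y : Set (Fin n → F)) : Subgroup (GL (Fin n) F) where
  carrier := {g | ∀ v ∈ Y, (g : Matrix (Fin n) (Fin n) F) *ᵥ v ∈ Y}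
  mul_mem' := by
    intro a b ha hb v hv
    rw [Units.val_mul, ← Matrix.mulVec_mulVec]
    exact ha _ (hb _ hv)
  one_mem' := by
    intro v hv
    simpa using hv
  inv_mem' := by
    intro a ha v hv
    let f : Y → Y := fun x => ⟨(a : Matrix (Fin n) (Fin n) F) *ᵥ x.1, ha _ x.2⟩
    have hf : Function.Injective f := by
      intro x y hxy
      have h1 : (a : Matrix (Fin n) (Fin n) F) *ᵥ x.1 = (a : Matrix (Fin n) (Fin n) F) *ᵥ y.1 := congrArg Subtype.val hxy
      have h2 := congrArg (fun w => ((a⁻¹ : GL (Fin n) F) : Matrix (Fin n) (Fin n) F) *ᵥ w) h1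
      simp only [Matrix.mulVec_mulVec, ← Units.val_mul, inv_mul_cancel, Units.val_one, Matrix.one_mulVec] at h2
      exact Subtype.ext h2
    obtain ⟨x, hx⟩ := (Finite.injective_iff_surjective.mp hf) ⟨v, hv⟩
    have h1 : (a : Matrix (Fin n) (Fin n) F) *ᵥ x.1 = v := congrArg Subtype.val hx
    rw [← h1, Matrix.mulVec_mulVec, ← Units.val_mul, inv_mul_cancel, Units.val_one, Matrix.one_mulVec]
    exact x.2

/-- The set of vectors. -/
def Ysix (F : Type*) [Field F] [Fintype F] : Set (Fin 6 → F) :=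
  {v | (Finset.univ.filter fun i => v i ≠ 0).card = 2 ∨ ((Finset.univ.filter fun i => v i ≠ 0).card = 6 ∧ ∏ i, v i = 1)}

/-- A monomial matrix has determinant `∏ c` in characteristic two. -/
lemma det_mono (h2 : (2 : F) = 0) {M : Matrix (Fin n) (Fin n) F} (π : Equiv.Perm (Fin n)) (c : Fin n → F)
    (hM : ∀ y x, M y x = if y = π x then c x else 0) : M.det = ∏ x, c x := by
  classical
  rw [Matrix.det_apply, Finset.sum_eq_single π]
  · have h1 : ∏ i, M (π i) i = ∏ x, c x := Finset.prod_congr rfl fun x _ => by rw [hM, if_pos rfl]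
    rw [h1]
    rcases Int.units_eq_one_or (Equiv.Perm.sign π) with h | h
    · rw [h, one_smul]
    · rw [h, Units.neg_smul, one_smul]
      have h3 : ∀ x : F, -x = x := fun x => by linear_combination (-x) * h2
      exact h3 _
  · intro σ _ hσ
    obtain ⟨x, hx⟩ : ∃ x, σ x ≠ π x := by
      by_contra hc
      push Not at hc
      exact hσ (Equiv.ext hc)
    rw [Finset.prod_eq_zero (Finset.mem_univ x), smul_zero]
    rw [hM, if_neg hx]
  · simp

/-- The monomial action preserves the set. -/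
lemma mono_mem_Ysix {M : Matrix (Fin 6) (Fin 6) F} (π : Equiv.Perm (Fin 6)) (c : Fin 6 → F)
    (hM : ∀ y x, M y x = if y = π x then c x else 0) (hc : ∀ x, c x ≠ 0) (hp : ∏ x, c x = 1) {v : Fin 6 → F}
    (hv : v ∈ Ysix F) : M *ᵥ v ∈ Ysix F := by
  classical
  have hw : ∀ x, (M *ᵥ v) (π x) = c x * v x := by
    intro x
    simp only [Matrix.mulVec, dotProduct]
    rw [Finset.sum_eq_single x]
    · rw [hM, if_pos rfl]
    · intro x' _ hx'
      rw [hM, if_neg (fun h => hx' (π.injective h).symm), zero_mul]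
    · simp
  have hcard : (Finset.univ.filter fun i => (M *ᵥ v) i ≠ 0).card = (Finset.univ.filter fun i => v i ≠ 0).card := by
    symm
    apply Finset.card_equiv π
    intro x
    simp only [Finset.mem_filter, Finset.mem_univ, true_and]
    rw [hw]
    exact ⟨fun h => mul_ne_zero (hc x) h, fun h h0 => h (by rw [h0, mul_zero])⟩
  have hprod : ∏ i, (M *ᵥ v) i = ∏ i, v i := by
    rw [← Equiv.prod_comp π]
    simp only [hw]
    rw [Finset.prod_mul_distrib, hp, one_mul]
  rcases hv with h | ⟨h, h'⟩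
  · exact Or.inl (hcard.trans h)
  · exact Or.inr ⟨hcard.trans h, hprod.trans h'⟩

variable {ω : F}

/-- The lift of six elements. -/
def lift6 (ω : F) (a b c d e f : Four) : Fin 6 → F := ![emb ω a, emb ω b, emb ω c, emb ω d, emb ω e, emb ω f]

lemma ite_nz (h2 : (2 : F) = 0) (hω : ω * ω = ω + 1) (a : Four) : (if emb ω a ≠ 0 then 1 else 0) = nz a := by
  have hω0 : ω ≠ 0 := by
    rintro rfl
    have h1 : (1 : F) = 0 := by linear_combination - hω
    exact one_ne_zero h1
  have hω1 : ω + 1 ≠ 0 := by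
    intro h
    rw [← hω] at h
    exact hω0 (mul_self_eq_zero.mp h)
  cases a <;> simp [emb, nz, hω0, hω1]

lemma lift6_mem (h2 : (2 : F) = 0) (hω : ω * ω = ω + 1) (a b c d e f : Four) :
    lift6 ω a b c d e f ∈ Ysix F ↔ inYs a b c d e f = true := by
  have hcard : (Finset.univ.filter fun i => lift6 ω a b c d e f i ≠ 0).card = nz a + nz b + nz c + nz d + nz e + nz f := by
    rw [Finset.card_filter, Fin.sum_univ_six]
    have key : ∀ {x : F} {a : Four}, x = emb ω a → (if x ≠ 0 then 1 else 0) = nz a := by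
      intro x a h
      subst h
      exact ite_nz h2 hω a
    rw [key (x := lift6 ω a b c d e f 0) (a := a) rfl, key (x := lift6 ω a b c d e f 1) (a := b) rfl,
      key (x := lift6 ω a b c d e f 2) (a := c) rfl, key (x := lift6 ω a b c d e f 3) (a := d) rfl,
      key (x := lift6 ω a b c d e f 4) (a := e) rfl, key (x := lift6 ω a b c d e f 5) (a := f) rfl]
  have hprod : ∏ i, lift6 ω a b c d e f i = emb ω (prod6 a b c d e f) := by
    rw [Fin.prod_univ_six]
    simp only [lift6, Matrix.cons_val, prod6, emb_mul h2 hω]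
    ring
  have hone : emb ω (.o) = (1 : F) := rfl
  rw [Ysix, Set.mem_ofPred_eq, hcard, hprod, inYs, Bool.or_eq_true, Bool.and_eq_true, beq_iff_eq, beq_iff_eq]
  have he : Four.eqb (prod6 a b c d e f) .o = true ↔ emb ω (prod6 a b c d e f) = 1 := by
    constructor
    · intro h
      rw [Four.eq_of_eqb h]
      rfl
    · intro h
      have h3 := emb_injective h2 hω (h.trans hone.symm)
      rw [h3]
      rfl
  rw [he]

lemma exists_lift6 (h2 : (2 : F) = 0) (hω : ω * ω = ω + 1) (hF4 : ∀ x : F, x ^ 4 = x) (v : Fin 6 → F) :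
    ∃ a b c d e f, v = lift6 ω a b c d e f := by
  have hs := emb_surjective h2 hω hF4
  obtain ⟨a, ha⟩ := hs (v 0)
  obtain ⟨b, hb⟩ := hs (v 1)
  obtain ⟨c, hc⟩ := hs (v 2)
  obtain ⟨d, hd⟩ := hs (v 3)
  obtain ⟨e, he⟩ := hs (v 4)
  obtain ⟨f, hf⟩ := hs (v 5)
  refine ⟨a, b, c, d, e, f, ?_⟩
  ext i
  fin_cases i <;> simp [lift6, ha, hb, hc, hd, he, hf]

/-- The transvection in coordinates preserves the set. -/
lemma transv_mem_Ysix (h2 : (2 : F) = 0) (hω : ω * ω = ω + 1) (hF4 : ∀ x : F, x ^ 4 = x) {v : Fin 6 → F} (hv : v ∈ Ysix F) :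
    v + (∑ i, v i) • (fun _ => 1 : Fin 6 → F) ∈ Ysix F := by
  obtain ⟨a, b, c, d, e, f, rfl⟩ := exists_lift6 h2 hω hF4 v
  rw [lift6_mem h2 hω] at hv
  have h := (lift6_mem (F := F) h2 hω _ _ _ _ _ _).mpr (chk_t' a b c d e f hv)
  convert h using 1
  have hsum : ∑ i, lift6 ω a b c d e f i = emb ω (sum6 a b c d e f) := by
    rw [Fin.sum_univ_six]
    simp only [lift6, Matrix.cons_val, sum6, emb_add h2]
    ring
  rw [hsum]
  ext i
  fin_cases i <;> simp [lift6, emb_add h2]

/-- **The frame stabiliser in `SU₆(2)` is not maximal.** -/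
theorem frames_two (hF : Fintype.card F = 2 ^ 2) {D : Fin 6 → Submodule F (Fin 6 → F)}
    (hD : IsNondegenerateMDecomposition (hermForm 6 F 2) 1 D)
    {H : Subgroup (GL (Fin 6) F)} (hH : IsMaximalIn (II 6 F 2) H)
    (hE : H = decompositionStabilizer D ⊓ II 6 F 2) : False := by
  have h2 : (2 : F) = 0 := FormSU.two_of_parity hF (by decide)
  have hF4 : ∀ x : F, x ^ 4 = x := by
    intro x
    have h3 := FiniteField.pow_card x
    rw [hF] at h3
    exact h3
  obtain ⟨ω, hω⟩ : ∃ ω : F, ω * ω = ω + 1 := by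
    obtain ⟨x, -, hx⟩ := Finset.exists_mem_notMem_of_card_lt_card (s := ({0, 1} : Finset F)) (t := Finset.univ) (by
      rw [Finset.card_univ, hF]
      exact (Finset.card_le_two).trans_lt (by norm_num))
    simp only [Finset.mem_insert, Finset.mem_singleton, not_or] at hx
    refine ⟨x, ?_⟩
    have h3 := hF4 x
    have h4 : x * (x + 1) * (x * x + x + 1) = 0 := by
      linear_combination h3 + (x + x ^ 2 + x ^ 3) * h2
    have h5 : x + 1 ≠ 0 := by
      intro h6
      apply hx.2
      linear_combination h6 - h2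
    have h6 := (mul_eq_zero.mp h4).resolve_left (mul_ne_zero hx.1 h5)
    linear_combination h6 - (x + 1) * h2
  obtain ⟨b, hb, hon⟩ := SUFour.exists_onb hF hD
  obtain ⟨P, hPe, hPi, hPu⟩ := SUPair.exists_glOfBasis b
  have hPcol : ∀ x k, (P : Matrix (Fin 6) (Fin 6) F) k x = b x k := by
    intro x k
    have := congrFun (hPe x) k
    rw [Matrix.mulVec_single_one] at this
    exact this
  have hPU : P ∈ GU 6 F 2 := by
    apply FormSU2.mem_GU_of_gram hF
    ext x y
    rw [Matrix.mul_apply]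
    simp only [Matrix.transpose_apply, Matrix.map_apply, sigE_apply, hPcol]
    rw [Matrix.one_apply, ← hon, hermForm_apply]
  have hPform : ∀ u v, hermForm 6 F 2 ((P : Matrix (Fin 6) (Fin 6) F) *ᵥ u) ((P : Matrix (Fin 6) (Fin 6) F) *ᵥ v)
      = hermForm 6 F 2 u v := hPU
  -- the conjugated stabiliser
  let S : Subgroup (GL (Fin 6) F) := (stabS (Ysix F)).map (MulAut.conj P).toMonoidHom
  have hSmem : ∀ h, P⁻¹ * h * P ∈ stabS (Ysix F) → h ∈ S := by
    intro h hh
    refine ⟨_, hh, ?_⟩
    show P * (P⁻¹ * h * P) * P⁻¹ = h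
    group
  have hSmem' : ∀ h ∈ S, P⁻¹ * h * P ∈ stabS (Ysix F) := by
    rintro _ ⟨r, hr, rfl⟩
    have : P⁻¹ * (MulAut.conj P).toMonoidHom r * P = r := by
      show P⁻¹ * (P * r * P⁻¹) * P = r
      group
    rw [this]
    exact hr
  -- the members of the stabiliser
  have hmon : ∀ g ∈ decompositionStabilizer D, g ∈ GU 6 F 2 → ∃ (π : Equiv.Perm (Fin 6)) (c : Fin 6 → F), (∀ x, c x ^ 3 = 1) ∧
      ∀ y x, ((P⁻¹ * g * P : GL (Fin 6) F) : Matrix (Fin 6) (Fin 6) F) y x = if y = π x then c x else 0 := by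
    intro g hg hU
    obtain ⟨π, c, hc, hform⟩ := SUFour.frame_mon hF hD hb hon hg hU
    refine ⟨π, c, hc, fun y x => ?_⟩
    have h1 : ((P⁻¹ * g * P : GL (Fin 6) F) : Matrix (Fin 6) (Fin 6) F) *ᵥ (Pi.single x 1)
        = fun i => b.repr ((g : Matrix (Fin 6) (Fin 6) F) *ᵥ b x) i := by
      rw [Units.val_mul, Units.val_mul, ← Matrix.mulVec_mulVec, ← Matrix.mulVec_mulVec, hPe, hPi]
    have h2' := congrFun h1 y
    rw [Matrix.mulVec_single_one] at h2'
    have h3' : ((P⁻¹ * g * P : GL (Fin 6) F) : Matrix (Fin 6) (Fin 6) F) y x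
        = b.repr ((g : Matrix (Fin 6) (Fin 6) F) *ᵥ b x) y := h2'
    rw [h3', hform, map_smul, Finsupp.smul_apply, Module.Basis.repr_self, Finsupp.single_apply]
    by_cases h : y = π x
    · subst h
      simp
    · have h4 : ¬ π x = y := fun h5 => h h5.symm
      simp [h, h4]
  have hdetc : ∀ g : GL (Fin 6) F, ((P⁻¹ * g * P : GL (Fin 6) F) : Matrix (Fin 6) (Fin 6) F).det
      = (g : Matrix (Fin 6) (Fin 6) F).det := by
    intro g
    have hPP : ((P⁻¹ : GL (Fin 6) F) : Matrix (Fin 6) (Fin 6) F).det * (P : Matrix (Fin 6) (Fin 6) F).det = 1 := by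
      rw [← Matrix.det_mul]
      have : (((P⁻¹ : GL (Fin 6) F) : Matrix (Fin 6) (Fin 6) F) * (P : Matrix (Fin 6) (Fin 6) F)) = 1 := Units.inv_mul P
      rw [this, Matrix.det_one]
    rw [Units.val_mul, Units.val_mul, Matrix.det_mul, Matrix.det_mul]
    linear_combination ((g : Matrix (Fin 6) (Fin 6) F).det) * hPP
  have hmemSL : ∀ g : GL (Fin 6) F, g ∈ specialLinear (Fin 6) F ↔ (g : Matrix (Fin 6) (Fin 6) F).det = 1 := by
    intro g
    rw [specialLinear, MonoidHom.mem_ker, Units.ext_iff]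
    simp
  have hle : H ≤ S ⊓ II 6 F 2 := by
    intro g hg
    rw [hE] at hg
    obtain ⟨hg1, hg2⟩ := hg
    refine ⟨hSmem g ?_, hg2⟩
    obtain ⟨π, c, hc, hform⟩ := hmon g hg1 hg2.1
    have hc0 : ∀ x, c x ≠ 0 := by
      intro x h0
      have := hc x
      rw [h0, zero_pow (by norm_num)] at this
      exact zero_ne_one this
    have hp : ∏ x, c x = 1 := by
      rw [← det_mono h2 π c hform, hdetc]
      exact (hmemSL g).mp hg2.2
    intro v hv
    exact mono_mem_Ysix π c hform hc0 hp hv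
  -- conjugates of transvections
  have htv : ∀ (a : Fin 6 → F) (ha : hermForm 6 F 2 a a = 0) (u : Fin 6 → F),
      ((P⁻¹ * hT 2 (1 : F) ((P : Matrix (Fin 6) (Fin 6) F) *ᵥ a) (by rw [hPform]; exact ha) * P : GL (Fin 6) F) :
        Matrix (Fin 6) (Fin 6) F) *ᵥ u = u + hermForm 6 F 2 u a • a := by
    intro a ha u
    rw [Units.val_mul, Units.val_mul, ← Matrix.mulVec_mulVec, ← Matrix.mulVec_mulVec, hT_mulVec, hPform, one_mul,
      Matrix.mulVec_add, Matrix.mulVec_smul]
    have hinv : ∀ w, ((P⁻¹ : GL (Fin 6) F) : Matrix (Fin 6) (Fin 6) F) *ᵥ ((P : Matrix (Fin 6) (Fin 6) F) *ᵥ w) = w := by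
      intro w
      rw [Matrix.mulVec_mulVec, ← Units.val_mul, inv_mul_cancel, Units.val_one, Matrix.one_mulVec]
    rw [hinv, hinv]
  have hcz : (1 : F) + 1 ^ 2 = 0 := by
    rw [one_pow, one_add_one_eq_two, h2]
  have hTmem : ∀ (a : Fin 6 → F) (ha : hermForm 6 F 2 a a = 0), hT 2 (1 : F) a ha ∈ II 6 F 2 := by
    intro a ha
    exact ⟨hT_mem_GU hF 1 hcz a ha, hT_mem_specialLinear _ _ _⟩
  -- the isotropic vectors
  let a₁ : Fin 6 → F := fun _ => 1
  have ha₁ : hermForm 6 F 2 a₁ a₁ = 0 := by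
    rw [hermForm_apply]
    simp only [a₁, one_pow, mul_one, Fin.sum_univ_six]
    linear_combination (3 : F) * h2
  have hform1 : ∀ u, hermForm 6 F 2 u a₁ = ∑ i, u i := by
    intro u
    rw [hermForm_apply]
    simp [a₁]
  let a₂ : Fin 6 → F := ![1, 1, 1, 1, 0, 0]
  have ha₂ : hermForm 6 F 2 a₂ a₂ = 0 := by
    rw [hermForm_apply]
    simp only [a₂, Fin.sum_univ_six]
    simp
    linear_combination (2 : F) * h2
  rcases hH.2 (S ⊓ II 6 F 2) hle inf_le_right with h | h
  · -- the first transvection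
    have hs : hT 2 (1 : F) ((P : Matrix (Fin 6) (Fin 6) F) *ᵥ a₁) (by rw [hPform]; exact ha₁) ∈ S ⊓ II 6 F 2 := by
      refine ⟨hSmem _ ?_, hTmem _ _⟩
      intro v hv
      rw [htv a₁ ha₁, hform1]
      exact transv_mem_Ysix h2 hω hF4 hv
    rw [h, hE] at hs
    obtain ⟨π, c, hc, hform⟩ := hmon _ hs.1 hs.2.1
    have hent : ∀ y, ((P⁻¹ * hT 2 (1 : F) ((P : Matrix (Fin 6) (Fin 6) F) *ᵥ a₁) (by rw [hPform]; exact ha₁) * P : GL (Fin 6) F) :
        Matrix (Fin 6) (Fin 6) F) y 0 = ((Pi.single (0 : Fin 6) (1 : F) : Fin 6 → F) + a₁) y := by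
      intro y
      have h1 := congrFun (htv a₁ ha₁ (Pi.single 0 1)) y
      have e : hermForm 6 F 2 (Pi.single 0 1) a₁ = 1 := by
        rw [hform1]
        simp
      rw [e, one_smul, Matrix.mulVec_single_one] at h1
      exact h1
    have h1 := hform 1 0
    have h2' := hform 2 0
    rw [hent] at h1 h2'
    have h3 : (1 : Fin 6) = π 0 := by
      by_contra hne
      rw [if_neg hne] at h1
      simp [a₁] at h1
    have h4 : (2 : Fin 6) = π 0 := by
      by_contra hne
      rw [if_neg hne] at h2'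
      simp [a₁] at h2'
    exact absurd (h3.trans h4.symm) (by decide)
  · -- the second transvection
    have hs : hT 2 (1 : F) ((P : Matrix (Fin 6) (Fin 6) F) *ᵥ a₂) (by rw [hPform]; exact ha₂) ∈ S ⊓ II 6 F 2 := by
      rw [h]
      exact hTmem _ _
    have hS := hSmem' _ hs.1
    let v₀ : Fin 6 → F := ![1, 0, 0, 0, 1, 0]
    have hv₀ : v₀ ∈ Ysix F := by
      left
      have : (Finset.univ.filter fun i => v₀ i ≠ 0) = {0, 4} := by
        ext i
        fin_cases i <;> simp [v₀]
      rw [this]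
      rfl
    have h1 := hS v₀ hv₀
    rw [htv a₂ ha₂] at h1
    have hval : hermForm 6 F 2 v₀ a₂ = 1 := by
      rw [hermForm_apply]
      simp [v₀, a₂, Fin.sum_univ_six]
    rw [hval, one_smul] at h1
    have hw : v₀ + a₂ = ![0, 1, 1, 1, 1, 0] := by
      ext i
      fin_cases i <;> simp [v₀, a₂]
      · linear_combination h2
    rw [hw] at h1
    have hfil : (Finset.univ.filter fun i => (![0, 1, 1, 1, 1, 0] : Fin 6 → F) i ≠ 0) = {1, 2, 3, 4} := by
      ext i
      fin_cases i <;> simp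
    rcases h1 with h1 | ⟨h1, -⟩
    · rw [hfil] at h1
      exact absurd h1 (by decide)
    · rw [hfil] at h1
      exact absurd h1 (by decide)

end Frames

end Cfsg.Agent.Lib.Classical.Asch.SUSix
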