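import Mathlib
import Cfsg.Agent.Lib.Classical.Asch.CubicFour
import Cfsg.Agent.Lib.Classical.Asch.SUPair
import Cfsg.Agent.Lib.Classical.Herm.HermOnb

/-!
# `SU₆(2)`: the normaliser of a cubic subfield lies in a symplectic subfield group

`K ≤ M₆(F)`, `|F| = 4`, `K` a field of degree three closed under the adjoint. The space is a plane over `K` with a
hermitian form, and the `F₂`-structure is `{a u₀ + a⁸ u₁ : a ∈ K}` for an orthonormal basis `u₀, u₁`.

Everything is written with an element `y ∈ K` such that `y³ = ω`, a primitive cube root of unity of `F`.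
-/

set_option autoImplicit false
set_option linter.style.haveILetI false
set_option linter.unusedSectionVars false

namespace Cfsg.Agent.Lib.Classical.Asch.SUSixCubic

open scoped MatrixGroups Matrix
open Module

section Cube

variable {F L : Type*} [Field F] [Fintype F] [Field L] [Algebra F L] [Finite L]

/-- The element `y`. -/
structure Cube (ω : F) (y : L) : Prop where
  card4 : Fintype.card F = 4
  fr : Module.finrank F L = 3
  hω : ω * ω = ω + 1
  hy : y ^ 3 = algebraMap F L ω

variable {ω : F} {y : L} (h : Cube ω y)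
include h

lemma Cube.two : (2 : L) = 0 := by
  have h0 := CubicFour.two_eq_zero h.card4
  calc (2 : L) = algebraMap F L 2 := (map_ofNat (algebraMap F L) 2).symm
    _ = 0 := by rw [h0, map_zero]

lemma Cube.two' : (2 : F) = 0 := CubicFour.two_eq_zero h.card4

lemma Cube.ww : algebraMap F L ω * algebraMap F L ω = algebraMap F L ω + 1 := by
  rw [← map_mul, h.hω, map_add, map_one]

lemma Cube.w3 : (algebraMap F L ω) ^ 3 = 1 := by
  have h2 := h.two
  have hw := h.ww
  linear_combination (algebraMap F L ω + 1) * hw + (algebraMap F L ω + 1) * h2 - h2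

lemma Cube.w1w : (algebraMap F L ω + 1) * algebraMap F L ω = 1 := by
  have h2 := h.two
  have hw := h.ww
  linear_combination hw + (algebraMap F L ω) * h2 

lemma Cube.y_ne : y ≠ 0 := by
  intro h0
  have h1 := h.hy
  rw [h0, zero_pow (by norm_num)] at h1
  have h3 := h.w3
  rw [← h1, zero_pow (by norm_num)] at h3
  exact zero_ne_one h3

lemma Cube.y4 : y ^ 4 = algebraMap F L ω * y := by
  have := h.hy
  linear_combination y * this

lemma Cube.y8 : y ^ 8 = (algebraMap F L ω + 1) * y ^ 2 := by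
  have h1 := h.hy
  have hw := h.ww
  linear_combination (y ^ 5 + algebraMap F L ω * y ^ 2) * h1 + y ^ 2 * hw

lemma Cube.y9 : y ^ 9 = 1 := by
  have h1 := h.hy
  have h3 := h.w3
  calc y ^ 9 = (y ^ 3) ^ 3 := by ring
    _ = 1 := by rw [h1, h3]

lemma Cube.y16 : (y ^ 2) ^ 8 = (algebraMap F L ω + 1) * y := by
  have h1 := h.hy
  have h3 := h.w3
  have hw := h.ww
  calc (y ^ 2) ^ 8 = (y ^ 3) ^ 5 * y := by ring
    _ = (algebraMap F L ω) ^ 5 * y := by rw [h1]
    _ = _ := by linear_combination (algebraMap F L ω) ^ 2 * y * h3 + y * hw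

lemma Cube.add4 (a b : L) : (a + b) ^ 4 = a ^ 4 + b ^ 4 := by
  haveI := CubicFour.charTwoL (F := F) (L := L) h.card4
  haveI : Fact (Nat.Prime 2) := ⟨Nat.prime_two⟩
  have := add_pow_char_pow (R := L) (p := 2) (n := 2) a b
  simpa using this

lemma Cube.add8 (a b : L) : (a + b) ^ 8 = a ^ 8 + b ^ 8 := CubicFour.add_eight h.card4 a b

lemma Cube.i4 (a : F) : (algebraMap F L a) ^ 4 = algebraMap F L a := by
  rw [← map_pow, CubicFour.pow_four h.card4]

lemma Cube.i8 (a : F) : (algebraMap F L a) ^ 8 = algebraMap F L (a ^ 2) := by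
  rw [map_pow]
  have := h.i4 a
  calc _ = ((algebraMap F L a) ^ 4) ^ 2 := by ring
    _ = _ := by rw [this]

lemma Cube.indep {a b c : F}
    (he : algebraMap F L a + algebraMap F L b * y + algebraMap F L c * y ^ 2 = 0) : a = 0 ∧ b = 0 ∧ c = 0 := by
  have h2 := h.two
  have hww := h.ww
  have y24 : (y ^ 2) ^ 4 = (algebraMap F L ω + 1) * y ^ 2 := by
    rw [← pow_mul]
    exact h.y8
  set A := algebraMap F L a with hA'
  set B := algebraMap F L b with hB'
  set C := algebraMap F L c with hC'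
  set W := algebraMap F L ω with hW
  have hA4 : A ^ 4 = A := h.i4 a
  have hB4 : B ^ 4 = B := h.i4 b
  have hC4 : C ^ 4 = C := h.i4 c
  have hW4 : W ^ 4 = W := h.i4 ω
  have hW14 : (W + 1) ^ 4 = W + 1 := by
    rw [h.add4, hW4, one_pow]
  have e2 : A + B * (W * y) + C * ((W + 1) * y ^ 2) = 0 := by
    have := congrArg (· ^ 4) he
    rw [h.add4, h.add4, mul_pow, mul_pow, hA4, hB4, hC4, h.y4, y24, zero_pow (by norm_num)] at this
    exact this
  have e3 : A + B * (W * (W * y)) + C * ((W + 1) * ((W + 1) * y ^ 2)) = 0 := by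
    have := congrArg (· ^ 4) e2
    rw [h.add4, h.add4, mul_pow, mul_pow, mul_pow, mul_pow, hA4, hB4, hC4, hW4, hW14, h.y4, y24,
      zero_pow (by norm_num)] at this
    exact this
  have e3' : A + B * ((W + 1) * y) + C * (W * y ^ 2) = 0 := by
    linear_combination e3 - B * y * hww - C * y ^ 2 * (hww + (W + 1) * h2)
  have hA : A = 0 := by
    linear_combination he + e2 + e3' - (A + (1 + W) * (B * y + C * y ^ 2)) * h2
  have hCy : C * y ^ 2 = 0 := by
    linear_combination W * he + e2 - (1 + W) * hA - (W * (B * y + C * y ^ 2)) * h2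
  have hy0 := h.y_ne
  have hC : C = 0 := (mul_eq_zero.mp hCy).resolve_right (pow_ne_zero 2 hy0)
  have hB : B = 0 := by
    have : B * y = 0 := by
      rw [hA, hC] at he
      linear_combination he
    exact (mul_eq_zero.mp this).resolve_right hy0
  exact ⟨(map_eq_zero _).mp hA, (map_eq_zero _).mp hB, (map_eq_zero _).mp hC⟩

omit h in
/-- The basis of the field. -/
noncomputable def Cube.basis (h : Cube ω y) : Basis (Fin 3) F L :=
  basisOfLinearIndependentOfCardEqFinrank (b := ![1, y, y ^ 2]) (by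
    rw [Fintype.linearIndependent_iff]
    intro g hg
    rw [Fin.sum_univ_three] at hg
    simp only [Matrix.cons_val, Algebra.smul_def, mul_one] at hg
    obtain ⟨h0, h1, h2⟩ := h.indep hg
    intro i
    fin_cases i
    · exact h0
    · exact h1
    · exact h2) (by rw [h.fr]; simp)

lemma Cube.basis_zero : h.basis 0 = 1 := by simp [Cube.basis]
lemma Cube.basis_one : h.basis 1 = y := by simp [Cube.basis]
lemma Cube.basis_two : h.basis 2 = y ^ 2 := by simp [Cube.basis]

omit h in
/-- The trace, as the first coordinate. -/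
noncomputable def Cube.tr (h : Cube ω y) : L →ₗ[F] F := h.basis.coord 0

lemma Cube.tr_mk (a b c : F) : h.tr (algebraMap F L a + algebraMap F L b * y + algebraMap F L c * y ^ 2) = a := by
  have e : algebraMap F L a + algebraMap F L b * y + algebraMap F L c * y ^ 2
      = a • h.basis 0 + b • h.basis 1 + c • h.basis 2 := by
    rw [h.basis_zero, h.basis_one, h.basis_two]
    simp only [Algebra.smul_def, mul_one]
  rw [e, Cube.tr]
  simp [Module.Basis.coord_apply]

lemma Cube.exists_mk (x : L) : ∃ a b c : F, x = algebraMap F L a + algebraMap F L b * y + algebraMap F L c * y ^ 2 := by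
  refine ⟨h.basis.repr x 0, h.basis.repr x 1, h.basis.repr x 2, ?_⟩
  conv_lhs => rw [← h.basis.sum_repr x]
  rw [Fin.sum_univ_three, h.basis_zero, h.basis_one, h.basis_two]
  simp only [Algebra.smul_def, mul_one]

lemma Cube.tr_mul (c : F) (x : L) : h.tr (algebraMap F L c * x) = c * h.tr x := by
  rw [← Algebra.smul_def, map_smul, smul_eq_mul]

lemma Cube.tr_one : h.tr 1 = 1 := by
  have := h.tr_mk 1 0 0
  simpa using this

lemma Cube.pow8_mk (a b c : F) : (algebraMap F L a + algebraMap F L b * y + algebraMap F L c * y ^ 2) ^ 8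
    = algebraMap F L (a ^ 2) + algebraMap F L ((ω + 1) * c ^ 2) * y + algebraMap F L ((ω + 1) * b ^ 2) * y ^ 2 := by
  rw [h.add8, h.add8, mul_pow, mul_pow, h.i8, h.i8, h.i8, h.y8, h.y16]
  simp only [map_mul, map_add, map_one]
  ring

lemma Cube.tr_pow8 (x : L) : h.tr (x ^ 8) = (h.tr x) ^ 2 := by
  obtain ⟨a, b, c, rfl⟩ := h.exists_mk x
  rw [h.pow8_mk, h.tr_mk, h.tr_mk]

lemma Cube.pow64 (x : L) : x ^ 64 = x := by
  haveI : Fintype L := Fintype.ofFinite L
  have h1 := FiniteField.pow_card x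
  rwa [← Nat.card_eq_fintype_card, CubicFour.card_L h.card4 h.fr] at h1

lemma Cube.eq_of_tr {b b' : L} (hb : ∀ a : L, h.tr (a * b) = h.tr (a * b')) : b = b' := by
  by_contra hne
  have hd : b - b' ≠ 0 := sub_ne_zero.mpr hne
  have h1 := hb (b - b')⁻¹
  have h3 : (b - b')⁻¹ * b = (b - b')⁻¹ * b' + 1 := by
    field_simp
    ring
  rw [h3, map_add, h.tr_one] at h1
  have : (1 : F) = 0 := by linear_combination h1
  exact one_ne_zero this

/-- Automorphisms move `y` by a cube root of unity. -/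
lemma Cube.tau_y (τ : L →ₐ[F] L) : ∃ c : F, c ^ 3 = 1 ∧ τ y = algebraMap F L c * y := by
  have hy0 := h.y_ne
  set κ := τ y / y with hκ
  have hτ : τ y = κ * y := by
    rw [hκ]
    field_simp
  have h3 : κ ^ 3 = 1 := by
    have e1 : τ (y ^ 3) = y ^ 3 := by
      rw [h.hy, AlgHom.commutes]
    rw [map_pow, hτ, mul_pow] at e1
    have : y ^ 3 ≠ 0 := pow_ne_zero 3 hy0
    exact mul_right_cancel₀ this (by rw [e1, one_mul])
  have h4 : κ ^ 4 = κ := by
    linear_combination κ * h3
  obtain ⟨c, hc⟩ := CubicFour.mem_scalar_of_pow_four h.card4 h.fr h4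
  refine ⟨c, ?_, by rw [hτ, hc]⟩
  apply (algebraMap F L).injective
  rw [map_pow, ← hc, h3, map_one]

lemma Cube.tr_alg (τ : L →ₐ[F] L) (x : L) : h.tr (τ x) = h.tr x := by
  obtain ⟨c₀, -, hτ⟩ := h.tau_y τ
  obtain ⟨a, b, c, rfl⟩ := h.exists_mk x
  have e0 : τ (algebraMap F L a + algebraMap F L b * y + algebraMap F L c * y ^ 2)
      = algebraMap F L a + algebraMap F L b * (algebraMap F L c₀ * y) + algebraMap F L c * (algebraMap F L c₀ * y) ^ 2 := by
    rw [map_add, map_add, map_mul, map_mul, map_pow, AlgHom.commutes, AlgHom.commutes, AlgHom.commutes, hτ]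
  have e : algebraMap F L a + algebraMap F L b * (algebraMap F L c₀ * y) + algebraMap F L c * (algebraMap F L c₀ * y) ^ 2
      = algebraMap F L a + algebraMap F L (b * c₀) * y + algebraMap F L (c * c₀ ^ 2) * y ^ 2 := by
    simp only [map_mul, map_pow]
    ring
  rw [e0, e, h.tr_mk, h.tr_mk]

/-- The involution on the field is `x ↦ x⁸`. -/
lemma Cube.sigma_y (σ : L →+* L) (hσι : ∀ c : F, σ (algebraMap F L c) = algebraMap F L (c ^ 2)) (hσσ : ∀ x, σ (σ x) = x) :
    σ y = y ^ 8 := by
  have hy0 := h.y_ne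
  have hy8 : y ^ 8 ≠ 0 := pow_ne_zero 8 hy0
  set κ := σ y / y ^ 8 with hκ
  have hσ : σ y = κ * y ^ 8 := by
    rw [hκ]
    field_simp
  have h3 : κ ^ 3 = 1 := by
    have e1 : σ (y ^ 3) = algebraMap F L (ω ^ 2) := by
      rw [h.hy, hσι]
    rw [map_pow, hσ, mul_pow] at e1
    have e2 : (y ^ 8) ^ 3 = algebraMap F L (ω ^ 2) := by
      have : (y ^ 8) ^ 3 = (y ^ 3) ^ 8 := by ring
      rw [this, h.hy, h.i8]
    have hne : (y ^ 8) ^ 3 ≠ 0 := pow_ne_zero 3 hy8
    refine mul_right_cancel₀ hne ?_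
    rw [e1, one_mul, e2]
  have h4 : κ ^ 4 = κ := by
    linear_combination κ * h3
  obtain ⟨c, hc⟩ := CubicFour.mem_scalar_of_pow_four h.card4 h.fr h4
  have hc3 : c ^ 3 = 1 := by
    apply (algebraMap F L).injective
    rw [map_pow, ← hc, h3, map_one]
  have h5 := hσσ y
  rw [hσ, map_mul, map_pow, hσ, hc, hσι, mul_pow, h.i8, ← pow_mul, h.pow64] at h5
  have h6 : algebraMap F L c = 1 := by
    have e : algebraMap F L (c ^ 2) * (algebraMap F L (c ^ 2) * y) = algebraMap F L c * y := by
      have : c ^ 2 * c ^ 2 = c := by linear_combination c * hc3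
      rw [← mul_assoc, ← map_mul, this]
    rw [e] at h5
    exact mul_right_cancel₀ hy0 (by rw [h5, one_mul])
  rw [hσ, hc, h6, one_mul]

lemma Cube.sigma_eq (σ : L →+* L) (hσι : ∀ c : F, σ (algebraMap F L c) = algebraMap F L (c ^ 2)) (hσσ : ∀ x, σ (σ x) = x)
    (x : L) : σ x = x ^ 8 := by
  obtain ⟨a, b, c, rfl⟩ := h.exists_mk x
  rw [h.pow8_mk, map_add, map_add, map_mul, map_mul, map_pow, hσι, hσι, hσι, h.sigma_y σ hσι hσσ, h.y8]
  simp only [map_mul, map_add, map_one, map_pow]
  have e : (algebraMap F L ω + 1) * (algebraMap F L ω + 1) = algebraMap F L ω := by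
    have h2 := h.two
    have hww := h.ww
    linear_combination hww + (algebraMap F L ω + 1) * h2
  have hww := h.ww
  have hy3 := h.hy
  linear_combination (algebraMap F L c ^ 2 * y ^ 4) * e + (algebraMap F L c ^ 2 * algebraMap F L ω * y) * hy3
    + (algebraMap F L c ^ 2 * y) * hww

end Cube

/-- The existence of the element `y`. -/
lemma exists_cube {F L : Type*} [Field F] [Fintype F] [Field L] [Algebra F L] [Finite L]
    (hF : Fintype.card F = 4) (hL : Module.finrank F L = 3) {ω : F} (hω : ω * ω = ω + 1) :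
    ∃ y : L, y ^ 3 = algebraMap F L ω := by
  classical
  haveI : Fintype L := Fintype.ofFinite L
  have h2 : (2 : F) = 0 := CubicFour.two_eq_zero hF
  have hω3 : ω ^ 3 = 1 := by
    linear_combination (ω + 1) * hω + (ω + 1) * h2 - h2
  have hω0 : ω ≠ 0 := by
    rintro rfl
    simp at hω3
  have hW0 : algebraMap F L ω ≠ 0 := by
    rw [Ne, map_eq_zero]
    exact hω0
  obtain ⟨γ, hγ⟩ := IsCyclic.exists_generator (α := Lˣ)
  have hLu : Nat.card Lˣ = 63 := by
    rw [Nat.card_eq_fintype_card, Fintype.card_units, ← Nat.card_eq_fintype_card, CubicFour.card_L hF hL]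
  have hord : orderOf γ = 63 := by
    rw [orderOf_eq_card_of_forall_mem_zpowers hγ, hLu]
  let u : Lˣ := Units.mk0 _ hW0
  have hu21 : u ^ 21 = 1 := by
    apply Units.ext
    rw [Units.val_pow_eq_pow_val, Units.val_mk0, Units.val_one, ← map_pow,
      show ω ^ 21 = (ω ^ 3) ^ 7 by ring, hω3, one_pow, map_one]
  obtain ⟨k, hk⟩ : ∃ k : ℕ, γ ^ k = u := (mem_powers_iff_mem_zpowers).mpr (hγ u)
  have hd : 63 ∣ k * 21 := by
    rw [← hord, orderOf_dvd_iff_pow_eq_one, pow_mul, hk, hu21]
  obtain ⟨m, rfl⟩ : 3 ∣ k := by omega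
  refine ⟨((γ ^ m : Lˣ) : L), ?_⟩
  have h3 : ((γ ^ m : Lˣ) : L) ^ 3 = ((γ ^ (3 * m) : Lˣ) : L) := by
    rw [← Units.val_pow_eq_pow_val, ← pow_mul, mul_comm]
  rw [h3, hk]
  rfl

section Plane

variable {F L V : Type*} [Field F] [Fintype F] [Field L] [Algebra F L] [Fintype L]
  [AddCommGroup V] [Module F V] [Module L V] [IsScalarTower F L V]

/-- The hypotheses on the form. -/
structure HF (f : V → V → F) (σ : L →+* L) : Prop where
  add_left : ∀ x x' z, f (x + x') z = f x z + f x' z
  smul_left : ∀ (c : F) x z, f (c • x) z = c * f x z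
  herm : ∀ x z, f z x = f x z ^ 2
  nondeg : ∀ x, (∀ z, f x z = 0) → x = 0
  adj : ∀ (a : L) x z, f (a • x) z = f x (σ a • z)

/-- The hermitian form over the field `L`. -/
noncomputable def hf (ω : F) (y : L) (f : V → V → F) (x z : V) : L :=
  algebraMap F L (f x z) + algebraMap F L ((ω + 1) * f (y • x) z) * y ^ 2 + algebraMap F L ((ω + 1) * f (y ^ 2 • x) z) * y

variable {ω : F} {y : L} {f : V → V → F} {σ : L →+* L}

lemma tr_hf_mul (h : Cube ω y) (hf' : HF f σ) (a : L) (x z : V) : h.tr (a * hf ω y f x z) = f (a • x) z := by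
  obtain ⟨a₀, a₁, a₂, rfl⟩ := h.exists_mk a
  have e1 : (algebraMap F L a₀ + algebraMap F L a₁ * y + algebraMap F L a₂ * y ^ 2) • x
      = a₀ • x + a₁ • (y • x) + a₂ • (y ^ 2 • x) := by
    rw [add_smul, add_smul, mul_smul, mul_smul, algebraMap_smul, algebraMap_smul, algebraMap_smul]
  rw [e1, hf'.add_left, hf'.add_left, hf'.smul_left, hf'.smul_left, hf'.smul_left]
  set F₀ := f x z
  set F₁ := f (y • x) z
  set F₂ := f (y ^ 2 • x) z
  have e2 : (algebraMap F L a₀ + algebraMap F L a₁ * y + algebraMap F L a₂ * y ^ 2) * hf ω y f x z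
      = algebraMap F L (a₀ * F₀ + a₁ * F₁ + a₂ * F₂) + algebraMap F L (a₀ * ((ω + 1) * F₂) + a₁ * F₀ + a₂ * F₁) * y
        + algebraMap F L (a₀ * ((ω + 1) * F₁) + a₁ * ((ω + 1) * F₂) + a₂ * F₀) * y ^ 2 := by
    have hy3 := h.hy
    have hw := h.w1w
    simp only [hf, map_add, map_mul, map_one]
    linear_combination (algebraMap F L a₁ * algebraMap F L F₁ + algebraMap F L a₂ * algebraMap F L F₂
      + algebraMap F L a₂ * algebraMap F L F₁ * y) * ((algebraMap F L ω + 1) * hy3 + hw)
  rw [e2, h.tr_mk]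

lemma tr_hf (h : Cube ω y) (hf' : HF f σ) (x z : V) : h.tr (hf ω y f x z) = f x z := by
  have := tr_hf_mul h hf' 1 x z
  rwa [one_mul, one_smul] at this

lemma hf_add_left (h : Cube ω y) (hf' : HF f σ) (x x' z : V) : hf ω y f (x + x') z = hf ω y f x z + hf ω y f x' z := by
  apply h.eq_of_tr
  intro a
  rw [tr_hf_mul h hf', mul_add, map_add, tr_hf_mul h hf', tr_hf_mul h hf', smul_add, hf'.add_left]

lemma hf_smul_left (h : Cube ω y) (hf' : HF f σ) (c : L) (x z : V) : hf ω y f (c • x) z = c * hf ω y f x z := by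
  apply h.eq_of_tr
  intro a
  rw [tr_hf_mul h hf', ← mul_assoc, tr_hf_mul h hf', mul_smul]

lemma hf_herm (h : Cube ω y) (hf' : HF f σ) (hσ : ∀ a : L, σ a = a ^ 8) (x z : V) : hf ω y f z x = hf ω y f x z ^ 8 := by
  apply h.eq_of_tr
  intro a
  have e1 : a = (a ^ 8) ^ 8 := by
    rw [← pow_mul, h.pow64]
  have e2 : a • z = σ (a ^ 8) • z := by
    rw [hσ, ← e1]
  have e3 : a * hf ω y f x z ^ 8 = (a ^ 8 * hf ω y f x z) ^ 8 := by
    rw [mul_pow, ← e1]
  rw [tr_hf_mul h hf', e3, h.tr_pow8, tr_hf_mul h hf', hf'.herm x (a • z), e2, hf'.adj]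

lemma hf_isHerm (h : Cube ω y) (hf' : HF f σ) (hσ : ∀ a : L, σ a = a ^ 8) :
    Cfsg.Agent.Lib.Classical.Herm.HermOnb.IsHerm 8 (hf ω y f : V → V → L) where
  add_left := hf_add_left h hf'
  smul_left := hf_smul_left h hf'
  herm := hf_herm h hf' hσ
  nondeg := by
    intro x hx
    apply hf'.nondeg
    intro z
    rw [← tr_hf h hf', hx, map_zero]

section Coord

variable {u : Basis (Fin 2) L V}

/-- The coordinates. -/
lemma repr_eq (x : V) : x = u.repr x 0 • u 0 + u.repr x 1 • u 1 := by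
  conv_lhs => rw [← u.sum_repr x]
  rw [Fin.sum_univ_two]

lemma hf_u (h : Cube ω y) (hf' : HF f σ) (hu : ∀ i j, hf ω y f (u i) (u j) = if i = j then 1 else 0) (x : V) (i : Fin 2) :
    hf ω y f x (u i) = u.repr x i := by
  conv_lhs => rw [repr_eq (u := u) x]
  rw [hf_add_left h hf', hf_smul_left h hf', hf_smul_left h hf', hu, hu]
  fin_cases i <;> simp

lemma hf_coord (h : Cube ω y) (hf' : HF f σ) (hσ : ∀ a : L, σ a = a ^ 8)
    (hu : ∀ i j, hf ω y f (u i) (u j) = if i = j then 1 else 0) (x z : V) :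
    hf ω y f x z = u.repr x 0 * (u.repr z 0) ^ 8 + u.repr x 1 * (u.repr z 1) ^ 8 := by
  conv_lhs => rw [repr_eq (u := u) x]
  rw [hf_add_left h hf', hf_smul_left h hf', hf_smul_left h hf', hf_herm h hf' hσ z (u 0), hf_herm h hf' hσ z (u 1),
    hf_u h hf' hu, hf_u h hf' hu]

lemma f_coord (h : Cube ω y) (hf' : HF f σ) (hσ : ∀ a : L, σ a = a ^ 8)
    (hu : ∀ i j, hf ω y f (u i) (u j) = if i = j then 1 else 0) (x z : V) :
    f x z = h.tr (u.repr x 0 * (u.repr z 0) ^ 8 + u.repr x 1 * (u.repr z 1) ^ 8) := by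
  rw [← tr_hf h hf', hf_coord h hf' hσ hu]

/-- The auxiliary bilinear form. -/
noncomputable def psi (h : Cube ω y) (u : Basis (Fin 2) L V) (x : V) : V →ₗ[F] F :=
  h.tr ∘ₗ (((LinearMap.mulLeft F (u.repr x 0)) ∘ₗ (u.coord 1).restrictScalars F)
    + ((LinearMap.mulLeft F (u.repr x 1)) ∘ₗ (u.coord 0).restrictScalars F))

lemma psi_apply (h : Cube ω y) (x z : V) :
    psi h u x z = h.tr (u.repr x 0 * u.repr z 1 + u.repr x 1 * u.repr z 0) := by
  simp [psi, Module.Basis.coord_apply]

/-- The vectors of the structure. -/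
noncomputable def pv (u : Basis (Fin 2) L V) (a : L) : V := a • u 0 + a ^ 8 • u 1

lemma repr_pv (a : L) : u.repr (pv u a) 0 = a ∧ u.repr (pv u a) 1 = a ^ 8 := by
  simp [pv]

lemma psi_pv (h : Cube ω y) (hf' : HF f σ) (hσ : ∀ a : L, σ a = a ^ 8)
    (hu : ∀ i j, hf ω y f (u i) (u j) = if i = j then 1 else 0) (x : V) (a : L) :
    psi h u x (pv u a) = f x (pv u a) := by
  obtain ⟨h0, h1⟩ := repr_pv (u := u) a
  rw [psi_apply, f_coord h hf' hσ hu, h0, h1, ← pow_mul, h.pow64]

lemma f_pv (h : Cube ω y) (hf' : HF f σ) (hσ : ∀ a : L, σ a = a ^ 8)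
    (hu : ∀ i j, hf ω y f (u i) (u j) = if i = j then 1 else 0) (a b : L) :
    f (pv u a) (pv u b) = h.tr (a * b ^ 8 + a ^ 8 * b) := by
  obtain ⟨h0, h1⟩ := repr_pv (u := u) a
  obtain ⟨h2, h3⟩ := repr_pv (u := u) b
  rw [f_coord h hf' hσ hu, h0, h1, h2, h3, ← pow_mul, h.pow64]

lemma f_pv_sq (h : Cube ω y) (hf' : HF f σ) (hσ : ∀ a : L, σ a = a ^ 8)
    (hu : ∀ i j, hf ω y f (u i) (u j) = if i = j then 1 else 0) (a b : L) :
    f (pv u a) (pv u b) ^ 2 = f (pv u a) (pv u b) := by
  rw [f_pv h hf' hσ hu, ← h.tr_pow8, h.add8, mul_pow, mul_pow, ← pow_mul, ← pow_mul, h.pow64, h.pow64, add_comm]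

lemma f_pv_self (h : Cube ω y) (hf' : HF f σ) (hσ : ∀ a : L, σ a = a ^ 8)
    (hu : ∀ i j, hf ω y f (u i) (u j) = if i = j then 1 else 0) (a : L) :
    f (pv u a) (pv u a) = 0 := by
  rw [f_pv h hf' hσ hu]
  have h2 := h.two
  have : a * a ^ 8 + a ^ 8 * a = 0 := by
    linear_combination a ^ 9 * h2
  rw [this, map_zero]

/-- **The key computation.** -/
theorem g_scale (h : Cube ω y) (hf' : HF f σ) (hσ : ∀ a : L, σ a = a ^ 8)
    (hu : ∀ i j, hf ω y f (u i) (u j) = if i = j then 1 else 0) [Module.Finite F V] {g : V →ₗ[F] V} {τ : L →ₐ[F] L}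
    (hgτ : ∀ (a : L) (x : V), g (a • x) = τ a • g x) (hU : ∀ x z, f (g x) (g z) = f x z) (hdet : LinearMap.det g = 1) :
    ∃ s : F, s ≠ 0 ∧ s ^ 3 = 1 ∧ ∀ x z, psi h u (g x) (g z) = s * psi h u x z := by
  classical
  have h2 := h.two
  let A : Matrix (Fin 2) (Fin 2) L := fun i j => u.repr (g (u j)) i
  have hgx : ∀ x i, u.repr (g x) i = τ (u.repr x 0) * A i 0 + τ (u.repr x 1) * A i 1 := by
    intro x i
    conv_lhs => rw [repr_eq (u := u) x]
    rw [map_add, hgτ, hgτ, map_add, map_smul, map_smul]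
    rfl
  have hτs : Function.Surjective τ := by
    apply (Finite.injective_iff_surjective).mp
    exact τ.toRingHom.injective
  have hfτ : ∀ x z, hf ω y f (g x) (g z) = τ (hf ω y f x z) := by
    intro x z
    apply h.eq_of_tr
    intro a
    obtain ⟨a', rfl⟩ := hτs a
    rw [tr_hf_mul h hf', ← hgτ, hU, ← tr_hf_mul h hf', ← map_mul, h.tr_alg]
  have huni : ∀ i j, ∑ k, A k i * (A k j) ^ 8 = if i = j then 1 else 0 := by
    intro i j
    rw [Fin.sum_univ_two]
    have := hfτ (u i) (u j)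
    rw [hf_coord h hf' hσ hu, hu] at this
    rw [show A 0 i = u.repr (g (u i)) 0 from rfl, show A 1 i = u.repr (g (u i)) 1 from rfl,
      show A 0 j = u.repr (g (u j)) 0 from rfl, show A 1 j = u.repr (g (u j)) 1 from rfl, this]
    split_ifs <;> simp
  let frob : L →+* L :=
    { toFun := fun a => a ^ 8
      map_one' := one_pow 8
      map_mul' := fun a b => mul_pow a b 8
      map_zero' := zero_pow (by norm_num)
      map_add' := h.add8 }
  have hΔ9 : A.det ^ 9 = 1 := by
    have h1 : Aᵀ * A.map frob = 1 := by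
      ext i j
      rw [Matrix.mul_apply, Matrix.one_apply, ← huni i j]
      rfl
    have h3 := congrArg Matrix.det h1
    rw [Matrix.det_mul, Matrix.det_transpose, Matrix.det_one] at h3
    have h4 : (A.map frob).det = frob A.det := (RingHom.map_det frob A).symm
    rw [h4] at h3
    have h5 : frob A.det = A.det ^ 8 := rfl
    rw [h5] at h3
    linear_combination h3
  -- the linear part
  let G₁ : V →ₗ[L] V := u.constr L (fun j => g (u j))
  have hG₁ : ∀ j, G₁ (u j) = g (u j) := fun j => by simp [G₁]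
  have hdetG : LinearMap.det G₁ = A.det := by
    rw [← LinearMap.det_toMatrix u G₁]
    congr 1
    ext i j
    rw [LinearMap.toMatrix_apply, hG₁]
  have hrepr_smul : ∀ (c : F) (x : V) (i : Fin 2), u.repr (c • x) i = algebraMap F L c * u.repr x i := by
    intro c x i
    rw [← algebraMap_smul L c x, map_smul, Finsupp.smul_apply, smul_eq_mul]
  let φ : V →ₗ[F] V :=
    { toFun := fun x => τ (u.repr x 0) • u 0 + τ (u.repr x 1) • u 1
      map_add' := fun x x' => by
        simp only [map_add, Finsupp.add_apply, add_smul]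
        abel
      map_smul' := fun c x => by
        simp only [hrepr_smul, map_mul, AlgHom.commutes, RingHom.id_apply, smul_add, mul_smul, algebraMap_smul] }
  have hφ : ∀ x, φ x = τ (u.repr x 0) • u 0 + τ (u.repr x 1) • u 1 := fun _ => rfl
  have hgG : g = (G₁.restrictScalars F) ∘ₗ φ := by
    ext x
    rw [LinearMap.comp_apply, hφ, LinearMap.restrictScalars_apply, map_add, map_smul, map_smul, hG₁, hG₁, ← hgτ, ← hgτ,
      ← map_add, ← repr_eq]
  obtain ⟨c₀, hc₃, hτy⟩ := h.tau_y τ
  have hdetφ : LinearMap.det φ = 1 := by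
    let e : Basis (Fin 3 × Fin 2) F V := h.basis.smulTower u
    have hτb : ∀ i : Fin 3, τ (h.basis i) = algebraMap F L (c₀ ^ (i : ℕ)) * h.basis i := by
      intro i
      fin_cases i
      · show τ (h.basis 0) = algebraMap F L (c₀ ^ 0) * h.basis 0
        rw [h.basis_zero]
        simp
      · show τ (h.basis 1) = algebraMap F L (c₀ ^ 1) * h.basis 1
        rw [h.basis_one, hτy]
        simp
      · show τ (h.basis 2) = algebraMap F L (c₀ ^ 2) * h.basis 2
        rw [h.basis_two, map_pow, hτy]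
        simp only [map_pow]
        ring
    have hφe : ∀ p, φ (e p) = c₀ ^ (p.1 : ℕ) • e p := by
      rintro ⟨i, j⟩
      have e1 : e (i, j) = h.basis i • u j := Module.Basis.smulTower_apply _ _ _
      rw [e1, hφ]
      have hr : ∀ k, u.repr (h.basis i • u j) k = h.basis i * (if j = k then 1 else 0) := by
        intro k
        rw [map_smul, Finsupp.smul_apply, Module.Basis.repr_self, Finsupp.single_apply, smul_eq_mul]
      rw [hr, hr]
      have key : ∀ a : L, τ (h.basis i * a) = algebraMap F L (c₀ ^ (i : ℕ)) * h.basis i * τ a := by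
        intro a
        rw [map_mul, hτb]
      rw [key, key]
      rw [← algebraMap_smul L (c₀ ^ (i : ℕ)) (h.basis i • u j), smul_smul]
      fin_cases j <;> simp
    rw [← LinearMap.det_toMatrix e φ]
    have hmat : LinearMap.toMatrix e e φ = Matrix.diagonal fun p : Fin 3 × Fin 2 => c₀ ^ (p.1 : ℕ) := by
      ext p p'
      rw [LinearMap.toMatrix_apply, hφe, map_smul, Finsupp.smul_apply, Module.Basis.repr_self, Finsupp.single_apply,
        Matrix.diagonal_apply, smul_eq_mul]
      by_cases hpp : p' = p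
      · subst hpp
        simp
      · have hpp' : ¬ p = p' := fun h => hpp h.symm
        simp [hpp, hpp']
    rw [hmat, Matrix.det_diagonal, Fintype.prod_prod_type]
    simp only [Fin.prod_univ_two, Fin.prod_univ_three]
    simp only [Fin.val_zero, Fin.val_one, Fin.val_two, pow_zero, pow_one, one_mul]
    linear_combination (c₀ ^ 3 + 1) * hc₃
  have h21 : A.det ^ 21 = 1 := by
    have h1 : LinearMap.det (G₁.restrictScalars F) = Algebra.norm F A.det := by
      rw [LinearMap.det_restrictScalars, hdetG]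
    have h3 : LinearMap.det g = Algebra.norm F A.det := by
      rw [hgG, LinearMap.det_comp, hdetφ, mul_one, h1]
    rw [hdet] at h3
    have h4 := FiniteField.algebraMap_norm_eq_pow (K := F) (K' := L) (x := A.det)
    rw [← h3, map_one, CubicFour.card_L h.card4 h.fr, Nat.card_eq_fintype_card, h.card4] at h4
    exact h4.symm
  have hΔ3 : A.det ^ 3 = 1 := by
    linear_combination h21 - (A.det ^ 12 + A.det ^ 3) * hΔ9
  have hΔ4 : A.det ^ 4 = A.det := by
    linear_combination A.det * hΔ3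
  obtain ⟨s, hs⟩ := CubicFour.mem_scalar_of_pow_four h.card4 h.fr hΔ4
  have hs3 : s ^ 3 = 1 := by
    apply (algebraMap F L).injective
    rw [map_pow, ← hs, hΔ3, map_one]
  refine ⟨s, ?_, hs3, ?_⟩
  · rintro rfl
    rw [zero_pow (by norm_num)] at hs3
    exact zero_ne_one hs3
  · intro x z
    rw [psi_apply, psi_apply, hgx, hgx, hgx, hgx]
    have hdt : A.det = A 0 0 * A 1 1 - A 0 1 * A 1 0 := Matrix.det_fin_two A
    have key : (τ (u.repr x 0) * A 0 0 + τ (u.repr x 1) * A 0 1) * (τ (u.repr z 0) * A 1 0 + τ (u.repr z 1) * A 1 1)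
        + (τ (u.repr x 0) * A 1 0 + τ (u.repr x 1) * A 1 1) * (τ (u.repr z 0) * A 0 0 + τ (u.repr z 1) * A 0 1)
        = algebraMap F L s * τ (u.repr x 0 * u.repr z 1 + u.repr x 1 * u.repr z 0) := by
      rw [← hs, hdt, map_add, map_mul, map_mul]
      linear_combination (τ (u.repr x 0) * τ (u.repr z 0) * A 0 0 * A 1 0 + τ (u.repr x 1) * τ (u.repr z 1) * A 0 1 * A 1 1
        + (τ (u.repr x 0) * τ (u.repr z 1) + τ (u.repr x 1) * τ (u.repr z 0)) * A 0 1 * A 1 0) * h2
    rw [key, h.tr_mul, h.tr_alg]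

lemma repr_smul_F (c : F) (x : V) (i : Fin 2) : u.repr (c • x) i = algebraMap F L c * u.repr x i := by
  rw [← algebraMap_smul L c x, map_smul, Finsupp.smul_apply, smul_eq_mul]

lemma pv_add (h : Cube ω y) (a b : L) : pv u (a + b) = pv u a + pv u b := by
  simp only [pv, h.add8, add_smul]
  abel

lemma pv_smul (h : Cube ω y) {t : F} (ht : t ^ 2 = t) (a : L) : pv u (algebraMap F L t * a) = t • pv u a := by
  have e : (algebraMap F L t) ^ 8 = algebraMap F L t := by
    rw [h.i8, ht]
  simp only [pv, mul_pow, e, mul_smul, algebraMap_smul, smul_add]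

/-- The six vectors. -/
noncomputable def cc (ω : F) (y : L) : Fin 6 → L :=
  ![1, algebraMap F L ω, y, algebraMap F L ω * y, y ^ 2, algebraMap F L ω * y ^ 2]

/-- Their independence. -/
lemma cc_indep (h : Cube ω y) : LinearIndependent F (fun k => pv u (cc ω y k)) := by
  have h2 := h.two
  have h2' := h.two'
  have hω := h.hω
  have hww := h.ww
  have e1 : (algebraMap F L ω + 1) * (algebraMap F L ω + 1) = algebraMap F L ω := by
    linear_combination hww + (algebraMap F L ω + 1) * h2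
  have hW8 : (algebraMap F L ω) ^ 8 = algebraMap F L ω + 1 := by
    rw [h.i8, pow_two, hω, map_add, map_one]
  rw [Fintype.linearIndependent_iff]
  intro r hr
  have h0 := congrArg (fun w => u.repr w 0) hr
  have h1 := congrArg (fun w => u.repr w 1) hr
  simp only [Fin.sum_univ_six, map_add, Finsupp.add_apply, repr_smul_F, (repr_pv (u := u) _).1, (repr_pv (u := u) _).2,
    map_zero, Finsupp.zero_apply] at h0 h1
  simp only [cc, Matrix.cons_val] at h0 h1
  rw [one_pow, mul_pow, mul_pow, hW8, h.y8, h.y16] at h1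
  -- the first coordinate
  have a0 := h.indep (a := r 0 + r 1 * ω) (b := r 2 + r 3 * ω) (c := r 4 + r 5 * ω) (by
    simp only [map_add, map_mul]
    linear_combination h0)
  have a1 := h.indep (a := r 0 + r 1 * (ω + 1)) (b := r 4 * (ω + 1) + r 5 * ω) (c := r 2 * (ω + 1) + r 3 * ω) (by
    simp only [map_add, map_mul, map_one]
    linear_combination h1 - (algebraMap F L (r 3) * y ^ 2 + algebraMap F L (r 5) * y) * e1)
  obtain ⟨b0, b1, b2⟩ := a0
  obtain ⟨c0, c1, c2⟩ := a1
  have hω1 : ω + 1 ≠ 0 := by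
    intro h0
    have : ω * ω = 0 := by rw [hω, h0]
    have hω0 : ω = 0 := mul_self_eq_zero.mp this
    rw [hω0, zero_add] at h0
    exact one_ne_zero h0
  have hωω : (ω + 1) * ω = 1 := by
    linear_combination hω + ω * h2'
  have r1 : r 1 = 0 := by linear_combination c0 - b0
  have r0 : r 0 = 0 := by
    rw [r1] at b0
    linear_combination b0
  have r3 : r 3 = 0 := by
    have : r 3 * (ω + 1) = 0 := by
      linear_combination c2 - (ω + 1) * b1 + r 3 * hωω + r 3 * h2'
    exact (mul_eq_zero.mp this).resolve_right hω1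
  have r2 : r 2 = 0 := by
    rw [r3] at b1
    linear_combination b1
  have r5 : r 5 = 0 := by
    have : r 5 * (ω + 1) = 0 := by
      linear_combination c1 - (ω + 1) * b2 + r 5 * hωω + r 5 * h2'
    exact (mul_eq_zero.mp this).resolve_right hω1
  have r4 : r 4 = 0 := by
    rw [r5] at b2
    linear_combination b2
  intro k
  fin_cases k
  · exact r0
  · exact r1
  · exact r2
  · exact r3
  · exact r4
  · exact r5

end Coord

/-- The orthonormal basis. -/
theorem exists_u (h : Cube ω y) (hf' : HF f σ) (hσ : ∀ a : L, σ a = a ^ 8) [Module.Finite F V]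
    (hV : Module.finrank F V = 6) :
    ∃ u : Basis (Fin 2) L V, ∀ i j, hf ω y f (u i) (u j) = if i = j then 1 else 0 := by
  classical
  have hcard : Fintype.card L = 8 ^ 2 := by
    rw [← Nat.card_eq_fintype_card, CubicFour.card_L h.card4 h.fr]
    norm_num
  haveI : FiniteDimensional L V := Module.Finite.of_restrictScalars_finite F L V
  have hfr : Module.finrank L V = 2 := by
    have := Module.finrank_mul_finrank F L V
    rw [h.fr, hV] at this
    omega
  obtain ⟨b, hb⟩ := Cfsg.Agent.Lib.Classical.Herm.HermOnb.exists_onb hcard 2 V (hf ω y f) (hf_isHerm h hf' hσ) hfr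
  have hind : LinearIndependent L b := by
    rw [Fintype.linearIndependent_iff]
    intro c hc j
    have h0 := congrArg (fun w => hf ω y f w (b j)) hc
    simp only [Fin.sum_univ_two] at h0
    rw [hf_add_left h hf', hf_smul_left h hf', hf_smul_left h hf', hb, hb] at h0
    have h3 : hf ω y f (0 : V) (b j) = 0 := by
      have := hf_smul_left h hf' (0 : L) (0 : V) (b j)
      rwa [zero_smul, zero_mul] at this
    rw [h3] at h0
    fin_cases j <;> simpa using h0
  refine ⟨basisOfLinearIndependentOfCardEqFinrank hind (by rw [hfr]; simp), fun i j => ?_⟩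
  simp only [coe_basisOfLinearIndependentOfCardEqFinrank]
  exact hb i j

end Plane

section Final

open Cfsg Cfsg.Geo Cfsg.Agent.Lib.Classical.Asch.Basic Cfsg.Agent.Lib.Classical.Asch
open Cfsg.Agent.Lib.Classical.Asch.NotSU Cfsg.Agent.Lib.Classical.Asch.Adj
open Cfsg.Agent.Lib.Classical.Herm.Basic
open Cfsg.Agent.Lib.Classical.Herm.PSLGraphField (sigE sigE_apply)
open Cfsg.Agent.Lib.Classical.Herm.Descent (fixF mem_fixF)

variable {F : Type*} [Field F] [Fintype F]

/-- The `ψ`-method: a linear form comparing with the hermitian form on a basis. -/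
theorem psi_entries {q n : ℕ} (hF : Fintype.card F = q ^ 2) (b : Basis (Fin n) F (Fin n → F)) (P : GL (Fin n) F)
    (hPe : ∀ x, (P : Matrix (Fin n) (Fin n) F) *ᵥ (Pi.single x 1) = b x)
    (hPi : ∀ u : Fin n → F, ((P⁻¹ : GL (Fin n) F) : Matrix (Fin n) (Fin n) F) *ᵥ u = fun i => b.repr u i)
    (ψ : (Fin n → F) → (Fin n → F) →ₗ[F] F) (hpb : ∀ z k, ψ z (b k) = hermForm n F q z (b k))
    {g : GL (Fin n) F} (hU : g ∈ GU n F q) {s μ : F}
    (hpsi : ∀ x y, ψ ((g : Matrix (Fin n) (Fin n) F) *ᵥ x) ((g : Matrix (Fin n) (Fin n) F) *ᵥ y) = s * ψ x y)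
    (hμ0 : μ ≠ 0) (hμ : μ ^ q = μ * s) : g ∈ subfieldSubgroup (fixF (sigE hF)) P := by
  classical
  have hq0 : q ≠ 0 := by have := two_le_q hF; omega
  have hU' : ∀ u v : Fin n → F, hermForm n F q ((g : Matrix (Fin n) (Fin n) F) *ᵥ u) ((g : Matrix (Fin n) (Fin n) F) *ᵥ v)
      = hermForm n F q u v := hU
  refine FormSU2.mem_subfieldSubgroup_of_entries _ hμ0 fun k j => ?_
  have hent : ((P⁻¹ * g * P : GL (Fin n) F) : Matrix (Fin n) (Fin n) F) k j
      = b.repr ((g : Matrix (Fin n) (Fin n) F) *ᵥ b j) k := by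
    have h1 : ((P⁻¹ * g * P : GL (Fin n) F) : Matrix (Fin n) (Fin n) F) *ᵥ (Pi.single j 1)
        = fun i => b.repr ((g : Matrix (Fin n) (Fin n) F) *ᵥ b j) i := by
      rw [Units.val_mul, Units.val_mul, ← Matrix.mulVec_mulVec, ← Matrix.mulVec_mulVec, hPe, hPi]
    have h2 := congrFun h1 k
    rw [Matrix.mulVec_single_one] at h2
    exact h2
  rw [hent, mem_fixF, sigE_apply]
  set y := (g : Matrix (Fin n) (Fin n) F) *ᵥ b j with hy
  have hyexp : y = ∑ k, b.repr y k • b k := (b.sum_repr y).symm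
  have hsumR : ∀ (c : Fin n → F) (z : Fin n → F), hermForm n F q z (∑ k, c k • b k) = ∑ k, (c k) ^ q * hermForm n F q z (b k) := by
    intro c z
    have h3 : ∀ (s : Finset (Fin n)), hermForm n F q z (∑ k ∈ s, c k • b k) = ∑ k ∈ s, (c k) ^ q * hermForm n F q z (b k) := by
      intro s
      induction s using Finset.cons_induction with
      | empty => simp [hermForm_zero_right hF]
      | cons a s ha ih =>
        rw [Finset.sum_cons, Finset.sum_cons, hermForm_add_right hF, hermForm_smul_right, ih]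
    exact h3 _
  have hz : ∀ z : Fin n → F, ∑ k, (b.repr y k - s * (b.repr y k) ^ q) * hermForm n F q z (b k) = 0 := by
    intro z
    let x : Fin n → F := ((g⁻¹ : GL (Fin n) F) : Matrix (Fin n) (Fin n) F) *ᵥ z
    have hgx : (g : Matrix (Fin n) (Fin n) F) *ᵥ x = z := by
      simp only [x]
      rw [Matrix.mulVec_mulVec, ← Units.val_mul, mul_inv_cancel]
      simp
    have e1 : hermForm n F q z y = hermForm n F q x (b j) := by
      rw [← hgx, hy]
      exact hU' _ _
    have e2 : ψ z y = s * hermForm n F q x (b j) := by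
      rw [← hpb, ← hpsi, hgx]
    have e3 : ψ z y = ∑ k, b.repr y k * hermForm n F q z (b k) := by
      conv_lhs => rw [hyexp]
      rw [map_sum]
      refine Finset.sum_congr rfl fun k _ => ?_
      rw [map_smul, smul_eq_mul, hpb]
    have e4 : hermForm n F q z y = ∑ k, (b.repr y k) ^ q * hermForm n F q z (b k) := by
      conv_lhs => rw [hyexp]
      exact hsumR _ z
    have e5 : ∑ k, (b.repr y k - s * (b.repr y k) ^ q) * hermForm n F q z (b k)
        = ∑ k, b.repr y k * hermForm n F q z (b k) - s * ∑ k, (b.repr y k) ^ q * hermForm n F q z (b k) := by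
      rw [Finset.mul_sum, ← Finset.sum_sub_distrib]
      exact Finset.sum_congr rfl fun k _ => by ring
    rw [e5, ← e3, ← e4, e1, e2]
    ring
  have hzero : ∑ k, (b.repr y k - s * (b.repr y k) ^ q) ^ q • b k = 0 := by
    apply hermForm_nondegenerate_right hF n _
    intro z
    rw [hsumR, ← hz z]
    refine Finset.sum_congr rfl fun k _ => ?_
    rw [pow_q_pow_q hF]
  have hck : ∀ k, b.repr y k = s * (b.repr y k) ^ q := by
    intro k
    have h1 := (Fintype.linearIndependent_iff.mp b.linearIndependent _ hzero) k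
    exact sub_eq_zero.mp ((pow_eq_zero_iff hq0).mp h1)
  rw [mul_pow, hμ, mul_assoc, ← hck k]

/-- **The normaliser of a cubic subfield in `SU₆(2)` lies in a symplectic subfield group.** -/
theorem cubic_le (hF : Fintype.card F = 2 ^ 2) {K : Subalgebra F (Matrix (Fin 6) (Fin 6) F)} (hK : IsFieldSubalgebra 3 K)
    (hadj : IsAdjointClosedFor (hermForm 6 F 2) K) :
    ∃ P : GL (Fin 6) F, IsFormRationalStructure (hermForm 6 F 2) (fixF (sigE hF)) 1 P ∧
      (∀ u : Fin 6 → F, (∀ i, u i ∈ fixF (sigE hF)) →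
        hermForm 6 F 2 ((P : Matrix (Fin 6) (Fin 6) F) *ᵥ u) ((P : Matrix (Fin 6) (Fin 6) F) *ᵥ u) = 0) ∧
      subalgebraNormalizer K ⊓ II 6 F 2 ≤ subfieldSubgroup (fixF (sigE hF)) P := by
  classical
  have hF4' : Fintype.card F = 4 := by rw [hF]; norm_num
  have h2 : (2 : F) = 0 := CubicFour.two_eq_zero hF4'
  have hF4 : ∀ x : F, x ^ 4 = x := CubicFour.pow_four hF4'
  obtain ⟨ω, hω⟩ : ∃ ω : F, ω * ω = ω + 1 := by
    obtain ⟨x, -, hx⟩ := Finset.exists_mem_notMem_of_card_lt_card (s := ({0, 1} : Finset F)) (t := Finset.univ) (by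
      rw [Finset.card_univ, hF]
      exact (Finset.card_le_two).trans_lt (by norm_num))
    simp only [Finset.mem_insert, Finset.mem_singleton, not_or] at hx
    refine ⟨x, ?_⟩
    have h3 := hF4 x
    have h4 : x * (x + 1) * (x * x + x + 1) = 0 := by
      linear_combination h3 + (x + x ^ 2 + x ^ 3) * h2
    have h5 : x + 1 ≠ 0 := by
      intro h6
      apply hx.2
      linear_combination h6 - h2
    have h6 := (mul_eq_zero.mp h4).resolve_left (mul_ne_zero hx.1 h5)
    linear_combination h6 - (x + 1) * h2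
  have hf : ReflForm (sigE hF) 1 (hermForm 6 F 2) := FormSU.refl_hermForm hF
  have hcl : ∀ k ∈ K, adj (sigE hF) (hermForm 6 F 2) k ∈ K := by
    intro k hk
    obtain ⟨k', hk', h⟩ := hadj k hk
    rw [← hf.eq_adj h]
    exact hk'
  haveI : Nonempty (Fin 6) := ⟨0⟩
  letI instF : Field ↥K := (FormField.isField_of hK).toField
  letI instA : Algebra F ↥K := K.algebra
  haveI : Finite ↥K := inferInstance
  letI : Fintype ↥K := Fintype.ofFinite _
  letI mod : Module ↥K (Fin 6 → F) :=
    { smul := fun k v => (k : Matrix (Fin 6) (Fin 6) F) *ᵥ v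
      one_smul := fun v => by
        show (1 : Matrix (Fin 6) (Fin 6) F) *ᵥ v = v
        rw [Matrix.one_mulVec]
      mul_smul := fun a b v => by
        show ((a : Matrix (Fin 6) (Fin 6) F) * (b : Matrix (Fin 6) (Fin 6) F)) *ᵥ v = _
        rw [← Matrix.mulVec_mulVec]
        rfl
      smul_zero := fun a => Matrix.mulVec_zero _
      smul_add := fun a v w => Matrix.mulVec_add _ _ _
      add_smul := fun a b v => by
        show ((a : Matrix (Fin 6) (Fin 6) F) + (b : Matrix (Fin 6) (Fin 6) F)) *ᵥ v = _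
        rw [Matrix.add_mulVec]
        rfl
      zero_smul := fun v => by
        show (0 : Matrix (Fin 6) (Fin 6) F) *ᵥ v = 0
        rw [Matrix.zero_mulVec] }
  have hsmul : ∀ (k : ↥K) (v : Fin 6 → F), k • v = (k : Matrix (Fin 6) (Fin 6) F) *ᵥ v := fun _ _ => rfl
  haveI : IsScalarTower F ↥K (Fin 6 → F) := ⟨fun c k v => by
    show (c • (k : Matrix (Fin 6) (Fin 6) F)) *ᵥ v = c • ((k : Matrix (Fin 6) (Fin 6) F) *ᵥ v)
    rw [Matrix.smul_mulVec]⟩
  let σK : ↥K →+* ↥K :=
    { toFun := fun k => ⟨adj (sigE hF) (hermForm 6 F 2) k.1, hcl _ k.2⟩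
      map_one' := Subtype.ext hf.adj_one
      map_mul' := fun x y => Subtype.ext (by
        show adj (sigE hF) (hermForm 6 F 2) (x.1 * y.1) = adj (sigE hF) (hermForm 6 F 2) x.1 * adj (sigE hF) (hermForm 6 F 2) y.1
        rw [hf.adj_mul]
        exact hK.comm _ (hcl _ y.2) _ (hcl _ x.2))
      map_zero' := Subtype.ext hf.adj_zero
      map_add' := fun x y => Subtype.ext (hf.adj_add x.1 y.1) }
  have hσval : ∀ k : ↥K, ((σK k : ↥K) : Matrix (Fin 6) (Fin 6) F) = adj (sigE hF) (hermForm 6 F 2) k.1 := fun _ => rfl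
  have hal : ∀ c : F, ((algebraMap F ↥K c : ↥K) : Matrix (Fin 6) (Fin 6) F) = c • (1 : Matrix (Fin 6) (Fin 6) F) := by
    intro c
    rw [Algebra.algebraMap_eq_smul_one]
    rfl
  have hσι : ∀ c : F, σK (algebraMap F ↥K c) = algebraMap F ↥K (c ^ 2) := by
    intro c
    apply Subtype.ext
    rw [hσval, hal, hal, hf.adj_smul, hf.adj_one, sigE_apply]
  have hσσ : ∀ x, σK (σK x) = x := fun k => Subtype.ext (hf.adj_adj k.1)
  have hf' : HF (L := ↥K) (hermForm 6 F 2) σK :=
    { add_left := fun x x' z => hermForm_add_left 6 x x' z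
      smul_left := fun c x z => hermForm_smul_left 6 c x z
      herm := fun x z => (hermForm_pow_q hF 6 x z).symm
      nondeg := by
        intro x hx
        apply hermForm_nondegenerate_right hF 6 x
        intro z
        rw [← hermForm_pow_q hF 6 x z, hx z, zero_pow (by norm_num)]
      adj := fun a x z => hf.adj_spec a.1 x z }
  obtain ⟨y, hy⟩ := exists_cube (L := ↥K) hF4' hK.finrank_eq hω
  have h : Cube ω y := ⟨hF4', hK.finrank_eq, hω, hy⟩
  have hσ := h.sigma_eq σK hσι hσσ
  obtain ⟨u, hu⟩ := exists_u h hf' hσ (by simp)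
  let b : Basis (Fin 6) F (Fin 6 → F) := basisOfLinearIndependentOfCardEqFinrank (cc_indep (u := u) h) (by simp)
  have hb : ∀ k, b k = pv u (cc ω y k) := fun k => by simp [b]
  obtain ⟨P, hPe, hPi, hPu⟩ := SUPair.exists_glOfBasis b
  have hPF : ∀ t : Fin 6 → F, (∀ i, t i ∈ fixF (sigE hF)) →
      (P : Matrix (Fin 6) (Fin 6) F) *ᵥ t = pv u (∑ k, algebraMap F ↥K (t k) * cc ω y k) := by
    intro t ht
    have ht' : ∀ i, t i ^ 2 = t i := fun i => by
      have := ht i
      rw [mem_fixF, sigE_apply] at this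
      exact this
    rw [hPu, Fin.sum_univ_six, Fin.sum_univ_six]
    simp only [hb, pv_add h, pv_smul h (ht' _)]
  refine ⟨P, ?_, ?_, ?_⟩
  · intro t t' ht ht'
    rw [one_mul, mem_fixF, sigE_apply, hPF t ht, hPF t' ht']
    exact f_pv_sq h hf' hσ hu _ _
  · intro t ht
    rw [hPF t ht]
    exact f_pv_self h hf' hσ hu _
  · rintro g ⟨hg, hgU, hgS⟩
    have hgi : (g : Matrix (Fin 6) (Fin 6) F) * ((g⁻¹ : GL (Fin 6) F) : Matrix (Fin 6) (Fin 6) F) = 1 := by
      rw [← Units.val_mul, mul_inv_cancel, Units.val_one]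
    have hig : ((g⁻¹ : GL (Fin 6) F) : Matrix (Fin 6) (Fin 6) F) * (g : Matrix (Fin 6) (Fin 6) F) = 1 := by
      rw [← Units.val_mul, inv_mul_cancel, Units.val_one]
    let τ : ↥K →ₐ[F] ↥K :=
      { toFun := fun k => ⟨(g : Matrix (Fin 6) (Fin 6) F) * k.1 * ((g⁻¹ : GL (Fin 6) F) : Matrix (Fin 6) (Fin 6) F), (hg k.1).mp k.2⟩
        map_one' := Subtype.ext (by
          show (g : Matrix (Fin 6) (Fin 6) F) * 1 * ((g⁻¹ : GL (Fin 6) F) : Matrix (Fin 6) (Fin 6) F) = 1
          rw [mul_one, hgi])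
        map_mul' := fun a b => Subtype.ext (by
          show (g : Matrix (Fin 6) (Fin 6) F) * (a.1 * b.1) * ((g⁻¹ : GL (Fin 6) F) : Matrix (Fin 6) (Fin 6) F)
            = ((g : Matrix (Fin 6) (Fin 6) F) * a.1 * ((g⁻¹ : GL (Fin 6) F) : Matrix (Fin 6) (Fin 6) F))
              * ((g : Matrix (Fin 6) (Fin 6) F) * b.1 * ((g⁻¹ : GL (Fin 6) F) : Matrix (Fin 6) (Fin 6) F))
          calc _ = (g : Matrix (Fin 6) (Fin 6) F) * a.1 * 1 * b.1 * ((g⁻¹ : GL (Fin 6) F) : Matrix (Fin 6) (Fin 6) F) := by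
                simp only [mul_one, mul_assoc]
            _ = _ := by
                rw [← hig]
                simp only [mul_assoc])
        map_zero' := Subtype.ext (by
          show (g : Matrix (Fin 6) (Fin 6) F) * 0 * ((g⁻¹ : GL (Fin 6) F) : Matrix (Fin 6) (Fin 6) F) = 0
          simp)
        map_add' := fun a b => Subtype.ext (by
          show (g : Matrix (Fin 6) (Fin 6) F) * (a.1 + b.1) * ((g⁻¹ : GL (Fin 6) F) : Matrix (Fin 6) (Fin 6) F) = _ + _
          rw [mul_add, add_mul])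
        commutes' := fun c => Subtype.ext (by
          show (g : Matrix (Fin 6) (Fin 6) F) * ((algebraMap F ↥K c : ↥K) : Matrix (Fin 6) (Fin 6) F) * ((g⁻¹ : GL (Fin 6) F) : Matrix (Fin 6) (Fin 6) F)
            = ((algebraMap F ↥K c : ↥K) : Matrix (Fin 6) (Fin 6) F)
          rw [hal, Matrix.mul_smul, Matrix.smul_mul, mul_one, hgi]) }
    have hτval : ∀ k : ↥K, ((τ k : ↥K) : Matrix (Fin 6) (Fin 6) F)
        = (g : Matrix (Fin 6) (Fin 6) F) * k.1 * ((g⁻¹ : GL (Fin 6) F) : Matrix (Fin 6) (Fin 6) F) := fun _ => rfl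
    let gL : (Fin 6 → F) →ₗ[F] (Fin 6 → F) := Matrix.toLin' (g : Matrix (Fin 6) (Fin 6) F)
    have hgL : ∀ x, gL x = (g : Matrix (Fin 6) (Fin 6) F) *ᵥ x := fun x => Matrix.toLin'_apply _ _
    have hgτ : ∀ (a : ↥K) (x : Fin 6 → F), gL (a • x) = τ a • gL x := by
      intro a x
      rw [hgL, hgL, hsmul, hsmul, hτval, Matrix.mulVec_mulVec, Matrix.mulVec_mulVec, mul_assoc, mul_assoc, hig, mul_one]
    have hU : ∀ x z, hermForm 6 F 2 (gL x) (gL z) = hermForm 6 F 2 x z := by
      intro x z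
      rw [hgL, hgL]
      exact hgU x z
    have hdet : LinearMap.det gL = 1 := by
      rw [LinearMap.det_toLin']
      exact (Cfsg.Agent.Lib.Classical.Geo.Basic.mem_specialLinear_iff g).mp hgS
    obtain ⟨s, hs0, -, hψ⟩ := g_scale h hf' hσ hu hgτ hU hdet
    refine psi_entries hF b P hPe hPi (psi h u) ?_ hgU (s := s) (μ := s) ?_ hs0 (by ring)
    · intro z k
      rw [hb]
      exact psi_pv h hf' hσ hu z _
    · intro x z
      have := hψ x z
      rwa [hgL, hgL] at this

end Final

end Cfsg.Agent.Lib.Classical.Asch.SUSixCubic
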