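import Mathlib
import Cfsg.Agent.Lib.Classical.Asch.SURows

/-!
# A computable model of the field with `p²` elements, `p = 3, 5`, and of three by three matrices over it

The field is `𝔽_p[s]/(s² - 2)`; elements are pairs of natural numbers, all operations reduce modulo `p`.  The results
of finite computations are transported to an abstract field with `p²` elements through `liftE`, `liftV`, `liftM`.
-/

set_option autoImplicit false
set_option linter.style.haveILetI false
set_option linter.unusedSectionVars false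

namespace Cfsg.Agent.Lib.Classical.Asch.SU3M

open scoped MatrixGroups Matrix
open Cfsg Cfsg.Geo Cfsg.Agent.Lib.Classical.Asch.Basic Cfsg.Agent.Lib.Classical.Asch
open Cfsg.Agent.Lib.Classical.Asch.NotSU
open Cfsg.Agent.Lib.Classical.Herm.Basic
open Cfsg.Agent.Lib.Classical.Herm.PSLGraphField (sigE sigE_apply)

/-- Elements `a + b s`. -/
structure E where
  a : ℕ
  b : ℕ

/-- Forcing the evaluation of a natural number: the kernel reduces the argument to a literal here. -/
def fN {α : Type} (n : ℕ) (k : ℕ → α) : α := Nat.casesOn n (k 0) (fun m => k (Nat.succ m))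

theorem fN_eq {α : Type} (n : ℕ) (k : ℕ → α) : fN n k = k n := by
  cases n <;> rfl

namespace E
def add (p : ℕ) (x y : E) : E :=
  fN (Nat.mod (Nat.add x.a y.a) p) fun a => fN (Nat.mod (Nat.add x.b y.b) p) fun b => ⟨a, b⟩
def mul (p : ℕ) (x y : E) : E :=
  fN (Nat.mod (Nat.add (Nat.mul x.a y.a) (Nat.mul 2 (Nat.mul x.b y.b))) p) fun a =>
  fN (Nat.mod (Nat.add (Nat.mul x.a y.b) (Nat.mul x.b y.a)) p) fun b => ⟨a, b⟩
def cj (p : ℕ) (x : E) : E :=
  fN (Nat.mod x.a p) fun a => fN (Nat.mod (Nat.mul (Nat.sub p 1) x.b) p) fun b => ⟨a, b⟩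
def neg (p : ℕ) (x : E) : E :=
  fN (Nat.mod (Nat.mul (Nat.sub p 1) x.a) p) fun a => fN (Nat.mod (Nat.mul (Nat.sub p 1) x.b) p) fun b => ⟨a, b⟩
def eqb (p : ℕ) (x y : E) : Bool := Nat.beq (Nat.mod x.a p) (Nat.mod y.a p) && Nat.beq (Nat.mod x.b p) (Nat.mod y.b p)

theorem add_eq (p : ℕ) (x y : E) : add p x y = ⟨(x.a + y.a) % p, (x.b + y.b) % p⟩ := by
  simp only [add, fN_eq]
  rfl
theorem mul_eq (p : ℕ) (x y : E) : mul p x y = ⟨(x.a * y.a + 2 * (x.b * y.b)) % p, (x.a * y.b + x.b * y.a) % p⟩ := by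
  simp only [mul, fN_eq]
  rfl
theorem cj_eq (p : ℕ) (x : E) : cj p x = ⟨x.a % p, ((p - 1) * x.b) % p⟩ := by
  simp only [cj, fN_eq]
  rfl
theorem neg_eq (p : ℕ) (x : E) : neg p x = ⟨((p - 1) * x.a) % p, ((p - 1) * x.b) % p⟩ := by
  simp only [neg, fN_eq]
  rfl
theorem eqb_eq (p : ℕ) (x y : E) : eqb p x y = (Nat.beq (x.a % p) (y.a % p) && Nat.beq (x.b % p) (y.b % p)) := rfl
end E

/-- Vectors. -/
structure V3 where
  x : E
  y : E
  z : E

/-- Matrices, by rows. -/
structure M3 where
  r0 : V3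
  r1 : V3
  r2 : V3

def dot (p : ℕ) (u v : V3) : E := E.add p (E.add p (E.mul p u.x v.x) (E.mul p u.y v.y)) (E.mul p u.z v.z)

def M3.app (p : ℕ) (m : M3) (v : V3) : V3 := ⟨dot p m.r0 v, dot p m.r1 v, dot p m.r2 v⟩

def M3.tr (m : M3) : M3 := ⟨⟨m.r0.x, m.r1.x, m.r2.x⟩, ⟨m.r0.y, m.r1.y, m.r2.y⟩, ⟨m.r0.z, m.r1.z, m.r2.z⟩⟩

def M3.mul (p : ℕ) (m n : M3) : M3 := ⟨n.tr.app p m.r0, n.tr.app p m.r1, n.tr.app p m.r2⟩

def V3.cj (p : ℕ) (v : V3) : V3 := ⟨E.cj p v.x, E.cj p v.y, E.cj p v.z⟩

def M3.cjm (p : ℕ) (m : M3) : M3 := ⟨m.r0.cj p, m.r1.cj p, m.r2.cj p⟩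

def M3.star (p : ℕ) (m : M3) : M3 := (m.cjm p).tr

def herm (p : ℕ) (x y : V3) : E := dot p x (y.cj p)

def E0 : E := ⟨0, 0⟩
def E1 : E := ⟨1, 0⟩

def M3.one : M3 := ⟨⟨E1, E0, E0⟩, ⟨E0, E1, E0⟩, ⟨E0, E0, E1⟩⟩

def V3.eqb (p : ℕ) (u v : V3) : Bool := E.eqb p u.x v.x && E.eqb p u.y v.y && E.eqb p u.z v.z

def M3.eqb (p : ℕ) (m n : M3) : Bool := V3.eqb p m.r0 n.r0 && V3.eqb p m.r1 n.r1 && V3.eqb p m.r2 n.r2

def M3.pow (p : ℕ) (m : M3) : ℕ → M3
  | 0 => M3.one
  | k + 1 => M3.mul p m (M3.pow p m k)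

def M3.trace (p : ℕ) (m : M3) : E := E.add p (E.add p m.r0.x m.r1.y) m.r2.z

def E.sub (p : ℕ) (u v : E) : E := E.add p u (E.neg p v)

def M3.det (p : ℕ) (m : M3) : E :=
  E.add p (E.sub p (E.mul p m.r0.x (E.sub p (E.mul p m.r1.y m.r2.z) (E.mul p m.r1.z m.r2.y)))
      (E.mul p m.r0.y (E.sub p (E.mul p m.r1.x m.r2.z) (E.mul p m.r1.z m.r2.x))))
    (E.mul p m.r0.z (E.sub p (E.mul p m.r1.x m.r2.y) (E.mul p m.r1.y m.r2.x)))

def smulV (p : ℕ) (c : E) (v : V3) : V3 := ⟨E.mul p c v.x, E.mul p c v.y, E.mul p c v.z⟩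

/-- All elements. -/
def allE (p : ℕ) : List E := (List.range p).flatMap fun a => (List.range p).map fun b => ⟨a, b⟩

/-- A check over all vectors. -/
def all3 (p : ℕ) (f : V3 → Bool) : Bool :=
  (allE p).all fun x => (allE p).all fun y => (allE p).all fun z => f ⟨x, y, z⟩

/-- A list membership test. -/
def inL (p : ℕ) (Y : List V3) (v : V3) : Bool := Y.any (V3.eqb p v)

/-- The code of an element. -/
def eCode (p : ℕ) (x : E) : ℕ := Nat.add (Nat.mod x.a p) (Nat.mul p (Nat.mod x.b p))

/-- The code of a vector. -/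
def vCode (p : ℕ) (v : V3) : ℕ :=
  Nat.add (eCode p v.x) (Nat.mul (Nat.mul p p) (Nat.add (eCode p v.y) (Nat.mul (Nat.mul p p) (eCode p v.z))))

/-- A membership test in a set given by a bit mask. -/
def inM (p mask : ℕ) (v : V3) : Bool := Nat.beq (Nat.land (Nat.shiftRight mask (vCode p v)) 1) 1

/-- The stability of a set given by a bit mask under a matrix, over all vectors. -/
def stabCk (p mask : ℕ) (m : M3) : Bool := all3 p fun w => !inM p mask w || inM p mask (m.app p w)

theorem vCode_congr {p : ℕ} {u v : V3} (h : V3.eqb p u v = true) : vCode p u = vCode p v := by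
  simp only [V3.eqb, E.eqb_eq, Bool.and_eq_true, Nat.beq_eq] at h
  obtain ⟨⟨⟨h1, h2⟩, h3, h4⟩, h5, h6⟩ := h
  show (Nat.mod _ _ + _) + _ = (Nat.mod _ _ + _) + _
  simp only [vCode, eCode]
  show Nat.add (Nat.add (u.x.a % p) (Nat.mul p (u.x.b % p))) (Nat.mul (Nat.mul p p) (Nat.add (Nat.add (u.y.a % p) (Nat.mul p (u.y.b % p))) (Nat.mul (Nat.mul p p) (Nat.add (u.z.a % p) (Nat.mul p (u.z.b % p)))))) =
    Nat.add (Nat.add (v.x.a % p) (Nat.mul p (v.x.b % p))) (Nat.mul (Nat.mul p p) (Nat.add (Nat.add (v.y.a % p) (Nat.mul p (v.y.b % p))) (Nat.mul (Nat.mul p p) (Nat.add (v.z.a % p) (Nat.mul p (v.z.b % p))))))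
  rw [h1, h2, h3, h4, h5, h6]

theorem inM_congr {p mask : ℕ} {u v : V3} (h : V3.eqb p u v = true) : inM p mask u = inM p mask v := by
  simp only [inM, vCode_congr h]

theorem E.eqb_self (p : ℕ) (x : E) : E.eqb p x x = true := by
  simp [E.eqb_eq]

theorem V3.eqb_self (p : ℕ) (x : V3) : V3.eqb p x x = true := by
  simp [V3.eqb, E.eqb_self]

theorem M3.eqb_self (p : ℕ) (x : M3) : M3.eqb p x x = true := by
  simp [M3.eqb, V3.eqb_self]

section Lift

variable {F : Type*} [Field F] (s : F)

def liftE (x : E) : F := (x.a : F) + (x.b : F) * s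

def liftV (v : V3) : Fin 3 → F := ![liftE s v.x, liftE s v.y, liftE s v.z]

def liftM (m : M3) : Matrix (Fin 3) (Fin 3) F := Matrix.of ![liftV s m.r0, liftV s m.r1, liftV s m.r2]

variable {s}

/-- The field context. -/
structure Ctx (p : ℕ) (s : F) : Prop where
  prime : p.Prime
  char : CharP F p
  ss : s * s = 2
  frob : s ^ p = ((p - 1 : ℕ) : F) * s
  nonres : ∀ t : ℕ, ¬ (t * t) % p = 2 % p

variable {p : ℕ} (h : Ctx p s)
include h

theorem Ctx.p0 : (p : F) = 0 := by
  haveI := h.char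
  exact CharP.cast_eq_zero F p

theorem Ctx.cast_mod (n : ℕ) : ((n % p : ℕ) : F) = (n : F) := by
  conv_rhs => rw [← Nat.mod_add_div n p]
  push_cast
  rw [h.p0]
  ring

theorem liftE_add (x y : E) : liftE s (E.add p x y) = liftE s x + liftE s y := by
  simp only [liftE, E.add_eq, h.cast_mod]
  push_cast
  ring

theorem liftE_mul (x y : E) : liftE s (E.mul p x y) = liftE s x * liftE s y := by
  simp only [liftE, E.mul_eq, h.cast_mod]
  push_cast
  linear_combination (-(x.b : F) * (y.b : F)) * h.ss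

theorem Ctx.cast_pred : ((p - 1 : ℕ) : F) = -1 := by
  have h1 : ((p - 1 : ℕ) : F) + 1 = (p : F) := by
    rw [← Nat.cast_succ]
    congr 1
    have := h.prime.pos
    omega
  rw [h.p0] at h1
  linear_combination h1

theorem liftE_neg (x : E) : liftE s (E.neg p x) = - liftE s x := by
  simp only [liftE, E.neg_eq, h.cast_mod]
  push_cast
  rw [h.cast_pred]
  ring

theorem liftE_cj (x : E) : liftE s (E.cj p x) = liftE s x ^ p := by
  haveI := h.char
  haveI : Fact p.Prime := ⟨h.prime⟩
  simp only [liftE, E.cj_eq, h.cast_mod]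
  push_cast
  rw [add_pow_char, mul_pow, h.frob, h.cast_pred]
  have hf : ∀ n : ℕ, (n : F) ^ p = (n : F) := by
    intro n
    have := map_natCast (frobenius F p) n
    rwa [frobenius_def] at this
  rw [hf, hf]
  ring

theorem liftE_zero : liftE s E0 = 0 := by
  simp [liftE, E0]

theorem liftE_one : liftE s E1 = 1 := by
  simp [liftE, E1]

theorem liftE_eq_iff (x y : E) : liftE s x = liftE s y ↔ E.eqb p x y = true := by
  haveI := h.char
  haveI : Fact p.Prime := ⟨h.prime⟩
  have hcast : ∀ a b : ℕ, (a : F) = (b : F) ↔ a % p = b % p := by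
    intro a b
    rw [CharP.natCast_eq_natCast F p]
    rfl
  constructor
  · intro he
    by_cases hb : x.b % p = y.b % p
    · have hb' : (x.b : F) = (y.b : F) := (hcast _ _).mpr hb
      have ha : (x.a : F) = (y.a : F) := by
        simp only [liftE] at he
        rw [hb'] at he
        exact add_right_cancel he
      have ha' := (hcast _ _).mp ha
      simp [E.eqb_eq, ha', hb]
    · exfalso
      -- the element `s` would lie in the prime field
      have hbz : ((x.b : ZMod p) - (y.b : ZMod p)) ≠ 0 := by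
        intro h0
        apply hb
        rw [sub_eq_zero, ZMod.natCast_eq_natCast_iff'] at h0
        exact h0
      let ι : ZMod p →+* F := ZMod.castHom (dvd_refl p) F
      have hι : ∀ n : ℕ, ι (n : ZMod p) = (n : F) := fun n => by simp [ι]
      obtain ⟨t, ht⟩ : ∃ t : ZMod p, ι t = s := by
        refine ⟨((y.a : ZMod p) - (x.a : ZMod p)) * ((x.b : ZMod p) - (y.b : ZMod p))⁻¹, ?_⟩
        have hne : ι ((x.b : ZMod p) - (y.b : ZMod p)) ≠ 0 := by
          intro h0
          exact hbz (ι.injective (by rw [h0, map_zero]))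
        rw [map_mul, map_inv₀, ← div_eq_mul_inv, div_eq_iff hne]
        simp only [map_sub, hι]
        simp only [liftE] at he
        linear_combination - he
      have h2 : t * t = 2 := by
        apply ι.injective
        rw [map_mul, ht, h.ss, map_ofNat]
      obtain ⟨n, rfl⟩ := ZMod.natCast_zmod_surjective t
      apply h.nonres n
      have h3 : ((n * n : ℕ) : ZMod p) = ((2 : ℕ) : ZMod p) := by
        push_cast
        exact h2
      rwa [ZMod.natCast_eq_natCast_iff'] at h3
  · intro he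
    simp only [E.eqb_eq, Bool.and_eq_true, Nat.beq_eq] at he
    simp only [liftE]
    rw [(hcast x.a y.a).mpr he.1, (hcast x.b y.b).mpr he.2]

theorem E.eq_of_eqb_lift {x y : E} (he : E.eqb p x y = true) : liftE s x = liftE s y :=
  (liftE_eq_iff h x y).mpr he

/-- All elements of the field are of the form `a + b s`. -/
theorem liftE_surj [Fintype F] (hF : Fintype.card F = p ^ 2) (x : F) : ∃ e ∈ allE p, liftE s e = x := by
  classical
  let f : Fin p × Fin p → F := fun a => liftE s ⟨a.1, a.2⟩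
  have hinj : Function.Injective f := by
    rintro ⟨a, b⟩ ⟨c, d⟩ he
    have h1 := (liftE_eq_iff h _ _).mp he
    simp only [E.eqb_eq, Bool.and_eq_true, Nat.beq_eq, Nat.mod_eq_of_lt a.2, Nat.mod_eq_of_lt b.2,
      Nat.mod_eq_of_lt c.2, Nat.mod_eq_of_lt d.2] at h1
    exact Prod.ext (Fin.ext h1.1) (Fin.ext h1.2)
  have hsurj : Function.Surjective f := by
    apply (Fintype.bijective_iff_injective_and_card f).mpr ⟨hinj, ?_⟩ |>.2
    simp [hF, pow_two]
  obtain ⟨⟨a, b⟩, hab⟩ := hsurj x
  refine ⟨⟨a, b⟩, ?_, hab⟩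
  simp only [allE, List.mem_flatMap, List.mem_map, List.mem_range]
  exact ⟨a, a.2, b, b.2, rfl⟩

theorem emb_dot (u v : V3) : liftE s (dot p u v) = liftV s u ⬝ᵥ liftV s v := by
  simp [dot, dotProduct, Fin.sum_univ_three, liftV, liftE_add h, liftE_mul h]

theorem liftM_app (m : M3) (v : V3) : liftM s m *ᵥ liftV s v = liftV s (m.app p v) := by
  funext i
  fin_cases i <;> exact (emb_dot h _ _).symm

omit h in
theorem liftM_tr (m : M3) : liftM s m.tr = (liftM s m)ᵀ := by
  ext i j
  fin_cases i <;> fin_cases j <;> rfl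

theorem liftM_mul (m n : M3) : liftM s (m.mul p n) = liftM s m * liftM s n := by
  have key : ∀ i : Fin 3, (liftM s (m.mul p n)) i = (liftM s n)ᵀ *ᵥ (liftM s m i) := by
    intro i
    rw [← liftM_tr]
    fin_cases i
    · exact (liftM_app h _ _).symm
    · exact (liftM_app h _ _).symm
    · exact (liftM_app h _ _).symm
  ext i j
  rw [key i, Matrix.mul_apply]
  simp [Matrix.mulVec, dotProduct, mul_comm]

omit h in
theorem liftM_one : liftM s M3.one = 1 := by
  ext i j
  fin_cases i <;> fin_cases j <;> simp [liftM, liftV, M3.one, liftE, E0, E1]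

theorem liftM_pow (m : M3) (k : ℕ) : liftM s (M3.pow p m k) = liftM s m ^ k := by
  induction k with
  | zero => exact liftM_one
  | succ k ih => rw [M3.pow, liftM_mul h, ih, pow_succ']

theorem liftM_cjm (m : M3) : liftM s (m.cjm p) = (liftM s m).map (fun x => x ^ p) := by
  ext i j
  fin_cases i <;> fin_cases j <;> simp [liftM, liftV, M3.cjm, V3.cj, liftE_cj h]

theorem herm_lift (x y : V3) : hermForm 3 F p (liftV s x) (liftV s y) = liftE s (herm p x y) := by
  rw [herm, emb_dot h]
  simp [hermForm, dotProduct, Fin.sum_univ_three, liftV, V3.cj, liftE_cj h]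

theorem trace_lift (m : M3) : (liftM s m).trace = liftE s (m.trace p) := by
  simp [Matrix.trace, Fin.sum_univ_three, liftM, liftV, M3.trace, liftE_add h]

theorem det_lift (m : M3) : (liftM s m).det = liftE s (m.det p) := by
  rw [Matrix.det_fin_three]
  simp only [liftM, liftV, Matrix.of_apply, Matrix.cons_val_zero, Matrix.cons_val_one, Matrix.cons_val,
    M3.det, E.sub, liftE_add h, liftE_mul h, liftE_neg h]
  ring

theorem liftV_eq_iff (u v : V3) : liftV s u = liftV s v ↔ V3.eqb p u v = true := by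
  constructor
  · intro he
    have e (i : Fin 3) := congrFun he i
    simp only [V3.eqb, Bool.and_eq_true]
    exact ⟨⟨(liftE_eq_iff h _ _).mp (e 0), (liftE_eq_iff h _ _).mp (e 1)⟩, (liftE_eq_iff h _ _).mp (e 2)⟩
  · intro he
    simp only [V3.eqb, Bool.and_eq_true] at he
    funext i
    fin_cases i
    · exact (liftE_eq_iff h _ _).mpr he.1.1
    · exact (liftE_eq_iff h _ _).mpr he.1.2
    · exact (liftE_eq_iff h _ _).mpr he.2

theorem liftM_eq_iff (m n : M3) : liftM s m = liftM s n ↔ M3.eqb p m n = true := by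
  constructor
  · intro he
    have e (i : Fin 3) := congrFun he i
    simp only [M3.eqb, Bool.and_eq_true]
    exact ⟨⟨(liftV_eq_iff h _ _).mp (e 0), (liftV_eq_iff h _ _).mp (e 1)⟩, (liftV_eq_iff h _ _).mp (e 2)⟩
  · intro he
    simp only [M3.eqb, Bool.and_eq_true] at he
    funext i
    fin_cases i
    · exact (liftV_eq_iff h _ _).mpr he.1.1
    · exact (liftV_eq_iff h _ _).mpr he.1.2
    · exact (liftV_eq_iff h _ _).mpr he.2

theorem lift_smulV (c : E) (v : V3) : liftV s (smulV p c v) = liftE s c • liftV s v := by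
  funext i
  fin_cases i <;> simp [liftV, smulV, liftE_mul h]

/-- All vectors are lifts. -/
theorem liftV_surj [Fintype F] (hF : Fintype.card F = p ^ 2) (v : Fin 3 → F) :
    ∃ x ∈ allE p, ∃ y ∈ allE p, ∃ z ∈ allE p, liftV s ⟨x, y, z⟩ = v := by
  obtain ⟨x, hx, hx'⟩ := liftE_surj h hF (v 0)
  obtain ⟨y, hy, hy'⟩ := liftE_surj h hF (v 1)
  obtain ⟨z, hz, hz'⟩ := liftE_surj h hF (v 2)
  refine ⟨x, hx, y, hy, z, hz, ?_⟩
  funext i
  fin_cases i
  · exact hx'
  · exact hy'
  · exact hz'

theorem all3_spec [Fintype F] (hF : Fintype.card F = p ^ 2) {f : V3 → Bool} (hf : all3 p f = true) (v : Fin 3 → F) :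
    ∃ w : V3, liftV s w = v ∧ f w = true := by
  obtain ⟨x, hx, y, hy, z, hz, he⟩ := liftV_surj h hF v
  refine ⟨⟨x, y, z⟩, he, ?_⟩
  exact List.all_eq_true.mp (List.all_eq_true.mp (List.all_eq_true.mp hf x hx) y hy) z hz

/-- Lifts of list membership. -/
theorem mem_of_inL {Y : List V3} {v : V3} (hv : inL p Y v = true) : ∃ w ∈ Y, liftV s v = liftV s w := by
  obtain ⟨w, hw, he⟩ := List.any_eq_true.mp hv
  exact ⟨w, hw, (liftV_eq_iff h _ _).mpr he⟩

omit h in
theorem inL_of_mem {Y : List V3} {v : V3} (hv : v ∈ Y) : inL p Y v = true :=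
  List.any_eq_true.mpr ⟨v, hv, V3.eqb_self p v⟩

/-- The set given by a bit mask. -/
def YM (s : F) (p mask : ℕ) : Set (Fin 3 → F) := {v | ∃ w, inM p mask w = true ∧ liftV s w = v}

theorem lift_mem_YM {mask : ℕ} (w : V3) : liftV s w ∈ YM s p mask ↔ inM p mask w = true := by
  constructor
  · rintro ⟨w', hw', he⟩
    rw [← hw']
    exact inM_congr ((liftV_eq_iff h _ _).mp he.symm)
  · intro hw
    exact ⟨w, hw, rfl⟩

end Lift

section GLm

variable {F : Type*} [Field F] [Fintype F] {p : ℕ} {s : F}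

/-- The element of the general linear group given by a table. -/
def glOf (h : Ctx p s) (m : M3) (h1 : M3.eqb p (m.mul p (m.star p)) M3.one = true)
    (h2 : M3.eqb p ((m.star p).mul p m) M3.one = true) : GL (Fin 3) F where
  val := liftM s m
  inv := liftM s (m.star p)
  val_inv := by
    rw [← liftM_mul h, (liftM_eq_iff h _ _).mpr h1, liftM_one]
  inv_val := by
    rw [← liftM_mul h, (liftM_eq_iff h _ _).mpr h2, liftM_one]

variable (h : Ctx p s)

lemma glOf_val (m : M3) (h1 : M3.eqb p (m.mul p (m.star p)) M3.one = true)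
    (h2 : M3.eqb p ((m.star p).mul p m) M3.one = true) :
    ((glOf h m h1 h2 : GL (Fin 3) F) : Matrix (Fin 3) (Fin 3) F) = liftM s m := rfl

lemma glOf_inv_val (m : M3) (h1 : M3.eqb p (m.mul p (m.star p)) M3.one = true)
    (h2 : M3.eqb p ((m.star p).mul p m) M3.one = true) :
    (((glOf h m h1 h2)⁻¹ : GL (Fin 3) F) : Matrix (Fin 3) (Fin 3) F) = liftM s (m.star p) := rfl

/-- A table with `mᵀ m̄ = 1` and determinant one lies in the special unitary group. -/
lemma glOf_mem (hF : Fintype.card F = p ^ 2) (m : M3) (h1 : M3.eqb p (m.mul p (m.star p)) M3.one = true)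
    (h2 : M3.eqb p ((m.star p).mul p m) M3.one = true) (hg : M3.eqb p (m.tr.mul p (m.cjm p)) M3.one = true)
    (hd : E.eqb p (m.det p) E1 = true) : glOf h m h1 h2 ∈ II 3 F p := by
  refine ⟨?_, ?_⟩
  · apply FormSU2.mem_GU_of_gram hF
    have e : (liftM s m).map (sigE hF) = liftM s (m.cjm p) := by
      rw [liftM_cjm h]
      ext i j
      simp [sigE_apply]
    rw [glOf_val, e, ← liftM_tr, ← liftM_mul h, (liftM_eq_iff h _ _).mpr hg, liftM_one]
  · show _ ∈ specialLinear (Fin 3) F
    rw [Cfsg.Agent.Lib.Classical.Geo.Basic.mem_specialLinear_iff, glOf_val, det_lift h,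
      (liftE_eq_iff h _ _).mpr hd, liftE_one h]

include h in
/-- A matrix passing the check stabilises the set given by a bit mask. -/
theorem stab_of_ck (hF : Fintype.card F = p ^ 2) {mask : ℕ} {m : M3} (hc : stabCk p mask m = true)
    {v : Fin 3 → F} (hv : v ∈ YM s p mask) : liftM s m *ᵥ v ∈ YM s p mask := by
  obtain ⟨w, he, hw⟩ := all3_spec h hF hc v
  rw [← he, liftM_app h, lift_mem_YM h]
  rw [← he, lift_mem_YM h] at hv
  rw [hv] at hw
  simpa using hw

include h in
/-- A witness that a matrix does not stabilise the set given by a bit mask. -/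
theorem not_stab_of_wit {mask : ℕ} {m : M3} {w : V3} (h1 : inM p mask w = true) (h2 : inM p mask (m.app p w) = false) :
    ¬ (liftM s m *ᵥ liftV s w ∈ YM s p mask) := by
  rw [liftM_app h, lift_mem_YM h, h2]
  simp

end GLm

/-- **Existence of the element `s`.** -/
theorem exists_ctx {F : Type*} [Field F] [Fintype F] {p : ℕ} (hp : p = 3 ∨ p = 5) (hF : Fintype.card F = p ^ 2) :
    ∃ s : F, Ctx p s := by
  classical
  have hpp : p.Prime := by
    rcases hp with rfl | rfl <;> norm_num
  haveI : Fact p.Prime := ⟨hpp⟩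
  obtain ⟨r, hr⟩ := CharP.exists F
  haveI := hr
  have hrp : r.Prime := by
    rcases CharP.char_is_prime_or_zero F r with h | h
    · exact h
    · subst h
      exact absurd (CharP.charP_to_charZero F) (fun _ => by
        haveI : CharZero F := CharP.charP_to_charZero F
        exact not_finite F)
  haveI : Fact r.Prime := ⟨hrp⟩
  obtain ⟨n, -, hn⟩ := FiniteField.card F r
  have hrpe : r = p := by
    have h1 : r ∣ p ^ 2 := by
      rw [← hF, hn]
      by_cases hn0 : (n : ℕ) = 0
      · have := Fintype.one_lt_card (α := F)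
        rw [hn, hn0] at this
        simp at this
      · exact dvd_pow_self r hn0
    exact (Nat.prime_dvd_prime_iff_eq hrp hpp).mp (hrp.dvd_of_dvd_pow h1)
  subst hrpe
  have hp0 : (r : F) = 0 := CharP.cast_eq_zero F r
  have h2ne : (2 : F) ≠ 0 := by
    intro h0
    rcases hp with rfl | rfl
    · have : (1 : F) = 0 := by
        have h3 : ((3 : ℕ) : F) = 0 := hp0
        push_cast at h3
        linear_combination h3 - h0
      exact one_ne_zero this
    · have : (1 : F) = 0 := by
        have h3 : ((5 : ℕ) : F) = 0 := hp0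
        push_cast at h3
        linear_combination h3 - 2 * h0
      exact one_ne_zero this
  have hch : ringChar F ≠ 2 := by
    intro h0
    have : (2 : F) = 0 := by
      have h3 := ringChar.Nat.cast_ringChar (R := F)
      rw [h0] at h3
      exact_mod_cast h3
    exact h2ne this
  have hsq : IsSquare (2 : F) := by
    rw [FiniteField.isSquare_iff hch h2ne, hF]
    rcases hp with rfl | rfl
    · have h3 : ((3 : ℕ) : F) = 0 := hp0
      push_cast at h3
      norm_num
      linear_combination (5 : F) * h3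
    · have h3 : ((5 : ℕ) : F) = 0 := hp0
      push_cast at h3
      norm_num
      linear_combination (819 : F) * h3
  obtain ⟨s, hs⟩ := hsq
  refine ⟨s, hpp, inferInstance, hs.symm, ?_, ?_⟩
  · rcases hp with rfl | rfl
    · norm_num
      linear_combination s * hs.symm
    · norm_num
      linear_combination (s * s * s + 2 * s) * hs.symm
  · intro t ht
    rcases hp with rfl | rfl
    · have h1 : t % 3 = 0 ∨ t % 3 = 1 ∨ t % 3 = 2 := by omega
      rw [Nat.mul_mod] at ht
      rcases h1 with h1 | h1 | h1 <;> rw [h1] at ht <;> norm_num at ht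
    · have h1 : t % 5 = 0 ∨ t % 5 = 1 ∨ t % 5 = 2 ∨ t % 5 = 3 ∨ t % 5 = 4 := by omega
      rw [Nat.mul_mod] at ht
      rcases h1 with h1 | h1 | h1 | h1 | h1 <;> rw [h1] at ht <;> norm_num at ht

end Cfsg.Agent.Lib.Classical.Asch.SU3M
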