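import Mathlib
import Cfsg.Agent.Lib.Classical.Asch.SUThreeModel
import Cfsg.Agent.Lib.Classical.Asch.SUSix

/-!
# `SU₃(q)`, `q = 3, 5`: the normaliser of a cubic subfield is not maximal

The normaliser of a cyclic group of order seven lies in the stabiliser of a finite set of vectors (a subgroup `L₂(7)`
for `q = 3`, a subgroup `3.A₇` for `q = 5`).  The argument is uniform, given a table of finite checks.
-/

set_option autoImplicit false
set_option linter.style.haveILetI false
set_option linter.unusedSectionVars false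

namespace Cfsg.Agent.Lib.Classical.Asch.SU3C

open scoped MatrixGroups Matrix
open Cfsg Cfsg.Geo Cfsg.Agent.Lib.Classical.Asch.Basic Cfsg.Agent.Lib.Classical.Asch
open Cfsg.Agent.Lib.Classical.Asch.NotSU
open Cfsg.Agent.Lib.Classical.Asch.SU3M
open Cfsg.Agent.Lib.Classical.Asch.SUSix (stabS)
open Cfsg.Agent.Lib.Classical.Asch.SUFive (exists_conj_of_prime)
open Cfsg.Agent.Lib.Classical.Herm.Basic
open Cfsg.Agent.Lib.Classical.Herm.PSLGraphField (sigE sigE_apply)

def e0 : V3 := ⟨E1, E0, E0⟩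

def isU (p : ℕ) (m : M3) : Bool :=
  M3.eqb p (m.mul p (m.star p)) M3.one && M3.eqb p ((m.star p).mul p m) M3.one && M3.eqb p (m.tr.mul p (m.cjm p)) M3.one

def isSU (p : ℕ) (m : M3) : Bool := isU p m && E.eqb p (m.det p) E1

/-- Powers of an element. -/
def E.pow (p : ℕ) (x : E) : ℕ → E
  | 0 => E1
  | k + 1 => E.mul p x (E.pow p x k)

/-- The Gram sequence along the orbit of an element. -/
def gramChk (p : ℕ) (t : M3) (w : V3) : V3 → List E → Bool
  | _, [] => true
  | c, x :: xs => E.eqb p (herm p w c) x && gramChk p t w (t.app p c) xs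

/-- The table. -/
structure CubicData where
  t : M3
  φ : M3
  z : M3
  gA : M3
  gB : M3
  Cm : M3
  Ci : M3
  gBw : V3
  mask : ℕ
  N : ℕ
  kd : ℕ
  gramT : List E
  orb : List (ℕ × V3)

/-- The checks. -/
structure CubicChk (p : ℕ) (d : CubicData) : Prop where
  t_su : isSU p d.t = true
  t_pow : M3.eqb p (M3.pow p d.t 7) M3.one = true
  t_ne : M3.eqb p d.t M3.one = false
  φ_su : isSU p d.φ = true
  φ_conj : (([(0, 1), (1, 2), (2, 4)] : List (ℕ × ℕ)).all fun q =>
    M3.eqb p ((M3.pow p d.φ q.1).mul p d.t) ((M3.pow p d.t q.2).mul p (M3.pow p d.φ q.1))) = true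
  gA_su : isSU p d.gA = true
  gB_su : isSU p d.gB = true
  z_u : isU p d.z = true
  z_comm : M3.eqb p (d.z.mul p d.t) (d.t.mul p d.z) = true
  φ_Y : stabCk p d.mask d.φ = true
  gA_Y : stabCk p d.mask d.gA = true
  zk_Y : stabCk p d.mask (M3.pow p d.z d.kd) = true
  det_pow : E.eqb p (E.pow p (d.z.det p) d.kd) E1 = true
  det_ne : ((List.range d.kd).all fun r => Nat.beq r 0 || !(E.eqb p (E.pow p (d.z.det p) r) E1)) = true
  kd_pos : 0 < d.kd
  gB_w : inM p d.mask d.gBw = true
  gB_Y : inM p d.mask (d.gB.app p d.gBw) = false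
  gA_norm : ((List.range 7).all fun j => !(M3.eqb p (d.gA.mul p d.t) ((M3.pow p d.t j).mul p d.gA))) = true
  tr_chk : ((List.range 7).all fun j => !(E.eqb p ((M3.pow p d.t j).trace p) (d.t.trace p)) ||
    (j == 1 || j == 2 || j == 4)) = true
  gram_self : gramChk p d.t e0 e0 d.gramT = true
  gram_all : all3 p (fun w => !(gramChk p d.t w w d.gramT) || d.orb.any fun q => V3.eqb p w q.2) = true
  orb_chk : (d.orb.all fun q => V3.eqb p q.2 ((M3.pow p d.z q.1).app p e0) && Nat.blt q.1 d.N) = true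
  len_gram : d.gramT.length = 7
  cm_ci : M3.eqb p (d.Cm.mul p d.Ci) M3.one = true
  cm_cols : V3.eqb p d.Cm.tr.r0 e0 = true ∧ V3.eqb p d.Cm.tr.r1 (d.t.app p e0) = true ∧
    V3.eqb p d.Cm.tr.r2 ((M3.pow p d.t 2).app p e0) = true

section Model

variable {F : Type*} [Field F] [Fintype F] {p : ℕ} {s : F} {d : CubicData}
variable (h : Ctx p s) (hF : Fintype.card F = p ^ 2) (c : CubicChk p d)

/-- The element of the table. -/
def gOf (h : Ctx p s) (m : M3) (hm : isU p m = true) : GL (Fin 3) F :=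
  glOf h m (by simp only [isU, Bool.and_eq_true] at hm; exact hm.1.1) (by simp only [isU, Bool.and_eq_true] at hm; exact hm.1.2)

lemma gOf_val (m : M3) (hm : isU p m = true) : ((gOf h m hm : GL (Fin 3) F) : Matrix (Fin 3) (Fin 3) F) = liftM s m := rfl

lemma isU_of_isSU {m : M3} (hm : isSU p m = true) : isU p m = true := by
  simp only [isSU, Bool.and_eq_true] at hm
  exact hm.1

include hF in
lemma gOf_mem (m : M3) (hm : isSU p m = true) : gOf h m (isU_of_isSU hm) ∈ II 3 F p := by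
  simp only [isSU, isU, Bool.and_eq_true] at hm
  exact glOf_mem h hF m hm.1.1.1 hm.1.1.2 hm.1.2 hm.2

include hF in
lemma gOf_GU (m : M3) (hm : isU p m = true) : gOf h m hm ∈ GU 3 F p := by
  simp only [isU, Bool.and_eq_true] at hm
  apply FormSU2.mem_GU_of_gram hF
  have e : (liftM s m).map (sigE hF) = liftM s (m.cjm p) := by
    rw [liftM_cjm h]
    ext i j
    simp [sigE_apply]
  rw [gOf_val, e, ← liftM_tr, ← liftM_mul h, (liftM_eq_iff h _ _).mpr hm.2, liftM_one]

lemma gOf_pow_val (m : M3) (hm : isU p m = true) (k : ℕ) :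
    ((gOf h m hm ^ k : GL (Fin 3) F) : Matrix (Fin 3) (Fin 3) F) = liftM s (M3.pow p m k) := by
  rw [Units.val_pow_eq_pow_val, liftM_pow h]
  rfl

include hF in
lemma mem_stab_of_check (m : M3) (hm : isU p m = true) (hY : stabCk p d.mask m = true) :
    gOf h m hm ∈ stabS (YM s p d.mask) := by
  intro v hv
  rw [gOf_val]
  exact stab_of_ck h hF hY hv

lemma not_mem_stab_of_check (m : M3) (hm : isU p m = true) {w : V3} (h1 : inM p d.mask w = true)
    (h2 : inM p d.mask (m.app p w) = false) : gOf h m hm ∉ stabS (YM s p d.mask) := by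
  intro hs
  exact not_stab_of_wit h h1 h2 (hs _ ((lift_mem_YM h w).mpr h1))

omit hF in
theorem liftE_pow (h : Ctx p s) (x : E) (k : ℕ) : liftE s (E.pow p x k) = liftE s x ^ k := by
  induction k with
  | zero =>
    rw [pow_zero]
    exact liftE_one h
  | succ k ih => rw [E.pow, liftE_mul h, ih, pow_succ']

/-- The elements of the table. -/
def gt (h : Ctx p s) (c : CubicChk p d) : GL (Fin 3) F := gOf h d.t (isU_of_isSU c.t_su)
def gφ (h : Ctx p s) (c : CubicChk p d) : GL (Fin 3) F := gOf h d.φ (isU_of_isSU c.φ_su)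
def gz (h : Ctx p s) (c : CubicChk p d) : GL (Fin 3) F := gOf h d.z c.z_u
def ga (h : Ctx p s) (c : CubicChk p d) : GL (Fin 3) F := gOf h d.gA (isU_of_isSU c.gA_su)
def gb (h : Ctx p s) (c : CubicChk p d) : GL (Fin 3) F := gOf h d.gB (isU_of_isSU c.gB_su)

lemma gt_pow_val (k : ℕ) : ((gt h c ^ k : GL (Fin 3) F) : Matrix (Fin 3) (Fin 3) F) = liftM s (M3.pow p d.t k) :=
  gOf_pow_val h _ _ k

lemma gφ_pow_val (k : ℕ) : ((gφ h c ^ k : GL (Fin 3) F) : Matrix (Fin 3) (Fin 3) F) = liftM s (M3.pow p d.φ k) :=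
  gOf_pow_val h _ _ k

lemma gz_pow_val (k : ℕ) : ((gz h c ^ k : GL (Fin 3) F) : Matrix (Fin 3) (Fin 3) F) = liftM s (M3.pow p d.z k) :=
  gOf_pow_val h _ _ k

include hF in
lemma gφ_Y : gφ h c ∈ stabS (YM s p d.mask) := mem_stab_of_check h hF _ _ c.φ_Y

include hF in
lemma ga_Y : ga h c ∈ stabS (YM s p d.mask) := mem_stab_of_check h hF _ _ c.gA_Y

lemma gb_not_Y : gb h c ∉ stabS (YM s p d.mask) := not_mem_stab_of_check h _ _ c.gB_w c.gB_Y

lemma gt_pow_seven : gt h c ^ 7 = 1 := by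
  apply Units.ext
  rw [gt_pow_val, (liftM_eq_iff h _ _).mpr c.t_pow, liftM_one]
  rfl

lemma gt_ne_one : gt h c ≠ 1 := by
  intro he
  have h1 : liftM s d.t = liftM s M3.one := by
    rw [liftM_one]
    exact congrArg Units.val he
  have h3 := (liftM_eq_iff h _ _).mp h1
  rw [c.t_ne] at h3
  exact absurd h3 (by decide)

lemma gt_orderOf : orderOf (gt h c) = 7 := by
  haveI : Fact (Nat.Prime 7) := ⟨by norm_num⟩
  exact orderOf_eq_prime (gt_pow_seven h c) (gt_ne_one h c)

lemma exists_φ_pow {j : ℕ} (hj : j = 1 ∨ j = 2 ∨ j = 4) :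
    ∃ i, gφ h c ^ i * gt h c = gt h c ^ j * gφ h c ^ i := by
  have hall := List.all_eq_true.mp c.φ_conj
  have key : ∀ i, M3.eqb p ((M3.pow p d.φ i).mul p d.t) ((M3.pow p d.t j).mul p (M3.pow p d.φ i)) = true →
      gφ h c ^ i * gt h c = gt h c ^ j * gφ h c ^ i := by
    intro i hi
    apply Units.ext
    rw [Units.val_mul, Units.val_mul, gt_pow_val, gφ_pow_val]
    show liftM s (M3.pow p d.φ i) * liftM s d.t = _
    rw [← liftM_mul h, ← liftM_mul h, (liftM_eq_iff h _ _).mpr hi]
  rcases hj with rfl | rfl | rfl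
  · exact ⟨0, key 0 (hall (0, 1) (by simp))⟩
  · exact ⟨1, key 1 (hall (1, 2) (by simp))⟩
  · exact ⟨2, key 2 (hall (2, 4) (by simp))⟩

/-- The trace separates residues from non-residues. -/
lemma residue_of_conj {g : GL (Fin 3) F} {j : ℕ} (hj : j < 7) (hg : g * gt h c = gt h c ^ j * g) :
    j = 1 ∨ j = 2 ∨ j = 4 := by
  have h1 : gt h c ^ j = g * gt h c * g⁻¹ := by
    rw [hg]
    group
  have h3 : (liftM s (M3.pow p d.t j)).trace = (liftM s d.t).trace := by
    rw [← gt_pow_val h c, h1, Units.val_mul, Units.val_mul, Matrix.trace_mul_comm, ← mul_assoc, ← Units.val_mul,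
      inv_mul_cancel]
    simp only [Units.val_one, one_mul]
    rfl
  rw [trace_lift h, trace_lift h, liftE_eq_iff h] at h3
  have h5 := List.all_eq_true.mp c.tr_chk j (List.mem_range.mpr hj)
  rw [h3] at h5
  simp at h5
  omega

omit hF in
lemma gramChk_spec (t : M3) (w : V3) (ts : List E) (cur : V3) :
    gramChk p t w cur ts = true ↔ ∀ k (hk : k < ts.length), E.eqb p (herm p w ((t.app p)^[k] cur)) ts[k] = true := by
  induction ts generalizing cur with
  | nil => simp [gramChk]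
  | cons x xs ih =>
    simp only [gramChk, Bool.and_eq_true, ih]
    constructor
    · rintro ⟨h1, h3⟩ k hk
      cases k with
      | zero => simpa using h1
      | succ k =>
        rw [Function.iterate_succ_apply]
        exact h3 k (by simpa using hk)
    · intro h'
      refine ⟨?_, fun k hk => ?_⟩
      · have := h' 0 (by simp)
        simpa only [List.getElem_cons_zero, Function.iterate_zero, id_eq] using this
      · have := h' (k + 1) (by simpa using hk)
        rwa [Function.iterate_succ_apply] at this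

omit hF in
lemma lift_iterate (w : V3) (k : ℕ) :
    liftV s ((d.t.app p)^[k] w) = ((gt h c ^ k : GL (Fin 3) F) : Matrix (Fin 3) (Fin 3) F) *ᵥ liftV s w := by
  induction k with
  | zero => simp
  | succ k ih =>
    rw [Function.iterate_succ_apply', ← liftM_app h, ih, pow_succ', Units.val_mul, Matrix.mulVec_mulVec]
    rfl

include hF in
/-- The centraliser of the element of order seven. -/
theorem eq_pow_of_comm {y : GL (Fin 3) F} (hy : y ∈ GU 3 F p) (hcm : y * gt h c = gt h c * y) :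
    ∃ l < d.N, y = gz h c ^ l := by
  have hU : ∀ u v : Fin 3 → F, hermForm 3 F p ((y : Matrix (Fin 3) (Fin 3) F) *ᵥ u) ((y : Matrix (Fin 3) (Fin 3) F) *ᵥ v)
      = hermForm 3 F p u v := hy
  have hcp : ∀ k, ((gt h c ^ k : GL (Fin 3) F) : Matrix (Fin 3) (Fin 3) F) * (y : Matrix (Fin 3) (Fin 3) F)
      = (y : Matrix (Fin 3) (Fin 3) F) * ((gt h c ^ k : GL (Fin 3) F) : Matrix (Fin 3) (Fin 3) F) := by
    intro k
    rw [← Units.val_mul, ← Units.val_mul]
    congr 1
    exact ((Commute.symm hcm).pow_left k)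
  set e₀ : Fin 3 → F := liftV s e0 with he₀
  obtain ⟨w₀, hw₀, hq⟩ := all3_spec h hF c.gram_all ((y : Matrix (Fin 3) (Fin 3) F) *ᵥ e₀)
  have hgc : gramChk p d.t w₀ w₀ d.gramT = true := by
    rw [gramChk_spec]
    intro k hk
    have h1 := (gramChk_spec d.t e0 d.gramT e0).mp c.gram_self k hk
    rw [← liftE_eq_iff h] at h1 ⊢
    rw [← h1, ← herm_lift h, ← herm_lift h, lift_iterate h c, lift_iterate h c, hw₀, Matrix.mulVec_mulVec, hcp,
      ← Matrix.mulVec_mulVec, hU]
  rw [hgc] at hq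
  simp only [Bool.not_true, Bool.false_or] at hq
  obtain ⟨⟨l, v⟩, hv, hev⟩ := List.any_eq_true.mp hq
  have hol' := List.all_eq_true.mp c.orb_chk _ hv
  simp only [Bool.and_eq_true] at hol' hev
  obtain ⟨hol, hlt⟩ := hol'
  have hlN : l < d.N := by
    simpa [Nat.blt_eq] using hlt
  have hye : (y : Matrix (Fin 3) (Fin 3) F) *ᵥ e₀ = ((gz h c ^ l : GL (Fin 3) F) : Matrix (Fin 3) (Fin 3) F) *ᵥ e₀ := by
    rw [← hw₀, (liftV_eq_iff h _ _).mpr hev, (liftV_eq_iff h _ _).mpr hol, gz_pow_val h c, ← liftM_app h]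
  have hzc : ∀ k, ((gz h c ^ l : GL (Fin 3) F) : Matrix (Fin 3) (Fin 3) F) * ((gt h c ^ k : GL (Fin 3) F) : Matrix (Fin 3) (Fin 3) F)
      = ((gt h c ^ k : GL (Fin 3) F) : Matrix (Fin 3) (Fin 3) F) * ((gz h c ^ l : GL (Fin 3) F) : Matrix (Fin 3) (Fin 3) F) := by
    intro k
    rw [← Units.val_mul, ← Units.val_mul]
    congr 1
    have h1 : gz h c * gt h c = gt h c * gz h c := by
      apply Units.ext
      show liftM s d.z * liftM s d.t = liftM s d.t * liftM s d.z
      rw [← liftM_mul h, ← liftM_mul h, (liftM_eq_iff h _ _).mpr c.z_comm]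
    exact (Commute.pow_pow h1 l k)
  -- the columns of the matrix `C`
  have hC : ∀ j : Fin 3, liftM s d.Cm *ᵥ (Pi.single j 1) = ((gt h c ^ (j : ℕ) : GL (Fin 3) F) : Matrix (Fin 3) (Fin 3) F) *ᵥ e₀ := by
    intro j
    rw [Matrix.mulVec_single_one, he₀, gt_pow_val h c, liftM_app h]
    have h1 : Matrix.col (liftM s d.Cm) j = (liftM s d.Cm)ᵀ j := by
      ext i
      rfl
    rw [h1, ← liftM_tr]
    obtain ⟨h0, h11, h12⟩ := c.cm_cols
    fin_cases j
    · show liftV s d.Cm.tr.r0 = _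
      rw [(liftV_eq_iff h _ _).mpr h0]
      have e1 : (M3.pow p d.t 0).app p e0 = M3.one.app p e0 := rfl
      show liftV s e0 = liftV s ((M3.pow p d.t 0).app p e0)
      rw [e1, ← liftM_app h, liftM_one, Matrix.one_mulVec]
    · show liftV s d.Cm.tr.r1 = _
      rw [(liftV_eq_iff h _ _).mpr h11]
      show liftV s (d.t.app p e0) = liftV s ((M3.pow p d.t 1).app p e0)
      rw [← liftM_app h, ← liftM_app h, liftM_pow h, pow_one]
    · show liftV s d.Cm.tr.r2 = _
      rw [(liftV_eq_iff h _ _).mpr h12]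
  set Z : Matrix (Fin 3) (Fin 3) F := ((gz h c ^ l : GL (Fin 3) F) : Matrix (Fin 3) (Fin 3) F) with hZ
  have hyC : (y : Matrix (Fin 3) (Fin 3) F) * liftM s d.Cm = Z * liftM s d.Cm := by
    have hk : ∀ j, ((y : Matrix (Fin 3) (Fin 3) F) * liftM s d.Cm) *ᵥ (Pi.single j 1) = (Z * liftM s d.Cm) *ᵥ (Pi.single j 1) := by
      intro j
      rw [← Matrix.mulVec_mulVec, ← Matrix.mulVec_mulVec, hC, Matrix.mulVec_mulVec, ← hcp, ← Matrix.mulVec_mulVec, hye,
        Matrix.mulVec_mulVec, Matrix.mulVec_mulVec, hZ, ← hzc]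
    ext i j
    have := congrFun (hk j) i
    simpa [Matrix.mulVec_single_one] using this
  have hCi : liftM s d.Cm * liftM s d.Ci = 1 := by
    rw [← liftM_mul h, (liftM_eq_iff h _ _).mpr c.cm_ci, liftM_one]
  have hyZ : (y : Matrix (Fin 3) (Fin 3) F) = Z := by
    calc (y : Matrix (Fin 3) (Fin 3) F) = (y : Matrix (Fin 3) (Fin 3) F) * (liftM s d.Cm * liftM s d.Ci) := by rw [hCi, mul_one]
      _ = Z * (liftM s d.Cm * liftM s d.Ci) := by rw [← mul_assoc, hyC, mul_assoc]
      _ = Z := by rw [hCi, mul_one]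
  exact ⟨l, hlN, Units.ext hyZ⟩

include hF in
/-- **A member of `SU₃(q)` normalising the cyclic group of order seven stabilises the set `Y`.** -/
theorem mem_stab_of_conj {g : GL (Fin 3) F} (hg : g ∈ II 3 F p) {j : ℕ} (hj : j < 7) (hc : g * gt h c = gt h c ^ j * g) :
    g ∈ stabS (YM s p d.mask) := by
  have hres := residue_of_conj h c hj hc
  obtain ⟨i, hi⟩ := exists_φ_pow h c hres
  set t := gφ h c ^ i with ht
  have hφm : gφ h c ∈ II 3 F p := gOf_mem h hF d.φ c.φ_su
  have htm : t ∈ II 3 F p := (II 3 F p).pow_mem hφm i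
  have hy : t⁻¹ * g ∈ II 3 F p := (II 3 F p).mul_mem ((II 3 F p).inv_mem htm) hg
  have hcomm : (t⁻¹ * g) * gt h c = gt h c * (t⁻¹ * g) := by
    have h1 : gt h c * t⁻¹ = t⁻¹ * gt h c ^ j := by
      rw [eq_inv_mul_iff_mul_eq, ← mul_assoc, hi, mul_assoc, mul_inv_cancel, mul_one]
    rw [mul_assoc, hc, ← mul_assoc, ← mul_assoc, h1]
  obtain ⟨l, hlN, hl⟩ := eq_pow_of_comm h hF c hy.1 hcomm
  have hdet : E.eqb p ((M3.pow p d.z l).det p) E1 = true := by
    rw [← liftE_eq_iff h, liftE_one h, ← det_lift h, ← gz_pow_val h c, ← hl]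
    exact (Cfsg.Agent.Lib.Classical.Geo.Basic.mem_specialLinear_iff _).mp hy.2
  have hmem : gz h c ^ l ∈ stabS (YM s p d.mask) := by
    -- the determinant of the generator
    set δ : F := (liftM s d.z).det with hδ
    have hδl : δ ^ l = 1 := by
      have h1 := (liftE_eq_iff h _ _).mpr hdet
      rw [← det_lift h, liftM_pow h, Matrix.det_pow, liftE_one h] at h1
      exact h1
    have hδk : δ ^ d.kd = 1 := by
      have h1 := (liftE_eq_iff h _ _).mpr c.det_pow
      rw [liftE_pow h, ← det_lift h, liftE_one h] at h1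
      exact h1
    have hmod : l % d.kd = 0 := by
      by_contra hne
      have h1 := List.all_eq_true.mp c.det_ne (l % d.kd) (List.mem_range.mpr (Nat.mod_lt _ c.kd_pos))
      simp only [Bool.or_eq_true, Nat.beq_eq, Bool.not_eq_true'] at h1
      rcases h1 with h1 | h1
      · exact hne h1
      · have h3 : liftE s (E.pow p (d.z.det p) (l % d.kd)) = liftE s E1 := by
          rw [liftE_pow h, ← det_lift h, liftE_one h, ← hδ]
          have h5 : δ ^ l = δ ^ (l % d.kd) := by
            conv_lhs => rw [← Nat.mod_add_div l d.kd, pow_add, pow_mul, hδk, one_pow, mul_one]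
          rw [← h5, hδl]
        rw [(liftE_eq_iff h _ _).mp h3] at h1
        exact absurd h1 (by decide)
    have hk : gz h c ^ d.kd ∈ stabS (YM s p d.mask) := by
      intro v hv
      rw [gz_pow_val h c]
      exact stab_of_ck h hF c.zk_Y hv
    obtain ⟨a, ha⟩ := Nat.dvd_of_mod_eq_zero hmod
    rw [ha, pow_mul]
    exact (stabS (YM s p d.mask)).pow_mem hk a
  have e : g = t * gz h c ^ l := by
    rw [← hl]
    group
  rw [e]
  exact (stabS (YM s p d.mask)).mul_mem ((stabS (YM s p d.mask)).pow_mem (gφ_Y h hF c) i) hmem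

/-- The element `A` does not normalise the cyclic group. -/
lemma ga_not_conj {j : ℕ} (hj : j < 7) : ga h c * gt h c ≠ gt h c ^ j * ga h c := by
  intro he
  have h1 : liftM s (d.gA.mul p d.t) = liftM s ((M3.pow p d.t j).mul p d.gA) := by
    rw [liftM_mul h, liftM_mul h, ← gt_pow_val h c]
    exact congrArg Units.val he
  have h3 := (liftM_eq_iff h _ _).mp h1
  have h4 := List.all_eq_true.mp c.gA_norm j (List.mem_range.mpr hj)
  rw [h3] at h4
  exact absurd h4 (by decide)

end Model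

section Field

open Cfsg.Agent.Lib.Classical.Herm.Descent (fixF mem_fixF card_eq_pow_fix)

/-- An element of order seven and norm one. -/
theorem exists_norm_one_seven {L : Type*} [Field L] [Finite L] {m k : ℕ} (hm : 1 < m) (hk : m + 1 = 7 * k)
    (hc : Nat.card L = m ^ 2) (σ : L ≃+* L)
    (hσ : ∀ x, σ (σ x) = x) (hne : ∃ x, σ x ≠ x) : ∃ x : L, x ≠ 1 ∧ x ^ 7 = 1 ∧ x * σ x = 1 := by
  classical
  letI : Fintype L := Fintype.ofFinite _
  haveI : Fact (Nat.Prime 2) := ⟨Nat.prime_two⟩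
  have hord : orderOf σ = 2 := by
    apply orderOf_eq_prime
    · ext x
      simpa [pow_two] using hσ x
    · intro h
      obtain ⟨x, hx⟩ := hne
      apply hx
      rw [h]
      rfl
  have hfix := card_eq_pow_fix σ
  rw [hc, hord] at hfix
  have h32 : Nat.card (fixF σ) = m :=
    (Nat.pow_left_injective (by norm_num : 2 ≠ 0) hfix).symm
  letI : Fintype (fixF σ) := Fintype.ofFinite _
  have hnorm : ∀ y : L, y ≠ 0 → (y * σ y) ^ (m - 1) = 1 := by
    intro y hy
    have hmem : y * σ y ∈ fixF σ := by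
      rw [mem_fixF, map_mul, hσ, mul_comm]
    have hne0 : (⟨y * σ y, hmem⟩ : fixF σ) ≠ 0 := by
      intro h
      have h1 : y * σ y = 0 := congrArg Subtype.val h
      rcases mul_eq_zero.mp h1 with h3 | h3
      · exact hy h3
      · exact hy ((map_eq_zero σ).mp h3)
    have h3 := FiniteField.pow_card_sub_one_eq_one _ hne0
    rw [← Nat.card_eq_fintype_card, h32] at h3
    exact congrArg Subtype.val h3
  obtain ⟨ζ, hζ⟩ := IsCyclic.exists_generator (α := Lˣ)
  have hk0 : 0 < k := by omega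
  have hm1 : 0 < m - 1 := by omega
  have hN : m ^ 2 - 1 = (m - 1) * k * 7 := by
    obtain ⟨m', rfl⟩ : ∃ m', m = m' + 1 := ⟨m - 1, by omega⟩
    have : m' + 1 + 1 = 7 * k := hk
    simp only [Nat.add_sub_cancel]
    have h3 : (m' + 1) ^ 2 - 1 = m' * (m' + 2) := by
      have : (m' + 1) ^ 2 = m' * (m' + 2) + 1 := by ring
      omega
    rw [h3, show m' + 2 = 7 * k by omega]
    ring
  have hordζ : orderOf ζ = m ^ 2 - 1 := by
    rw [orderOf_eq_card_of_forall_mem_zpowers hζ, Nat.card_units, hc]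
  have hpow : ((ζ : L)) ^ ((m - 1) * k * 7) = 1 := by
    have := pow_orderOf_eq_one ζ
    rw [hordζ, hN] at this
    have h := congrArg Units.val this
    simpa using h
  refine ⟨(ζ : L) ^ ((m - 1) * k), ?_, ?_, ?_⟩
  · intro h
    have h1 : ζ ^ ((m - 1) * k) = 1 := Units.ext (by simpa using h)
    have := orderOf_dvd_of_pow_eq_one h1
    rw [hordζ, hN] at this
    have h3 := Nat.le_of_dvd (Nat.mul_pos hm1 hk0) this
    have h4 : 0 < (m - 1) * k := Nat.mul_pos hm1 hk0
    omega
  · rw [← pow_mul]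
    exact hpow
  · have h1 := hnorm (ζ : L) ζ.ne_zero
    have e : (ζ : L) ^ ((m - 1) * k) * σ ((ζ : L) ^ ((m - 1) * k)) = (((ζ : L) * σ (ζ : L)) ^ (m - 1)) ^ k := by
      rw [map_pow, ← pow_mul, mul_pow]
    rw [e, h1, one_pow]

/-- The roots of unity of order seven in a field. -/
theorem exists_pow_of_seven {L : Type*} [Field L] {a w : L} (ha : a ≠ 1) (ha11 : a ^ 7 = 1) (hw : w ^ 7 = 1) :
    ∃ i < 7, a ^ i = w := by
  haveI : Fact (Nat.Prime 7) := ⟨by norm_num⟩
  have h1 : orderOf a = 7 := orderOf_eq_prime ha11 ha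
  have h2 : IsPrimitiveRoot a 7 := by
    rw [← h1]
    exact IsPrimitiveRoot.orderOf a
  exact h2.eq_pow_of_pow_eq_one hw

end Field

section Final

open Cfsg.Agent.Lib.Classical.Asch.Adj

variable {F : Type*} [Field F] [Fintype F]

/-- The order of the general linear group. -/
lemma not_dvd_card {p : ℕ} (hp : p = 3 ∨ p = 5) (hF : Fintype.card F = p ^ 2) : ¬ 7 ^ 2 ∣ Nat.card (II 3 F p) := by
  intro h
  have h1 : Nat.card (II 3 F p) ∣ Nat.card (GL (Fin 3) F) := Subgroup.card_subgroup_dvd_card _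
  have h3 := Matrix.card_GL_field (𝔽 := F) 3
  rw [hF] at h3
  rw [h3] at h1
  have h4 := h.trans h1
  simp only [Fin.prod_univ_three] at h4
  rcases hp with rfl | rfl <;> norm_num at h4

lemma det_eq_one_of_pow {p : ℕ} (hp : p = 3 ∨ p = 5) (hF : Fintype.card F = p ^ 2) {g : GL (Fin 3) F} (hg : g ^ 7 = 1) :
    (g : Matrix (Fin 3) (Fin 3) F).det = 1 := by
  have h0 : (g : Matrix (Fin 3) (Fin 3) F).det ≠ 0 := ((Matrix.isUnit_iff_isUnit_det _).mp g.isUnit).ne_zero
  set d := (g : Matrix (Fin 3) (Fin 3) F).det with hd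
  have h3 := FiniteField.pow_card_sub_one_eq_one d h0
  rw [hF] at h3
  have hk1 : d ^ 7 = 1 := by
    have h1 := congrArg (fun x : GL (Fin 3) F => (x : Matrix (Fin 3) (Fin 3) F).det) hg
    simp only [Units.val_pow_eq_pow_val, Matrix.det_pow, Units.val_one, Matrix.det_one] at h1
    exact h1
  rcases hp with rfl | rfl
  · norm_num at h3
    -- `d ^ 8 = 1`, `d ^ 7 = 1`
    have : d * d ^ 7 = 1 := by linear_combination h3
    rwa [hk1, mul_one] at this
  · norm_num at h3
    -- `d ^ 24 = 1`, `d ^ 7 = 1`, `d ^ 21 = 1`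
    have h4 : d ^ 3 * (d ^ 7) ^ 3 = 1 := by linear_combination h3
    rw [hk1, one_pow, mul_one] at h4
    have h5 : d * (d ^ 3) ^ 2 = 1 := by linear_combination hk1
    rwa [h4, one_pow, mul_one] at h5

/-- **In `SU₃(q)`, `q = 3, 5`, the normaliser of an adjoint-closed cubic subfield is not maximal.** -/
theorem cubic_false {p : ℕ} {s : F} {d : CubicData} (hp : p = 3 ∨ p = 5) (h : Ctx p s) (hF : Fintype.card F = p ^ 2)
    (c : CubicChk p d)
    {K : Subalgebra F (Matrix (Fin 3) (Fin 3) F)} (hK : IsFieldSubalgebra 3 K)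
    (hadj : IsAdjointClosedFor (hermForm 3 F p) K) {H : Subgroup (GL (Fin 3) F)} (hH : IsMaximalIn (II 3 F p) H)
    (hE : H = subalgebraNormalizer K ⊓ II 3 F p) : False := by
  classical
  have hf : ReflForm (sigE hF) 1 (hermForm 3 F p) := FormSU.refl_hermForm hF
  have hcl : ∀ k ∈ K, adj (sigE hF) (hermForm 3 F p) k ∈ K := by
    intro k hk
    obtain ⟨k', hk', he⟩ := hadj k hk
    rw [← hf.eq_adj he]
    exact hk'
  haveI : Nonempty (Fin 3) := ⟨0⟩
  letI instF : Field ↥K := (FormField.isField_of hK).toField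
  haveI : Finite ↥K := inferInstance
  -- the involution on the field
  let σK : ↥K ≃+* ↥K :=
    { toFun := fun k => ⟨adj (sigE hF) (hermForm 3 F p) k.1, hcl _ k.2⟩
      invFun := fun k => ⟨adj (sigE hF) (hermForm 3 F p) k.1, hcl _ k.2⟩
      left_inv := fun k => Subtype.ext (hf.adj_adj k.1)
      right_inv := fun k => Subtype.ext (hf.adj_adj k.1)
      map_mul' := fun x y => Subtype.ext (by
        show adj (sigE hF) (hermForm 3 F p) (x.1 * y.1) = adj (sigE hF) (hermForm 3 F p) x.1 * adj (sigE hF) (hermForm 3 F p) y.1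
        rw [hf.adj_mul]
        exact hK.comm _ (hcl _ y.2) _ (hcl _ x.2))
      map_add' := fun x y => Subtype.ext (hf.adj_add x.1 y.1) }
  have hσK : ∀ x, σK (σK x) = x := fun k => Subtype.ext (hf.adj_adj k.1)
  have hcard : Nat.card ↥K = (p ^ 3) ^ 2 := by
    have h1 := Module.natCard_eq_pow_finrank (K := F) (V := ↥K)
    rw [hK.finrank_eq, Nat.card_eq_fintype_card (α := F), hF] at h1
    rw [h1]
    ring
  have hmoved : ∃ x, σK x ≠ x := by
    have hs' : s ^ p ≠ s := by
      intro he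
      rw [h.frob, h.cast_pred] at he
      have h2s : (2 : F) * s = 0 := by linear_combination - he
      have hs0 : s ≠ 0 := by
        intro h0
        have h1 := h.ss
        rw [h0, zero_mul] at h1
        have h2z : (2 : F) = 0 := h1.symm
        rcases hp with rfl | rfl
        · have h3 := h.p0
          push_cast at h3
          have : (1 : F) = 0 := by linear_combination h3 - h2z
          exact one_ne_zero this
        · have h3 := h.p0
          push_cast at h3
          have : (1 : F) = 0 := by linear_combination h3 - 2 * h2z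
          exact one_ne_zero this
      have h2z : (2 : F) = 0 := (mul_eq_zero.mp h2s).resolve_right hs0
      rcases hp with rfl | rfl
      · have h3 := h.p0
        push_cast at h3
        have : (1 : F) = 0 := by linear_combination h3 - h2z
        exact one_ne_zero this
      · have h3 := h.p0
        push_cast at h3
        have : (1 : F) = 0 := by linear_combination h3 - 2 * h2z
        exact one_ne_zero this
    refine ⟨⟨s • (1 : Matrix (Fin 3) (Fin 3) F), K.smul_mem K.one_mem s⟩, fun he => ?_⟩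
    have h1 : adj (sigE hF) (hermForm 3 F p) (s • (1 : Matrix (Fin 3) (Fin 3) F)) = s • (1 : Matrix (Fin 3) (Fin 3) F) :=
      congrArg Subtype.val he
    rw [hf.adj_smul, hf.adj_one, sigE_apply] at h1
    have h3 := congrFun (congrFun h1 0) 0
    simp only [Matrix.smul_apply, Matrix.one_apply_eq, smul_eq_mul, mul_one] at h3
    exact hs' h3
  have hpp : 1 < p ^ 3 := by
    rcases hp with rfl | rfl <;> norm_num
  obtain ⟨k7, hk7⟩ : ∃ k, p ^ 3 + 1 = 7 * k := by
    rcases hp with rfl | rfl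
    · exact ⟨4, by norm_num⟩
    · exact ⟨18, by norm_num⟩
  obtain ⟨x, hx1, hx11, hxσ⟩ := exists_norm_one_seven hpp hk7 hcard σK hσK hmoved
  set X : Matrix (Fin 3) (Fin 3) F := x.1 with hX
  have hXa : X * adj (sigE hF) (hermForm 3 F p) X = 1 := congrArg Subtype.val hxσ
  have hXa' : adj (sigE hF) (hermForm 3 F p) X * X = 1 := by
    rw [hK.comm _ (hcl _ x.2) _ x.2]
    exact hXa
  let xh : GL (Fin 3) F := ⟨X, adj (sigE hF) (hermForm 3 F p) X, hXa, hXa'⟩
  have hxval : (xh : Matrix (Fin 3) (Fin 3) F) = X := rfl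
  have hpowK : ∀ (y : ↥K) (n : ℕ), ((y ^ n : ↥K) : Matrix (Fin 3) (Fin 3) F) = (y : Matrix (Fin 3) (Fin 3) F) ^ n := by
    intro y n
    induction n with
    | zero => rfl
    | succ n ih =>
      rw [pow_succ, pow_succ, ← ih]
      rfl
  have hxh11 : xh ^ 7 = 1 := by
    apply Units.ext
    rw [Units.val_pow_eq_pow_val, hxval, hX, ← hpowK, hx11]
    rfl
  have hxh1 : xh ≠ 1 := by
    intro h
    apply hx1
    apply Subtype.ext
    exact congrArg Units.val h
  haveI hp11 : Fact (Nat.Prime 7) := ⟨by norm_num⟩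
  have hxord : orderOf xh = 7 := orderOf_eq_prime hxh11 hxh1
  have hxU : xh ∈ II 3 F p := by
    refine ⟨?_, ?_⟩
    · intro u v
      show hermForm 3 F p (X *ᵥ u) (X *ᵥ v) = hermForm 3 F p u v
      rw [hf.adj_spec, Matrix.mulVec_mulVec, hXa', Matrix.one_mulVec]
    · show _ ∈ specialLinear (Fin 3) F
      rw [Cfsg.Agent.Lib.Classical.Geo.Basic.mem_specialLinear_iff]
      exact det_eq_one_of_pow hp hF hxh11
  -- Sylow
  have hAU : gt h c ∈ II 3 F p := gOf_mem h hF d.t c.t_su
  have hbU : gb h c ∈ II 3 F p := gOf_mem h hF d.gB c.gB_su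
  have haU : ga h c ∈ II 3 F p := gOf_mem h hF d.gA c.gA_su
  obtain ⟨s', hs'⟩ := exists_conj_of_prime (G := ↥(II 3 F p)) (p := 7) (a := ⟨xh, hxU⟩) (b := ⟨gt h c, hAU⟩)
    (by rw [Subgroup.orderOf_mk]; exact hxord) (by rw [Subgroup.orderOf_mk]; exact gt_orderOf h c) (not_dvd_card hp hF)
  obtain ⟨k, hk⟩ := (mem_powers_iff_mem_zpowers).mpr hs'
  set t : GL (Fin 3) F := (s' : GL (Fin 3) F) with ht
  have hsU : t ∈ II 3 F p := s'.2
  have hk' : gt h c ^ k = t * xh * t⁻¹ := congrArg Subtype.val hk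
  set A' : GL (Fin 3) F := t⁻¹ * gt h c * t with hA'
  have hA'pow : ∀ n, A' ^ n = t⁻¹ * gt h c ^ n * t := by
    intro n
    induction n with
    | zero => simp
    | succ n ih =>
      rw [pow_succ, ih, hA', pow_succ]
      group
  have hA'11 : A' ^ 7 = 1 := by
    rw [hA'pow, gt_pow_seven]
    group
  have hA'1 : A' ≠ 1 := by
    intro h'
    apply gt_ne_one h c
    have : gt h c = t * A' * t⁻¹ := by
      rw [hA']
      group
    rw [this, h']
    group
  have hxA : xh = A' ^ k := by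
    rw [hA'pow, hk']
    group
  have hk0 : k % 7 ≠ 0 := by
    intro h0
    apply hxh1
    rw [hxA, pow_eq_pow_mod k hA'11, h0, pow_zero]
  have hA'mem : (A' : Matrix (Fin 3) (Fin 3) F) ∈ K := by
    obtain ⟨t', -, ht'⟩ := Nat.exists_mul_mod_eq_one_of_coprime (n := k) (k := 7)
      ((Nat.coprime_comm.mp ((Nat.Prime.coprime_iff_not_dvd hp11.out).mpr (fun h => hk0 (Nat.mod_eq_zero_of_dvd h))))) (by norm_num)
    have e : A' = xh ^ t' := by
      rw [hxA, ← pow_mul, pow_eq_pow_mod (k * t') hA'11, ht', pow_one]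
    rw [e, Units.val_pow_eq_pow_val, hxval]
    exact K.pow_mem x.2 t'
  let a' : ↥K := ⟨A', hA'mem⟩
  have ha'1 : a' ≠ 1 := by
    intro h'
    apply hA'1
    apply Units.ext
    exact congrArg Subtype.val h'
  have ha'11 : a' ^ 7 = 1 := by
    apply Subtype.ext
    rw [hpowK]
    have := congrArg Units.val hA'11
    simpa using this
  -- members of the normaliser
  have hconj : ∀ g ∈ subalgebraNormalizer K, ∃ j < 7, (t * g * t⁻¹) * gt h c = gt h c ^ j * (t * g * t⁻¹) := by
    intro g hg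
    have h1 : (g : Matrix (Fin 3) (Fin 3) F) * (A' : Matrix (Fin 3) (Fin 3) F) * ((g⁻¹ : GL (Fin 3) F) : Matrix (Fin 3) (Fin 3) F) ∈ K :=
      (hg _).mp hA'mem
    let w : ↥K := ⟨_, h1⟩
    have hwval : (w : Matrix (Fin 3) (Fin 3) F) = ((g * A' * g⁻¹ : GL (Fin 3) F) : Matrix (Fin 3) (Fin 3) F) := rfl
    have hw11 : w ^ 7 = 1 := by
      apply Subtype.ext
      rw [hpowK, hwval, ← Units.val_pow_eq_pow_val]
      have e : (g * A' * g⁻¹) ^ 7 = 1 := by
        rw [conj_pow, hA'11]
        group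
      rw [e]
      rfl
    obtain ⟨j, hj, hjw⟩ := exists_pow_of_seven ha'1 ha'11 hw11
    refine ⟨j, hj, ?_⟩
    have e1 : A' ^ j = g * A' * g⁻¹ := by
      apply Units.ext
      rw [← hwval, ← hjw, hpowK, Units.val_pow_eq_pow_val]
    rw [hA'pow] at e1
    have e2 : gt h c ^ j = t * (g * A' * g⁻¹) * t⁻¹ := by
      rw [← e1]
      group
    rw [e2, hA']
    group
  let M : Subgroup (GL (Fin 3) F) := (stabS (YM s p d.mask)).comap (MulAut.conj t).toMonoidHom
  have hM : ∀ g, g ∈ M ↔ t * g * t⁻¹ ∈ stabS (YM s p d.mask) := fun g => Iff.rfl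
  have hle : H ≤ M ⊓ II 3 F p := by
    intro g hg
    rw [hE] at hg
    obtain ⟨hg1, hg2⟩ := hg
    refine ⟨(hM g).mpr ?_, hg2⟩
    obtain ⟨j, hj, hc'⟩ := hconj g hg1
    exact mem_stab_of_conj h hF c ((II 3 F p).mul_mem ((II 3 F p).mul_mem hsU hg2) ((II 3 F p).inv_mem hsU)) hj hc'
  have hcj : ∀ y : GL (Fin 3) F, t * (t⁻¹ * y * t) * t⁻¹ = y := fun y => by group
  rcases hH.2 (M ⊓ II 3 F p) hle inf_le_right with he | he
  · have hL : t⁻¹ * ga h c * t ∈ M ⊓ II 3 F p := by
      refine ⟨(hM _).mpr ?_, (II 3 F p).mul_mem ((II 3 F p).mul_mem ((II 3 F p).inv_mem hsU) haU) hsU⟩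
      rw [hcj]
      exact ga_Y h hF c
    rw [he, hE] at hL
    obtain ⟨j, hj, hc'⟩ := hconj _ hL.1
    rw [hcj] at hc'
    exact ga_not_conj h c hj hc'
  · have hT : t⁻¹ * gb h c * t ∈ M ⊓ II 3 F p := by
      rw [he]
      exact (II 3 F p).mul_mem ((II 3 F p).mul_mem ((II 3 F p).inv_mem hsU) hbU) hsU
    have := (hM _).mp hT.1
    rw [hcj] at this
    exact gb_not_Y h c this

end Final

end Cfsg.Agent.Lib.Classical.Asch.SU3C
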