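import Mathlib
import Cfsg.Agent.Lib.Classical.Asch.SUThreeModel
import Cfsg.Agent.Lib.Classical.Asch.SUSix
import Cfsg.Agent.Lib.Classical.Asch.SUNine

/-!
# `SU₃(q)`: index two subfield structures, reduction to real orthogonal matrices
-/

set_option autoImplicit false
set_option linter.style.haveILetI false
set_option linter.unusedSectionVars false

namespace Cfsg.Agent.Lib.Classical.Asch.SU3R

open scoped MatrixGroups Matrix
open Cfsg Cfsg.Geo Cfsg.Agent.Lib.Classical.Asch.Basic Cfsg.Agent.Lib.Classical.Asch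
open Cfsg.Agent.Lib.Classical.Asch.NotSU
open Cfsg.Agent.Lib.Classical.Asch.SUSix (stabS)
open Cfsg.Agent.Lib.Classical.Herm.Basic
open Cfsg.Agent.Lib.Classical.Herm.PSLGraphField (sigE sigE_apply)

section Triple

variable {K : Type*} [Field K] [Fintype K]

/-- A rotation in a plane. -/
lemma rot_step (h2 : (2 : K) ≠ 0) {f₂ : (Fin 3 → K) → (Fin 3 → K) → K} (hf : IsSymmetricForm f₂)
    {u v : Fin 3 → K} {a b : K} (ha : a ≠ 0) (hb : b ≠ 0) (huu : f₂ u u = a) (hvv : f₂ v v = b) (huv : f₂ u v = 0) (c : K) :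
    ∃ u' v' : Fin 3 → K, f₂ u' u' = c ∧ f₂ v' v' = c / (a * b) ∧ f₂ u' v' = 0 ∧
      ∀ w, f₂ u w = 0 → f₂ v w = 0 → f₂ u' w = 0 ∧ f₂ v' w = 0 := by
  classical
  have hch : ringChar K ≠ 2 := by
    intro h0
    apply h2
    have h3 := ringChar.Nat.cast_ringChar (R := K)
    rw [h0] at h3
    exact_mod_cast h3
  have hodd := FiniteField.odd_card_of_char_ne_two hch
  obtain ⟨s, t, hst⟩ : ∃ s t : K, a * s ^ 2 + b * t ^ 2 = c := by
    have h1 : (Polynomial.C a * Polynomial.X ^ 2 : Polynomial K).degree = 2 := by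
      rw [Polynomial.degree_C_mul_X_pow 2 ha]
      rfl
    have h3 : (Polynomial.C b * Polynomial.X ^ 2 - Polynomial.C c : Polynomial K).degree = 2 := by
      rw [Polynomial.degree_sub_eq_left_of_degree_lt]
      · rw [Polynomial.degree_C_mul_X_pow 2 hb]
        rfl
      · rw [Polynomial.degree_C_mul_X_pow 2 hb]
        exact lt_of_le_of_lt Polynomial.degree_C_le (by norm_num)
    obtain ⟨s, t, hst⟩ := FiniteField.exists_root_sum_quadratic h1 h3 hodd
    refine ⟨s, t, ?_⟩
    simp only [Polynomial.eval_mul, Polynomial.eval_C, Polynomial.eval_pow, Polynomial.eval_X, Polynomial.eval_sub] at hst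
    linear_combination hst
  have hvu : f₂ v u = 0 := by rw [hf.symm]; exact huv
  have hB := hf.bilinear
  refine ⟨s • u + t • v, (t / a) • u + (-(s / b)) • v, ?_, ?_, ?_, ?_⟩
  · simp only [hB.add_left, hB.add_right, hB.smul_left, hB.smul_right, huu, hvv, huv, hvu]
    linear_combination hst
  · simp only [hB.add_left, hB.add_right, hB.smul_left, hB.smul_right, huu, hvv, huv, hvu]
    rw [← hst]
    field_simp
    ring
  · simp only [hB.add_left, hB.add_right, hB.smul_left, hB.smul_right, huu, hvv, huv, hvu]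
    field_simp
    ring
  · intro w h1 h3
    simp only [hB.add_left, hB.smul_left, h1, h3]
    simp

/-- Orthogonal bases with a constant norm of a symmetric form in dimension three. -/
theorem exists_ortho_triple' (h2 : (2 : K) ≠ 0) {f₂ : (Fin 3 → K) → (Fin 3 → K) → K} (hf : IsSymmetricForm f₂) :
    ∃ (c : K) (x : Fin 3 → Fin 3 → K), c ≠ 0 ∧ ∀ i j, f₂ (x i) (x j) = if i = j then c else 0 := by
  classical
  letI : Invertible (2 : K) := invertibleOfNonzero h2
  let B : LinearMap.BilinForm K (Fin 3 → K) :=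
    LinearMap.mk₂ K f₂ hf.bilinear.add_left (fun c x v => by simpa using hf.bilinear.smul_left c x v)
      hf.bilinear.add_right (fun c v x => by simpa using hf.bilinear.smul_right c v x)
  have hB : ∀ u v, B u v = f₂ u v := fun u v => rfl
  have hsym : LinearMap.IsSymm B := ⟨fun u v => by simpa [hB] using hf.symm u v⟩
  obtain ⟨v, hv⟩ := LinearMap.BilinForm.exists_orthogonal_basis (B := B) hsym
  have hfin : Module.finrank K (Fin 3 → K) = 3 := Module.finrank_fin_fun K
  let w : Module.Basis (Fin 3) K (Fin 3 → K) := v.reindex (finCongr hfin)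
  have hwv : ∀ i, w i = v ((finCongr hfin).symm i) := fun i => by simp [w]
  have horth : ∀ i j, i ≠ j → f₂ (w i) (w j) = 0 := by
    intro i j hij
    rw [hwv, hwv]
    exact hv (fun h => hij ((finCongr hfin).symm.injective h))
  have hne : ∀ i, f₂ (w i) (w i) ≠ 0 := by
    intro i h0
    obtain ⟨-, y, hy⟩ := hf.nondegenerate (w i) (w.ne_zero i)
    apply hy
    have h4 : y ∈ Submodule.span K (Set.range w) := by
      rw [w.span_eq]
      trivial
    obtain ⟨c, rfl⟩ := (Submodule.mem_span_range_iff_exists_fun K).mp h4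
    have hsum : ∀ s : Finset (Fin 3), f₂ (w i) (∑ j ∈ s, c j • w j) = 0 := by
      intro s
      induction s using Finset.induction_on with
      | empty =>
        have := hf.bilinear.smul_right 0 (w i) (w i)
        simpa using this
      | insert a s ha ih =>
        rw [Finset.sum_insert ha, hf.bilinear.add_right, ih, hf.bilinear.smul_right]
        by_cases hia : i = a
        · subst hia
          rw [h0]
          ring
        · rw [horth i a hia]
          ring
    exact hsum _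
  set a₀ := f₂ (w 0) (w 0) with ha₀
  set a₁ := f₂ (w 1) (w 1) with ha₁
  set a₂ := f₂ (w 2) (w 2) with ha₂
  have h0a : a₀ ≠ 0 := hne 0
  have h1a : a₁ ≠ 0 := hne 1
  have h2a : a₂ ≠ 0 := hne 2
  set c := a₀ * a₁ * a₂ with hc
  have hc0 : c ≠ 0 := mul_ne_zero (mul_ne_zero h0a h1a) h2a
  obtain ⟨x₀, x₁, h00, h11, h01, hperp⟩ := rot_step h2 hf h0a h1a rfl rfl (horth _ _ (by decide)) c
  have h11' : f₂ x₁ x₁ = a₂ := by
    rw [h11, hc]
    field_simp
  obtain ⟨hx02, hx12⟩ := hperp (w 2) (horth _ _ (by decide)) (horth _ _ (by decide))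
  obtain ⟨y₁, y₂, hy11, hy22, hy12, hperp'⟩ := rot_step h2 hf h2a h2a h11' rfl hx12 c
  have hx0s : f₂ x₁ x₀ = 0 := by rw [hf.symm]; exact h01
  have hx0s' : f₂ (w 2) x₀ = 0 := by rw [hf.symm]; exact hx02
  obtain ⟨hy10, hy20⟩ := hperp' x₀ hx0s hx0s'
  have hB' := hf.bilinear
  refine ⟨c, ![x₀, y₁, a₂ • y₂], hc0, fun i j => ?_⟩
  have s1 : f₂ x₀ y₁ = 0 := by rw [hf.symm]; exact hy10
  have s2 : f₂ x₀ y₂ = 0 := by rw [hf.symm]; exact hy20
  have s3 : f₂ y₂ y₁ = 0 := by rw [hf.symm]; exact hy12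
  fin_cases i <;> fin_cases j <;>
    simp [hB'.smul_left, hB'.smul_right, h00, hy11, hy22, hy12, hy10, hy20, s1, s2, s3]
  field_simp

end Triple

section Main

variable {F : Type*} [Field F] [Fintype F] {q : ℕ}

lemma conj_mem_II {n : ℕ} {P g : GL (Fin n) F} (hP : P ∈ GU n F q) (hg : g ∈ II n F q) : P * g * P⁻¹ ∈ II n F q := by
  refine ⟨(GU n F q).mul_mem ((GU n F q).mul_mem hP hg.1) ((GU n F q).inv_mem hP), ?_⟩
  have hg2 : g ∈ specialLinear (Fin n) F := hg.2
  show _ ∈ specialLinear (Fin n) F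
  rw [Cfsg.Agent.Lib.Classical.Geo.Basic.mem_specialLinear_iff] at hg2 ⊢
  rw [Units.val_mul, Units.val_mul, Matrix.det_mul, Matrix.det_mul, hg2, mul_one, ← Matrix.det_mul, ← Units.val_mul, mul_inv_cancel]
  simp

lemma conj_mem_II' {n : ℕ} {P g : GL (Fin n) F} (hP : P ∈ GU n F q) (hg : g ∈ II n F q) : P⁻¹ * g * P ∈ II n F q := by
  have := conj_mem_II ((GU n F q).inv_mem hP) hg
  simpa using this

/-- The last step of all the exclusions: a maximal subgroup in the conjugate of the stabiliser of a set of vectors. -/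
theorem final_step {n : ℕ} {H : Subgroup (GL (Fin n) F)} (hH : IsMaximalIn (II n F q) H) {P : GL (Fin n) F} (hP : P ∈ GU n F q)
    {Y : Set (Fin n → F)} {ga gb : GL (Fin n) F} (hle : ∀ g ∈ H, P⁻¹ * g * P ∈ stabS Y) (haI : ga ∈ II n F q)
    (haY : ga ∈ stabS Y) (hb : gb ∈ II n F q) (hbY : gb ∉ stabS Y) (hna : P * ga * P⁻¹ ∉ H) : False := by
  let M : Subgroup (GL (Fin n) F) := (stabS Y).comap (MulAut.conj P⁻¹).toMonoidHom
  have hM : ∀ g, g ∈ M ↔ P⁻¹ * g * P ∈ stabS Y := fun g => by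
    show (MulAut.conj P⁻¹).toMonoidHom g ∈ stabS Y ↔ _
    simp [MulAut.conj_apply]
  have hHI : H ≤ II n F q := hH.1.le
  have hcj : ∀ y : GL (Fin n) F, P⁻¹ * (P * y * P⁻¹) * P = y := fun y => by group
  rcases hH.2 (M ⊓ II n F q) (le_inf (fun g hg => (hM g).mpr (hle g hg)) hHI) inf_le_right with he | he
  · apply hna
    rw [← he]
    refine ⟨(hM _).mpr ?_, conj_mem_II hP haI⟩
    rw [hcj]
    exact haY
  · have h1 : P * gb * P⁻¹ ∈ M ⊓ II n F q := by
      rw [he]
      exact conj_mem_II hP hb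
    have h3 := (hM _).mp h1.1
    rw [hcj] at h3
    exact hbY h3

variable {F₀ : Subfield F}

lemma pow_q_of_mem (hF : Fintype.card F = q ^ 2) (hc : Fintype.card F = Nat.card F₀ ^ 2) {x : F} (hx : x ∈ F₀) : x ^ q = x := by
  have hq : Nat.card F₀ = q := by
    have h1 : Nat.card F₀ ^ 2 = q ^ 2 := by rw [← hc, hF]
    exact Nat.pow_left_injective (by norm_num : 2 ≠ 0) h1
  letI : Fintype F₀ := Fintype.ofFinite _
  have h1 := FiniteField.pow_card (⟨x, hx⟩ : F₀)
  rw [← Nat.card_eq_fintype_card, hq] at h1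
  exact congrArg Subtype.val h1

/-- Membership in a subfield subgroup. -/
lemma mem_sfs_iff {P g : GL (Fin 3) F} : g ∈ subfieldSubgroup F₀ P ↔
    P⁻¹ * g * P ∈ (Matrix.GeneralLinearGroup.map (F₀.subtype : F₀ →+* F)).range ⊔ scalars (Fin 3) F := by
  constructor
  · rintro ⟨y, hy, rfl⟩
    have : P⁻¹ * ((MulAut.conj P).toMonoidHom y) * P = y := by
      simp [MulAut.conj_apply]
      group
    rw [this]
    exact hy
  · intro h
    refine ⟨_, h, ?_⟩
    simp [MulAut.conj_apply]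
    group

/-- **A rational structure carrying the form: a unitary change of basis.** -/
theorem exists_unitary_rational (hF : Fintype.card F = q ^ 2) (h2 : (2 : F) ≠ 0) (hc : Fintype.card F = Nat.card F₀ ^ 2)
    {P : GL (Fin 3) F} (hR : IsFormRationalStructure (hermForm 3 F q) F₀ 1 P) :
    ∃ P' : GL (Fin 3) F, P' ∈ GU 3 F q ∧ ∀ g, g ∈ subfieldSubgroup F₀ P' ↔ g ∈ subfieldSubgroup F₀ P := by
  classical
  have hx := fun {x : F} (hx : x ∈ F₀) => pow_q_of_mem hF hc hx
  letI : Fintype F₀ := Fintype.ofFinite _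
  let up : (Fin 3 → F₀) → (Fin 3 → F) := fun u i => (u i : F)
  have hup : ∀ u i, up u i ∈ F₀ := fun u i => (u i).2
  have hR' : ∀ u v, hermForm 3 F q ((P : Matrix (Fin 3) (Fin 3) F) *ᵥ up u) ((P : Matrix (Fin 3) (Fin 3) F) *ᵥ up v) ∈ F₀ := by
    intro u v
    have := hR (up u) (up v) (hup u) (hup v)
    rwa [one_mul] at this
  let G₀ : (Fin 3 → F₀) → (Fin 3 → F₀) → F₀ := fun u v => ⟨_, hR' u v⟩
  have hG₀ : ∀ u v, ((G₀ u v : F₀) : F) = hermForm 3 F q ((P : Matrix (Fin 3) (Fin 3) F) *ᵥ up u) ((P : Matrix (Fin 3) (Fin 3) F) *ᵥ up v) := fun _ _ => rfl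
  have hupadd : ∀ u v, up (u + v) = up u + up v := fun u v => by
    funext i
    simp [up]
  have hupsmul : ∀ (c : F₀) u, up (c • u) = (c : F) • up u := fun c u => by
    funext i
    simp [up]
  have hbil : IsBilinearForm G₀ := by
    refine ⟨?_, ?_, ?_, ?_⟩
    · intro x y v
      apply Subtype.ext
      rw [hG₀, hupadd, Matrix.mulVec_add, hermForm_add_left]
      rfl
    · intro a x v
      apply Subtype.ext
      rw [hG₀, hupsmul, Matrix.mulVec_smul, hermForm_smul_left]
      rfl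
    · intro v x y
      apply Subtype.ext
      rw [hG₀, hupadd, Matrix.mulVec_add, hermForm_add_right hF]
      rfl
    · intro a v x
      apply Subtype.ext
      rw [hG₀, hupsmul, Matrix.mulVec_smul, hermForm_smul_right, hx a.2]
      rfl
  have hsymm : ∀ u v, G₀ u v = G₀ v u := by
    intro u v
    apply Subtype.ext
    rw [hG₀, hG₀, ← hermForm_pow_q hF, hx (hR' v u)]
  have hupe : ∀ i, up (Pi.single i 1) = Pi.single i 1 := by
    intro i
    funext k
    by_cases h : k = i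
    · subst h
      simp [up]
    · simp [up, Pi.single_apply, h]
  have hS : IsSymmetricForm G₀ := by
    refine ⟨hbil, hsymm, ?_⟩
    intro v hv
    have hw : (P : Matrix (Fin 3) (Fin 3) F) *ᵥ up v ≠ 0 := by
      intro h0
      apply hv
      have h1 : up v = 0 := by
        have h3 := congrArg (fun w => ((P⁻¹ : GL (Fin 3) F) : Matrix (Fin 3) (Fin 3) F) *ᵥ w) h0
        simpa [Matrix.mulVec_mulVec, ← Units.val_mul] using h3
      funext i
      exact Subtype.ext (congrFun h1 i)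
    have key : ∃ i : Fin 3, G₀ (Pi.single i 1) v ≠ 0 := by
      by_contra hcon
      push Not at hcon
      apply hw
      apply hermForm_nondegenerate_right hF
      intro y
      obtain ⟨z, rfl⟩ : ∃ z, (P : Matrix (Fin 3) (Fin 3) F) *ᵥ z = y :=
        ⟨((P⁻¹ : GL (Fin 3) F) : Matrix (Fin 3) (Fin 3) F) *ᵥ y, by simp [Matrix.mulVec_mulVec, ← Units.val_mul]⟩
      have hz : z = ∑ i, z i • up (Pi.single i 1) := by
        funext k
        simp only [hupe, Finset.sum_apply, Pi.smul_apply, smul_eq_mul, Pi.single_apply, mul_ite, mul_one, mul_zero]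
        simp
      rw [hz, Matrix.mulVec_sum]
      simp only [Matrix.mulVec_smul]
      rw [SUFour.herm_sum_left]
      refine Finset.sum_eq_zero fun i _ => ?_
      have h1 := hG₀ (Pi.single i 1) v
      rw [hcon i] at h1
      rw [← h1]
      simp
    obtain ⟨i, hi⟩ := key
    exact ⟨⟨_, hi⟩, ⟨_, by rw [hsymm]; exact hi⟩⟩
  have h20 : (2 : F₀) ≠ 0 := by
    intro h0
    apply h2
    have h3 : F₀.subtype (2 : F₀) = F₀.subtype 0 := congrArg _ h0
    rwa [map_ofNat, map_zero] at h3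
  obtain ⟨c, x, hc0, hxx⟩ := exists_ortho_triple' h20 hS
  have hc0' : (c : F) ≠ 0 := fun h => hc0 (Subtype.ext h)
  obtain ⟨s₀, hs₀⟩ := exists_norm_eq hF ((c : F)⁻¹) (inv_ne_zero hc0') (by rw [inv_pow, hx c.2])
  have hs₀0 : s₀ ≠ 0 := by
    rintro rfl
    rw [zero_pow (by omega)] at hs₀
    exact inv_ne_zero hc0' hs₀.symm
  have hind : LinearIndependent F₀ x := by
    rw [Fintype.linearIndependent_iff]
    intro β hβ i
    have h1 : G₀ (∑ j, β j • x j) (x i) = β i * c := by
      rw [Fin.sum_univ_three, hbil.add_left, hbil.add_left, hbil.smul_left, hbil.smul_left, hbil.smul_left, hxx, hxx, hxx]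
      fin_cases i <;> simp
    rw [hβ] at h1
    have h3 : G₀ 0 (x i) = 0 := by
      have := hbil.smul_left 0 (x i) (x i)
      simpa using this
    rw [h3] at h1
    exact (mul_eq_zero.mp h1.symm).resolve_right hc0
  let b : Module.Basis (Fin 3) F₀ (Fin 3 → F₀) := basisOfLinearIndependentOfCardEqFinrank hind (by simp)
  have hb : ∀ j, b j = x j := fun j => by simp [b]
  obtain ⟨P₀, hP₀e, -, -⟩ := SUPair.exists_glOfBasis b
  let A : GL (Fin 3) F := Matrix.GeneralLinearGroup.map (F₀.subtype : F₀ →+* F) P₀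
  let z : Fˣ := Units.mk0 s₀ hs₀0
  have hAe : ∀ j, (A : Matrix (Fin 3) (Fin 3) F) *ᵥ Pi.single j 1 = up (x j) := by
    intro j
    funext k
    rw [Matrix.mulVec_single_one, ← hb, ← hP₀e, Matrix.mulVec_single_one]
    rfl
  set P' : GL (Fin 3) F := P * A * SympType.scal (Fin 3) F z with hP'
  have hval : (P' : Matrix (Fin 3) (Fin 3) F) = s₀ • ((P : Matrix (Fin 3) (Fin 3) F) * (A : Matrix (Fin 3) (Fin 3) F)) := by
    rw [hP', Units.val_mul, Units.val_mul, SympType.coe_scal]
    simp [z]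
  have hcol : ∀ j, (P' : Matrix (Fin 3) (Fin 3) F) *ᵥ Pi.single j 1 = s₀ • ((P : Matrix (Fin 3) (Fin 3) F) *ᵥ up (x j)) := by
    intro j
    rw [hval, Matrix.smul_mulVec, ← Matrix.mulVec_mulVec, hAe]
  refine ⟨P', ?_, ?_⟩
  · apply FormSU2.mem_GU_of_gram hF
    ext i j
    have h1 : ((P' : Matrix (Fin 3) (Fin 3) F)ᵀ * (P' : Matrix (Fin 3) (Fin 3) F).map (sigE hF)) i j =
        hermForm 3 F q ((P' : Matrix (Fin 3) (Fin 3) F) *ᵥ Pi.single i 1) ((P' : Matrix (Fin 3) (Fin 3) F) *ᵥ Pi.single j 1) := by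
      rw [hermForm_apply, Matrix.mul_apply]
      simp [Matrix.mulVec_single_one, sigE_apply]
    rw [h1, hcol, hcol, hermForm_smul_left, hermForm_smul_right, ← hG₀, hxx]
    by_cases hij : i = j
    · subst hij
      simp only [if_true, Matrix.one_apply_eq]
      have e : s₀ * (s₀ ^ q * (c : F)) = s₀ ^ (q + 1) * c := by ring
      rw [e, hs₀, inv_mul_cancel₀ hc0']
    · simp [hij]
  · intro g
    rw [mem_sfs_iff, mem_sfs_iff]
    set L := (Matrix.GeneralLinearGroup.map (F₀.subtype : F₀ →+* F)).range ⊔ scalars (Fin 3) F with hL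
    have hT : A * SympType.scal (Fin 3) F z ∈ L :=
      L.mul_mem (Subgroup.mem_sup_left ⟨P₀, rfl⟩) (Subgroup.mem_sup_right (SympType.scal_mem _))
    have e : P'⁻¹ * g * P' = (A * SympType.scal (Fin 3) F z)⁻¹ * (P⁻¹ * g * P) * (A * SympType.scal (Fin 3) F z) := by
      rw [hP']
      group
    rw [e]
    constructor
    · intro h
      have h3 := L.mul_mem (L.mul_mem hT h) (L.inv_mem hT)
      convert h3 using 1
      group
    · intro h
      exact L.mul_mem (L.mul_mem (L.inv_mem hT) h) hT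

/-- **Elements of a subfield subgroup, in a unitary basis: a cube root of unity times a real orthogonal matrix.** -/
theorem real_decomp (hF : Fintype.card F = q ^ 2) (hc : Fintype.card F = Nat.card F₀ ^ 2) {P : GL (Fin 3) F} (hP : P ∈ GU 3 F q)
    {g : GL (Fin 3) F} (hg : g ∈ II 3 F q) (hs : g ∈ subfieldSubgroup F₀ P) :
    ∃ (c : F) (A : Matrix (Fin 3) (Fin 3) F), c ^ 3 = 1 ∧ (∀ i j, A i j ∈ F₀) ∧ Aᵀ * A = 1 ∧ A.det = 1 ∧
      ((P⁻¹ * g * P : GL (Fin 3) F) : Matrix (Fin 3) (Fin 3) F) = c • A := by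
  classical
  have hx := fun {x : F} (hx : x ∈ F₀) => pow_q_of_mem hF hc hx
  have hy := mem_sfs_iff.mp hs
  have hI := conj_mem_II' hP hg
  set g' := P⁻¹ * g * P with hg'
  obtain ⟨g₀, ⟨h₀, rfl⟩, z, hz, hprod⟩ := Subgroup.mem_sup_of_normal_right.mp hy
  obtain ⟨d, hd⟩ := (mem_scalars_iff' z).mp hz
  have hd0 : d ≠ 0 := by
    rintro rfl
    have h1 := z.val_inv
    rw [hd, zero_smul, zero_mul] at h1
    exact zero_ne_one h1
  set A₀ : Matrix (Fin 3) (Fin 3) F := ((Matrix.GeneralLinearGroup.map (F₀.subtype : F₀ →+* F) h₀ : GL (Fin 3) F) : Matrix (Fin 3) (Fin 3) F) with hA₀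
  have hA₀m : ∀ i j, A₀ i j ∈ F₀ := by
    intro i j
    change ((h₀ : Matrix (Fin 3) (Fin 3) F₀) i j : F) ∈ F₀
    exact Subtype.coe_prop _
  have hval : (g' : Matrix (Fin 3) (Fin 3) F) = d • A₀ := by
    rw [← hprod, Units.val_mul, hd, Matrix.mul_smul, mul_one]
  have hgr := SUNine.gram_of_mem_GU hF hI.1
  have hσ : A₀.map (sigE hF) = A₀ := by
    ext i j
    simp [sigE_apply, hx (hA₀m i j)]
  have hmap : (g' : Matrix (Fin 3) (Fin 3) F).map (sigE hF) = d ^ q • A₀ := by
    rw [hval]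
    ext i j
    simp only [Matrix.map_apply, Matrix.smul_apply, smul_eq_mul, map_mul, sigE_apply]
    rw [hx (hA₀m i j)]
  rw [hmap, hval, Matrix.transpose_smul, Matrix.smul_mul, Matrix.mul_smul, smul_smul] at hgr
  set μ : F := (d * d ^ q)⁻¹ with hμ
  have hdd : d * d ^ q ≠ 0 := mul_ne_zero hd0 (pow_ne_zero _ hd0)
  have hμ0 : μ ≠ 0 := inv_ne_zero hdd
  have hAA : A₀ᵀ * A₀ = μ • 1 := by
    have h1 := congrArg (fun M => μ • M) hgr
    simp only [smul_smul] at h1
    rwa [hμ, inv_mul_cancel₀ hdd, one_smul] at h1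
  have hμm : μ ∈ F₀ := by
    have h1 := congrFun (congrFun hAA 0) 0
    simp only [Matrix.smul_apply, Matrix.one_apply_eq, smul_eq_mul, mul_one, Matrix.mul_apply, Matrix.transpose_apply] at h1
    rw [← h1]
    exact sum_mem fun k _ => mul_mem (hA₀m k 0) (hA₀m k 0)
  set δ := A₀.det with hδ
  have hδm : δ ∈ F₀ := by
    have e : A₀ = (h₀ : Matrix (Fin 3) (Fin 3) F₀).map F₀.subtype := rfl
    rw [hδ, e, ← RingHom.mapMatrix_apply, ← RingHom.map_det]
    exact Subtype.coe_prop _
  have hδ2 : δ ^ 2 = μ ^ 3 := by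
    have h1 := congrArg Matrix.det hAA
    rw [Matrix.det_mul, Matrix.det_transpose, Matrix.det_smul, Matrix.det_one, Fintype.card_fin, mul_one] at h1
    rw [← h1]
    ring
  have hδ0 : δ ≠ 0 := by
    intro h0
    rw [h0] at hδ2
    exact pow_ne_zero 3 hμ0 (by rw [← hδ2]; ring)
  set t := δ / μ with ht
  have ht0 : t ≠ 0 := div_ne_zero hδ0 hμ0
  have ht2 : t ^ 2 = μ := by
    rw [ht, div_pow, hδ2]
    field_simp
  have htm : t ∈ F₀ := div_mem hδm hμm
  refine ⟨d * t, t⁻¹ • A₀, ?_, fun i j => ?_, ?_, ?_, ?_⟩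
  · have h1 : (g' : Matrix (Fin 3) (Fin 3) F).det = 1 := by
      have h3 : g' ∈ specialLinear (Fin 3) F := hI.2
      exact (Cfsg.Agent.Lib.Classical.Geo.Basic.mem_specialLinear_iff _).mp h3
    rw [hval, Matrix.det_smul, Fintype.card_fin, ← hδ] at h1
    have hdq : (d * t) ^ 3 * (δ / t ^ 3) = 1 := by
      rw [← h1]
      field_simp
    have h5 : δ / t ^ 3 = 1 := by
      rw [pow_succ, ht2, ht]
      field_simp
    rwa [h5, mul_one] at hdq
  · simp only [Matrix.smul_apply, smul_eq_mul]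
    exact mul_mem (inv_mem htm) (hA₀m i j)
  · rw [Matrix.transpose_smul, Matrix.smul_mul, Matrix.mul_smul, hAA, smul_smul, smul_smul]
    have e : t⁻¹ * t⁻¹ * μ = 1 := by
      rw [← ht2]
      field_simp
    rw [e, one_smul]
  · rw [Matrix.det_smul, Fintype.card_fin, ← hδ, inv_pow, pow_succ, ht2, ht]
    field_simp
  · rw [hval, smul_smul, mul_assoc, mul_inv_cancel₀ ht0, mul_one]

end Main

end Cfsg.Agent.Lib.Classical.Asch.SU3R
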