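import Mathlib
import Cfsg.Agent.Lib.Classical.Asch.SUThreeReal
import Cfsg.Agent.Lib.Classical.Asch.SUThreeTabC

/-!
# `SU₃(q)`, `q = 3, 5`: frames and orthogonal groups are not maximal

For `q = 5` the stabiliser of a frame, and the group `SO₃(5)` together with the scalars, stabilise a set of six hundred
and thirty vectors; its stabiliser in `SU₃(5)` is a group `3.A₇`.  For `q = 3` the group `SO₃(3)` is monomial.
-/

set_option autoImplicit false
set_option linter.style.haveILetI false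
set_option linter.unusedSectionVars false
set_option maxRecDepth 100000

namespace Cfsg.Agent.Lib.Classical.Asch.SU3F

open scoped MatrixGroups Matrix
open Cfsg Cfsg.Geo Cfsg.Agent.Lib.Classical.Asch.Basic Cfsg.Agent.Lib.Classical.Asch
open Cfsg.Agent.Lib.Classical.Asch.NotSU
open Cfsg.Agent.Lib.Classical.Asch.SU3M Cfsg.Agent.Lib.Classical.Asch.SU3C Cfsg.Agent.Lib.Classical.Asch.SU3R
open Cfsg.Agent.Lib.Classical.Asch.SUSix (stabS)
open Cfsg.Agent.Lib.Classical.Herm.Basic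
open Cfsg.Agent.Lib.Classical.Herm.PSLGraphField (sigE sigE_apply)

section Sets

variable {F : Type*} [Field F]

def pi3 (v : Fin 3 → F) : F := v 0 * v 1 * v 2

def t3 (v : Fin 3 → F) : F := ∑ i, (v i ^ 6) ^ 2

def conjV (v : Fin 3 → F) : Fin 3 → F := fun i => v i ^ 5

variable (F) in
/-- The set, in terms of monomial invariants. -/
def Ys1 [Fintype F] : Set (Fin 3 → F) := {v | hermForm 3 F 5 v v = 1 ∧
  ((pi3 v = 0 ∧ (t3 v = 1 ∨ t3 v = 3)) ∨ (pi3 v ^ 2 = 4 ∧ t3 v = 3) ∨ (pi3 v ^ 2 = 2 ∧ (t3 v = 1 ∨ t3 v = 2)))}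

variable (F) in
/-- The set, in terms of orthogonal invariants. -/
def Ys2 [Fintype F] : Set (Fin 3 → F) := {v | hermForm 3 F 5 v v = 1 ∧
  (v ⬝ᵥ v = 0 ∨ (v ⬝ᵥ v) ^ 3 = 2 ∨ (v ⬝ᵥ v) ^ 3 = 4 ∨ ((v ⬝ᵥ v) ^ 3 = 1 ∧ (v ⬝ᵥ v) • conjV v = v))}

end Sets

section Model

def lit (n : ℕ) : E := ⟨n, 0⟩
def nr (x : E) : E := E.mul 5 x (E.cj 5 x)
def sqE (x : E) : E := E.mul 5 x x
def cube (x : E) : E := E.mul 5 x (sqE x)
def pi3M (w : V3) : E := E.mul 5 (E.mul 5 w.x w.y) w.z
def t3M (w : V3) : E := E.add 5 (E.add 5 (E.add 5 E0 (sqE (nr w.x))) (sqE (nr w.y))) (sqE (nr w.z))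
def bM (w : V3) : E := dot 5 w w

def cond1 (a t : E) : Bool :=
  (E.eqb 5 a E0 && (E.eqb 5 t (lit 1) || E.eqb 5 t (lit 3))) ||
  (E.eqb 5 (sqE a) (lit 4) && E.eqb 5 t (lit 3)) ||
  (E.eqb 5 (sqE a) (lit 2) && (E.eqb 5 t (lit 1) || E.eqb 5 t (lit 2)))

def cond2 (B : E) (w : V3) : Bool :=
  E.eqb 5 B E0 || E.eqb 5 (cube B) (lit 2) || E.eqb 5 (cube B) (lit 4) ||
  (E.eqb 5 (cube B) (lit 1) && V3.eqb 5 (smulV 5 B (w.cj 5)) w)

def pred1 (w : V3) : Bool := E.eqb 5 (herm 5 w w) E1 && cond1 (pi3M w) (t3M w)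

def pred2 (w : V3) : Bool := E.eqb 5 (herm 5 w w) E1 && cond2 (bM w) w

def iffB : Bool → Bool → Bool
  | true, true => true
  | false, false => true
  | _, _ => false

lemma iffB_iff {a b : Bool} : iffB a b = true ↔ (a = true ↔ b = true) := by
  cases a <;> cases b <;> simp [iffB]

theorem tab5 : all3 5 (fun w => iffB (inM 5 d5.mask w) (pred1 w) && iffB (inM 5 d5.mask w) (pred2 w)) = true := by
  decide +kernel

variable {F : Type*} [Field F] [Fintype F] {s : F} (h : Ctx 5 s) (hF : Fintype.card F = 5 ^ 2)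

include h in
lemma lift_lit (n : ℕ) : liftE s (lit n) = (n : F) := by
  simp [liftE, lit]

include h in
lemma lift_nr (x : E) : liftE s (nr x) = liftE s x ^ 6 := by
  rw [nr, liftE_mul h, liftE_cj h]
  ring

include h in
lemma lift_sq (x : E) : liftE s (sqE x) = liftE s x ^ 2 := by
  rw [sqE, liftE_mul h]
  ring

include h in
lemma lift_cube (x : E) : liftE s (cube x) = liftE s x ^ 3 := by
  rw [cube, liftE_mul h, lift_sq h]
  ring

include h in
lemma lift_pi3 (w : V3) : pi3 (liftV s w) = liftE s (pi3M w) := by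
  rw [pi3M, liftE_mul h, liftE_mul h]
  rfl

include h in
lemma lift_t3 (w : V3) : t3 (liftV s w) = liftE s (t3M w) := by
  rw [t3M, liftE_add h, liftE_add h, liftE_add h, lift_sq h, lift_sq h, lift_sq h, lift_nr h, lift_nr h, lift_nr h, liftE_zero h,
    t3, Fin.sum_univ_three, zero_add]
  rfl

include h in
lemma lift_b (w : V3) : liftV s w ⬝ᵥ liftV s w = liftE s (bM w) := by
  rw [bM, emb_dot h]

include h in
lemma lift_conj (w : V3) : conjV (liftV s w) = liftV s (w.cj 5) := by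
  funext i
  fin_cases i <;> simp [conjV, liftV, V3.cj, liftE_cj h]

include h in
lemma cond1_iff (a t : E) : cond1 a t = true ↔ (liftE s a = 0 ∧ (liftE s t = 1 ∨ liftE s t = 3)) ∨
    (liftE s a ^ 2 = 4 ∧ liftE s t = 3) ∨ (liftE s a ^ 2 = 2 ∧ (liftE s t = 1 ∨ liftE s t = 2)) := by
  simp only [cond1, Bool.or_eq_true, Bool.and_eq_true, ← liftE_eq_iff h, lift_sq h, lift_lit h, liftE_zero h, or_assoc]
  norm_num

include h in
lemma lift_pred1 (w : V3) : liftV s w ∈ Ys1 F ↔ pred1 w = true := by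
  simp only [pred1, Bool.and_eq_true, Ys1, Set.mem_ofPred_eq, cond1_iff h, ← liftE_eq_iff h, herm_lift h, liftE_one h, lift_pi3 h,
    lift_t3 h]

include h in
lemma lift_pred2 (w : V3) : liftV s w ∈ Ys2 F ↔ pred2 w = true := by
  simp only [pred2, cond2, Bool.and_eq_true, Bool.or_eq_true, Ys2, Set.mem_ofPred_eq, ← liftE_eq_iff h, herm_lift h, liftE_one h, lift_b h,
    liftE_zero h, lift_cube h, lift_lit h, ← liftV_eq_iff h, lift_smulV h, lift_conj h, or_assoc]
  norm_num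

include h hF in
lemma mem_YM_iff1 (v : Fin 3 → F) : v ∈ YM s 5 d5.mask ↔ v ∈ Ys1 F := by
  obtain ⟨w, he, hw⟩ := all3_spec h hF tab5 v
  rw [← he, lift_mem_YM h, lift_pred1 h]
  simp only [Bool.and_eq_true, iffB_iff] at hw
  exact hw.1

include h hF in
lemma mem_YM_iff2 (v : Fin 3 → F) : v ∈ YM s 5 d5.mask ↔ v ∈ Ys2 F := by
  obtain ⟨w, he, hw⟩ := all3_spec h hF tab5 v
  rw [← he, lift_mem_YM h, lift_pred2 h]
  simp only [Bool.and_eq_true, iffB_iff] at hw
  exact hw.2

end Model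

section Monomial

variable {F : Type*} [Field F] [Fintype F]

/-- The determinant of a monomial matrix. -/
lemma det_mono' {n : ℕ} {M : Matrix (Fin n) (Fin n) F} (π : Equiv.Perm (Fin n)) (c : Fin n → F)
    (hM : ∀ y x, M y x = if y = π x then c x else 0) : M.det ^ 2 = (∏ x, c x) ^ 2 := by
  classical
  rw [Matrix.det_apply, Finset.sum_eq_single π]
  · have h1 : ∏ i, M (π i) i = ∏ x, c x := Finset.prod_congr rfl fun x _ => by rw [hM, if_pos rfl]
    rw [h1]
    rcases Int.units_eq_one_or (Equiv.Perm.sign π) with h | h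
    · rw [h, one_smul]
    · rw [h, Units.neg_smul, one_smul]
      ring
  · intro σ _ hσ
    obtain ⟨x, hx⟩ : ∃ x, σ x ≠ π x := by
      by_contra hc
      push Not at hc
      exact hσ (Equiv.ext hc)
    rw [Finset.prod_eq_zero (Finset.mem_univ x), smul_zero]
    rw [hM, if_neg hx]
  · simp

lemma herm_eq_sum (v : Fin 3 → F) : hermForm 3 F 5 v v = ∑ i, v i ^ 6 := by
  rw [hermForm_apply]
  refine Finset.sum_congr rfl fun i _ => ?_
  ring

/-- The monomial action preserves the set. -/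
lemma mono_mem_Ys1 {M : Matrix (Fin 3) (Fin 3) F} (π : Equiv.Perm (Fin 3)) (c : Fin 3 → F)
    (hM : ∀ y x, M y x = if y = π x then c x else 0) (hc : ∀ x, c x ^ 6 = 1) (hp : (∏ x, c x) ^ 2 = 1) {v : Fin 3 → F}
    (hv : v ∈ Ys1 F) : M *ᵥ v ∈ Ys1 F := by
  classical
  have hw : ∀ x, (M *ᵥ v) (π x) = c x * v x := by
    intro x
    simp only [Matrix.mulVec, dotProduct]
    rw [Finset.sum_eq_single x]
    · rw [hM, if_pos rfl]
    · intro x' _ hx'
      rw [hM, if_neg (fun h => hx' (π.injective h).symm), zero_mul]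
    · simp
  have h6 : ∀ x, ((M *ᵥ v) (π x)) ^ 6 = v x ^ 6 := by
    intro x
    rw [hw, mul_pow, hc, one_mul]
  have hn : hermForm 3 F 5 (M *ᵥ v) (M *ᵥ v) = hermForm 3 F 5 v v := by
    rw [herm_eq_sum, herm_eq_sum, ← Equiv.sum_comp π]
    exact Finset.sum_congr rfl fun x _ => h6 x
  have ht : t3 (M *ᵥ v) = t3 v := by
    rw [t3, t3, ← Equiv.sum_comp π]
    exact Finset.sum_congr rfl fun x _ => by rw [h6]
  have hpi : pi3 (M *ᵥ v) = (∏ x, c x) * pi3 v := by
    have e : ∀ u : Fin 3 → F, pi3 u = ∏ i, u i := fun u => by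
      rw [pi3, Fin.prod_univ_three]
    rw [e, e, ← Equiv.prod_comp π, ← Finset.prod_mul_distrib]
    exact Finset.prod_congr rfl fun x _ => hw x
  have hp2 : pi3 (M *ᵥ v) ^ 2 = pi3 v ^ 2 := by
    rw [hpi, mul_pow, hp, one_mul]
  have hp0 : (pi3 (M *ᵥ v) = 0) ↔ pi3 v = 0 := by
    have h1 : (∏ x, c x) ≠ 0 := by
      intro h0
      rw [h0] at hp
      norm_num at hp
    rw [hpi]
    simp [h1]
  obtain ⟨h1, h3⟩ := hv
  refine ⟨hn.trans h1, ?_⟩
  rw [hp2, hp0, ht]
  exact h3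

lemma pow_five_add (hF : Fintype.card F = 5 ^ 2) (x y : F) : (x + y) ^ 5 = x ^ 5 + y ^ 5 := pow_q_add hF x y

lemma dot_real {A : Matrix (Fin 3) (Fin 3) F} (hAA : Aᵀ * A = 1) (u v : Fin 3 → F) : (A *ᵥ u) ⬝ᵥ (A *ᵥ v) = u ⬝ᵥ v := by
  rw [Matrix.dotProduct_mulVec, ← Matrix.mulVec_transpose, Matrix.mulVec_mulVec, hAA, Matrix.one_mulVec]

/-- The real orthogonal matrices preserve the set. -/
lemma real_mem_Ys2 (hF : Fintype.card F = 5 ^ 2) {A : Matrix (Fin 3) (Fin 3) F} (hm : ∀ i j, A i j ^ 5 = A i j) (hAA : Aᵀ * A = 1)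
    {v : Fin 3 → F} (hv : v ∈ Ys2 F) : A *ᵥ v ∈ Ys2 F := by
  have hconj : conjV (A *ᵥ v) = A *ᵥ conjV v := by
    funext i
    simp only [conjV, Matrix.mulVec, dotProduct, Fin.sum_univ_three]
    rw [pow_five_add hF, pow_five_add hF, mul_pow, mul_pow, mul_pow, hm, hm, hm]
  have hherm : ∀ u : Fin 3 → F, hermForm 3 F 5 u u = u ⬝ᵥ conjV u := fun u => by
    rw [hermForm_apply]
    rfl
  obtain ⟨h1, h3⟩ := hv
  refine ⟨?_, ?_⟩
  · rw [hherm, hconj, dot_real hAA, ← hherm, h1]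
  · rw [dot_real hAA, hconj, ← Matrix.mulVec_smul]
    rcases h3 with h3 | h3 | h3 | ⟨h3, h4⟩
    · exact Or.inl h3
    · exact Or.inr (Or.inl h3)
    · exact Or.inr (Or.inr (Or.inl h3))
    · exact Or.inr (Or.inr (Or.inr ⟨h3, by rw [h4]⟩))

end Monomial

section Five

variable {F : Type*} [Field F] [Fintype F] {s : F} (h : Ctx 5 s) (hF : Fintype.card F = 5 ^ 2)

/-- The element `A` of the table. -/
def gA5 (h : Ctx 5 s) : GL (Fin 3) F := gOf h d5.gA (isU_of_isSU chk5.gA_su)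

/-- The element `B` of the table. -/
def gB5 (h : Ctx 5 s) : GL (Fin 3) F := gOf h d5.gB (isU_of_isSU chk5.gB_su)

include hF in
lemma gA5_mem : gA5 h ∈ II 3 F 5 := gOf_mem h hF d5.gA chk5.gA_su

include hF in
lemma gB5_mem : gB5 h ∈ II 3 F 5 := gOf_mem h hF d5.gB chk5.gB_su

include hF in
lemma gA5_stab : gA5 h ∈ stabS (YM s 5 d5.mask) := mem_stab_of_check h hF _ _ chk5.gA_Y

lemma gB5_stab : gB5 h ∉ stabS (YM s 5 d5.mask) := not_mem_stab_of_check h _ _ chk5.gB_w chk5.gB_Y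

include h hF in
/-- **In `SU₃(5)` the stabiliser of a frame is not maximal.** -/
theorem frames_five {D : Fin 3 → Submodule F (Fin 3 → F)}
    (hD : IsNondegenerateMDecomposition (hermForm 3 F 5) 1 D)
    {H : Subgroup (GL (Fin 3) F)} (hH : IsMaximalIn (II 3 F 5) H)
    (hE : H = decompositionStabilizer D ⊓ II 3 F 5) : False := by
  obtain ⟨b, hb, hon⟩ := SUFour.exists_onb hF hD
  obtain ⟨P, hPe, hPi, hPu⟩ := SUPair.exists_glOfBasis b
  have hPcol : ∀ x k, (P : Matrix (Fin 3) (Fin 3) F) k x = b x k := by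
    intro x k
    have := congrFun (hPe x) k
    rw [Matrix.mulVec_single_one] at this
    exact this
  have hPU : P ∈ GU 3 F 5 := by
    apply FormSU2.mem_GU_of_gram hF
    ext x y
    rw [Matrix.mul_apply]
    simp only [Matrix.transpose_apply, Matrix.map_apply, sigE_apply, hPcol]
    rw [Matrix.one_apply, ← hon, hermForm_apply]
  have hmon : ∀ g ∈ decompositionStabilizer D, g ∈ GU 3 F 5 → ∃ (π : Equiv.Perm (Fin 3)) (c : Fin 3 → F), (∀ x, c x ^ 6 = 1) ∧
      ∀ y x, ((P⁻¹ * g * P : GL (Fin 3) F) : Matrix (Fin 3) (Fin 3) F) y x = if y = π x then c x else 0 := by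
    intro g hg hU
    obtain ⟨π, c, hc, hform⟩ := SUFour.frame_mon hF hD hb hon hg hU
    refine ⟨π, c, hc, fun y x => ?_⟩
    have h1 : ((P⁻¹ * g * P : GL (Fin 3) F) : Matrix (Fin 3) (Fin 3) F) *ᵥ (Pi.single x 1)
        = fun i => b.repr ((g : Matrix (Fin 3) (Fin 3) F) *ᵥ b x) i := by
      rw [Units.val_mul, Units.val_mul, ← Matrix.mulVec_mulVec, ← Matrix.mulVec_mulVec, hPe, hPi]
    have h2' := congrFun h1 y
    rw [Matrix.mulVec_single_one] at h2'
    have h3' : ((P⁻¹ * g * P : GL (Fin 3) F) : Matrix (Fin 3) (Fin 3) F) y x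
        = b.repr ((g : Matrix (Fin 3) (Fin 3) F) *ᵥ b x) y := h2'
    rw [h3', hform, map_smul, Finsupp.smul_apply, Module.Basis.repr_self, Finsupp.single_apply]
    by_cases h : y = π x
    · subst h
      simp
    · have h4 : ¬ π x = y := fun h5 => h h5.symm
      simp [h, h4]
  have hle : ∀ g ∈ H, P⁻¹ * g * P ∈ stabS (YM s 5 d5.mask) := by
    intro g hg
    rw [hE] at hg
    obtain ⟨hg1, hg2⟩ := hg
    obtain ⟨π, c, hc, hform⟩ := hmon g hg1 hg2.1
    have hI := conj_mem_II' hPU hg2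
    have hp : (∏ x, c x) ^ 2 = 1 := by
      rw [← det_mono' π c hform]
      have h3 : P⁻¹ * g * P ∈ specialLinear (Fin 3) F := hI.2
      rw [(Cfsg.Agent.Lib.Classical.Geo.Basic.mem_specialLinear_iff _).mp h3, one_pow]
    intro v hv
    rw [mem_YM_iff1 h hF] at hv ⊢
    exact mono_mem_Ys1 π c hform hc hp hv
  refine final_step hH hPU hle (gA5_mem h hF) (gA5_stab h hF) (gB5_mem h hF) (gB5_stab h) ?_
  intro hmem
  rw [hE] at hmem
  obtain ⟨π, c, -, hform⟩ := hmon _ hmem.1 hmem.2.1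
  have e : P⁻¹ * (P * gA5 h * P⁻¹) * P = gA5 h := by group
  rw [e] at hform
  have h0 : liftE s d5.gA.r0.x = (0 : F) ∨ liftE s d5.gA.r1.x = (0 : F) := by
    by_cases h1 : (0 : Fin 3) = π 0
    · right
      have h3 := hform 1 0
      rw [if_neg (by rw [← h1]; decide)] at h3
      exact h3
    · left
      have h3 := hform 0 0
      rw [if_neg h1] at h3
      exact h3
  rw [← liftE_zero h, liftE_eq_iff h, liftE_eq_iff h] at h0
  exact absurd h0 (by decide +kernel)

/-- The scalars of order dividing three. -/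
lemma scalar_mem_Ys1 {c : F} (hc : c ^ 3 = 1) {v : Fin 3 → F} (hv : v ∈ Ys1 F) : c • v ∈ Ys1 F := by
  classical
  have h6 : c ^ 6 = 1 := by
    have : c ^ 6 = (c ^ 3) ^ 2 := by ring
    rw [this, hc, one_pow]
  have hM : ∀ y x, (c • (1 : Matrix (Fin 3) (Fin 3) F)) y x = if y = (Equiv.refl (Fin 3)) x then (fun _ => c) x else 0 := by
    intro y x
    by_cases hxy : y = x
    · subst hxy
      simp
    · simp [hxy]
  have h1 := mono_mem_Ys1 (Equiv.refl (Fin 3)) (fun _ => c) hM (fun _ => h6)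
    (by rw [Fin.prod_univ_three]; linear_combination h6) hv
  simpa [Matrix.smul_mulVec] using h1

include h hF in
/-- **In `SU₃(5)` the subfield subgroup of index two is not maximal.** -/
theorem ortho_five {F₀ : Subfield F} (hc : Fintype.card F = Nat.card F₀ ^ 2) {P : GL (Fin 3) F}
    (hR : IsFormRationalStructure (hermForm 3 F 5) F₀ 1 P)
    {H : Subgroup (GL (Fin 3) F)} (hH : IsMaximalIn (II 3 F 5) H)
    (hE : H = subfieldSubgroup F₀ P ⊓ II 3 F 5) : False := by
  have h2 : (2 : F) ≠ 0 := by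
    intro h0
    have h3 := h.p0
    push_cast at h3
    have : (1 : F) = 0 := by linear_combination h3 - 2 * h0
    exact one_ne_zero this
  obtain ⟨P', hPU, hiff⟩ := exists_unitary_rational hF h2 hc hR
  have hx := fun {x : F} (hx : x ∈ F₀) => pow_q_of_mem hF hc hx
  have hle : ∀ g ∈ H, P'⁻¹ * g * P' ∈ stabS (YM s 5 d5.mask) := by
    intro g hg
    rw [hE] at hg
    obtain ⟨c, A, hc3, hA, hAA, -, hval⟩ := real_decomp hF hc hPU hg.2 ((hiff g).mpr hg.1)
    intro v hv
    rw [hval, Matrix.smul_mulVec]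
    rw [mem_YM_iff1 h hF]
    apply scalar_mem_Ys1 hc3
    rw [← mem_YM_iff1 h hF, mem_YM_iff2 h hF]
    rw [mem_YM_iff2 h hF] at hv
    exact real_mem_Ys2 hF (fun i j => hx (hA i j)) hAA hv
  refine final_step hH hPU hle (gA5_mem h hF) (gA5_stab h hF) (gB5_mem h hF) (gB5_stab h) ?_
  intro hmem
  rw [hE] at hmem
  obtain ⟨c, A, hc3, hA, hAA, -, hval⟩ := real_decomp hF hc hPU hmem.2 ((hiff _).mpr hmem.1)
  have e : P'⁻¹ * (P' * gA5 h * P'⁻¹) * P' = gA5 h := by group
  rw [e] at hval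
  have h00 : liftE s d5.gA.r0.x = c * A 0 0 := congrFun (congrFun hval 0) 0
  have h01 : liftE s d5.gA.r0.y = c * A 0 1 := congrFun (congrFun hval 0) 1
  have key : liftE s (E.mul 5 (E.cj 5 d5.gA.r0.x) d5.gA.r0.y) = liftE s (E.mul 5 d5.gA.r0.x (E.cj 5 d5.gA.r0.y)) := by
    rw [liftE_mul h, liftE_mul h, liftE_cj h, liftE_cj h, h00, h01, mul_pow, mul_pow, hx (hA 0 0), hx (hA 0 1)]
    ring
  rw [liftE_eq_iff h] at key
  exact absurd key (by decide +kernel)

end Five

section Three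

variable {F : Type*} [Field F] [Fintype F] {s : F} (h : Ctx 3 s) (hF : Fintype.card F = 3 ^ 2)

/-- The monomial vectors. -/
def Y3 (F : Type*) [Field F] : Set (Fin 3 → F) := {v | ∃ (i : Fin 3) (c : F), c ^ 4 = 1 ∧ v = c • Pi.single i 1}

include h in
lemma three_zero : (3 : F) = 0 := by
  have h3 := h.p0
  exact_mod_cast h3

/-- A diagonal element. -/
def ga3 : M3 := ⟨⟨⟨0, 1⟩, E0, E0⟩, ⟨E0, ⟨0, 2⟩, E0⟩, ⟨E0, E0, E1⟩⟩

theorem ga3_su : isSU 3 ga3 = true := by decide +kernel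

include h hF in
/-- **In `SU₃(3)` the subfield subgroup of index two is not maximal.** -/
theorem ortho_three {F₀ : Subfield F} (hc : Fintype.card F = Nat.card F₀ ^ 2) {P : GL (Fin 3) F}
    (hR : IsFormRationalStructure (hermForm 3 F 3) F₀ 1 P)
    {H : Subgroup (GL (Fin 3) F)} (hH : IsMaximalIn (II 3 F 3) H)
    (hE : H = subfieldSubgroup F₀ P ⊓ II 3 F 3) : False := by
  classical
  have h30 := three_zero h
  have h2 : (2 : F) ≠ 0 := by
    intro h0
    have : (1 : F) = 0 := by linear_combination h30 - h0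
    exact one_ne_zero this
  have h10 : (1 : F) ≠ 0 := one_ne_zero
  obtain ⟨P', hPU, hiff⟩ := exists_unitary_rational hF h2 hc hR
  have hx := fun {x : F} (hx : x ∈ F₀) => pow_q_of_mem hF hc hx
  have hcube : ∀ {c : F}, c ^ 3 = 1 → c = 1 := by
    intro c hc3
    have h1 : (c - 1) ^ 3 = 0 := by
      linear_combination hc3 + (c - c * c) * h30
    exact sub_eq_zero.mp (pow_eq_zero_iff (by norm_num) |>.mp h1)
  have hsq : ∀ {x : F}, x ∈ F₀ → x = 0 ∨ x ^ 2 = 1 := by
    intro x hx'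
    by_cases h0 : x = 0
    · exact Or.inl h0
    · right
      have h1 := hx hx'
      apply mul_left_cancel₀ h0
      linear_combination h1
  -- columns of real orthogonal matrices
  have hcol : ∀ (A : Matrix (Fin 3) (Fin 3) F), (∀ i j, A i j ∈ F₀) → Aᵀ * A = 1 → ∀ j, ∃ (i : Fin 3) (a : F), a ^ 2 = 1 ∧
      A *ᵥ Pi.single j 1 = a • Pi.single i 1 := by
    intro A hA hAA j
    have hs : A 0 j ^ 2 + A 1 j ^ 2 + A 2 j ^ 2 = 1 := by
      have h1 := congrFun (congrFun hAA j) j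
      simp only [Matrix.mul_apply, Matrix.transpose_apply, Matrix.one_apply_eq, Fin.sum_univ_three] at h1
      linear_combination h1
    have hcolv : A *ᵥ Pi.single j 1 = ![A 0 j, A 1 j, A 2 j] := by
      funext k
      rw [Matrix.mulVec_single_one]
      fin_cases k <;> rfl
    rw [hcolv]
    have hvec : ∀ (i : Fin 3) (a : F), a • (Pi.single i 1 : Fin 3 → F) = fun k => if k = i then a else 0 := by
      intro i a
      funext k
      by_cases hk : k = i
      · subst hk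
        simp
      · simp [hk]
    rcases hsq (hA 0 j) with h0 | h0 <;> rcases hsq (hA 1 j) with h1 | h1 <;> rcases hsq (hA 2 j) with h3 | h3
    · exfalso
      apply h10
      linear_combination (A 0 j) * h0 + (A 1 j) * h1 + (A 2 j) * h3 - hs
    · refine ⟨2, A 2 j, h3, ?_⟩
      rw [hvec, h0, h1]
      funext k
      fin_cases k <;> rfl
    · refine ⟨1, A 1 j, h1, ?_⟩
      rw [hvec, h0, h3]
      funext k
      fin_cases k <;> rfl
    · exfalso
      apply h10
      linear_combination - h1 - h3 - (A 0 j) * h0 + hs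
    · refine ⟨0, A 0 j, h0, ?_⟩
      rw [hvec, h1, h3]
      funext k
      fin_cases k <;> rfl
    · exfalso
      apply h10
      linear_combination - h0 - h3 - (A 1 j) * h1 + hs
    · exfalso
      apply h10
      linear_combination - h0 - h1 - (A 2 j) * h3 + hs
    · exfalso
      apply h10
      linear_combination h0 + h1 + h3 - hs + h30
  have hle : ∀ g ∈ H, P'⁻¹ * g * P' ∈ stabS (Y3 F) := by
    intro g hg
    rw [hE] at hg
    obtain ⟨c, A, hc3, hA, hAA, -, hval⟩ := real_decomp hF hc hPU hg.2 ((hiff g).mpr hg.1)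
    rw [hcube hc3, one_smul] at hval
    rintro _ ⟨i, d, hd, rfl⟩
    obtain ⟨k, a, ha, hcolA⟩ := hcol A hA hAA i
    refine ⟨k, d * a, ?_, ?_⟩
    · have e : (d * a) ^ 4 = d ^ 4 * (a ^ 2) ^ 2 := by ring
      rw [e, hd, ha]
      ring
    · rw [hval, Matrix.mulVec_smul, hcolA, smul_smul]
  -- the diagonal element
  have hga : ∀ (hm : isU 3 ga3 = true) (i : Fin 3), ∃ x : F, x ^ 4 = 1 ∧
      ((gOf h ga3 hm : GL (Fin 3) F) : Matrix (Fin 3) (Fin 3) F) *ᵥ Pi.single i 1 = x • Pi.single i 1 := by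
    intro hm i
    have hss := h.ss
    have hs4 : s ^ 4 = 1 := by
      have e : s ^ 4 = (s * s) ^ 2 := by ring
      rw [e, hss]
      linear_combination h30
    rw [gOf_val, Matrix.mulVec_single_one]
    fin_cases i
    · refine ⟨s, hs4, ?_⟩
      funext k
      fin_cases k <;> simp [SU3M.liftM, liftV, ga3, liftE, E0, E1]
    · refine ⟨2 * s, ?_, ?_⟩
      · have e : (2 * s) ^ 4 = 16 * s ^ 4 := by ring
        rw [e, hs4]
        linear_combination 5 * h30
      · funext k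
        fin_cases k <;> simp [SU3M.liftM, liftV, ga3, liftE, E0, E1]
    · refine ⟨1, by ring, ?_⟩
      funext k
      fin_cases k <;> simp [SU3M.liftM, liftV, ga3, liftE, E0, E1]
  set ga : GL (Fin 3) F := gOf h ga3 (isU_of_isSU ga3_su) with hgaD
  set gb : GL (Fin 3) F := gOf h d3.gA (isU_of_isSU chk3.gA_su) with hgbD
  have hgaS : ga ∈ stabS (Y3 F) := by
    rintro _ ⟨i, d, hd, rfl⟩
    obtain ⟨x, hx4, hxe⟩ := hga (isU_of_isSU ga3_su) i
    refine ⟨i, d * x, ?_, ?_⟩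
    · rw [mul_pow, hd, hx4, one_mul]
    · rw [Matrix.mulVec_smul, hxe, smul_smul]
  have hgbS : gb ∉ stabS (Y3 F) := by
    intro hmem
    obtain ⟨i, d, -, hi⟩ := hmem (Pi.single 0 1) ⟨0, 1, by ring, by rw [one_smul]⟩
    rw [gOf_val, Matrix.mulVec_single_one] at hi
    have h00 : liftE s d3.gA.r0.x = (d • (Pi.single i 1 : Fin 3 → F)) 0 := congrFun hi 0
    have h01 : liftE s d3.gA.r1.x = (d • (Pi.single i 1 : Fin 3 → F)) 1 := congrFun hi 1
    have h0 : liftE s d3.gA.r0.x = (0 : F) ∨ liftE s d3.gA.r1.x = (0 : F) := by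
      by_cases hi0 : i = 0
      · right
        rw [h01, hi0]
        simp
      · left
        rw [h00]
        simp [Ne.symm hi0]
    rw [← liftE_zero h, liftE_eq_iff h, liftE_eq_iff h] at h0
    exact absurd h0 (by decide +kernel)
  refine final_step hH hPU hle (gOf_mem h hF ga3 ga3_su) hgaS (gOf_mem h hF d3.gA chk3.gA_su) hgbS ?_
  intro hmem
  rw [hE] at hmem
  obtain ⟨c, A, hc3, hA, hAA, -, hval⟩ := real_decomp hF hc hPU hmem.2 ((hiff _).mpr hmem.1)
  have e : P'⁻¹ * (P' * ga * P'⁻¹) * P' = ga := by group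
  rw [e, hcube hc3, one_smul] at hval
  have h00 : liftE s ga3.r0.x = A 0 0 := congrFun (congrFun hval 0) 0
  have hs3 := hx (hA 0 0)
  rw [← h00] at hs3
  have hsval : liftE s ga3.r0.x = s := by
    simp [liftE, ga3]
  rw [hsval, h.frob] at hs3
  have hs0 : s = 0 := by
    push_cast at hs3
    linear_combination hs3
  have hss := h.ss
  rw [hs0, mul_zero] at hss
  exact h2 hss.symm

end Three

end Cfsg.Agent.Lib.Classical.Asch.SU3F
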