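import Mathlib
import Cfsg.Agent.Lib.Classical.Asch.SUThreeReal
import Cfsg.Agent.Lib.Classical.Asch.SUThreeFive
import Cfsg.Agent.Lib.Classical.Asch.SUThreeTabD

/-!
# `SU₃(5)`: the normaliser of an extraspecial group of order twenty-seven is not maximal

The group is brought to a standard form, and its normaliser lies in the stabiliser of a set of two hundred and seventy
vectors (the stabiliser is a group `3.M₁₀`).
-/

set_option autoImplicit false
set_option linter.style.haveILetI false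
set_option linter.unusedSectionVars false
set_option maxRecDepth 100000

namespace Cfsg.Agent.Lib.Classical.Asch.SU3H

open scoped MatrixGroups Matrix
open Cfsg Cfsg.Geo Cfsg.Agent.Lib.Classical.Asch.Basic Cfsg.Agent.Lib.Classical.Asch
open Cfsg.Agent.Lib.Classical.Asch.NotSU
open Cfsg.Agent.Lib.Classical.Asch.SU3M Cfsg.Agent.Lib.Classical.Asch.SU3C Cfsg.Agent.Lib.Classical.Asch.SU3R
open Cfsg.Agent.Lib.Classical.Asch.SU3D
open Cfsg.Agent.Lib.Classical.Asch.SUSix (stabS)
open Cfsg.Agent.Lib.Classical.Herm.Basic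
open Cfsg.Agent.Lib.Classical.Herm.PSLGraphField (sigE sigE_apply)

section Normal

variable {F : Type*} [Field F] [Fintype F]

/-- **The standard form of a pair of elements of order three with a scalar commutator.** -/
theorem heis_normal_form (hF : Fintype.card F = 5 ^ 2) {a b : GL (Fin 3) F} (ha : a ∈ GU 3 F 5) (hb : b ∈ GU 3 F 5)
    (ha3 : a ^ 3 = 1) (hb3 : b ^ 3 = 1) {c : F} (hc : c ≠ 1) (hc3 : c ^ 3 = 1)
    (hab : (a : Matrix (Fin 3) (Fin 3) F) * (b : Matrix (Fin 3) (Fin 3) F) = c • ((b : Matrix (Fin 3) (Fin 3) F) * (a : Matrix (Fin 3) (Fin 3) F))) :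
    ∃ (P : GL (Fin 3) F) (x : F), P ∈ GU 3 F 5 ∧ x ^ 3 = 1 ∧
      (∀ j : Fin 3, ((P⁻¹ * a * P : GL (Fin 3) F) : Matrix (Fin 3) (Fin 3) F) *ᵥ Pi.single j 1 = (x * c ^ (j : ℕ)) • Pi.single j 1) ∧
      (∀ j : Fin 3, ((P⁻¹ * b * P : GL (Fin 3) F) : Matrix (Fin 3) (Fin 3) F) *ᵥ Pi.single j 1 = Pi.single (j + 1) 1) := by
  classical
  set A : Matrix (Fin 3) (Fin 3) F := (a : Matrix (Fin 3) (Fin 3) F) with hA
  set B : Matrix (Fin 3) (Fin 3) F := (b : Matrix (Fin 3) (Fin 3) F) with hB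
  have hA3 : A ^ 3 = 1 := by
    rw [hA, ← Units.val_pow_eq_pow_val, ha3, Units.val_one]
  have hB3 : B ^ 3 = 1 := by
    rw [hB, ← Units.val_pow_eq_pow_val, hb3, Units.val_one]
  have hc1 : 1 + c + c ^ 2 = 0 := by
    have h1 : (c - 1) * (1 + c + c ^ 2) = 0 := by linear_combination hc3
    exact (mul_eq_zero.mp h1).resolve_left (sub_ne_zero.mpr hc)
  have hc0 : c ≠ 0 := by
    rintro rfl
    norm_num at hc3
  -- an eigenvector
  obtain ⟨v, hv0, x, hx3, hvx⟩ : ∃ v : Fin 3 → F, v ≠ 0 ∧ ∃ x : F, x ^ 3 = 1 ∧ A *ᵥ v = x • v := by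
    have hprod : (A - (1 : F) • 1) * (A - c • 1) * (A - c ^ 2 • 1) = 0 := by
      have e : (A - (1 : F) • 1) * (A - c • 1) * (A - c ^ 2 • 1) =
          A ^ 3 - (1 + c + c ^ 2) • A ^ 2 + (c + c ^ 2 + c ^ 3) • A - c ^ 3 • (1 : Matrix (Fin 3) (Fin 3) F) := by
        simp only [sub_mul, mul_sub, smul_mul_assoc, mul_smul_comm, one_mul, mul_one, smul_smul, pow_succ, pow_zero]
        module
      rw [e, hA3, hc1, hc3]
      have e2 : c + c ^ 2 + 1 = 0 := by linear_combination hc1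
      rw [e2]
      simp
    have hd := congrArg Matrix.det hprod
    rw [Matrix.det_mul, Matrix.det_mul, Matrix.det_zero] at hd
    have key : ∀ y : F, y ^ 3 = 1 → (A - y • 1).det = 0 → ∃ v : Fin 3 → F, v ≠ 0 ∧ ∃ x : F, x ^ 3 = 1 ∧ A *ᵥ v = x • v := by
      intro y hy hdet
      obtain ⟨v, hv, hz⟩ := Matrix.exists_mulVec_eq_zero_iff.mpr hdet
      refine ⟨v, hv, y, hy, ?_⟩
      rw [Matrix.sub_mulVec, Matrix.smul_mulVec, Matrix.one_mulVec] at hz
      exact sub_eq_zero.mp hz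
    rcases mul_eq_zero.mp hd with h | h
    · rcases mul_eq_zero.mp h with h | h
      · exact key 1 (by ring) h
      · exact key c hc3 h
    · exact key (c ^ 2) (by linear_combination (c ^ 3 + 1) * hc3) h
  have hx0 : x ≠ 0 := by
    rintro rfl
    norm_num at hx3
  have hx6 : x ^ 6 = 1 := by linear_combination (x ^ 3 + 1) * hx3
  have hAB : ∀ u, A *ᵥ (B *ᵥ u) = c • (B *ᵥ (A *ᵥ u)) := by
    intro u
    rw [Matrix.mulVec_mulVec, hab, Matrix.smul_mulVec, Matrix.mulVec_mulVec]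
  set v₁ := B *ᵥ v with hv₁
  set v₂ := B *ᵥ v₁ with hv₂
  have hBv₂ : B *ᵥ v₂ = v := by
    rw [hv₂, hv₁, Matrix.mulVec_mulVec, Matrix.mulVec_mulVec, mul_assoc, ← pow_two, ← pow_succ', hB3, Matrix.one_mulVec]
  have hA₁ : A *ᵥ v₁ = (c * x) • v₁ := by
    rw [hv₁, hAB, hvx, Matrix.mulVec_smul, smul_smul]
  have hA₂ : A *ᵥ v₂ = (c * c * x) • v₂ := by
    rw [hv₂, hAB, hA₁, Matrix.mulVec_smul, smul_smul]
    congr 1
    ring
  have hinj : ∀ {w : Fin 3 → F}, w ≠ 0 → B *ᵥ w ≠ 0 := by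
    intro w hw h0
    apply hw
    have h1 := congrArg (fun u => ((b⁻¹ : GL (Fin 3) F) : Matrix (Fin 3) (Fin 3) F) *ᵥ u) h0
    simpa [hB, Matrix.mulVec_mulVec, ← Units.val_mul] using h1
  have hv₁0 : v₁ ≠ 0 := hinj hv0
  have hv₂0 : v₂ ≠ 0 := hinj hv₁0
  have hUa : ∀ u w, hermForm 3 F 5 (A *ᵥ u) (A *ᵥ w) = hermForm 3 F 5 u w := ha
  have hUb : ∀ u w, hermForm 3 F 5 (B *ᵥ u) (B *ᵥ w) = hermForm 3 F 5 u w := hb
  have hc5 : c ^ 5 = c ^ 2 := by linear_combination c ^ 2 * hc3
  have hne2 : c ^ 2 ≠ 1 := by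
    intro h
    apply hc
    have : c * c ^ 2 = 1 := by linear_combination hc3
    rwa [h, mul_one] at this
  have hc10 : c ^ 10 = c := by linear_combination (c ^ 7 + c ^ 4 + c) * hc3
  have hc11 : c ^ 11 = c ^ 2 := by linear_combination (c ^ 8 + c ^ 5 + c ^ 2) * hc3
  have o01 : hermForm 3 F 5 v v₁ = 0 := by
    have h1 := hUa v v₁
    rw [hvx, hA₁, hermForm_smul_left, hermForm_smul_right] at h1
    have e : x * ((c * x) ^ 5 * hermForm 3 F 5 v v₁) = c ^ 2 * hermForm 3 F 5 v v₁ := by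
      have e' : x * ((c * x) ^ 5 * hermForm 3 F 5 v v₁) = c ^ 5 * x ^ 6 * hermForm 3 F 5 v v₁ := by ring
      rw [e', hx6, hc5, mul_one]
    rw [e] at h1
    have h3 : (c ^ 2 - 1) * hermForm 3 F 5 v v₁ = 0 := by linear_combination h1
    exact (mul_eq_zero.mp h3).resolve_left (sub_ne_zero.mpr hne2)
  have o02 : hermForm 3 F 5 v v₂ = 0 := by
    have h1 := hUa v v₂
    rw [hvx, hA₂, hermForm_smul_left, hermForm_smul_right] at h1
    have e : x * ((c * c * x) ^ 5 * hermForm 3 F 5 v v₂) = c * hermForm 3 F 5 v v₂ := by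
      have e' : x * ((c * c * x) ^ 5 * hermForm 3 F 5 v v₂) = c ^ 10 * x ^ 6 * hermForm 3 F 5 v v₂ := by ring
      rw [e', hx6, hc10, mul_one]
    rw [e] at h1
    have h3 : (c - 1) * hermForm 3 F 5 v v₂ = 0 := by linear_combination h1
    exact (mul_eq_zero.mp h3).resolve_left (sub_ne_zero.mpr hc)
  have o12 : hermForm 3 F 5 v₁ v₂ = 0 := by
    have h1 := hUa v₁ v₂
    rw [hA₁, hA₂, hermForm_smul_left, hermForm_smul_right] at h1
    have e : c * x * ((c * c * x) ^ 5 * hermForm 3 F 5 v₁ v₂) = c ^ 2 * hermForm 3 F 5 v₁ v₂ := by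
      have e' : c * x * ((c * c * x) ^ 5 * hermForm 3 F 5 v₁ v₂) = c ^ 11 * x ^ 6 * hermForm 3 F 5 v₁ v₂ := by ring
      rw [e', hx6, hc11, mul_one]
    rw [e] at h1
    have h3 : (c ^ 2 - 1) * hermForm 3 F 5 v₁ v₂ = 0 := by linear_combination h1
    exact (mul_eq_zero.mp h3).resolve_left (sub_ne_zero.mpr hne2)
  have hrev : ∀ u w, hermForm 3 F 5 u w = 0 → hermForm 3 F 5 w u = 0 := by
    intro u w h0
    rw [← hermForm_pow_q hF, h0, zero_pow (by norm_num)]
  have n1 : hermForm 3 F 5 v₁ v₁ = hermForm 3 F 5 v v := hUb v v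
  have n2 : hermForm 3 F 5 v₂ v₂ = hermForm 3 F 5 v v := by rw [hv₂, hUb, n1]
  let w : Fin 3 → Fin 3 → F := ![v, v₁, v₂]
  have hgram : ∀ i j, i ≠ j → hermForm 3 F 5 (w i) (w j) = 0 := by
    intro i j hij
    fin_cases i <;> fin_cases j <;> first | exact absurd rfl hij | skip
    · exact o01
    · exact o02
    · exact hrev _ _ o01
    · exact o12
    · exact hrev _ _ o02
    · exact hrev _ _ o12
  -- independence
  have hli : LinearIndependent F w := by
    have hμ : Function.Injective (![x, c * x, c * c * x] : Fin 3 → F) := by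
      have h01 : c * x ≠ x := by
        intro h
        apply hc
        exact mul_right_cancel₀ hx0 (by rw [h, one_mul])
      have h02 : c * c * x ≠ x := by
        intro h
        apply hne2
        exact mul_right_cancel₀ hx0 (by rw [pow_two, h, one_mul])
      have h12 : c * c * x ≠ c * x := by
        intro h
        apply hc
        apply mul_right_cancel₀ hx0
        apply mul_left_cancel₀ hc0
        rw [one_mul, ← mul_assoc, h]
      intro i j hij
      fin_cases i <;> fin_cases j <;> first | rfl | skip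
      · exact absurd hij.symm h01
      · exact absurd hij.symm h02
      · exact absurd hij h01
      · exact absurd hij.symm h12
      · exact absurd hij h02
      · exact absurd hij h12
    refine Module.End.eigenvectors_linearIndependent' (Matrix.toLin' A) _ hμ w fun i => ?_
    fin_cases i
    · exact ⟨Module.End.mem_eigenspace_iff.mpr (by rw [Matrix.toLin'_apply]; exact hvx), hv0⟩
    · exact ⟨Module.End.mem_eigenspace_iff.mpr (by rw [Matrix.toLin'_apply]; exact hA₁), hv₁0⟩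
    · exact ⟨Module.End.mem_eigenspace_iff.mpr (by rw [Matrix.toLin'_apply]; exact hA₂), hv₂0⟩
  have ht : hermForm 3 F 5 v v ≠ 0 := by
    intro h0
    apply hv0
    apply hermForm_nondegenerate_right hF
    intro y
    have htop : Submodule.span F (Set.range w) = ⊤ := hli.span_eq_top_of_card_eq_finrank (by simp)
    have hy : y ∈ Submodule.span F (Set.range w) := by
      rw [htop]
      trivial
    obtain ⟨β, rfl⟩ := (Submodule.mem_span_range_iff_exists_fun F).mp hy
    rw [SUFour.herm_sum_left]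
    refine Finset.sum_eq_zero fun i _ => ?_
    have : hermForm 3 F 5 (w i) v = 0 := by
      fin_cases i
      · exact h0
      · exact hrev _ _ o01
      · exact hrev _ _ o02
    rw [this, mul_zero]
  obtain ⟨s₀, hs₀⟩ := exists_norm_eq hF ((hermForm 3 F 5 v v)⁻¹) (inv_ne_zero ht)
    (by rw [inv_pow, hermForm_self_pow_q hF])
  have hs₀0 : s₀ ≠ 0 := by
    rintro rfl
    rw [zero_pow (by norm_num)] at hs₀
    exact inv_ne_zero ht hs₀.symm
  let u : Fin 3 → Fin 3 → F := fun i => s₀ • w i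
  have hnorm : ∀ i, hermForm 3 F 5 (w i) (w i) = hermForm 3 F 5 v v := by
    intro i
    fin_cases i
    · rfl
    · exact n1
    · exact n2
  have hon : ∀ i j, hermForm 3 F 5 (u i) (u j) = if i = j then 1 else 0 := by
    intro i j
    simp only [u]
    rw [hermForm_smul_left, hermForm_smul_right]
    by_cases hij : i = j
    · subst hij
      rw [if_pos rfl, hnorm]
      have e : s₀ * (s₀ ^ 5 * hermForm 3 F 5 v v) = s₀ ^ (5 + 1) * hermForm 3 F 5 v v := by ring
      rw [e, hs₀, inv_mul_cancel₀ ht]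
    · rw [if_neg hij, hgram i j hij]
      ring
  have hind : LinearIndependent F u := by
    rw [Fintype.linearIndependent_iff]
    intro β hβ y
    have h1 := SUFour.herm_sum_left (q := 5) Finset.univ β u (u y)
    rw [hβ, hermForm_zero_left] at h1
    simpa [hon] using h1.symm
  let B₁ : Module.Basis (Fin 3) F (Fin 3 → F) := basisOfLinearIndependentOfCardEqFinrank hind (by simp)
  have hB₁ : ∀ j, B₁ j = u j := fun j => by simp [B₁]
  obtain ⟨P, hPe, hPi, hPu⟩ := SUPair.exists_glOfBasis B₁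
  have hPcol : ∀ j k, (P : Matrix (Fin 3) (Fin 3) F) k j = u j k := by
    intro j k
    have := congrFun (hPe j) k
    rw [Matrix.mulVec_single_one, hB₁] at this
    exact this
  have hPU : P ∈ GU 3 F 5 := by
    apply FormSU2.mem_GU_of_gram hF
    ext i j
    rw [Matrix.mul_apply]
    simp only [Matrix.transpose_apply, Matrix.map_apply, sigE_apply, hPcol]
    rw [Matrix.one_apply, ← hon, hermForm_apply]
  have hinvP : ∀ j, ((P⁻¹ : GL (Fin 3) F) : Matrix (Fin 3) (Fin 3) F) *ᵥ u j = Pi.single j 1 := by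
    intro j
    rw [← hB₁, ← hPe, Matrix.mulVec_mulVec, ← Units.val_mul, inv_mul_cancel, Units.val_one, Matrix.one_mulVec]
  have hAu : ∀ j : Fin 3, A *ᵥ u j = (x * c ^ (j : ℕ)) • u j := by
    intro j
    simp only [u]
    rw [Matrix.mulVec_smul, smul_comm]
    congr 1
    fin_cases j
    · show A *ᵥ v = (x * c ^ 0) • v
      rw [hvx, pow_zero, mul_one]
    · show A *ᵥ v₁ = (x * c ^ 1) • v₁
      rw [hA₁, pow_one, mul_comm]
    · show A *ᵥ v₂ = (x * c ^ 2) • v₂
      rw [hA₂]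
      congr 1
      ring
  have hBu : ∀ j : Fin 3, B *ᵥ u j = u (j + 1) := by
    intro j
    simp only [u]
    rw [Matrix.mulVec_smul]
    congr 1
    fin_cases j
    · rfl
    · rfl
    · exact hBv₂
  refine ⟨P, x, hPU, hx3, fun j => ?_, fun j => ?_⟩
  · rw [Units.val_mul, Units.val_mul, ← Matrix.mulVec_mulVec, ← Matrix.mulVec_mulVec, hPe, hB₁, ← hA, hAu, Matrix.mulVec_smul, hinvP]
  · rw [Units.val_mul, Units.val_mul, ← Matrix.mulVec_mulVec, ← Matrix.mulVec_mulVec, hPe, hB₁, ← hB, hBu, hinvP]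

end Normal

section Table

variable {F : Type*} [Field F] [Fintype F] {s : F} (h : Ctx 5 s) (hF : Fintype.card F = 5 ^ 2)

/-- A matrix stabilising the set. -/
def St (s : F) (m : M3) : Prop := ∀ v ∈ YM s 5 mask2, SU3M.liftM s m *ᵥ v ∈ YM s 5 mask2

include h hF in
lemma St_of_ck {m : M3} (hm : stabCk 5 mask2 m = true) : St s m := fun _ hv => stab_of_ck h hF hm hv

include h in
lemma St_mul {m n : M3} (hm : St s m) (hn : St s n) : St s (m.mul 5 n) := by
  intro v hv
  rw [liftM_mul h, ← Matrix.mulVec_mulVec]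
  exact hm _ (hn _ hv)

lemma St_one : St s M3.one := by
  intro v hv
  rw [liftM_one, Matrix.one_mulVec]
  exact hv

include h in
lemma St_pow {m : M3} (hm : St s m) (k : ℕ) : St s (M3.pow 5 m k) := by
  induction k with
  | zero => exact St_one
  | succ k ih => exact St_mul h hm ih

include h in
lemma St_congr {m n : M3} (he : M3.eqb 5 m n = true) (hn : St s n) : St s m := by
  intro v hv
  rw [(liftM_eq_iff h _ _).mpr he]
  exact hn v hv

include h hF in
lemma St_word (q : ℕ × ℕ × ℕ × ℕ × ℕ) : St s (wordN q) :=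
  St_mul h (St_pow h (St_of_ck h hF st_Z) _) (St_mul h (St_pow h (St_of_ck h hF st_a) _) (St_mul h (St_pow h (St_of_ck h hF st_b) _)
    (St_mul h (St_pow h (St_of_ck h hF st_h1) _) (St_pow h (St_of_ck h hF st_h2) _))))

/-- The columns of a matrix of the table. -/
lemma liftM_cols (u v t : V3) (k : Fin 3) :
    SU3M.liftM s (colsM u v t) k = ![liftV s u k, liftV s v k, liftV s t k] := by
  fin_cases k <;> rfl

lemma col_eq {G : Matrix (Fin 3) (Fin 3) F} {u v t : V3} (h0 : G *ᵥ Pi.single 0 1 = liftV s u) (h1 : G *ᵥ Pi.single 1 1 = liftV s v)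
    (h2 : G *ᵥ Pi.single 2 1 = liftV s t) : G = SU3M.liftM s (colsM u v t) := by
  ext k j
  rw [liftM_cols]
  fin_cases j
  · rw [← h0, Matrix.mulVec_single_one]
    rfl
  · rw [← h1, Matrix.mulVec_single_one]
    rfl
  · rw [← h2, Matrix.mulVec_single_one]
    rfl

lemma single_herm (i j : Fin 3) : hermForm 3 F 5 (Pi.single i 1) (Pi.single j 1) = if i = j then 1 else 0 := by
  fin_cases i <;> fin_cases j <;> simp [hermForm_apply, Fin.sum_univ_three, Pi.single_apply]

include h in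
lemma a0_e0 : SU3M.liftM s a0 *ᵥ (Pi.single 0 1 : Fin 3 → F) = Pi.single 0 1 := by
  rw [Matrix.mulVec_single_one]
  funext k
  fin_cases k <;> simp [SU3M.liftM, liftV, a0, liftE]

include h in
lemma b0_e (j : Fin 3) : SU3M.liftM s b0 *ᵥ (Pi.single j 1 : Fin 3 → F) = Pi.single (j + 1) 1 := by
  rw [Matrix.mulVec_single_one]
  funext k
  fin_cases j <;> fin_cases k <;> simp [SU3M.liftM, liftV, b0, liftE]

include h hF in
/-- **A member of `SU₃(5)` normalising the standard group stabilises the set.** -/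
theorem norm_stab {G : GL (Fin 3) F} (hG : G ∈ II 3 F 5) {m₁ m₂ : M3} (hm₁ : m₁ ∈ R0L) (hm₂ : m₂ ∈ R0L)
    (ha : (G : Matrix (Fin 3) (Fin 3) F) * SU3M.liftM s a0 = SU3M.liftM s m₁ * (G : Matrix (Fin 3) (Fin 3) F))
    (hb : (G : Matrix (Fin 3) (Fin 3) F) * SU3M.liftM s b0 = SU3M.liftM s m₂ * (G : Matrix (Fin 3) (Fin 3) F)) :
    G ∈ stabS (YM s 5 mask2) := by
  have hU : ∀ u v, hermForm 3 F 5 ((G : Matrix (Fin 3) (Fin 3) F) *ᵥ u) ((G : Matrix (Fin 3) (Fin 3) F) *ᵥ v) = hermForm 3 F 5 u v := hG.1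
  obtain ⟨w, hw, hchk⟩ := all3_spec h hF chkN ((G : Matrix (Fin 3) (Fin 3) F) *ᵥ Pi.single 0 1)
  have hn : E.eqb 5 (herm 5 w w) E1 = true := by
    rw [← liftE_eq_iff h, ← herm_lift h, liftE_one h, hw, hU, single_herm, if_pos rfl]
  -- the element `m₁`
  have hm₁' : m₁ ∈ R1L := by
    rcases List.mem_cons.mp hm₁ with he | he
    · exfalso
      rw [he, liftM_one, one_mul] at ha
      have h1 : SU3M.liftM s a0 = SU3M.liftM s M3.one := by
        rw [liftM_one]
        have h3 := congrArg (fun M => ((G⁻¹ : GL (Fin 3) F) : Matrix (Fin 3) (Fin 3) F) * M) ha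
        simp only [← mul_assoc] at h3
        have h4 : ((G⁻¹ : GL (Fin 3) F) : Matrix (Fin 3) (Fin 3) F) * (G : Matrix (Fin 3) (Fin 3) F) = 1 := Units.inv_mul G
        rwa [h4, one_mul] at h3
      have h3 := (liftM_eq_iff h _ _).mp h1
      exact absurd h3 (by decide +kernel)
    · exact he
  have hfix : V3.eqb 5 (m₁.app 5 w) w = true := by
    rw [← liftV_eq_iff h, ← liftM_app h, hw, Matrix.mulVec_mulVec, ← ha, ← Matrix.mulVec_mulVec, a0_e0 h]
  have hany : (R1L.any fun m => V3.eqb 5 (m.app 5 w) w) = true := List.any_eq_true.mpr ⟨m₁, hm₁', hfix⟩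
  rw [hn, hany] at hchk
  simp only [Bool.not_true, Bool.false_or] at hchk
  have hc2 := List.all_eq_true.mp hchk m₂ hm₂
  have hu1 : liftV s (m₂.app 5 w) = (G : Matrix (Fin 3) (Fin 3) F) *ᵥ Pi.single 1 1 := by
    rw [← liftM_app h, hw, Matrix.mulVec_mulVec, ← hb, ← Matrix.mulVec_mulVec, b0_e h]
    rfl
  have hu2 : liftV s (m₂.app 5 (m₂.app 5 w)) = (G : Matrix (Fin 3) (Fin 3) F) *ᵥ Pi.single 2 1 := by
    rw [← liftM_app h, hu1, Matrix.mulVec_mulVec, ← hb, ← Matrix.mulVec_mulVec, b0_e h]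
    rfl
  set u1 := m₂.app 5 w with hu1d
  set u2 := m₂.app 5 u1 with hu2d
  have hGval : (G : Matrix (Fin 3) (Fin 3) F) = SU3M.liftM s (colsM w u1 u2) := col_eq hw.symm hu1.symm hu2.symm
  have h1 : E.eqb 5 (herm 5 w u1) E0 = true := by
    rw [← liftE_eq_iff h, ← herm_lift h, liftE_zero h, hw, hu1, hU, single_herm, if_neg (by decide)]
  have h2 : E.eqb 5 (herm 5 w u2) E0 = true := by
    rw [← liftE_eq_iff h, ← herm_lift h, liftE_zero h, hw, hu2, hU, single_herm, if_neg (by decide)]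
  have h3 : E.eqb 5 (herm 5 u1 u2) E0 = true := by
    rw [← liftE_eq_iff h, ← herm_lift h, liftE_zero h, hu1, hu2, hU, single_herm, if_neg (by decide)]
  have h4 : E.eqb 5 ((colsM w u1 u2).det 5) E1 = true := by
    rw [← liftE_eq_iff h, ← det_lift h, liftE_one h, ← hGval]
    have h5 : G ∈ specialLinear (Fin 3) F := hG.2
    exact (Cfsg.Agent.Lib.Classical.Geo.Basic.mem_specialLinear_iff _).mp h5
  have hc3 : c2' w u1 u2 = true := hc2
  rw [c2', h1, h2, h3, h4] at hc3
  simp only [Bool.not_true, Bool.false_or] at hc3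
  obtain ⟨q, hq, hqe⟩ := List.any_eq_true.mp hc3
  have hq1 := List.all_eq_true.mp chkNL q hq
  have hS : St s (colsM w u1 u2) := St_congr h hqe (St_congr h hq1 (St_word h hF _))
  intro v hv
  rw [hGval]
  exact hS v hv

end Table

section Main

variable {F : Type*} [Field F] [Fintype F] {s : F} (h : Ctx 5 s) (hF : Fintype.card F = 5 ^ 2)

lemma scalar_conj {P t : GL (Fin 3) F} {c : F} (ht : (t : Matrix (Fin 3) (Fin 3) F) = c • 1) : P * t * P⁻¹ = t := by
  apply Units.ext
  rw [Units.val_mul, Units.val_mul, ht, Matrix.mul_smul, mul_one, Matrix.smul_mul, ← Units.val_mul, mul_inv_cancel, Units.val_one]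

lemma ext_cols {M N : Matrix (Fin 3) (Fin 3) F} (he : ∀ j : Fin 3, M *ᵥ Pi.single j 1 = N *ᵥ Pi.single j 1) : M = N := by
  ext i j
  have := congrFun (he j) i
  simpa [Matrix.mulVec_single_one] using this

/-- The cube root of unity of the table. -/
def om (s : F) : F := 2 + 2 * s

include h in
lemma five_zero : (5 : F) = 0 := by
  have h3 := h.p0
  exact_mod_cast h3

include h in
lemma om_sq : om s ^ 2 = 2 + 3 * s := by
  have h5 := five_zero h
  have hss := h.ss
  simp only [om]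
  linear_combination 4 * hss + (2 + s) * h5

include h in
lemma om_sum : 1 + om s + om s ^ 2 = 0 := by
  have h5 := five_zero h
  rw [om_sq h]
  simp only [om]
  linear_combination (1 + s) * h5

include h in
lemma om_cube : om s ^ 3 = 1 := by
  have h1 := om_sum h
  linear_combination (om s - 1) * h1

include h in
lemma cube_cases {c : F} (hc3 : c ^ 3 = 1) (hc : c ≠ 1) : c = om s ∨ c = om s ^ 2 := by
  have h1 := om_sum h
  have h3 : (c - 1) * ((c - om s) * (c - om s ^ 2)) = 0 := by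
    linear_combination hc3 + (-c ^ 2 + om s * c - om s + 1) * h1
  rcases mul_eq_zero.mp h3 with h4 | h4
  · exact absurd (sub_eq_zero.mp h4) hc
  · rcases mul_eq_zero.mp h4 with h5 | h5
    · exact Or.inl (sub_eq_zero.mp h5)
    · exact Or.inr (sub_eq_zero.mp h5)

include h hF in
/-- **In `SU₃(5)` the normaliser of an extraspecial group of order twenty-seven is not maximal.** -/
theorem class6_five {R : Subgroup (GL (Fin 3) F)} (hS : IsSymplecticTypeGroup 3 R)
    (hirr : ActsAbsolutelyIrreducibly (matrixSet R)) (hRU : R ≤ GU 3 F 5) (hcard : Nat.card R = 27)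
    (hz : Nat.card (Subgroup.center R) = 3) {H : Subgroup (GL (Fin 3) F)} (hH : IsMaximalIn (II 3 F 5) H)
    (hE : H = subgroupNormalizer R ⊓ II 3 F 5) : False := by
  classical
  have hexp : ∀ g ∈ R, g ^ 3 = 1 := by
    intro g hg
    have h1 := Monoid.pow_exponent_eq_one (⟨g, hg⟩ : R)
    rw [hS.exponent_eq] at h1
    have h2 : g ^ (3 * Nat.gcd 2 3) = 1 := congrArg Subtype.val h1
    simpa using h2
  haveI : Fact (Nat.Prime 3) := ⟨by norm_num⟩
  have hq9 : Nat.card (R ⧸ Subgroup.center R) = 3 ^ 2 := by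
    have h1 := Subgroup.card_eq_card_quotient_mul_card_subgroup (Subgroup.center R)
    rw [hcard, hz] at h1
    omega
  have hcommQ : ∀ x y : R ⧸ Subgroup.center R, x * y = y * x := fun x y => by
    haveI := IsPGroup.isMulCommutative_of_card_eq_prime_sq hq9
    exact mul_comm' x y
  obtain ⟨a, b, hne⟩ : ∃ a b : R, a * b ≠ b * a := by
    by_contra hc
    push Not at hc
    have htop : Subgroup.center R = ⊤ := by
      ext x
      simp only [Subgroup.mem_top, iff_true]
      rw [Subgroup.mem_center_iff]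
      exact fun y => hc y x
    rw [htop, Subgroup.card_top, hcard] at hz
    norm_num at hz
  set z : R := a * b * a⁻¹ * b⁻¹ with hzd
  have hzc : z ∈ Subgroup.center R := by
    rw [← QuotientGroup.eq_one_iff, hzd]
    simp only [QuotientGroup.mk_mul, QuotientGroup.mk_inv]
    rw [hcommQ (a : R ⧸ Subgroup.center R) b]
    group
  obtain ⟨c, hcv⟩ := hirr.2 ((z : GL (Fin 3) F) : Matrix (Fin 3) (Fin 3) F) (by
    rintro _ ⟨g, hg, rfl⟩
    have h1 := Subgroup.mem_center_iff.mp hzc ⟨g, hg⟩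
    have h3 : g * (z : GL (Fin 3) F) = (z : GL (Fin 3) F) * g := congrArg Subtype.val h1
    rw [← Units.val_mul, ← Units.val_mul, h3])
  have hz3 : (z : GL (Fin 3) F) ^ 3 = 1 := hexp _ z.2
  have hc3 : c ^ 3 = 1 := by
    have h1 : (((z : GL (Fin 3) F) ^ 3 : GL (Fin 3) F) : Matrix (Fin 3) (Fin 3) F) 0 0 = (1 : Matrix (Fin 3) (Fin 3) F) 0 0 := by
      rw [hz3]
      rfl
    rw [Units.val_pow_eq_pow_val, hcv, smul_pow, one_pow] at h1
    simpa using h1
  have hzne : (z : GL (Fin 3) F) ≠ 1 := by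
    intro h1
    apply hne
    have h2 : z = 1 := Subtype.ext h1
    rw [hzd] at h2
    have h3 : a * b = b * a := by
      have e : a * b = (a * b * a⁻¹ * b⁻¹) * (b * a) := by group
      rw [e, h2, one_mul]
    exact h3
  have hc1 : c ≠ 1 := by
    rintro rfl
    apply hzne
    apply Units.ext
    rw [hcv, one_smul, Units.val_one]
  have hab : ((a : GL (Fin 3) F) : Matrix (Fin 3) (Fin 3) F) * ((b : GL (Fin 3) F) : Matrix (Fin 3) (Fin 3) F) =
      c • (((b : GL (Fin 3) F) : Matrix (Fin 3) (Fin 3) F) * ((a : GL (Fin 3) F) : Matrix (Fin 3) (Fin 3) F)) := by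
    have e : (a : GL (Fin 3) F) * b = (z : GL (Fin 3) F) * (b * a) := by
      rw [hzd]
      push_cast
      group
    rw [← Units.val_mul, e, Units.val_mul, hcv, Matrix.smul_mul, one_mul, Units.val_mul]
  obtain ⟨P, x, hPU, hx3, hAe, hBe⟩ := heis_normal_form hF (hRU a.2) (hRU b.2) (hexp _ a.2) (hexp _ b.2) hc1 hc3 hab
  set zG : GL (Fin 3) F := (z : GL (Fin 3) F) with hzG
  set gZ : GL (Fin 3) F := gOf h Zm (isU_of_isSU su_Z) with hgZ
  set ga0 : GL (Fin 3) F := gOf h a0 (isU_of_isSU su_a) with hga0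
  set gb0 : GL (Fin 3) F := gOf h b0 (isU_of_isSU su_b) with hgb0
  let R' : Subgroup (GL (Fin 3) F) := R.comap (MulAut.conj P).toMonoidHom
  have hR' : ∀ y, y ∈ R' ↔ P * y * P⁻¹ ∈ R := fun y => Iff.rfl
  have hcj : ∀ y : GL (Fin 3) F, P * (P⁻¹ * y * P) * P⁻¹ = y := fun y => by group
  have hgZv : (gZ : Matrix (Fin 3) (Fin 3) F) = om s • 1 := by
    ext i j
    fin_cases i <;> fin_cases j <;> simp [hgZ, gOf_val, SU3M.liftM, liftV, Zm, liftE, om, E0]
  have hs5 := five_zero h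
  have hom3 := om_cube h
  have hom4 : (om s ^ 2) ^ 2 = om s := by linear_combination om s * hom3
  have hzR' : zG ∈ R' := by
    rw [hR', scalar_conj hcv]
    exact z.2
  have hgZm : gZ ∈ R' := by
    rcases cube_cases h hc3 hc1 with hce | hce
    · have e : gZ = zG := by
        apply Units.ext
        rw [hgZv, hcv, hce]
      rw [e]
      exact hzR'
    · have e : gZ = zG ^ 2 := by
        apply Units.ext
        rw [hgZv, Units.val_pow_eq_pow_val, hcv, smul_pow, one_pow, hce, hom4]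
      rw [e]
      exact R'.pow_mem hzR' 2
  have hgbm : gb0 ∈ R' := by
    have e : gb0 = P⁻¹ * b * P := by
      apply Units.ext
      apply ext_cols
      intro j
      rw [hBe, hgb0, gOf_val, b0_e h]
    rw [e, hR', hcj]
    exact b.2
  -- the diagonal element
  have hc0 : c ≠ 0 := by
    rintro rfl
    norm_num at hc3
  have hcs : 1 + c + c ^ 2 = 0 := by
    have h1 : (c - 1) * (1 + c + c ^ 2) = 0 := by linear_combination hc3
    exact (mul_eq_zero.mp h1).resolve_left (sub_ne_zero.mpr hc1)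
  obtain ⟨k, hk⟩ : ∃ k : ℕ, x * c ^ k = 1 := by
    have h3 : (x - 1) * ((x - c) * (x - c ^ 2)) = 0 := by
      linear_combination hx3 + (-x ^ 2 + c * x - c + 1) * hcs
    rcases mul_eq_zero.mp h3 with h4 | h4
    · exact ⟨0, by rw [sub_eq_zero.mp h4]; ring⟩
    · rcases mul_eq_zero.mp h4 with h5 | h5
      · exact ⟨2, by rw [sub_eq_zero.mp h5]; linear_combination hc3⟩
      · exact ⟨1, by rw [sub_eq_zero.mp h5]; linear_combination hc3⟩
  set D : GL (Fin 3) F := (P⁻¹ * a * P) * zG ^ k with hD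
  have hDm : D ∈ R' := by
    refine R'.mul_mem ?_ (R'.pow_mem hzR' k)
    rw [hR', hcj]
    exact a.2
  have hDe : ∀ j : Fin 3, (D : Matrix (Fin 3) (Fin 3) F) *ᵥ Pi.single j 1 = c ^ (j : ℕ) • Pi.single j 1 := by
    intro j
    rw [hD, Units.val_mul, Units.val_pow_eq_pow_val, hcv, smul_pow, one_pow, Matrix.mul_smul, mul_one, Matrix.smul_mulVec, hAe, smul_smul]
    congr 1
    linear_combination (c ^ (j : ℕ)) * hk
  have ha0e : ∀ j : Fin 3, SU3M.liftM s a0 *ᵥ (Pi.single j 1 : Fin 3 → F) = om s ^ (j : ℕ) • Pi.single j 1 := by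
    intro j
    have hsq := om_sq h
    rw [Matrix.mulVec_single_one]
    funext i
    fin_cases j <;> fin_cases i <;> simp [SU3M.liftM, liftV, a0, liftE, E0, hsq] <;> simp [om]
  have hga0m : ga0 ∈ R' := by
    rcases cube_cases h hc3 hc1 with hce | hce
    · have e : ga0 = D := by
        apply Units.ext
        apply ext_cols
        intro j
        rw [hDe, hce, hga0, gOf_val, ha0e]
      rw [e]
      exact hDm
    · have e : ga0 = D * D := by
        apply Units.ext
        apply ext_cols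
        intro j
        rw [Units.val_mul, ← Matrix.mulVec_mulVec, hDe, Matrix.mulVec_smul, hDe, smul_smul, hce, hga0, gOf_val, ha0e, ← mul_pow, ← pow_two, hom4]
      rw [e]
      exact R'.mul_mem hDm hDm
  -- the words
  let W : Fin 3 × Fin 3 × Fin 3 → GL (Fin 3) F := fun q => gZ ^ (q.1 : ℕ) * (ga0 ^ (q.2.1 : ℕ) * gb0 ^ (q.2.2 : ℕ))
  have hWv : ∀ q, (W q : Matrix (Fin 3) (Fin 3) F) = SU3M.liftM s (wordR q.1 q.2.1 q.2.2) := by
    intro q
    simp only [W]
    rw [Units.val_mul, Units.val_mul, hgZ, hga0, hgb0, gOf_pow_val h, gOf_pow_val h, gOf_pow_val h, wordR, liftM_mul h, liftM_mul h]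
  have hWm : ∀ q, W q ∈ R' := fun q => R'.mul_mem (R'.pow_mem hgZm _) (R'.mul_mem (R'.pow_mem hga0m _) (R'.pow_mem hgbm _))
  have hr3 : ∀ i : Fin 3, (i : ℕ) ∈ r3 := by
    intro i
    fin_cases i <;> simp [r3]
  let φ : Fin 3 × Fin 3 × Fin 3 → R := fun q => ⟨P * W q * P⁻¹, (hR' _).mp (hWm q)⟩
  have hinj : Function.Injective φ := by
    intro q q' he
    have h1 : P * W q * P⁻¹ = P * W q' * P⁻¹ := congrArg Subtype.val he
    have h3 : W q = W q' := by
      exact mul_left_cancel (mul_right_cancel h1)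
    have h4 := (liftM_eq_iff h _ _).mp (by rw [← hWv, ← hWv, h3] : SU3M.liftM s (wordR q.1 q.2.1 q.2.2) = SU3M.liftM s (wordR q'.1 q'.2.1 q'.2.2))
    have h5 := List.all_eq_true.mp (List.all_eq_true.mp (List.all_eq_true.mp (List.all_eq_true.mp (List.all_eq_true.mp
      (List.all_eq_true.mp words_inj _ (hr3 q.1)) _ (hr3 q.2.1)) _ (hr3 q.2.2)) _ (hr3 q'.1)) _ (hr3 q'.2.1)) _ (hr3 q'.2.2)
    rw [h4] at h5
    simp only [Bool.not_true, Bool.false_or, Bool.and_eq_true, Nat.beq_eq] at h5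
    obtain ⟨⟨h6, h7⟩, h8⟩ := h5
    exact Prod.ext (Fin.ext h6) (Prod.ext (Fin.ext h7) (Fin.ext h8))
  have hbij : Function.Bijective φ := hinj.bijective_of_nat_card_le (by
    rw [hcard]
    simp)
  have hconj : ∀ g ∈ subgroupNormalizer R, ∀ t ∈ R', ∃ m ∈ R0L, ((P⁻¹ * g * P : GL (Fin 3) F) : Matrix (Fin 3) (Fin 3) F) * (t : Matrix (Fin 3) (Fin 3) F)
      = SU3M.liftM s m * ((P⁻¹ * g * P : GL (Fin 3) F) : Matrix (Fin 3) (Fin 3) F) := by
    intro g hg t ht
    have hy : g * (P * t * P⁻¹) * g⁻¹ ∈ R := (Subgroup.mem_normalizer_iff.mp hg _).mp ((hR' t).mp ht)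
    obtain ⟨q, hq⟩ := hbij.2 ⟨_, hy⟩
    have hq' : P * W q * P⁻¹ = g * (P * t * P⁻¹) * g⁻¹ := congrArg Subtype.val hq
    have hW : W q = P⁻¹ * (g * (P * t * P⁻¹) * g⁻¹) * P := by
      rw [← hq']
      group
    have hm := List.all_eq_true.mp (List.all_eq_true.mp (List.all_eq_true.mp words_mem _ (hr3 q.1)) _ (hr3 q.2.1)) _ (hr3 q.2.2)
    obtain ⟨m, hm1, hm2⟩ := List.any_eq_true.mp hm
    refine ⟨m, hm1, ?_⟩
    have e : (P⁻¹ * g * P) * t = W q * (P⁻¹ * g * P) := by
      rw [hW]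
      group
    rw [← (liftM_eq_iff h _ _).mpr hm2, ← hWv, ← Units.val_mul, ← Units.val_mul, e]
  have hle : ∀ g ∈ H, P⁻¹ * g * P ∈ stabS (YM s 5 mask2) := by
    intro g hg
    rw [hE] at hg
    obtain ⟨hn, hI⟩ := hg
    obtain ⟨m₁, hm₁, ha₁⟩ := hconj g hn ga0 hga0m
    obtain ⟨m₂, hm₂, hb₁⟩ := hconj g hn gb0 hgbm
    exact norm_stab h hF (conj_mem_II' hPU hI) hm₁ hm₂ ha₁ hb₁
  refine final_step hH hPU hle (gOf_mem h hF gA2 su_A) (ga := gOf h gA2 (isU_of_isSU su_A)) (gb := gOf h gB2 (isU_of_isSU su_B))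
    (fun v hv => stab_of_ck h hF st_A hv) (gOf_mem h hF gB2 su_B)
    (fun hs' => not_stab_of_wit h wit_B.1 wit_B.2 (hs' _ ((lift_mem_YM h w2).mpr wit_B.1))) ?_
  intro hmem
  rw [hE] at hmem
  obtain ⟨m, hm, he⟩ := hconj _ hmem.1 ga0 hga0m
  have e : P⁻¹ * (P * gOf h gA2 (isU_of_isSU su_A) * P⁻¹) * P = gOf h gA2 (isU_of_isSU su_A) := by group
  rw [e, gOf_val, hga0, gOf_val, ← liftM_mul h, ← liftM_mul h, liftM_eq_iff h] at he
  have h1 := List.all_eq_true.mp not_norm m hm
  rw [he] at h1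
  exact absurd h1 (by decide)

end Main

end Cfsg.Agent.Lib.Classical.Asch.SU3H
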