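import Mathlib
import Cfsg.Agent.Lib.Classical.Asch.OKey7
import Cfsg.Agent.Lib.Classical.Asch.PureTensor

/-!
# Similarities of the determinant form, and alternating-symmetric tensor factors of dimensions two and four
-/

set_option autoImplicit false
set_option linter.style.haveILetI false
set_option linter.unusedSectionVars false

namespace Cfsg.Agent.Lib.Classical.Asch.Sp8Tensor

open scoped MatrixGroups Matrix Kronecker
open Module Cfsg Cfsg.Geo QuadraticMap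
open Cfsg.Agent.Lib.Classical.Asch.Basic Cfsg.Agent.Lib.Classical.Asch.Forms
open Cfsg.Agent.Lib.Classical.Asch.SpThree Cfsg.Agent.Lib.Classical.Asch.OType
open Cfsg.Agent.Lib.Classical.Asch.OKey7 Cfsg.Agent.Lib.Classical.Asch.PureTensor

section Sim

variable {F : Type*} [Field F]

/-- The Gram matrix of the polar form of the determinant. -/
def gramDet : Matrix (Fin 4) (Fin 4) F := !![0, 0, 0, 1; 0, 0, -1, 0; 0, -1, 0, 0; 1, 0, 0, 0]

theorem polDet_eq (v w : Fin 4 → F) : polDet v w = v ⬝ᵥ (gramDet *ᵥ w) := by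
  simp only [polDet, tm4, Pi.add_apply, Matrix.det_fin_two_of, gramDet, dotProduct, Matrix.mulVec, Fin.sum_univ_four]
  simp
  ring

theorem det_gramDet : (gramDet : Matrix (Fin 4) (Fin 4) F).det = 1 := by
  rw [gramDet, Matrix.det_succ_row_zero]
  simp only [Fin.sum_univ_four, Matrix.det_fin_three]
  simp [Matrix.submatrix_apply, Fin.succAbove]
  ring

/-- The matrix of the transposition on coordinates. -/
def tauM : Matrix (Fin 4) (Fin 4) F := !![1, 0, 0, 0; 0, 0, 1, 0; 0, 1, 0, 0; 0, 0, 0, 1]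

theorem tm4_tauM (v : Fin 4 → F) : tm4 (tauM *ᵥ v) = (tm4 v)ᵀ := by
  ext i j
  fin_cases i <;> fin_cases j <;> simp [tm4, tauM, Matrix.mulVec, dotProduct, Fin.sum_univ_four]

theorem tauM_tauM : (tauM : Matrix (Fin 4) (Fin 4) F) * tauM = 1 := by
  ext i j
  fin_cases i <;> fin_cases j <;> simp [tauM, Matrix.mul_apply, Fin.sum_univ_four]

theorem det_tauM : (tauM : Matrix (Fin 4) (Fin 4) F).det = -1 := by
  rw [tauM, Matrix.det_succ_row_zero]
  simp only [Fin.sum_univ_four, Matrix.det_fin_three]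
  simp [Matrix.submatrix_apply, Fin.succAbove]

/-- Isometries of the determinant have determinant `±1`. -/
theorem det_sq_of_iso (Φ : Matrix (Fin 4) (Fin 4) F) (hq : ∀ v, (tm4 (Φ *ᵥ v)).det = (tm4 v).det) : Φ.det * Φ.det = 1 := by
  have hp : ∀ v w, polDet (Φ *ᵥ v) (Φ *ᵥ w) = polDet v w := by
    intro v w
    simp only [polDet]
    rw [← Matrix.mulVec_add, hq, hq, hq]
  have hm : Φᵀ * gramDet * Φ = gramDet := by
    have h : ∀ v w : Fin 4 → F, v ⬝ᵥ ((Φᵀ * gramDet * Φ) *ᵥ w) = v ⬝ᵥ (gramDet *ᵥ w) := by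
      intro v w
      rw [← Matrix.mulVec_mulVec, ← Matrix.mulVec_mulVec, Matrix.dotProduct_mulVec v Φᵀ, Matrix.vecMul_transpose, ← polDet_eq, hp, polDet_eq]
    ext i j
    have h1 := h (Pi.single i 1) (Pi.single j 1)
    simpa using h1
  have h3 := congrArg Matrix.det hm
  rw [Matrix.det_mul, Matrix.det_mul, Matrix.det_transpose, det_gramDet] at h3
  linear_combination h3

/-- **Similarities of the determinant form.** -/
theorem sim4 (h2 : (2 : F) ≠ 0) (Φ : Matrix (Fin 4) (Fin 4) F) {μ : F} (hμ : μ ≠ 0) (hq : ∀ v, (tm4 (Φ *ᵥ v)).det = μ * (tm4 v).det) :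
    ∃ A B : GL (Fin 2) F, (∀ v, tm4 (Φ *ᵥ v) = (A : Matrix (Fin 2) (Fin 2) F) * tm4 v * (B : Matrix (Fin 2) (Fin 2) F)) ∨
      (∀ v, tm4 (Φ *ᵥ v) = (A : Matrix (Fin 2) (Fin 2) F) * (tm4 v)ᵀ * (B : Matrix (Fin 2) (Fin 2) F)) := by
  classical
  let C : Matrix (Fin 2) (Fin 2) F := !![μ⁻¹, 0; 0, 1]
  let C' : Matrix (Fin 2) (Fin 2) F := !![μ, 0; 0, 1]
  have hCC : C' * C = 1 := by
    simp only [C, C', Matrix.mul_fin_two, Matrix.one_fin_two]
    congr 1
    simp [hμ]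
  have hCdet : C.det = μ⁻¹ := by
    simp [C, Matrix.det_fin_two_of]
  let Φ₁ : Matrix (Fin 4) (Fin 4) F := lmul4 C * Φ
  have hΦ₁ : ∀ v, tm4 (Φ₁ *ᵥ v) = C * tm4 (Φ *ᵥ v) := by
    intro v
    rw [← Matrix.mulVec_mulVec, lmul4_mulVec]
  have hq₁ : ∀ v, (tm4 (Φ₁ *ᵥ v)).det = (tm4 v).det := by
    intro v
    rw [hΦ₁, Matrix.det_mul, hCdet, hq]
    field_simp
  have hΦback : ∀ v, tm4 (Φ *ᵥ v) = C' * tm4 (Φ₁ *ᵥ v) := by
    intro v
    rw [hΦ₁, ← mul_assoc, hCC, one_mul]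
  have hC'unit : C'.det ≠ 0 := by
    simp [C', Matrix.det_fin_two_of, hμ]
  let CG : GL (Fin 2) F := Matrix.GeneralLinearGroup.mkOfDetNeZero C' hC'unit
  have hCG : (CG : Matrix (Fin 2) (Fin 2) F) = C' := rfl
  have hsq := det_sq_of_iso Φ₁ hq₁
  have h1 : Φ₁.det = 1 ∨ Φ₁.det = -1 := by
    rcases mul_self_eq_one_iff.mp hsq with h | h
    · exact Or.inl h
    · exact Or.inr h
  rcases h1 with h1 | h1
  · obtain ⟨A, B, hAB⟩ := so4 h2 Φ₁ hq₁ h1
    refine ⟨CG * A, B, Or.inl fun v => ?_⟩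
    rw [hΦback, hAB, Units.val_mul, hCG, mul_assoc, mul_assoc, mul_assoc]
  · have hq₂ : ∀ v, (tm4 ((Φ₁ * tauM) *ᵥ v)).det = (tm4 v).det := by
      intro v
      rw [← Matrix.mulVec_mulVec, hq₁, tm4_tauM, Matrix.det_transpose]
    have hd₂ : (Φ₁ * tauM).det = 1 := by
      rw [Matrix.det_mul, h1, det_tauM]
      ring
    obtain ⟨A, B, hAB⟩ := so4 h2 _ hq₂ hd₂
    refine ⟨CG * A, B, Or.inr fun v => ?_⟩
    have h3 := hAB (tauM *ᵥ v)
    rw [Matrix.mulVec_mulVec, mul_assoc, tauM_tauM, mul_one, tm4_tauM] at h3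
    rw [hΦback, h3, Units.val_mul, hCG, mul_assoc, mul_assoc, mul_assoc]

end Sim

section Main

variable {ι : Type} [Fintype ι] [DecidableEq ι] {F : Type*} [Field F] [Fintype F] {H : Subgroup (GL ι F)}

theorem form_of_kr {d k : ℕ} {f : (ι → F) → (ι → F) → F} {e : ι ≃ Fin d × Fin k} {P : GL ι F} {f₁ : (Fin d → F) → (Fin d → F) → F} {f₂ : (Fin k → F) → (Fin k → F) → F}
    (b₁ : IsBilinearForm f₁) (b₂ : IsBilinearForm f₂) (hs : IsTensorFormStructure id f f₁ f₂ e P) :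
    ∃ c : F, c ≠ 0 ∧ ∀ z z' y y', f ((P : Matrix ι ι F) *ᵥ kr e z y) ((P : Matrix ι ι F) *ᵥ kr e z' y') = c * (f₁ z z' * f₂ y y') := by
  obtain ⟨c, hc, heq⟩ := hs
  refine ⟨c, hc, fun z z' y y' => ?_⟩
  have h3 := heq (fun p => z p.1 * y p.2) (fun p => z' p.1 * y' p.2)
  rw [form_kr b₁ b₂] at h3
  exact h3

/-- The right tensor factor of an isometry is a similarity. -/
theorem sim_right {d k : ℕ} {f : (ι → F) → (ι → F) → F} {e : ι ≃ Fin d × Fin k} {P g : GL ι F} {f₁ : (Fin d → F) → (Fin d → F) → F}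
    {f₂ : (Fin k → F) → (Fin k → F) → F} (b₁ : IsBilinearForm f₁) (b₂ : IsBilinearForm f₂) (hs : IsTensorFormStructure id f f₁ f₂ e P)
    (hg : ∀ u v, f ((g : Matrix ι ι F) *ᵥ u) ((g : Matrix ι ι F) *ᵥ v) = f u v)
    {a : GL (Fin d) F} {b : GL (Fin k) F}
    (hab : ∀ i j, ((P⁻¹ * g * P : GL ι F) : Matrix ι ι F) i j =
      (a : Matrix (Fin d) (Fin d) F) (e i).1 (e j).1 * (b : Matrix (Fin k) (Fin k) F) (e i).2 (e j).2)
    (hn₁ : ∃ x x', f₁ x x' ≠ 0) (hn₂ : ∃ y y', f₂ y y' ≠ 0) :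
    ∃ μ : F, μ ≠ 0 ∧ ∀ y y', f₂ ((b : Matrix (Fin k) (Fin k) F) *ᵥ y) ((b : Matrix (Fin k) (Fin k) F) *ᵥ y') = μ * f₂ y y' := by
  classical
  obtain ⟨c, hc, hR⟩ := form_of_kr b₁ b₂ hs
  have hiso : ∀ x x' y y', f₁ ((a : Matrix (Fin d) (Fin d) F) *ᵥ x) ((a : Matrix (Fin d) (Fin d) F) *ᵥ x') *
      f₂ ((b : Matrix (Fin k) (Fin k) F) *ᵥ y) ((b : Matrix (Fin k) (Fin k) F) *ᵥ y') = f₁ x x' * f₂ y y' := by
    intro x x' y y'
    have h1 := hg ((P : Matrix ι ι F) *ᵥ kr e x y) ((P : Matrix ι ι F) *ᵥ kr e x' y')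
    rw [conj_mulVec_P (g := g) (P := P) (kr e x y), conj_mulVec_P (g := g) (P := P) (kr e x' y'), tensor_action hab, tensor_action hab, hR, hR] at h1
    exact mul_left_cancel₀ hc h1
  obtain ⟨x, x', hx⟩ := hn₁
  obtain ⟨y₀, y₀', hy₀⟩ := hn₂
  have hα : f₁ ((a : Matrix (Fin d) (Fin d) F) *ᵥ x) ((a : Matrix (Fin d) (Fin d) F) *ᵥ x') ≠ 0 := by
    intro h0
    have h1 := hiso x x' y₀ y₀'
    rw [h0, zero_mul] at h1
    exact (mul_ne_zero hx hy₀) h1.symm
  refine ⟨f₁ x x' / f₁ ((a : Matrix (Fin d) (Fin d) F) *ᵥ x) ((a : Matrix (Fin d) (Fin d) F) *ᵥ x'), div_ne_zero hx hα, fun y y' => ?_⟩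
  have h1 := hiso x x' y y'
  field_simp
  linear_combination h1

/-- The discriminant of a symmetric form of plus type in dimension four. -/
theorem square_of_plus' (h2 : (2 : F) ≠ 0) {f₂ : (Fin 4 → F) → (Fin 4 → F) → F} (h : IsSymmetricForm f₂) (hplus : IsPlusTypeOn (fun v : Fin 4 → F => f₂ v v) ⊤) :
    IsSquare (gramMatrix f₂).det := by
  classical
  obtain ⟨hq, hpol⟩ := quad_of_symm h2 h
  have hplus' : IsPlusTypeOn (fun v => 2⁻¹ * f₂ v v) ⊤ := by
    obtain ⟨U, h1, h3, h4⟩ := hplus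
    refine ⟨U, h1, fun u hu => ?_, h4⟩
    have := h3 u hu
    simp only at this ⊢
    rw [this, mul_zero]
  have h3 := (plus_iff_disc h2 hq (m := 2) (by norm_num) (by simp) (Pi.basisFun F (Fin 4))).mp hplus'
  have he : (Matrix.of fun i j => polar (fun v => 2⁻¹ * f₂ v v) (Pi.basisFun F (Fin 4) i) (Pi.basisFun F (Fin 4) j)) = gramMatrix f₂ := by
    ext i j
    rw [Matrix.of_apply, hpol, Pi.basisFun_apply, Pi.basisFun_apply]
    rfl
  rw [he] at h3
  simpa using h3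

/-- Membership in a tensor wreath subgroup. -/
theorem mem_wreath_of {d t : ℕ} {e' : ι ≃ (Fin t → Fin d)} {P' g : GL ι F} {w : GL (Fin t → Fin d) F} (hw : w ∈ tensorWreathStandard d t F)
    (h : ∀ i j, ((P'⁻¹ * g * P' : GL ι F) : Matrix ι ι F) i j = (w : Matrix _ _ F) (e' i) (e' j)) : g ∈ tensorWreathSubgroup d t e' P' := by
  refine ⟨(glReindex e'.symm).toMonoidHom w, ⟨w, hw, rfl⟩, ?_⟩
  change P' * (glReindex e'.symm w) * P'⁻¹ = g
  have h1 : glReindex e'.symm w = P'⁻¹ * g * P' := by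
    apply Units.ext
    ext i j
    rw [h]
    rfl
  rw [h1]
  group

/-- The Gram criterion for a tensor power form structure. -/
theorem power_of_gram {d t : ℕ} {e : ι ≃ (Fin t → Fin d)} {P : GL ι F} {f : (ι → F) → (ι → F) → F} (hb : IsBilinearForm f)
    {φ : (Fin d → F) → (Fin d → F) → F} {c : F} (hc : c ≠ 0)
    (h : ∀ p q : Fin t → Fin d, f ((P : Matrix ι ι F) *ᵥ ((Pi.single p 1 : (Fin t → Fin d) → F) ∘ e)) ((P : Matrix ι ι F) *ᵥ ((Pi.single q 1 : (Fin t → Fin d) → F) ∘ e)) =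
      c * ∏ i, gramMatrix φ (p i) (q i)) :
    IsTensorPowerFormStructure id f φ e P := by
  classical
  refine ⟨c, hc, fun x y => ?_⟩
  have hx : ∀ x : (Fin t → Fin d) → F, (P : Matrix ι ι F) *ᵥ (x ∘ e) = ∑ p, x p • ((P : Matrix ι ι F) *ᵥ ((Pi.single p 1 : (Fin t → Fin d) → F) ∘ e)) := by
    intro x
    have e1 : x ∘ e = ∑ p, x p • ((Pi.single p 1 : (Fin t → Fin d) → F) ∘ e) := by
      funext i
      simp [Finset.sum_apply, Pi.single_apply]
    rw [e1, Matrix.mulVec_sum]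
    refine Finset.sum_congr rfl fun p _ => ?_
    rw [Matrix.mulVec_smul]
  rw [hx x, hx y, (isSesq_of_bilinear hb).sum_left]
  simp only [Finset.mul_sum]
  refine Finset.sum_congr rfl fun a _ => ?_
  rw [hb.smul_left, (isSesq_of_bilinear hb).sum_right, Finset.mul_sum]
  refine Finset.sum_congr rfl fun q _ => ?_
  rw [hb.smul_right, h]
  simp only [id]
  ring

/-- The identification of indices. -/
def T3 : Fin 2 × Fin 4 ≃ (Fin 3 → Fin 2) where
  toFun := fun p => ![p.1, (E4 p.2).1, (E4 p.2).2]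
  invFun := fun x => (x 0, E4.symm (x 1, x 2))
  left_inv := by
    rintro ⟨a, l⟩
    simp
  right_inv := by
    intro x
    funext i
    fin_cases i <;> simp

theorem T3_symm_1 (x : Fin 3 → Fin 2) : (T3.symm x).1 = x 0 := rfl
theorem T3_symm_2 (x : Fin 3 → Fin 2) : (T3.symm x).2 = E4.symm (x 1, x 2) := rfl

/-- A symplectic form on the plane is a multiple of `alt2`. -/
theorem symp_two {f₁ : (Fin 2 → F) → (Fin 2 → F) → F} (h1 : IsSymplecticForm f₁) :
    ∃ κ : F, κ ≠ 0 ∧ ∀ r s : Fin 2, f₁ (Pi.single r 1) (Pi.single s 1) = κ * alt2 (Pi.single r 1) (Pi.single s 1) := by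
  classical
  have h00 := h1.alternating (Pi.single 0 1)
  have h11 := h1.alternating (Pi.single 1 1)
  have h10 := h1.skew (Pi.single 1 1) (Pi.single 0 1)
  refine ⟨f₁ (Pi.single 0 1) (Pi.single 1 1), ?_, fun r s => ?_⟩
  · intro h0
    have hall : ∀ r s : Fin 2, f₁ (Pi.single r 1) (Pi.single s 1) = 0 := by
      intro r s
      fin_cases r <;> fin_cases s
      · exact h00
      · exact h0
      · simpa [h0] using h10
      · exact h11
    have h3 : ∀ u v, f₁ u v = 0 := by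
      intro u v
      rw [bilinear_expand h1.bilinear]
      refine Finset.sum_eq_zero fun a _ => Finset.sum_eq_zero fun b _ => ?_
      have : gramMatrix f₁ a b = 0 := hall a b
      rw [this]
      ring
    have hne : (Pi.single 0 1 : Fin 2 → F) ≠ 0 := by
      intro h5
      have := congrFun h5 0
      simp at this
    obtain ⟨x, hx⟩ := (h1.nondegenerate _ hne).1
    exact hx (h3 _ _)
  · fin_cases r <;> fin_cases s <;> simp [alt2, h00, h11, h10]

end Main

section Wreath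

variable {ι : Type} [Fintype ι] [DecidableEq ι] {F : Type*} [Field F] [Fintype F] {H : Subgroup (GL ι F)}

theorem mul_single_mul_t (A B : Matrix (Fin 2) (Fin 2) F) (r s r' s' : Fin 2) :
    (A * (Matrix.single r' s' (1 : F))ᵀ * B) r s = A r s' * B r' s := by
  fin_cases r <;> fin_cases s <;> fin_cases r' <;> fin_cases s' <;>
    simp [Matrix.mul_apply, Fin.sum_univ_two, Matrix.single_apply, Matrix.transpose_apply]

theorem tm4_single (l' : Fin 4) : tm4 (Pi.single l' 1 : Fin 4 → F) = Matrix.single (E4 l').1 (E4 l').2 (1 : F) := by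
  ext i j
  rw [tm4_apply]
  simp only [Matrix.single_apply, Pi.single_apply]
  by_cases hc : E4.symm (i, j) = l'
  · rw [if_pos hc, if_pos]
    subst hc
    simp
  · rw [if_neg hc, if_neg]
    rintro ⟨rfl, rfl⟩
    apply hc
    simp

/-- **Alternating and symmetric factors of dimensions two and four**: if the symmetric factor has plus type, the group lies in a tensor power
of the alternating form on a plane. -/
theorem wreath_of_tensor (h2 : (2 : F) ≠ 0) {f : (ι → F) → (ι → F) → F} (hb : IsBilinearForm f)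
    {e : ι ≃ Fin 2 × Fin 4} {P : GL ι F} {f₁ : (Fin 2 → F) → (Fin 2 → F) → F} {f₂ : (Fin 4 → F) → (Fin 4 → F) → F}
    (h1 : IsSymplecticForm f₁) (h3 : IsSymmetricForm f₂) (hplus : IsPlusTypeOn (fun v : Fin 4 → F => f₂ v v) ⊤)
    (hs : IsTensorFormStructure id f f₁ f₂ e P) (hst : H ≤ tensorProductSubgroup 2 4 e P)
    (hiso : ∀ g ∈ H, ∀ u v, f ((g : Matrix ι ι F) *ᵥ u) ((g : Matrix ι ι F) *ᵥ v) = f u v) :
    ∃ (e' : ι ≃ (Fin 3 → Fin 2)) (P' : GL ι F), IsTensorPowerFormStructure id f alt2 e' P' ∧ H ≤ tensorWreathSubgroup 2 3 e' P' := by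
  classical
  obtain ⟨R, hR⟩ := exists_R h2 h3 (square_of_plus' h2 h3 hplus)
  set Rm : Matrix (Fin 4) (Fin 4) F := (R : Matrix (Fin 4) (Fin 4) F) with hRm
  set Ri : Matrix (Fin 4) (Fin 4) F := ((R⁻¹ : GL (Fin 4) F) : Matrix (Fin 4) (Fin 4) F) with hRi
  have hRR : Rm * Ri = 1 := by
    rw [hRm, hRi, ← Units.val_mul, mul_inv_cancel, Units.val_one]
  have hRR' : Ri * Rm = 1 := by
    rw [hRm, hRi, ← Units.val_mul, inv_mul_cancel, Units.val_one]
  let e' : ι ≃ (Fin 3 → Fin 2) := e.trans T3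
  have he' : ∀ i, e' i = ![(e i).1, (E4 (e i).2).1, (E4 (e i).2).2] := fun i => rfl
  have he'0 : ∀ i, e' i 0 = (e i).1 := fun i => rfl
  have he'1 : ∀ i, e' i 1 = (E4 (e i).2).1 := fun i => rfl
  have he'2 : ∀ i, e' i 2 = (E4 (e i).2).2 := fun i => rfl
  set S₁ : Matrix ι ι F := ((1 : Matrix (Fin 2) (Fin 2) F) ⊗ₖ Rm).submatrix e e with hS₁
  set S₂ : Matrix ι ι F := ((1 : Matrix (Fin 2) (Fin 2) F) ⊗ₖ Ri).submatrix e e with hS₂
  have hS12 : S₁ * S₂ = 1 := by
    rw [hS₁, hS₂, Matrix.submatrix_mul_equiv, ← Matrix.mul_kronecker_mul, hRR, mul_one, Matrix.one_kronecker_one, Matrix.submatrix_one_equiv]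
  have hS21 : S₂ * S₁ = 1 := by
    rw [hS₁, hS₂, Matrix.submatrix_mul_equiv, ← Matrix.mul_kronecker_mul, hRR', mul_one, Matrix.one_kronecker_one, Matrix.submatrix_one_equiv]
  let S : GL ι F := ⟨S₁, S₂, hS12, hS21⟩
  let P' : GL ι F := P * S
  have hP'v : ∀ z y, (P' : Matrix ι ι F) *ᵥ kr e z y = (P : Matrix ι ι F) *ᵥ kr e z (Rm *ᵥ y) := by
    intro z y
    have e1 : (P' : Matrix ι ι F) = (P : Matrix ι ι F) * S₁ := rfl
    have e2 := tensor_action (e := e) (X := S₁) (a := (1 : Matrix (Fin 2) (Fin 2) F)) (b := Rm) (fun i j => rfl) z y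
    rw [e1, ← Matrix.mulVec_mulVec, e2, Matrix.one_mulVec]
  obtain ⟨c, hc, hRk⟩ := form_of_kr h1.bilinear h3.bilinear hs
  obtain ⟨κ, hκ, hf₁⟩ := symp_two h1
  have hsingle : ∀ x : Fin 3 → Fin 2, ((Pi.single x 1 : (Fin 3 → Fin 2) → F) ∘ e') = kr e (Pi.single (x 0) 1) (Pi.single (E4.symm (x 1, x 2)) 1) := by
    intro x
    funext i
    simp only [Function.comp_apply, kr]
    by_cases h5 : e' i = x
    · have h6 : (e i).1 = x 0 := by rw [← h5]; rfl
      have h7 : (e i).2 = E4.symm (x 1, x 2) := by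
        rw [← h5, he'1, he'2]
        simp
      rw [h5, Pi.single_eq_same, h6, h7, Pi.single_eq_same, Pi.single_eq_same, mul_one]
    · rw [Pi.single_eq_of_ne h5]
      by_cases h6 : (e i).1 = x 0
      · by_cases h7 : (e i).2 = E4.symm (x 1, x 2)
        · exfalso
          apply h5
          funext j
          fin_cases j
          · exact h6
          · change e' i 1 = x 1
            rw [he'1, h7]
            simp
          · change e' i 2 = x 2
            rw [he'2, h7]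
            simp
        · rw [Pi.single_eq_of_ne h7, mul_zero]
      · rw [Pi.single_eq_of_ne h6, zero_mul]
  have hstruct : IsTensorPowerFormStructure id f alt2 e' P' := by
    refine power_of_gram hb (c := c * κ) (mul_ne_zero hc hκ) fun p q => ?_
    rw [hsingle, hsingle, hP'v, hP'v, hRk, hR, polDet_single, hf₁, Fin.prod_univ_three]
    simp only [gramMatrix]
    ring
  refine ⟨e', P', hstruct, fun g hg => ?_⟩
  obtain ⟨a, b, hab⟩ := Main.mem_tensorProductSubgroup_iff.mp (hst hg)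
  have hne₁ : ∃ x x', f₁ x x' ≠ 0 := by
    have hne : (Pi.single 0 1 : Fin 2 → F) ≠ 0 := by
      intro h5
      have := congrFun h5 0
      simp at this
    obtain ⟨x, hx⟩ := (h1.nondegenerate _ hne).1
    exact ⟨x, _, hx⟩
  have hne₂ : ∃ x x', f₂ x x' ≠ 0 := by
    have hne : (Pi.single 0 1 : Fin 4 → F) ≠ 0 := by
      intro h5
      have := congrFun h5 0
      simp at this
    obtain ⟨x, hx⟩ := (h3.nondegenerate _ hne).1
    exact ⟨x, _, hx⟩
  obtain ⟨μ, hμ, hsb⟩ := sim_right h1.bilinear h3.bilinear hs (hiso g hg) hab hne₁ hne₂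
  set bm : Matrix (Fin 4) (Fin 4) F := (b : Matrix (Fin 4) (Fin 4) F) with hbm
  set Φ : Matrix (Fin 4) (Fin 4) F := Ri * bm * Rm with hΦ
  have hRΦ : ∀ v, Rm *ᵥ (Φ *ᵥ v) = bm *ᵥ (Rm *ᵥ v) := by
    intro v
    rw [Matrix.mulVec_mulVec, Matrix.mulVec_mulVec, hΦ, ← mul_assoc, ← mul_assoc, hRR, one_mul]
  have hpd : ∀ v w, polDet (Φ *ᵥ v) (Φ *ᵥ w) = μ * polDet v w := by
    intro v w
    rw [← hR, ← hR, hRΦ, hRΦ, hsb]
  have hself : ∀ v : Fin 4 → F, polDet v v = 2 * (tm4 v).det := by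
    intro v
    simp only [polDet, tm4, Pi.add_apply, Matrix.det_fin_two_of]
    ring
  have hΦq : ∀ v, (tm4 (Φ *ᵥ v)).det = μ * (tm4 v).det := by
    intro v
    have h5 := hpd v v
    rw [hself, hself] at h5
    apply mul_left_cancel₀ h2
    rw [h5]
    ring
  have hm : ((P'⁻¹ * g * P' : GL ι F) : Matrix ι ι F) = ((a : Matrix (Fin 2) (Fin 2) F) ⊗ₖ Φ).submatrix e e := by
    have hconj : P'⁻¹ * g * P' = S⁻¹ * (P⁻¹ * g * P) * S := by
      simp only [P']
      group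
    have hB₀ : ((P⁻¹ * g * P : GL ι F) : Matrix ι ι F) = ((a : Matrix (Fin 2) (Fin 2) F) ⊗ₖ bm).submatrix e e := by
      ext i j
      rw [hab]
      rfl
    rw [hconj]
    have e1 : ((S⁻¹ * (P⁻¹ * g * P) * S : GL ι F) : Matrix ι ι F) = S₂ * ((P⁻¹ * g * P : GL ι F) : Matrix ι ι F) * S₁ := rfl
    rw [e1, hB₀, hS₁, hS₂, Matrix.submatrix_mul_equiv, Matrix.submatrix_mul_equiv, ← Matrix.mul_kronecker_mul, ← Matrix.mul_kronecker_mul, one_mul, mul_one]
  obtain ⟨A, B, hAB⟩ := sim4 h2 Φ hμ hΦq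
  have hBt : (B : Matrix (Fin 2) (Fin 2) F)ᵀ.det ≠ 0 := by
    rw [Matrix.det_transpose]
    exact ((Matrix.isUnit_iff_isUnit_det _).mp B.isUnit).ne_zero
  let B' : GL (Fin 2) F := Matrix.GeneralLinearGroup.mkOfDetNeZero _ hBt
  have hB' : (B' : Matrix (Fin 2) (Fin 2) F) = (B : Matrix (Fin 2) (Fin 2) F)ᵀ := rfl
  let gs : Fin 3 → GL (Fin 2) F := ![a, A, B']
  have hpure : pureGL gs ∈ tensorWreathStandard 2 3 F := Subgroup.subset_closure (Or.inl (pureGL_isPure _))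
  have hpureA : ∀ x y, (pureGL gs : Matrix (Fin 3 → Fin 2) (Fin 3 → Fin 2) F) x y = (a : Matrix (Fin 2) (Fin 2) F) (x 0) (y 0) * (A : Matrix (Fin 2) (Fin 2) F) (x 1) (y 1) * (B : Matrix (Fin 2) (Fin 2) F) (y 2) (x 2) := by
    intro x y
    change ∏ i, (gs i : Matrix (Fin 2) (Fin 2) F) (x i) (y i) = _
    rw [Fin.prod_univ_three]
    rfl
  rcases hAB with hAB | hAB
  · have hΦe : ∀ l l', Φ l l' = (A : Matrix (Fin 2) (Fin 2) F) (E4 l).1 (E4 l').1 * (B : Matrix (Fin 2) (Fin 2) F) (E4 l').2 (E4 l).2 := by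
      intro l l'
      have h5 := congrFun (congrFun (hAB (Pi.single l' 1)) (E4 l).1) (E4 l).2
      rw [tm4_single, mul_single_mul, tm4_apply] at h5
      simp only [Prod.mk.eta, Equiv.symm_apply_apply, Matrix.mulVec_single_one] at h5
      exact h5
    refine mem_wreath_of hpure fun i j => ?_
    rw [hm, hpureA, he'0, he'0, he'1, he'1, he'2, he'2, Matrix.submatrix_apply, Matrix.kroneckerMap_apply, hΦe]
    ring
  · have hΦe : ∀ l l', Φ l l' = (A : Matrix (Fin 2) (Fin 2) F) (E4 l).1 (E4 l').2 * (B : Matrix (Fin 2) (Fin 2) F) (E4 l').1 (E4 l).2 := by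
      intro l l'
      have h5 := congrFun (congrFun (hAB (Pi.single l' 1)) (E4 l).1) (E4 l).2
      rw [tm4_single, mul_single_mul_t, tm4_apply] at h5
      simp only [Prod.mk.eta, Equiv.symm_apply_apply, Matrix.mulVec_single_one] at h5
      exact h5
    let σ : Equiv.Perm (Fin 3) := Equiv.swap 1 2
    have hperm : (permGL σ : GL (Fin 3 → Fin 2) F) ∈ tensorWreathStandard 2 3 F := Subgroup.subset_closure (Or.inr (permGL_isFactor _))
    refine mem_wreath_of (w := pureGL gs * permGL σ) (mul_mem hpure hperm) fun i j => ?_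
    have e1 : ((pureGL gs * permGL σ : GL (Fin 3 → Fin 2) F) : Matrix (Fin 3 → Fin 2) (Fin 3 → Fin 2) F) = (pureGL gs : Matrix _ _ F) * permMat σ := rfl
    rw [e1, mul_permMat_apply, hm, hpureA, Matrix.submatrix_apply, Matrix.kroneckerMap_apply, hΦe]
    have s0 : σ.symm 0 = 0 := by decide
    have s1 : σ.symm 1 = 2 := by decide
    have s2 : σ.symm 2 = 1 := by decide
    simp only [Function.comp_apply, s0, s1, s2, he'0, he'1, he'2]
    ring

end Wreath

end Cfsg.Agent.Lib.Classical.Asch.Sp8Tensor
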