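import Mathlib
import Cfsg.Agent.Lib.Classical.Asch.Sp8Tensor
import Cfsg.Agent.Lib.Classical.Asch.SUNine
import Cfsg.Agent.Lib.Classical.Asch.NotSp

/-!
# Extraspecial groups from tensor powers of the quaternion group over the field with three elements
-/

set_option autoImplicit false
set_option linter.style.haveILetI false
set_option linter.unusedSectionVars false

namespace Cfsg.Agent.Lib.Classical.Asch.Sp8R

open scoped MatrixGroups Matrix Kronecker
open Module Cfsg Cfsg.Geo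
open Cfsg.Agent.Lib.Classical.Asch.Basic Cfsg.Agent.Lib.Classical.Asch.Forms
open Cfsg.Agent.Lib.Classical.Asch.SpThree Cfsg.Agent.Lib.Classical.Asch.PureTensor
open Cfsg.Agent.Lib.Classical.Asch.SympType Cfsg.Agent.Lib.Classical.Asch.SympStruct
open Cfsg.Agent.Lib.Classical.Asch.FormSympType Cfsg.Agent.Lib.Classical.Asch.SUNine
open Cfsg.Agent.Lib.Classical.Asch.Sp8Tensor Cfsg.Agent.Lib.Classical.Asch.OKey7

section Q8

variable {F : Type*} [Field F] [Fintype F]

set_option maxRecDepth 100000 in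
theorem key3 : ∀ a b c a' b' c' : ZMod 3, -a*a-b*c=1 → -a'*a'-b'*c'=1 → (2*a*a'+b*c'+c*b'=0 ∨ (a'=a∧b'=b∧c'=c) ∨ (a'=-a∧b'=-b∧c'=-c)) := by decide

theorem key3F (hq : Fintype.card F = 3) (a b c a' b' c' : F) (h : -a*a-b*c=1) (h' : -a'*a'-b'*c'=1) :
    2*a*a'+b*c'+c*b'=0 ∨ (a'=a∧b'=b∧c'=c) ∨ (a'=-a∧b'=-b∧c'=-c) := by
  let φ : ZMod 3 ≃+* F := ZMod.ringEquivOfPrime F Nat.prime_three hq
  obtain ⟨A, rfl⟩ := φ.surjective a
  obtain ⟨B, rfl⟩ := φ.surjective b
  obtain ⟨C, rfl⟩ := φ.surjective c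
  obtain ⟨A', rfl⟩ := φ.surjective a'
  obtain ⟨B', rfl⟩ := φ.surjective b'
  obtain ⟨C', rfl⟩ := φ.surjective c'
  have e1 : -A*A-B*C=1 := by
    apply φ.injective
    simpa using h
  have e2 : -A'*A'-B'*C'=1 := by
    apply φ.injective
    simpa using h'
  rcases key3 A B C A' B' C' e1 e2 with h3 | ⟨h3, h4, h5⟩ | ⟨h3, h4, h5⟩
  · left
    have := congrArg φ h3
    simp only [map_add, map_mul, map_zero, map_ofNat] at this
    exact this
  · right; left
    exact ⟨by rw [h3], by rw [h4], by rw [h5]⟩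
  · right; right
    refine ⟨by rw [h3, map_neg], by rw [h4, map_neg], by rw [h5, map_neg]⟩

theorem key4F (hq : Fintype.card F = 3) (a b c : F) (h : -a*a-b*c=1) : c * c = 1 := by
  have key : ∀ a b c : ZMod 3, -a*a-b*c=1 → c * c = 1 := by decide
  let φ : ZMod 3 ≃+* F := ZMod.ringEquivOfPrime F Nat.prime_three hq
  obtain ⟨A, rfl⟩ := φ.surjective a
  obtain ⟨B, rfl⟩ := φ.surjective b
  obtain ⟨C, rfl⟩ := φ.surjective c
  have e1 : -A*A-B*C=1 := by
    apply φ.injective
    simpa using h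
  have := congrArg φ (key A B C e1)
  simpa using this

theorem three_zero (hq : Fintype.card F = 3) : (3 : F) = 0 := SpThree.three_eq_zero hq

/-- The quaternion elements. -/
def IsQ (x : Matrix (Fin 2) (Fin 2) F) : Prop := x.det = 1 ∧ (x.trace = 0 ∨ x = 1 ∨ x = -1)

theorem det_entries (x : Matrix (Fin 2) (Fin 2) F) (h : x.trace = 0) : x 1 1 = - x 0 0 := by
  rw [Matrix.trace_fin_two] at h
  linear_combination h

theorem det_eq (x : Matrix (Fin 2) (Fin 2) F) (h : x.trace = 0) : x.det = - x 0 0 * x 0 0 - x 0 1 * x 1 0 := by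
  rw [Matrix.det_fin_two, det_entries x h]
  ring

theorem sq_of_tr {x : Matrix (Fin 2) (Fin 2) F} (h : x.trace = 0) (hd : x.det = 1) : x * x = -1 := by
  have h1 := det_entries x h
  have h3 := det_eq x h
  rw [hd] at h3
  ext i j
  fin_cases i <;> fin_cases j <;> simp [Matrix.mul_apply, Fin.sum_univ_two, h1] <;> first | linear_combination h3 | ring

theorem anti_of_tr {x y : Matrix (Fin 2) (Fin 2) F} (hx : x.trace = 0) (hy : y.trace = 0) :
    x * y + y * x = (2 * x 0 0 * y 0 0 + x 0 1 * y 1 0 + x 1 0 * y 0 1) • 1 := by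
  have h1 := det_entries x hx
  have h3 := det_entries y hy
  ext i j
  fin_cases i <;> fin_cases j <;> simp [Matrix.mul_apply, Fin.sum_univ_two, h1, h3] <;> ring

theorem tr_mul {x y : Matrix (Fin 2) (Fin 2) F} (hx : x.trace = 0) (hy : y.trace = 0) :
    (x * y).trace = 2 * x 0 0 * y 0 0 + x 0 1 * y 1 0 + x 1 0 * y 0 1 := by
  have h1 := det_entries x hx
  have h3 := det_entries y hy
  rw [Matrix.trace_fin_two]
  simp [Matrix.mul_apply, Fin.sum_univ_two, h1, h3]
  ring

theorem eq_of_entries {x y : Matrix (Fin 2) (Fin 2) F} (hx : x.trace = 0) (hy : y.trace = 0) (h0 : y 0 0 = x 0 0) (h1 : y 0 1 = x 0 1) (h3 : y 1 0 = x 1 0) : y = x := by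
  ext i j
  fin_cases i <;> fin_cases j
  · exact h0
  · exact h1
  · exact h3
  · simp only [Fin.mk_one, Fin.isValue]
    rw [det_entries x hx, det_entries y hy, h0]

theorem eq_neg_of_entries {x y : Matrix (Fin 2) (Fin 2) F} (hx : x.trace = 0) (hy : y.trace = 0) (h0 : y 0 0 = - x 0 0) (h1 : y 0 1 = - x 0 1) (h3 : y 1 0 = - x 1 0) : y = -x := by
  ext i j
  fin_cases i <;> fin_cases j
  · simpa using h0
  · simpa using h1
  · simpa using h3
  · simp only [Fin.mk_one, Fin.isValue, Matrix.neg_apply]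
    rw [det_entries x hx, det_entries y hy, h0]

/-- The three cases for a pair of traceless elements. -/
theorem tr_cases (hq : Fintype.card F = 3) {x y : Matrix (Fin 2) (Fin 2) F} (hx : x.trace = 0) (hy : y.trace = 0) (hdx : x.det = 1) (hdy : y.det = 1) :
    (x * y).trace = 0 ∨ y = x ∨ y = -x := by
  have h1 := det_eq x hx
  have h3 := det_eq y hy
  rw [hdx] at h1
  rw [hdy] at h3
  rcases key3F hq _ _ _ _ _ _ h1.symm h3.symm with h | ⟨h5, h6, h7⟩ | ⟨h5, h6, h7⟩
  · left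
    rw [tr_mul hx hy]
    linear_combination h
  · right; left
    exact eq_of_entries hx hy h5 h6 h7
  · right; right
    exact eq_neg_of_entries hx hy h5 h6 h7

theorem IsQ.neg {x : Matrix (Fin 2) (Fin 2) F} (h : IsQ x) : IsQ (-x) := by
  obtain ⟨h1, h3⟩ := h
  refine ⟨by rw [Matrix.det_neg]; simp [h1], ?_⟩
  rcases h3 with h3 | rfl | rfl
  · left
    rw [Matrix.trace_neg, h3, neg_zero]
  · right; right; rfl
  · right; left
    simp

theorem IsQ.one : IsQ (1 : Matrix (Fin 2) (Fin 2) F) := ⟨Matrix.det_one, Or.inr (Or.inl rfl)⟩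

theorem IsQ.mul (hq : Fintype.card F = 3) {x y : Matrix (Fin 2) (Fin 2) F} (hx : IsQ x) (hy : IsQ y) : IsQ (x * y) := by
  obtain ⟨h1, h3⟩ := id hx
  obtain ⟨h4, h5⟩ := id hy
  rcases h3 with h3 | rfl | rfl
  · rcases h5 with h5 | rfl | rfl
    · rcases tr_cases hq h3 h5 h1 h4 with h | rfl | rfl
      · exact ⟨by rw [Matrix.det_mul, h1, h4, one_mul], Or.inl h⟩
      · rw [sq_of_tr h3 h1]
        exact IsQ.one.neg
      · rw [mul_neg, sq_of_tr h3 h1, neg_neg]
        exact IsQ.one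
    · rwa [mul_one]
    · rw [mul_neg, mul_one]
      exact hx.neg
  · rwa [one_mul]
  · rw [neg_mul, one_mul]
    exact hy.neg

theorem IsQ.comm (hq : Fintype.card F = 3) {x y : Matrix (Fin 2) (Fin 2) F} (hx : IsQ x) (hy : IsQ y) : x * y = y * x ∨ x * y = -(y * x) := by
  obtain ⟨h1, h3⟩ := id hx
  obtain ⟨h4, h5⟩ := id hy
  rcases h3 with h3 | rfl | rfl
  · rcases h5 with h5 | rfl | rfl
    · rcases tr_cases hq h3 h5 h1 h4 with h | rfl | rfl
      · right
        have h6 := anti_of_tr h3 h5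
        rw [← tr_mul h3 h5, h, zero_smul] at h6
        exact eq_neg_of_add_eq_zero_left h6
      · left; rfl
      · left
        rw [mul_neg, neg_mul]
    · left; simp
    · left; simp
  · left; simp
  · left; simp

theorem IsQ.sq {x : Matrix (Fin 2) (Fin 2) F} (hx : IsQ x) : x * x = 1 ∨ x * x = -1 := by
  obtain ⟨h1, h3⟩ := hx
  rcases h3 with h3 | rfl | rfl
  · right
    exact sq_of_tr h3 h1
  · left; simp
  · left; simp

/-- The quaternion group in `GL₂` over the field with three elements. -/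
def q8 (hq : Fintype.card F = 3) : Subgroup (GL (Fin 2) F) where
  carrier := {g | IsQ (g : Matrix (Fin 2) (Fin 2) F)}
  mul_mem' := fun {a b} ha hb => by
    change IsQ ((a * b : GL (Fin 2) F) : Matrix (Fin 2) (Fin 2) F)
    rw [Units.val_mul]
    exact IsQ.mul hq ha hb
  one_mem' := IsQ.one
  inv_mem' := fun {a} ha => by
    change IsQ (((a⁻¹ : GL (Fin 2) F)) : Matrix (Fin 2) (Fin 2) F)
    rcases IsQ.sq ha with h | h
    · have : ((a⁻¹ : GL (Fin 2) F) : Matrix (Fin 2) (Fin 2) F) = a := Units.inv_eq_of_mul_eq_one_right h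
      rw [this]
      exact ha
    · have : ((a⁻¹ : GL (Fin 2) F) : Matrix (Fin 2) (Fin 2) F) = -a := Units.inv_eq_of_mul_eq_one_right (by rw [mul_neg, h, neg_neg])
      rw [this]
      exact IsQ.neg ha

theorem mem_q8 {hq : Fintype.card F = 3} {g : GL (Fin 2) F} : g ∈ q8 hq ↔ IsQ (g : Matrix (Fin 2) (Fin 2) F) := Iff.rfl

theorem mem_matrixSet_q8 (hq : Fintype.card F = 3) {x : Matrix (Fin 2) (Fin 2) F} (hx : IsQ x) : x ∈ matrixSet (q8 hq) := by
  have h0 : x.det ≠ 0 := by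
    rw [hx.1]
    exact one_ne_zero
  exact ⟨Matrix.GeneralLinearGroup.mkOfDetNeZero x h0, hx, rfl⟩

theorem q8_conj (hq : Fintype.card F = 3) (g : GL (Fin 2) F) {x : GL (Fin 2) F} (hx : x ∈ q8 hq) : g * x * g⁻¹ ∈ q8 hq := by
  rw [mem_q8] at hx ⊢
  obtain ⟨h1, h3⟩ := hx
  have hgg : ((g⁻¹ : GL (Fin 2) F) : Matrix (Fin 2) (Fin 2) F) * (g : Matrix (Fin 2) (Fin 2) F) = 1 := by
    rw [← Units.val_mul, inv_mul_cancel, Units.val_one]
  have hgg' : (g : Matrix (Fin 2) (Fin 2) F) * ((g⁻¹ : GL (Fin 2) F) : Matrix (Fin 2) (Fin 2) F) = 1 := by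
    rw [← Units.val_mul, mul_inv_cancel, Units.val_one]
  have e1 : ((g * x * g⁻¹ : GL (Fin 2) F) : Matrix (Fin 2) (Fin 2) F) = (g : Matrix (Fin 2) (Fin 2) F) * x * ((g⁻¹ : GL (Fin 2) F) : Matrix (Fin 2) (Fin 2) F) := rfl
  rw [e1]
  refine ⟨?_, ?_⟩
  · rw [Matrix.det_mul, Matrix.det_mul, h1, mul_one, ← Matrix.det_mul, hgg', Matrix.det_one]
  · rcases h3 with h3 | h3 | h3
    · left
      rw [Matrix.trace_mul_cycle, hgg, one_mul, h3]
    · right; left
      rw [h3, mul_one, hgg']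
    · right; right
      rw [h3, mul_neg, mul_one, neg_mul, hgg']

end Q8

section Good

variable {F : Type*} [Field F] [Fintype F]

/-- The hypotheses on the factors. -/
structure GoodFactor {m : ℕ} (A : Subgroup (GL (Fin m) F)) : Prop where
  pow4 : ∀ x ∈ A, x ^ 4 = 1
  comm : ∀ x ∈ A, ∀ y ∈ A, (x : Matrix (Fin m) (Fin m) F) * y = y * x ∨ (x : Matrix (Fin m) (Fin m) F) * y = -((y : Matrix (Fin m) (Fin m) F) * x)
  span : ∀ M : Matrix (Fin m) (Fin m) F, M ∈ Submodule.span F (matrixSet A)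

/-- Quaternion units. -/
def qI : Matrix (Fin 2) (Fin 2) F := !![0, 1; -1, 0]
/-- Quaternion units. -/
def qJ : Matrix (Fin 2) (Fin 2) F := !![1, 1; 1, -1]
/-- Quaternion units. -/
def qK : Matrix (Fin 2) (Fin 2) F := !![1, -1; -1, -1]

theorem isQ_qI : IsQ (qI : Matrix (Fin 2) (Fin 2) F) := by
  refine ⟨?_, Or.inl ?_⟩
  · simp [qI, Matrix.det_fin_two_of]
  · simp [qI, Matrix.trace_fin_two_of]

theorem isQ_qJ (hq : Fintype.card F = 3) : IsQ (qJ : Matrix (Fin 2) (Fin 2) F) := by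
  have h3 := three_zero hq
  refine ⟨?_, Or.inl ?_⟩
  · simp only [qJ, Matrix.det_fin_two_of]
    linear_combination (-1 : F) * h3
  · simp [qJ, Matrix.trace_fin_two_of]

theorem isQ_qK (hq : Fintype.card F = 3) : IsQ (qK : Matrix (Fin 2) (Fin 2) F) := by
  have h3 := three_zero hq
  refine ⟨?_, Or.inl ?_⟩
  · simp only [qK, Matrix.det_fin_two_of]
    linear_combination (-1 : F) * h3
  · simp only [qK, Matrix.trace_fin_two_of]
    ring

theorem q8_span (hq : Fintype.card F = 3) (M : Matrix (Fin 2) (Fin 2) F) : M ∈ Submodule.span F (matrixSet (q8 hq)) := by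
  have h2 : (2 : F) ≠ 0 := SpThree.two_ne_zero_three hq
  have hm : ∀ x : Matrix (Fin 2) (Fin 2) F, IsQ x → x ∈ Submodule.span F (matrixSet (q8 hq)) := fun x hx => Submodule.subset_span (mem_matrixSet_q8 hq hx)
  have e1 : M = ((M 0 0 + M 1 1) / 2) • 1 + ((M 0 1 - M 1 0) / 2) • qI + ((M 0 0 - M 1 1 + M 0 1 + M 1 0) / 4) • qJ + ((M 0 0 - M 1 1 - M 0 1 - M 1 0) / 4) • qK := by
    have h4 : (4 : F) ≠ 0 := by
      have : (4 : F) = 2 * 2 := by norm_num
      rw [this]
      exact mul_ne_zero h2 h2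
    ext i j
    fin_cases i <;> fin_cases j <;> simp [qI, qJ, qK] <;> field_simp <;> ring
  rw [e1]
  exact Submodule.add_mem _ (Submodule.add_mem _ (Submodule.add_mem _ (Submodule.smul_mem _ _ (hm _ IsQ.one)) (Submodule.smul_mem _ _ (hm _ isQ_qI))) (Submodule.smul_mem _ _ (hm _ (isQ_qJ hq)))) (Submodule.smul_mem _ _ (hm _ (isQ_qK hq)))

theorem q8_good (hq : Fintype.card F = 3) : GoodFactor (q8 hq) where
  pow4 := fun x hx => by
    apply Units.ext
    have e1 : ((x ^ 4 : GL (Fin 2) F) : Matrix (Fin 2) (Fin 2) F) = ((x : Matrix (Fin 2) (Fin 2) F) * x) * ((x : Matrix (Fin 2) (Fin 2) F) * x) := by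
      rw [Units.val_pow_eq_pow_val]
      noncomm_ring
    rw [e1, Units.val_one]
    rcases IsQ.sq hx with h | h <;> rw [h] <;> simp
  comm := fun x hx y hy => IsQ.comm hq hx hy
  span := q8_span hq

/-- A group element of order three. -/
def g3 : GL (Fin 2) F := ⟨!![1, 1; 0, 1], !![1, -1; 0, 1], by simp [Matrix.one_fin_two], by simp [Matrix.one_fin_two]⟩

theorem coe_g3 : ((g3 : GL (Fin 2) F) : Matrix (Fin 2) (Fin 2) F) = !![1, 1; 0, 1] := rfl
theorem coe_g3_inv : ((g3⁻¹ : GL (Fin 2) F) : Matrix (Fin 2) (Fin 2) F) = !![1, -1; 0, 1] := rfl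

theorem move_core (hq : Fintype.card F = 3) {x : Matrix (Fin 2) (Fin 2) F} (hx0 : x.trace = 0) (hd : x.det = 1) :
    x * (!![1, 1; 0, 1] * x * !![1, -1; 0, 1]) = -((!![1, 1; 0, 1] * x * !![1, -1; 0, 1]) * x) := by
  have h0 := three_zero hq
  have hy : (!![1, 1; 0, 1] * x * !![1, -1; 0, 1] : Matrix (Fin 2) (Fin 2) F).trace = 0 := by
    rw [Matrix.trace_mul_cycle]
    have : (!![1, -1; 0, 1] * !![1, 1; 0, 1] : Matrix (Fin 2) (Fin 2) F) = 1 := by
      simp [Matrix.one_fin_two]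
    rw [this, one_mul, hx0]
  have h6 := anti_of_tr hx0 hy
  have hdet := det_eq _ hx0
  rw [hd] at hdet
  have hc := key4F hq _ _ _ hdet.symm
  have hx11 := det_entries _ hx0
  have h5 : (2 * x 0 0 * (!![1, 1; 0, 1] * x * !![1, -1; 0, 1] : Matrix (Fin 2) (Fin 2) F) 0 0 + x 0 1 * (!![1, 1; 0, 1] * x * !![1, -1; 0, 1] : Matrix (Fin 2) (Fin 2) F) 1 0 + x 1 0 * (!![1, 1; 0, 1] * x * !![1, -1; 0, 1] : Matrix (Fin 2) (Fin 2) F) 0 1) = 0 := by
    have e1 : (!![1, 1; 0, 1] * x * !![1, -1; 0, 1] : Matrix (Fin 2) (Fin 2) F) = !![x 0 0 + x 1 0, x 0 1 - 2 * x 0 0 - x 1 0; x 1 0, - x 0 0 - x 1 0] := by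
      ext i j
      fin_cases i <;> fin_cases j <;> simp [Matrix.mul_apply, Fin.sum_univ_two, hx11, Matrix.vecMul, dotProduct] <;> ring
    rw [e1]
    simp only [Matrix.of_apply, Matrix.cons_val', Matrix.cons_val_zero, Matrix.cons_val_one, Matrix.cons_val_fin_one]
    linear_combination 2 * hdet - hc - h0
  rw [h5, zero_smul] at h6
  exact eq_neg_of_add_eq_zero_left h6

/-- The element of order three moves each non-central quaternion. -/
theorem q8_move (hq : Fintype.card F = 3) {x : GL (Fin 2) F} (hx : x ∈ q8 hq) (h1 : (x : Matrix (Fin 2) (Fin 2) F) ≠ 1) (h3 : (x : Matrix (Fin 2) (Fin 2) F) ≠ -1) :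
    (x : Matrix (Fin 2) (Fin 2) F) * ((g3 * x * g3⁻¹ : GL (Fin 2) F) : Matrix (Fin 2) (Fin 2) F) = -(((g3 * x * g3⁻¹ : GL (Fin 2) F) : Matrix (Fin 2) (Fin 2) F) * (x : Matrix (Fin 2) (Fin 2) F)) := by
  obtain ⟨hd, ht⟩ := hx
  have hx0 : (x : Matrix (Fin 2) (Fin 2) F).trace = 0 := by
    rcases ht with h | h | h
    · exact h
    · exact absurd h h1
    · exact absurd h h3
  rw [Units.val_mul, Units.val_mul, coe_g3, coe_g3_inv]
  exact move_core hq hx0 hd

end Good

section Pure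

variable {t m : ℕ} {F : Type*} [Field F]

/-- The pure tensor homomorphism. -/
def pureHom : (Fin t → GL (Fin m) F) →* GL (Fin t → Fin m) F where
  toFun := pureGL
  map_one' := Units.ext pureMat_one
  map_mul' := fun _ _ => Units.ext (pureMat_mul _ _).symm

@[simp] theorem pureHom_apply (gs : Fin t → GL (Fin m) F) : pureHom gs = pureGL gs := rfl

/-- The subgroup of pure tensors with given factors. -/
def pureR (A : Fin t → Subgroup (GL (Fin m) F)) : Subgroup (GL (Fin t → Fin m) F) := (Subgroup.pi Set.univ A).map pureHom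

theorem mem_pureR {A : Fin t → Subgroup (GL (Fin m) F)} {x : GL (Fin t → Fin m) F} :
    x ∈ pureR A ↔ ∃ gs : Fin t → GL (Fin m) F, (∀ i, gs i ∈ A i) ∧ pureGL gs = x := by
  constructor
  · rintro ⟨gs, h, rfl⟩
    exact ⟨gs, fun i => h i trivial, rfl⟩
  · rintro ⟨gs, h, rfl⟩
    exact ⟨gs, fun i _ => h i, rfl⟩

theorem pureMat_update_apply (ms : Fin t → Matrix (Fin m) (Fin m) F) (i : Fin t) (u : Matrix (Fin m) (Fin m) F) (x y : Fin t → Fin m) :
    pureMat (Function.update ms i u) x y = u (x i) (y i) * ∏ j ∈ Finset.univ.erase i, ms j (x j) (y j) := by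
  rw [pureMat_apply, ← Finset.mul_prod_erase _ _ (Finset.mem_univ i)]
  congr 1
  · simp
  · refine Finset.prod_congr rfl fun j hj => ?_
    rw [Function.update_of_ne (Finset.ne_of_mem_erase hj)]

theorem span_pure {A : Fin t → Subgroup (GL (Fin m) F)} (hA : ∀ i, ∀ M : Matrix (Fin m) (Fin m) F, M ∈ Submodule.span F (matrixSet (A i)))
    (M : Matrix (Fin t → Fin m) (Fin t → Fin m) F) : M ∈ Submodule.span F (matrixSet (pureR A)) := by
  classical
  set S := Submodule.span F (matrixSet (pureR A)) with hS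
  have key : ∀ (s : Finset (Fin t)) (ms : Fin t → Matrix (Fin m) (Fin m) F), (∀ i, i ∉ s → ms i ∈ matrixSet (A i)) → pureMat ms ∈ S := by
    intro s
    induction s using Finset.induction_on with
    | empty =>
      intro ms h
      have h' : ∀ i, ∃ g : GL (Fin m) F, g ∈ A i ∧ (g : Matrix (Fin m) (Fin m) F) = ms i := fun i => h i (Finset.notMem_empty i)
      choose gs hgs hcoe using h'
      refine Submodule.subset_span ⟨pureGL gs, mem_pureR.mpr ⟨gs, hgs, rfl⟩, ?_⟩
      change pureMat (fun i => (gs i : Matrix (Fin m) (Fin m) F)) = pureMat ms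
      congr 1
      funext i
      exact hcoe i
    | insert a s ha ih =>
      intro ms h
      have hupd : ∀ u : Matrix (Fin m) (Fin m) F, pureMat (Function.update ms a u) ∈ S := by
        intro u
        induction hA a u using Submodule.span_induction with
        | mem u hu =>
          refine ih _ fun i hi => ?_
          by_cases hia : i = a
          · subst hia
            simpa using hu
          · rw [Function.update_of_ne hia]
            refine h i ?_
            simp [hia, hi]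
        | zero =>
          have : pureMat (Function.update ms a 0) = 0 := by
            ext x y
            rw [pureMat_update_apply]
            simp
          rw [this]
          exact S.zero_mem
        | add u v _ _ hu hv =>
          have : pureMat (Function.update ms a (u + v)) = pureMat (Function.update ms a u) + pureMat (Function.update ms a v) := by
            ext x y
            rw [Matrix.add_apply, pureMat_update_apply, pureMat_update_apply, pureMat_update_apply, Matrix.add_apply, add_mul]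
          rw [this]
          exact S.add_mem hu hv
        | smul c u _ hu =>
          have : pureMat (Function.update ms a (c • u)) = c • pureMat (Function.update ms a u) := by
            ext x y
            rw [Matrix.smul_apply, pureMat_update_apply, pureMat_update_apply, Matrix.smul_apply, smul_eq_mul, smul_eq_mul, mul_assoc]
          rw [this]
          exact S.smul_mem c hu
      have := hupd (ms a)
      rwa [Function.update_eq_self] at this
  have hall : ∀ ms : Fin t → Matrix (Fin m) (Fin m) F, pureMat ms ∈ S := fun ms => key Finset.univ ms fun i hi => absurd (Finset.mem_univ i) hi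
  have hsingle : ∀ x y : Fin t → Fin m, Matrix.single x y (1 : F) ∈ S := by
    intro x y
    have : Matrix.single x y (1 : F) = pureMat fun i => Matrix.single (x i) (y i) (1 : F) := by
      ext x' y'
      simp only [pureMat_apply, Matrix.single_apply]
      by_cases h : x = x' ∧ y = y'
      · rw [if_pos h]
        obtain ⟨rfl, rfl⟩ := h
        simp
      · rw [if_neg h]
        have h' : ∃ i, ¬ (x i = x' i ∧ y i = y' i) := by
          by_contra hcon
          push Not at hcon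
          exact h ⟨funext fun i => (hcon i).1, funext fun i => (hcon i).2⟩
        obtain ⟨i, hi⟩ := h'
        refine (Finset.prod_eq_zero (Finset.mem_univ i) ?_).symm
        rw [if_neg hi]
    rw [this]
    exact hall _
  rw [Matrix.matrix_eq_sum_single M]
  refine Submodule.sum_mem _ fun x _ => Submodule.sum_mem _ fun y _ => ?_
  have : Matrix.single x y (M x y) = M x y • Matrix.single x y (1 : F) := by
    simp
  rw [this]
  exact S.smul_mem _ (hsingle x y)

end Pure

section Conj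

variable {ι : Type} [Fintype ι] [DecidableEq ι] {F : Type*} [Field F] {t m : ℕ}

/-- Change of basis and of indices. -/
def conjHom (e : ι ≃ (Fin t → Fin m)) (P : GL ι F) : GL (Fin t → Fin m) F →* GL ι F :=
  (MulAut.conj P).toMonoidHom.comp (glReindex e.symm).toMonoidHom

theorem coe_conjHom (e : ι ≃ (Fin t → Fin m)) (P : GL ι F) (w : GL (Fin t → Fin m) F) :
    ((conjHom e P w : GL ι F) : Matrix ι ι F) = (P : Matrix ι ι F) * (w : Matrix (Fin t → Fin m) (Fin t → Fin m) F).submatrix e e * ((P⁻¹ : GL ι F) : Matrix ι ι F) := rfl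

/-- The linear map underlying the change of basis. -/
def tauL (e : ι ≃ (Fin t → Fin m)) (P : GL ι F) : Matrix (Fin t → Fin m) (Fin t → Fin m) F →ₗ[F] Matrix ι ι F where
  toFun := fun X => (P : Matrix ι ι F) * X.submatrix e e * ((P⁻¹ : GL ι F) : Matrix ι ι F)
  map_add' := fun X Y => by
    have : (X + Y).submatrix e e = X.submatrix e e + Y.submatrix e e := rfl
    rw [this, mul_add, add_mul]
  map_smul' := fun c X => by
    have : (c • X).submatrix e e = c • X.submatrix e e := rfl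
    rw [this, Matrix.mul_smul, Matrix.smul_mul]
    rfl

theorem tauL_apply (e : ι ≃ (Fin t → Fin m)) (P : GL ι F) (X : Matrix (Fin t → Fin m) (Fin t → Fin m) F) :
    tauL e P X = (P : Matrix ι ι F) * X.submatrix e e * ((P⁻¹ : GL ι F) : Matrix ι ι F) := rfl

theorem tauL_mul (e : ι ≃ (Fin t → Fin m)) (P : GL ι F) (X Y : Matrix (Fin t → Fin m) (Fin t → Fin m) F) :
    tauL e P (X * Y) = tauL e P X * tauL e P Y := by
  have h1 : ((P⁻¹ : GL ι F) : Matrix ι ι F) * (P : Matrix ι ι F) = 1 := by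
    rw [← Units.val_mul, inv_mul_cancel, Units.val_one]
  rw [tauL_apply, tauL_apply, tauL_apply, ← Matrix.submatrix_mul_equiv X Y e e e]
  calc (P : Matrix ι ι F) * (X.submatrix e e * Y.submatrix e e) * ((P⁻¹ : GL ι F) : Matrix ι ι F)
      = (P : Matrix ι ι F) * X.submatrix e e * 1 * Y.submatrix e e * ((P⁻¹ : GL ι F) : Matrix ι ι F) := by
        noncomm_ring
    _ = _ := by
        rw [← h1]
        noncomm_ring

theorem tauL_surj (e : ι ≃ (Fin t → Fin m)) (P : GL ι F) (M : Matrix ι ι F) :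
    ∃ X, tauL e P X = M := by
  have h1 : ((P⁻¹ : GL ι F) : Matrix ι ι F) * (P : Matrix ι ι F) = 1 := by
    rw [← Units.val_mul, inv_mul_cancel, Units.val_one]
  have h3 : (P : Matrix ι ι F) * ((P⁻¹ : GL ι F) : Matrix ι ι F) = 1 := by
    rw [← Units.val_mul, mul_inv_cancel, Units.val_one]
  refine ⟨(((P⁻¹ : GL ι F) : Matrix ι ι F) * M * (P : Matrix ι ι F)).submatrix e.symm e.symm, ?_⟩
  rw [tauL_apply, Matrix.submatrix_submatrix]
  simp only [Equiv.symm_comp_self, Matrix.submatrix_id_id]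
  calc (P : Matrix ι ι F) * (((P⁻¹ : GL ι F) : Matrix ι ι F) * M * (P : Matrix ι ι F)) * ((P⁻¹ : GL ι F) : Matrix ι ι F)
      = ((P : Matrix ι ι F) * ((P⁻¹ : GL ι F) : Matrix ι ι F)) * M * ((P : Matrix ι ι F) * ((P⁻¹ : GL ι F) : Matrix ι ι F)) := by noncomm_ring
    _ = M := by rw [h3, one_mul, mul_one]

/-- The group in the original coordinates. -/
def Rof (e : ι ≃ (Fin t → Fin m)) (P : GL ι F) (A : Fin t → Subgroup (GL (Fin m) F)) : Subgroup (GL ι F) := (pureR A).map (conjHom e P)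

theorem mem_Rof {e : ι ≃ (Fin t → Fin m)} {P : GL ι F} {A : Fin t → Subgroup (GL (Fin m) F)} {x : GL ι F} :
    x ∈ Rof e P A ↔ ∃ gs : Fin t → GL (Fin m) F, (∀ i, gs i ∈ A i) ∧ conjHom e P (pureGL gs) = x := by
  constructor
  · rintro ⟨w, hw, rfl⟩
    obtain ⟨gs, hgs, rfl⟩ := mem_pureR.mp hw
    exact ⟨gs, hgs, rfl⟩
  · rintro ⟨gs, hgs, rfl⟩
    exact ⟨_, mem_pureR.mpr ⟨gs, hgs, rfl⟩, rfl⟩

theorem span_Rof (e : ι ≃ (Fin t → Fin m)) (P : GL ι F) {A : Fin t → Subgroup (GL (Fin m) F)} (hA : ∀ i, ∀ M : Matrix (Fin m) (Fin m) F, M ∈ Submodule.span F (matrixSet (A i))) (M : Matrix ι ι F) :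
    M ∈ Submodule.span F (matrixSet (Rof e P A)) := by
  obtain ⟨X, rfl⟩ := tauL_surj e P M
  induction span_pure hA X using Submodule.span_induction with
  | mem x hx =>
    obtain ⟨w, hw, rfl⟩ := hx
    exact Submodule.subset_span ⟨conjHom e P w, ⟨w, hw, rfl⟩, rfl⟩
  | zero =>
    rw [map_zero]
    exact Submodule.zero_mem _
  | add x y _ _ hx hy =>
    rw [map_add]
    exact Submodule.add_mem _ hx hy
  | smul c x _ hx =>
    rw [map_smul]
    exact Submodule.smul_mem _ c hx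

variable [Fintype F]

theorem pure_comm {A : Fin t → Subgroup (GL (Fin m) F)} (hA : ∀ i, GoodFactor (A i)) {gs hs : Fin t → GL (Fin m) F} (hg : ∀ i, gs i ∈ A i) (hh : ∀ i, hs i ∈ A i) :
    ∃ ε : F, (ε = 1 ∨ ε = -1) ∧ (pureGL gs : Matrix (Fin t → Fin m) (Fin t → Fin m) F) * (pureGL hs : Matrix (Fin t → Fin m) (Fin t → Fin m) F) =
      ε • ((pureGL hs : Matrix (Fin t → Fin m) (Fin t → Fin m) F) * (pureGL gs : Matrix (Fin t → Fin m) (Fin t → Fin m) F)) := by
  have h' : ∀ i, ∃ ε : F, (ε = 1 ∨ ε = -1) ∧ (gs i : Matrix (Fin m) (Fin m) F) * (hs i : Matrix (Fin m) (Fin m) F) = ε • ((hs i : Matrix (Fin m) (Fin m) F) * (gs i : Matrix (Fin m) (Fin m) F)) := by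
    intro i
    rcases (hA i).comm _ (hg i) _ (hh i) with h | h
    · exact ⟨1, Or.inl rfl, by rw [h, one_smul]⟩
    · exact ⟨-1, Or.inr rfl, by rw [h, neg_smul, one_smul]⟩
  choose ε hε h using h'
  refine ⟨∏ i, ε i, ?_, ?_⟩
  · refine Finset.prod_induction _ (fun a : F => a = 1 ∨ a = -1) ?_ (Or.inl rfl) fun i _ => hε i
    rintro a b (rfl | rfl) (rfl | rfl) <;> simp
  · change pureMat _ * pureMat _ = _ • (pureMat _ * pureMat _)
    rw [pureMat_mul, pureMat_mul, ← pureMat_smul]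
    congr 1
    funext i
    exact h i

theorem conjHom_comm (e : ι ≃ (Fin t → Fin m)) (P : GL ι F) {w w' : GL (Fin t → Fin m) F} {ε : F} (h : (w : Matrix (Fin t → Fin m) (Fin t → Fin m) F) * (w' : Matrix (Fin t → Fin m) (Fin t → Fin m) F) = ε • ((w' : Matrix (Fin t → Fin m) (Fin t → Fin m) F) * (w : Matrix (Fin t → Fin m) (Fin t → Fin m) F))) :
    (conjHom e P w : Matrix ι ι F) * (conjHom e P w' : Matrix ι ι F) = ε • ((conjHom e P w' : Matrix ι ι F) * (conjHom e P w : Matrix ι ι F)) := by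
  have e1 : ∀ z : GL (Fin t → Fin m) F, (conjHom e P z : Matrix ι ι F) = tauL e P (z : Matrix (Fin t → Fin m) (Fin t → Fin m) F) := fun z => rfl
  rw [e1, e1, ← tauL_mul, h, map_smul, tauL_mul]

theorem Rof_comm (e : ι ≃ (Fin t → Fin m)) (P : GL ι F) {A : Fin t → Subgroup (GL (Fin m) F)} (hA : ∀ i, GoodFactor (A i)) {x y : GL ι F} (hx : x ∈ Rof e P A) (hy : y ∈ Rof e P A) :
    ∃ ε : F, (ε = 1 ∨ ε = -1) ∧ (x : Matrix ι ι F) * (y : Matrix ι ι F) = ε • ((y : Matrix ι ι F) * (x : Matrix ι ι F)) := by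
  obtain ⟨gs, hgs, rfl⟩ := mem_Rof.mp hx
  obtain ⟨hs, hhs, rfl⟩ := mem_Rof.mp hy
  obtain ⟨ε, hε, h⟩ := pure_comm hA hgs hhs
  exact ⟨ε, hε, conjHom_comm e P h⟩

theorem comm_val {x y : GL ι F} {ε : F} (h : (x : Matrix ι ι F) * (y : Matrix ι ι F) = ε • ((y : Matrix ι ι F) * (x : Matrix ι ι F))) :
    ((x * y * x⁻¹ * y⁻¹ : GL ι F) : Matrix ι ι F) = ε • (1 : Matrix ι ι F) := by
  have h1 : ((x * y * x⁻¹ * y⁻¹ : GL ι F) : Matrix ι ι F) = ((x : Matrix ι ι F) * (y : Matrix ι ι F)) * ((x⁻¹ : GL ι F) : Matrix ι ι F) * ((y⁻¹ : GL ι F) : Matrix ι ι F) := rfl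
  rw [h1, h, Matrix.smul_mul, Matrix.smul_mul]
  congr 1
  rw [← Units.val_mul, ← Units.val_mul, ← Units.val_mul]
  have : y * x * x⁻¹ * y⁻¹ = 1 := by group
  rw [this, Units.val_one]

/-- **The symplectic data of a tensor product of factors.** -/
theorem sympData_Rof (h2 : (2 : F) ≠ 0) (hc : 2 ≤ Fintype.card ι) (e : ι ≃ (Fin t → Fin m)) (P : GL ι F) {A : Fin t → Subgroup (GL (Fin m) F)} (hA : ∀ i, GoodFactor (A i)) :
    SympData (subgroupNormalizer (Rof e P A)) (Rof e P A) 2 4 := by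
  classical
  haveI : Nonempty ι := Fintype.card_pos_iff.mp (by omega)
  have hirr := irr_cs_of_span (span_Rof e P fun i => (hA i).span)
  refine ⟨Nat.prime_two, by norm_num, by exact_mod_cast h2, fun g hg x hx => (Subgroup.mem_normalizer_iff.mp hg x).mp hx, hirr.1, hirr.2, ?_, ?_, Subgroup.le_normalizer, ?_, ?_⟩
  · intro hZ
    obtain ⟨i, j, hij⟩ := Fintype.exists_pair_of_one_lt_card (by omega : 1 < Fintype.card ι)
    have hall : ∀ M : Matrix ι ι F, M ∈ Submodule.span F (matrixSet (Rof e P A)) → ∃ c : F, M = c • (1 : Matrix ι ι F) := by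
      intro M hM
      induction hM using Submodule.span_induction with
      | mem x hx =>
        obtain ⟨g, hg, rfl⟩ := hx
        exact (mem_scalars_iff' g).mp (hZ hg)
      | zero => exact ⟨0, by simp⟩
      | add x y _ _ hx hy =>
        obtain ⟨c, rfl⟩ := hx
        obtain ⟨d, rfl⟩ := hy
        exact ⟨c + d, by rw [add_smul]⟩
      | smul a x _ hx =>
        obtain ⟨c, rfl⟩ := hx
        exact ⟨a * c, by rw [smul_smul]⟩
    obtain ⟨c, hc'⟩ := hall _ (span_Rof e P (fun i => (hA i).span) (Matrix.single i j (1 : F)))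
    have h3 := congrFun (congrFun hc' i) j
    simp [hij] at h3
  · intro x hx
    obtain ⟨gs, hgs, rfl⟩ := mem_Rof.mp hx
    have h4 : gs ^ 4 = 1 := by
      funext i
      exact (hA i).pow4 _ (hgs i)
    have e1 : pureGL gs = pureHom gs := rfl
    rw [e1, ← map_pow, ← map_pow, h4, map_one, map_one]
  · intro x hx y hy
    obtain ⟨ε, -, h⟩ := Rof_comm e P hA hx hy
    exact (mem_scalars_iff' _).mpr ⟨ε, comm_val h⟩
  · intro x hx y hy
    obtain ⟨ε, hε, h⟩ := Rof_comm e P hA hx hy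
    apply Units.ext
    have h5 := comm_val h
    rw [Units.val_pow_eq_pow_val, h5, Units.val_one]
    rcases hε with rfl | rfl <;> simp

/-- **The isometries from the factors.** -/
theorem Rof_isom {f : (ι → F) → (ι → F) → F} {Gs : Fin t → Matrix (Fin m) (Fin m) F} {c : F} (e : ι ≃ (Fin t → Fin m)) (P : GL ι F) {A : Fin t → Subgroup (GL (Fin m) F)}
    (heq : ∀ x y : (Fin t → Fin m) → F, f ((P : Matrix ι ι F) *ᵥ (x ∘ e)) ((P : Matrix ι ι F) *ᵥ (y ∘ e)) = c * ∑ a, ∑ b, x a * (∏ i, Gs i (a i) (b i)) * y b)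
    (hA : ∀ i, ∀ g ∈ A i, (g : Matrix (Fin m) (Fin m) F)ᵀ * Gs i * (g : Matrix (Fin m) (Fin m) F) = Gs i) : Rof e P A ≤ isomG f := by
  classical
  intro x' hx'
  obtain ⟨gs, hgs, rfl⟩ := mem_Rof.mp hx'
  rw [mem_isomG]
  intro u v
  set w : GL (Fin t → Fin m) F := pureGL gs with hw
  set G : Matrix (Fin t → Fin m) (Fin t → Fin m) F := pureMat Gs with hG
  have hPi : ∀ u : ι → F, u = (P : Matrix ι ι F) *ᵥ (((((P⁻¹ : GL ι F) : Matrix ι ι F) *ᵥ u) ∘ e.symm) ∘ e) := by
    intro u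
    have : (((((P⁻¹ : GL ι F) : Matrix ι ι F) *ᵥ u) ∘ e.symm) ∘ e) = ((P⁻¹ : GL ι F) : Matrix ι ι F) *ᵥ u := by
      funext i
      simp
    rw [this, mulVec_inv_mulVec]
  set X := ((((P⁻¹ : GL ι F) : Matrix ι ι F) *ᵥ u) ∘ e.symm) with hX
  set Y := ((((P⁻¹ : GL ι F) : Matrix ι ι F) *ᵥ v) ∘ e.symm) with hY
  have hu := hPi u
  have hv := hPi v
  have hact : ∀ Z : (Fin t → Fin m) → F, (conjHom e P w : Matrix ι ι F) *ᵥ ((P : Matrix ι ι F) *ᵥ (Z ∘ e)) = (P : Matrix ι ι F) *ᵥ (((w : Matrix (Fin t → Fin m) (Fin t → Fin m) F) *ᵥ Z) ∘ e) := by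
    intro Z
    have e1 : (conjHom e P w : Matrix ι ι F) *ᵥ ((P : Matrix ι ι F) *ᵥ (Z ∘ e)) = (P : Matrix ι ι F) *ᵥ ((w : Matrix (Fin t → Fin m) (Fin t → Fin m) F).submatrix e e *ᵥ (Z ∘ e)) := by
      rw [coe_conjHom, Matrix.mulVec_mulVec, Matrix.mulVec_mulVec]
      congr 1
      rw [mul_assoc, ← Units.val_mul, inv_mul_cancel, Units.val_one, mul_one]
    have e2 : (Z ∘ e) ∘ e.symm = Z := by
      funext a
      simp
    rw [e1, Matrix.submatrix_mulVec_equiv, e2]
  have hdot : ∀ x y : (Fin t → Fin m) → F, ∑ a, ∑ b, x a * (∏ i, Gs i (a i) (b i)) * y b = x ⬝ᵥ (G *ᵥ y) := by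
    intro x y
    simp only [dotProduct, Matrix.mulVec, Finset.mul_sum, hG, pureMat_apply, mul_assoc]
  have hwG : (w : Matrix (Fin t → Fin m) (Fin t → Fin m) F)ᵀ * G * (w : Matrix (Fin t → Fin m) (Fin t → Fin m) F) = G := by
    have e1 : (w : Matrix (Fin t → Fin m) (Fin t → Fin m) F) = pureMat fun i => (gs i : Matrix (Fin m) (Fin m) F) := rfl
    rw [e1, pureMat_transpose, hG, pureMat_mul, pureMat_mul]
    congr 1
    funext i
    exact hA i _ (hgs i)
  rw [hu, hv, hact, hact, heq, heq, hdot, hdot]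
  congr 1
  have e3 : (w : Matrix (Fin t → Fin m) (Fin t → Fin m) F) *ᵥ X ⬝ᵥ G *ᵥ ((w : Matrix (Fin t → Fin m) (Fin t → Fin m) F) *ᵥ Y) = X ⬝ᵥ (((w : Matrix (Fin t → Fin m) (Fin t → Fin m) F)ᵀ * G * (w : Matrix (Fin t → Fin m) (Fin t → Fin m) F)) *ᵥ Y) := by
    rw [← Matrix.mulVec_mulVec, ← Matrix.mulVec_mulVec, Matrix.dotProduct_mulVec X (w : Matrix (Fin t → Fin m) (Fin t → Fin m) F)ᵀ, Matrix.vecMul_transpose]
  rw [e3, hwG]

end Conj

section Final

variable {ι : Type} [Fintype ι] [DecidableEq ι] {F : Type*} [Field F] [Fintype F] {t : ℕ}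

theorem gram_alt2_conj (g : Matrix (Fin 2) (Fin 2) F) : gᵀ * gramMatrix (alt2 (F := F)) * g = g.det • gramMatrix (alt2 (F := F)) := by
  ext i j
  fin_cases i <;> fin_cases j <;>
    simp [gramMatrix, alt2, Matrix.mul_apply, Fin.sum_univ_two, Matrix.det_fin_two, Matrix.transpose_apply, Pi.single_apply] <;> ring

theorem permMat_mul_pureMat (σ : Equiv.Perm (Fin t)) (gs : Fin t → Matrix (Fin 2) (Fin 2) F) :
    (permMat σ : Matrix (Fin t → Fin 2) (Fin t → Fin 2) F) * pureMat gs = pureMat (gs ∘ σ.symm) * permMat σ := by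
  ext x y
  rw [permMat_mul_apply, mul_permMat_apply, pureMat_apply, pureMat_apply]
  refine Fintype.prod_equiv σ _ _ fun i => ?_
  simp

theorem pure_eq_of_isPure {g : GL (Fin t → Fin 2) F} (h : IsPureTensor 2 t g) : ∃ hs, g = pureGL hs := by
  obtain ⟨hs, h⟩ := h
  refine ⟨hs, Units.ext ?_⟩
  ext x y
  rw [h]
  rfl

theorem perm_eq_of_isFactor {g : GL (Fin t → Fin 2) F} (h : IsFactorPermutation 2 t g) : ∃ σ, g = permGL σ := by
  obtain ⟨σ, h⟩ := h
  refine ⟨σ, Units.ext ?_⟩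
  ext x y
  rw [h]
  rfl

/-- Generators normalise the tensor power of the quaternion group. -/
theorem gen_conj (hq : Fintype.card F = 3) {w : GL (Fin t → Fin 2) F} (hw : IsPureTensor 2 t w ∨ IsFactorPermutation 2 t w) {x : GL (Fin t → Fin 2) F}
    (hx : x ∈ pureR fun _ : Fin t => q8 hq) : w * x * w⁻¹ ∈ pureR fun _ : Fin t => q8 hq := by
  obtain ⟨gs, hgs, rfl⟩ := mem_pureR.mp hx
  rcases hw with hw | hw
  · obtain ⟨hs, rfl⟩ := pure_eq_of_isPure hw
    refine mem_pureR.mpr ⟨fun i => hs i * gs i * (hs i)⁻¹, fun i => q8_conj hq _ (hgs i), ?_⟩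
    change pureHom (hs * gs * hs⁻¹) = pureHom hs * pureHom gs * (pureHom hs)⁻¹
    rw [map_mul, map_mul, map_inv]
  · obtain ⟨σ, rfl⟩ := perm_eq_of_isFactor hw
    refine mem_pureR.mpr ⟨gs ∘ σ.symm, fun i => hgs _, ?_⟩
    have h1 : permGL σ * pureGL gs = pureGL (gs ∘ σ.symm) * (permGL σ : GL (Fin t → Fin 2) F) := by
      apply Units.ext
      exact permMat_mul_pureMat σ _
    rw [h1]
    group

theorem inv_gen {w : GL (Fin t → Fin 2) F} (hw : IsPureTensor 2 t w ∨ IsFactorPermutation 2 t w) : IsPureTensor 2 t w⁻¹ ∨ IsFactorPermutation 2 t w⁻¹ := by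
  rcases hw with hw | hw
  · obtain ⟨hs, rfl⟩ := pure_eq_of_isPure hw
    left
    have : (pureGL hs)⁻¹ = pureGL hs⁻¹ := by
      change (pureHom hs)⁻¹ = pureHom hs⁻¹
      rw [map_inv]
    rw [this]
    exact pureGL_isPure _
  · obtain ⟨σ, rfl⟩ := perm_eq_of_isFactor hw
    right
    have : (permGL σ : GL (Fin t → Fin 2) F)⁻¹ = permGL σ⁻¹ := by
      rw [inv_eq_iff_mul_eq_one]
      apply Units.ext
      rw [Units.val_mul, Units.val_one]
      change permMat σ * permMat σ⁻¹ = 1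
      rw [permMat_mul_permMat, mul_inv_cancel, permMat_one]
    rw [this]
    exact permGL_isFactor _

theorem std_le_normalizer (hq : Fintype.card F = 3) :
    tensorWreathStandard 2 t F ≤ Subgroup.normalizer ((pureR fun _ : Fin t => q8 hq) : Set (GL (Fin t → Fin 2) F)) := by
  refine (Subgroup.closure_le _).mpr fun w hw => ?_
  refine Subgroup.mem_normalizer_iff.mpr fun x => ⟨fun hx => gen_conj hq hw hx, fun hx => ?_⟩
  have := gen_conj hq (inv_gen hw) hx
  have e1 : w⁻¹ * (w * x * w⁻¹) * w⁻¹⁻¹ = x := by group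
  rwa [e1] at this

theorem wreath_le_normalizer (hq : Fintype.card F = 3) (e : ι ≃ (Fin t → Fin 2)) (P : GL ι F) :
    tensorWreathSubgroup 2 t e P ≤ subgroupNormalizer (Rof e P fun _ : Fin t => q8 hq) := by
  rintro _ ⟨_, ⟨w, hw, rfl⟩, rfl⟩
  exact Subgroup.le_normalizer_map (conjHom e P) ⟨w, std_le_normalizer hq hw, rfl⟩

theorem moves_Rof [Nonempty ι] (hq : Fintype.card F = 3) (e : ι ≃ (Fin t → Fin 2)) (P : GL ι F) {x : GL ι F} (hx : x ∈ Rof e P fun _ : Fin t => q8 hq) (hxZ : x ∉ scalars ι F) :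
    ∃ g ∈ subgroupNormalizer (Rof e P fun _ : Fin t => q8 hq), x * (g * x * g⁻¹) ≠ (g * x * g⁻¹) * x := by
  classical
  have h2 : (2 : F) ≠ 0 := SpThree.two_ne_zero_three hq
  obtain ⟨gs, hgs, rfl⟩ := mem_Rof.mp hx
  have hex : ∃ i, (gs i : Matrix (Fin 2) (Fin 2) F) ≠ 1 ∧ (gs i : Matrix (Fin 2) (Fin 2) F) ≠ -1 := by
    by_contra hcon
    push Not at hcon
    apply hxZ
    have h' : ∀ i, ∃ ε : F, (gs i : Matrix (Fin 2) (Fin 2) F) = ε • (1 : Matrix (Fin 2) (Fin 2) F) := by
      intro i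
      by_cases h1 : (gs i : Matrix (Fin 2) (Fin 2) F) = 1
      · exact ⟨1, by rw [h1, one_smul]⟩
      · exact ⟨-1, by rw [hcon i h1, neg_smul, one_smul]⟩
    choose ε hε using h'
    have e1 : (pureGL gs : Matrix (Fin t → Fin 2) (Fin t → Fin 2) F) = (∏ i, ε i) • (1 : Matrix (Fin t → Fin 2) (Fin t → Fin 2) F) := by
      change pureMat _ = _
      rw [← pureMat_one, ← pureMat_smul]
      congr 1
      funext i
      exact hε i
    rw [mem_scalars_iff']
    refine ⟨∏ i, ε i, ?_⟩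
    have e2 := coe_conjHom e P (pureGL gs)
    rw [e2, e1]
    have e3 : ((∏ i, ε i) • (1 : Matrix (Fin t → Fin 2) (Fin t → Fin 2) F)).submatrix e e = (∏ i, ε i) • (1 : Matrix ι ι F) := by
      ext a b
      simp [Matrix.one_apply, e.injective.eq_iff]
    rw [e3, Matrix.mul_smul, Matrix.smul_mul, mul_one, ← Units.val_mul, mul_inv_cancel, Units.val_one]
  obtain ⟨i, hi1, hi3⟩ := hex
  let w₁ : Fin t → GL (Fin 2) F := Function.update 1 i g3
  have hw₁ : pureGL w₁ ∈ tensorWreathStandard 2 t F := Subgroup.subset_closure (Or.inl (pureGL_isPure _))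
  refine ⟨conjHom e P (pureGL w₁), wreath_le_normalizer hq e P ⟨_, ⟨_, hw₁, rfl⟩, rfl⟩, fun hc => ?_⟩
  let gs' : Fin t → GL (Fin 2) F := fun j => w₁ j * gs j * (w₁ j)⁻¹
  have hy : conjHom e P (pureGL w₁) * conjHom e P (pureGL gs) * (conjHom e P (pureGL w₁))⁻¹ = conjHom e P (pureGL gs') := by
    have e1 : pureGL gs' = pureGL w₁ * pureGL gs * (pureGL w₁)⁻¹ := by
      change pureHom (w₁ * gs * w₁⁻¹) = pureHom w₁ * pureHom gs * (pureHom w₁)⁻¹
      rw [map_mul, map_mul, map_inv]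
    rw [e1, map_mul, map_mul, map_inv]
  rw [hy] at hc
  have hpt : ∀ j, (gs j : Matrix (Fin 2) (Fin 2) F) * (gs' j : Matrix (Fin 2) (Fin 2) F) = (if j = i then (-1 : F) else 1) • ((gs' j : Matrix (Fin 2) (Fin 2) F) * (gs j : Matrix (Fin 2) (Fin 2) F)) := by
    intro j
    by_cases hj : j = i
    · subst hj
      rw [if_pos rfl, neg_smul, one_smul]
      have e2 : gs' j = g3 * gs j * g3⁻¹ := by
        simp only [gs', w₁, Function.update_self]
      rw [e2]
      exact q8_move hq (hgs j) hi1 hi3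
    · rw [if_neg hj, one_smul]
      have e2 : gs' j = gs j := by
        simp only [gs', w₁, Function.update_of_ne hj]
        simp
      rw [e2]
  have hprod : ∏ j, (if j = i then (-1 : F) else 1) = -1 := by
    simp
  have hmat : (pureGL gs : Matrix (Fin t → Fin 2) (Fin t → Fin 2) F) * (pureGL gs' : Matrix (Fin t → Fin 2) (Fin t → Fin 2) F) =
      (-1 : F) • ((pureGL gs' : Matrix (Fin t → Fin 2) (Fin t → Fin 2) F) * (pureGL gs : Matrix (Fin t → Fin 2) (Fin t → Fin 2) F)) := by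
    change pureMat _ * pureMat _ = _ • (pureMat _ * pureMat _)
    rw [pureMat_mul, pureMat_mul, ← hprod, ← pureMat_smul]
    congr 1
    funext j
    exact hpt j
  have h5 := conjHom_comm e P hmat
  have h6 := congrArg (fun z : GL ι F => (z : Matrix ι ι F)) hc
  simp only [Units.val_mul] at h6
  rw [← h6, neg_smul, one_smul] at h5
  have h7 : (2 : F) • ((conjHom e P (pureGL gs) : Matrix ι ι F) * (conjHom e P (pureGL gs') : Matrix ι ι F)) = 0 := by
    rw [two_smul]
    nth_rw 1 [h5]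
    simp
  have h8 := (smul_eq_zero.mp h7).resolve_left h2
  have h9 : ((conjHom e P (pureGL gs) * conjHom e P (pureGL gs') : GL ι F) : Matrix ι ι F) = 0 := h8
  exact Units.ne_zero _ h9

end Final

section Out

variable {m : ℕ} {F : Type*} [Field F] [Fintype F] {t : ℕ}

open Cfsg.Agent.Lib.Classical.Asch.FormSp Cfsg.Agent.Lib.Classical.Asch.Adj

/-- **Tensor powers of the plane over the field with three elements lie in the normaliser of an extraspecial group.** -/
theorem out_R (hq : Fintype.card F = 3) (hm : 2 ≤ m) {H : Subgroup (GL (Fin m ⊕ Fin m) F)} (hH : IsMaximalIn (spGL m F) H) {e : (Fin m ⊕ Fin m) ≃ (Fin t → Fin 2)} {P : GL (Fin m ⊕ Fin m) F}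
    (hst : IsTensorPowerFormStructure id (sympForm m F) alt2 e P) (hle : H ≤ tensorWreathSubgroup 2 t e P) :
    ∃ R : Subgroup (GL (Fin m ⊕ Fin m) F), IsSymplecticTypeGroup 2 R ∧ ActsAbsolutelyIrreducibly (matrixSet R) ∧ R ≤ similarityGroup (sympForm m F) ∧
      Nat.card R = 2 ^ (1 + 2 * t) ∧ Nat.card (Subgroup.center R) = 2 ∧ IsOfMinusType t R ∧ H = subgroupNormalizer R ⊓ spGL m F := by
  classical
  have h2 : (2 : F) ≠ 0 := SpThree.two_ne_zero_three hq
  have hodd : Odd (Fintype.card F) := by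
    rw [hq]
    decide
  have hc : Fintype.card (Fin m ⊕ Fin m) = 2 ^ t := by
    rw [Fintype.card_congr e]
    simp
  have hc2 : 2 ≤ Fintype.card (Fin m ⊕ Fin m) := by
    simp
    omega
  haveI : Nonempty (Fin m ⊕ Fin m) := Fintype.card_pos_iff.mp (by omega)
  have hgood : ∀ _ : Fin t, GoodFactor (q8 hq) := fun _ => q8_good hq
  let R : Subgroup (GL (Fin m ⊕ Fin m) F) := Rof e P fun _ : Fin t => q8 hq
  have D : SympData (subgroupNormalizer R) R 2 4 := sympData_Rof h2 hc2 e P hgood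
  have hf := NotSp.isSymplecticForm_sympForm' (m := m) (F := F)
  have hr := reflForm_symplectic hf
  have hR : R ≤ isomG (sympForm m F) := by
    obtain ⟨c, -, heq⟩ := hst
    refine Rof_isom (Gs := fun _ => gramMatrix alt2) (c := c) e P (fun x y => heq x y) fun _ g hg => ?_
    rw [gram_alt2_conj, hg.1, one_smul]
  have hRs : R ≤ spGL m F := by
    rw [spGL_eq_isomG]
    exact hR
  have hcZ := SympData.card_center_refl hr D hR
  refine ⟨R, isSymplecticTypeGroup_of_moves D fun x hx hxZ => moves_Rof hq e P hx hxZ, actsAbsolutelyIrreducibly_iff.mpr ⟨actsIrreducibly_iff.mpr D.irr, D.cs⟩, hR.trans isomG_le_similarity, ?_, hcZ, SympData.isOfMinusType hf D hR hc, ?_⟩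
  · obtain ⟨k, hk, hq'⟩ := SympData.exists_card D
    have hkt : k = t := Nat.pow_right_injective (le_refl 2) (hk.symm.trans hc)
    rw [SympData.card_eq D, hcZ, hq', hkt, pow_add, pow_one]
  · exact NotSp.eq_inf_of_le' hH (hle.trans (wreath_le_normalizer hq e P)) (NotSp.not_le_subgroupNormalizer_sp hm hodd D hRs)

end Out

end Cfsg.Agent.Lib.Classical.Asch.Sp8R
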