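import Mathlib
import Cfsg.Agent.Lib.Classical.Asch.Sp8R
import Cfsg.Agent.Lib.Classical.Asch.SpRows
import Cfsg.Agent.Lib.Classical.Witt.Hyp

/-!
# Two special configurations in the symplectic group of dimension four over the field with three elements
-/

set_option autoImplicit false
set_option linter.style.haveILetI false
set_option linter.unusedSectionVars false

namespace Cfsg.Agent.Lib.Classical.Asch.Sp4Three

open scoped MatrixGroups Matrix Kronecker
open Module Cfsg Cfsg.Geo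
open Cfsg.Agent.Lib.Classical.Asch.Basic Cfsg.Agent.Lib.Classical.Asch.Forms
open Cfsg.Agent.Lib.Classical.Asch.SpThree Cfsg.Agent.Lib.Classical.Asch.PureTensor
open Cfsg.Agent.Lib.Classical.Asch.SympType Cfsg.Agent.Lib.Classical.Asch.SympStruct
open Cfsg.Agent.Lib.Classical.Asch.FormSympType Cfsg.Agent.Lib.Classical.Asch.SUNine
open Cfsg.Agent.Lib.Classical.Asch.Sp8Tensor Cfsg.Agent.Lib.Classical.Asch.OKey7
open Cfsg.Agent.Lib.Classical.Asch.Sp8R Cfsg.Agent.Lib.Classical.Asch.FormPerp Cfsg.Agent.Lib.Classical.Asch.Adj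

section CaseA

variable {ι : Type} [Fintype ι] [DecidableEq ι] {F : Type*} [Field F] [Fintype F] {f : (ι → F) → (ι → F) → F}

theorem alt2_mulVec (M : Matrix (Fin 2) (Fin 2) F) (x z : Fin 2 → F) : alt2 (M *ᵥ x) (M *ᵥ z) = M.det * alt2 x z := by
  simp [alt2, Matrix.mulVec, dotProduct, Fin.sum_univ_two, Matrix.det_fin_two]
  ring

theorem alt2_nondeg {x : Fin 2 → F} (h : ∀ z, alt2 z x = 0) : x = 0 := by
  funext i
  fin_cases i
  · have := h (Pi.single 1 1)
    simpa [alt2] using this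
  · have := h (Pi.single 0 1)
    simpa [alt2] using this

theorem alt2_nondeg' {x : Fin 2 → F} (h : ∀ z, alt2 x z = 0) : x = 0 := by
  apply alt2_nondeg
  intro z
  have := h z
  rw [alt2] at this ⊢
  linear_combination (-1 : F) * this

/-- The core computation for a pair of totally singular planes. -/
theorem pair_core (hq : Fintype.card F = 3) {g : GL ι F} (hg : ∀ u v, f ((g : Matrix ι ι F) *ᵥ u) ((g : Matrix ι ι F) *ᵥ v) = f u v)
    {U₁ V₁ U₂ V₂ : (Fin 2 → F) →ₗ[F] (ι → F)} (hU₂ : Function.Injective U₂) (hV₂ : Function.Injective V₂)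
    (h₁ : ∀ x z, f (U₁ x) (V₁ z) = alt2 x z) (h₂ : ∀ x z, f (U₂ x) (V₂ z) = alt2 x z)
    (hU : ∀ x, ∃ y, (g : Matrix ι ι F) *ᵥ U₁ x = U₂ y) (hV : ∀ x, ∃ y, (g : Matrix ι ι F) *ᵥ V₁ x = V₂ y) :
    ∃ ε : F, (ε = 1 ∨ ε = -1) ∧ ∀ x, ∃ y, (g : Matrix ι ι F) *ᵥ U₁ x = U₂ y ∧ (g : Matrix ι ι F) *ᵥ V₁ x = ε • V₂ y := by
  classical
  choose X hX using hU
  choose E hE using hV
  let XL : (Fin 2 → F) →ₗ[F] (Fin 2 → F) :=
    { toFun := X
      map_add' := fun a b => by
        apply hU₂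
        rw [← hX, map_add, map_add, Matrix.mulVec_add, hX, hX]
      map_smul' := fun c a => by
        apply hU₂
        rw [← hX, map_smul, map_smul, Matrix.mulVec_smul, hX]
        rfl }
  let M : Matrix (Fin 2) (Fin 2) F := LinearMap.toMatrix' XL
  have hM : ∀ x, M *ᵥ x = X x := fun x => LinearMap.toMatrix'_mulVec XL x
  have hkey : ∀ x z, alt2 (X x) (E z) = alt2 x z := by
    intro x z
    rw [← h₂, ← hX, ← hE, hg, h₁]
  have hinj : Function.Injective (fun x => M *ᵥ x) := by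
    intro a b hab
    have h5 : X a = X b := by
      rw [← hM, ← hM]
      exact hab
    have h6 : a - b = 0 := by
      apply alt2_nondeg'
      intro z
      have h7 := hkey a z
      have h8 := hkey b z
      rw [h5] at h7
      have h9 : alt2 a z = alt2 b z := h7.symm.trans h8
      simp only [alt2, Pi.sub_apply] at h9 ⊢
      linear_combination h9
    exact sub_eq_zero.mp h6
  have hunit : IsUnit M := Matrix.mulVec_injective_iff_isUnit.mp hinj
  have hsurj : Function.Surjective (fun x => M *ᵥ x) := Matrix.mulVec_surjective_iff_isUnit.mpr hunit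
  have hd0 : M.det ≠ 0 := ((Matrix.isUnit_iff_isUnit_det _).mp hunit).ne_zero
  have hrel : ∀ z, M.det • E z = X z := by
    intro z
    have h6 : M.det • E z - X z = 0 := by
      apply alt2_nondeg
      intro w
      obtain ⟨x, rfl⟩ := hsurj w
      have h7 := hkey x z
      have h8 := alt2_mulVec M x z
      rw [hM, hM] at h8
      simp only [hM]
      simp only [alt2, Pi.sub_apply, Pi.smul_apply, smul_eq_mul] at h7 h8 ⊢
      linear_combination M.det * h7 - h8
    exact sub_eq_zero.mp h6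
  have hd : M.det = 1 ∨ M.det = -1 := by
    rcases val_three hq M.det with h | h | h
    · exact absurd h hd0
    · exact Or.inl h
    · exact Or.inr h
  have hdd : M.det * M.det = 1 := by
    rcases hd with h | h <;> rw [h] <;> ring
  refine ⟨M.det, hd, fun x => ⟨X x, hX x, ?_⟩⟩
  rw [hE, ← hrel, map_smul, smul_smul, hdd, one_smul]

/-- Coordinates on a pair of totally singular planes. -/
theorem exists_coords (hf : IsSymplecticForm f) {D : Fin 2 → Submodule F (ι → F)} (hD : IsMDecomposition 2 D)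
    (hts : ∀ i, IsTotallySingularFor f (D i)) :
    ∃ U V : (Fin 2 → F) →ₗ[F] (ι → F), Function.Injective U ∧ Function.Injective V ∧ LinearMap.range U = D 0 ∧ LinearMap.range V = D 1 ∧
      ∀ x z, f (U x) (V z) = alt2 x z := by
  classical
  let b₀ : Basis (Fin 2) F (D 0) := Module.finBasisOfFinrankEq F (D 0) (hD.finrank_eq 0)
  let U₀ : (Fin 2 → F) ≃ₗ[F] (D 0) := b₀.equivFun.symm
  let U : (Fin 2 → F) →ₗ[F] (ι → F) := (D 0).subtype.comp U₀.toLinearMap
  have hU : ∀ x, U x = (U₀ x : ι → F) := fun x => rfl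
  have hUinj : Function.Injective U := fun a b h => U₀.injective (Subtype.ext h)
  have hUr : LinearMap.range U = D 0 := by
    ext y
    constructor
    · rintro ⟨x, rfl⟩
      exact (U₀ x).2
    · intro hy
      exact ⟨U₀.symm ⟨y, hy⟩, by simp [hU]⟩
  let B : (ι → F) →ₗ[F] (ι → F) →ₗ[F] F :=
    LinearMap.mk₂ F f hf.bilinear.add_left hf.bilinear.smul_left hf.bilinear.add_right hf.bilinear.smul_right
  let ψ : (D 1) →ₗ[F] Module.Dual F (Fin 2 → F) := U.dualMap.comp (B.flip.comp (D 1).subtype)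
  have hψ : ∀ (y : D 1) x, ψ y x = f (U x) y := fun y x => rfl
  have htop := hD.iSup_eq_top
  have hsup : D 0 ⊔ D 1 = ⊤ := by
    rw [← htop]
    apply le_antisymm
    · exact sup_le (le_iSup D 0) (le_iSup D 1)
    · refine iSup_le fun i => ?_
      fin_cases i
      · exact le_sup_left
      · exact le_sup_right
  have hψinj : Function.Injective ψ := by
    rw [injective_iff_map_eq_zero]
    intro y hy
    have h0 : ∀ x ∈ D 0, f x y = 0 := by
      intro x hx
      rw [← hUr] at hx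
      obtain ⟨a, rfl⟩ := hx
      have := congrArg (fun φ : Module.Dual F (Fin 2 → F) => φ a) hy
      simpa [hψ] using this
    have h1 : ∀ x, f x y = 0 := by
      intro x
      have hx : x ∈ D 0 ⊔ D 1 := by
        rw [hsup]
        trivial
      obtain ⟨a, ha, c, hc, rfl⟩ := Submodule.mem_sup.mp hx
      rw [hf.bilinear.add_left, h0 a ha, hts 1 c hc y y.2, add_zero]
    apply Subtype.ext
    by_contra hne
    obtain ⟨x, hx⟩ := (hf.nondegenerate _ hne).1
    exact hx (h1 x)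
  have hdim : finrank F (D 1) = finrank F (Module.Dual F (Fin 2 → F)) := by
    rw [hD.finrank_eq 1, Subspace.dual_finrank_eq]
    simp
  let ψE : (D 1) ≃ₗ[F] Module.Dual F (Fin 2 → F) := LinearEquiv.ofInjectiveOfFinrankEq ψ hψinj hdim
  have hψE : ∀ y, ψE y = ψ y := fun y => rfl
  let altL : (Fin 2 → F) →ₗ[F] Module.Dual F (Fin 2 → F) :=
    { toFun := fun z =>
        { toFun := fun x => alt2 x z
          map_add' := fun a c => by
            simp only [alt2, Pi.add_apply]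
            ring
          map_smul' := fun c a => by
            simp only [alt2, Pi.smul_apply, smul_eq_mul, RingHom.id_apply]
            ring }
      map_add' := fun a c => by
        ext x
        simp only [alt2, Pi.add_apply, LinearMap.add_apply, LinearMap.coe_mk, AddHom.coe_mk]
        simp
        ring
      map_smul' := fun c a => by
        ext x
        simp only [alt2, Pi.smul_apply, LinearMap.smul_apply, LinearMap.coe_mk, AddHom.coe_mk, RingHom.id_apply]
        simp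
        ring }
  have haltL : ∀ z x, altL z x = alt2 x z := fun z x => rfl
  let V : (Fin 2 → F) →ₗ[F] (ι → F) := (D 1).subtype.comp (ψE.symm.toLinearMap.comp altL)
  have hV : ∀ z, V z = (ψE.symm (altL z) : ι → F) := fun z => rfl
  have hpair : ∀ x z, f (U x) (V z) = alt2 x z := by
    intro x z
    rw [hV, ← hψ, ← hψE, LinearEquiv.apply_symm_apply, haltL]
  have hVinj : Function.Injective V := by
    intro a c h
    have h1 : a - c = 0 := by
      apply alt2_nondeg
      intro w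
      have h3 := hpair w a
      have h4 := hpair w c
      rw [h] at h3
      have h5 : alt2 w a = alt2 w c := h3.symm.trans h4
      simp only [alt2, Pi.sub_apply] at h5 ⊢
      linear_combination h5
    exact sub_eq_zero.mp h1
  have hVr : LinearMap.range V = D 1 := by
    refine Submodule.eq_of_le_of_finrank_eq ?_ ?_
    · rintro _ ⟨z, rfl⟩
      rw [hV]
      exact (ψE.symm (altL z)).2
    · rw [LinearMap.finrank_range_of_inj hVinj, hD.finrank_eq 1]
      simp
  exact ⟨U, V, hUinj, hVinj, hUr, hVr, hpair⟩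

/-- **Stabilisers of a pair of totally singular planes over the field with three elements** permute a pair of orthogonal non-degenerate planes. -/
theorem ts_pair_three (hq : Fintype.card F = 3) (hf : IsSymplecticForm f) (hc : Fintype.card ι = 4) {D : Fin 2 → Submodule F (ι → F)} (hD : IsMDecomposition 2 D)
    (hts : ∀ i, IsTotallySingularFor f (D i)) {H : Subgroup (GL ι F)} (hle : ∀ g ∈ H, ∀ u v, f ((g : Matrix ι ι F) *ᵥ u) ((g : Matrix ι ι F) *ᵥ v) = f u v)
    (hst : H ≤ decompositionStabilizer D) :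
    ∃ D' : Fin 2 → Submodule F (ι → F), IsNondegenerateMDecomposition f 2 D' ∧ H ≤ decompositionStabilizer D' := by
  classical
  obtain ⟨U, V, hUi, hVi, hUr, hVr, hpair⟩ := exists_coords hf hD hts
  have h2 : (2 : F) ≠ 0 := SpThree.two_ne_zero_three hq
  have hb := hf.bilinear
  have hUU : ∀ x z, f (U x) (U z) = 0 := by
    intro x z
    refine hts 0 _ ?_ _ ?_
    · rw [← hUr]
      exact ⟨x, rfl⟩
    · rw [← hUr]
      exact ⟨z, rfl⟩
  have hVV : ∀ x z, f (V x) (V z) = 0 := by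
    intro x z
    refine hts 1 _ ?_ _ ?_
    · rw [← hVr]
      exact ⟨x, rfl⟩
    · rw [← hVr]
      exact ⟨z, rfl⟩
  have hVU : ∀ x z, f (V x) (U z) = alt2 x z := by
    intro x z
    rw [hf.skew, hpair]
    simp only [alt2]
    ring
  let WL : F → ((Fin 2 → F) →ₗ[F] (ι → F)) := fun c => U + c • V
  have hWL : ∀ c x, WL c x = U x + c • V x := fun c x => rfl
  let W : F → Submodule F (ι → F) := fun c => LinearMap.range (WL c)
  have hform : ∀ c d x z, f (WL c x) (WL d z) = (c + d) * alt2 x z := by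
    intro c d x z
    rw [hWL, hWL, hb.add_left, hb.add_right, hb.add_right, hb.smul_left, hb.smul_right, hb.smul_left, hb.smul_right, hUU, hVV, hpair, hVU]
    ring
  have hinj : ∀ c : F, c + c ≠ 0 → Function.Injective (WL c) := by
    intro c hc₀ a a' h
    have h1 : a - a' = 0 := by
      apply alt2_nondeg
      intro w
      have h3 := hform c c w a
      have h4 := hform c c w a'
      rw [h] at h3
      have h5 : (c + c) * alt2 w a = (c + c) * alt2 w a' := h3.symm.trans h4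
      have h6 := mul_left_cancel₀ hc₀ h5
      simp only [alt2, Pi.sub_apply] at h6 ⊢
      linear_combination h6
    exact sub_eq_zero.mp h1
  have hne1 : (1 : F) + 1 ≠ 0 := by
    rw [one_add_one_eq_two]
    exact h2
  have hne2 : (-1 : F) + -1 ≠ 0 := by
    intro h
    apply h2
    linear_combination (-1 : F) * h
  have hfin : ∀ c : F, c + c ≠ 0 → finrank F (W c) = 2 := by
    intro c hc₀
    rw [LinearMap.finrank_range_of_inj (hinj c hc₀)]
    simp
  have hr := reflForm_symplectic hf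
  have hrad : W 1 ⊓ perpF hr (W 1) = ⊥ := by
    rw [eq_bot_iff]
    rintro w ⟨⟨x, rfl⟩, hw⟩
    have h1 : x = 0 := by
      apply alt2_nondeg
      intro z
      have h3 := hw (WL 1 z) ⟨z, rfl⟩
      rw [hform] at h3
      exact (mul_eq_zero.mp h3).resolve_left hne1
    rw [h1, map_zero]
    exact Submodule.zero_mem _
  have hperpfin : finrank F (perpF hr (W 1)) = 2 := by
    have := finrank_perpF hr (W 1)
    rw [hfin 1 hne1, hc] at this
    omega
  have hperp : perpF hr (W 1) = W (-1) := by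
    symm
    refine Submodule.eq_of_le_of_finrank_eq ?_ (by rw [hfin _ hne2, hperpfin])
    rintro _ ⟨z, rfl⟩ _ ⟨x, rfl⟩
    rw [hform]
    simp
  have hdec := isNondegenerateMDecomposition_pair hr hrad (k := 2) (by norm_num) (hfin 1 hne1) hperpfin
  rw [hperp] at hdec
  refine ⟨_, hdec, fun g hg => ?_⟩
  have hact : ∃ ε : F, (ε = 1 ∨ ε = -1) ∧ ∀ c : F, (c = 1 ∨ c = -1) → ∀ x, ∃ y, (g : Matrix ι ι F) *ᵥ WL c x = WL (c * ε) y := by
    obtain ⟨σ, hσ⟩ := hst hg
    have hσU : ∀ i, ∀ x ∈ D i, (g : Matrix ι ι F) *ᵥ x ∈ D (σ i) := by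
      intro i x hx
      rw [← hσ i]
      exact ⟨x, hx, rfl⟩
    have hcase : (σ 0 = 0 ∧ σ 1 = 1) ∨ (σ 0 = 1 ∧ σ 1 = 0) := by
      have hne : σ 0 ≠ σ 1 := fun h => absurd (σ.injective h) (by decide)
      generalize σ 0 = a at hne ⊢
      generalize σ 1 = b at hne ⊢
      fin_cases a <;> fin_cases b <;> simp at hne ⊢
    rcases hcase with ⟨h0, h1⟩ | ⟨h0, h1⟩
    · have hU' : ∀ x, ∃ y, (g : Matrix ι ι F) *ᵥ U x = U y := by
        intro x
        have h3 := hσU 0 (U x) (by rw [← hUr]; exact ⟨x, rfl⟩)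
        rw [h0, ← hUr] at h3
        obtain ⟨y, hy⟩ := h3
        exact ⟨y, hy.symm⟩
      have hV' : ∀ x, ∃ y, (g : Matrix ι ι F) *ᵥ V x = V y := by
        intro x
        have h3 := hσU 1 (V x) (by rw [← hVr]; exact ⟨x, rfl⟩)
        rw [h1, ← hVr] at h3
        obtain ⟨y, hy⟩ := h3
        exact ⟨y, hy.symm⟩
      obtain ⟨ε, hε, hcore⟩ := pair_core hq (hle g hg) hUi hVi hpair hpair hU' hV'
      refine ⟨ε, hε, fun c _ x => ?_⟩
      obtain ⟨y, hy1, hy2⟩ := hcore x
      refine ⟨y, ?_⟩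
      rw [hWL, hWL, Matrix.mulVec_add, Matrix.mulVec_smul, hy1, hy2, smul_smul]
    · have hU' : ∀ x, ∃ y, (g : Matrix ι ι F) *ᵥ U x = V y := by
        intro x
        have h3 := hσU 0 (U x) (by rw [← hUr]; exact ⟨x, rfl⟩)
        rw [h0, ← hVr] at h3
        obtain ⟨y, hy⟩ := h3
        exact ⟨y, hy.symm⟩
      have hV' : ∀ x, ∃ y, (g : Matrix ι ι F) *ᵥ V x = U y := by
        intro x
        have h3 := hσU 1 (V x) (by rw [← hVr]; exact ⟨x, rfl⟩)
        rw [h1, ← hUr] at h3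
        obtain ⟨y, hy⟩ := h3
        exact ⟨y, hy.symm⟩
      obtain ⟨ε, hε, hcore⟩ := pair_core hq (hle g hg) hVi hUi hpair hVU hU' hV'
      refine ⟨ε, hε, fun c hc' x => ?_⟩
      obtain ⟨y, hy1, hy2⟩ := hcore x
      refine ⟨(c * ε) • y, ?_⟩
      have hsq : (c * ε) * (c * ε) = 1 := by
        rcases hc' with rfl | rfl <;> rcases hε with rfl | rfl <;> ring
      rw [hWL, hWL, Matrix.mulVec_add, Matrix.mulVec_smul, hy1, hy2, map_smul, map_smul, smul_smul, smul_smul, hsq, one_smul, add_comm]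
  obtain ⟨ε, hε, hg'⟩ := hact
  have hmap : ∀ c : F, (c = 1 ∨ c = -1) → (W c).map (Matrix.toLin' (g : Matrix ι ι F)) = W (c * ε) := by
    intro c hc'
    have hc1 : c + c ≠ 0 := by
      rcases hc' with rfl | rfl
      · exact hne1
      · exact hne2
    have hc2 : (c * ε) + (c * ε) ≠ 0 := by
      rcases hc' with rfl | rfl <;> rcases hε with rfl | rfl <;> simp only [one_mul, mul_one, mul_neg, neg_mul, neg_neg] <;> first | exact hne1 | exact hne2
    refine Submodule.eq_of_le_of_finrank_eq ?_ ?_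
    · rintro _ ⟨_, ⟨x, rfl⟩, rfl⟩
      obtain ⟨y, hy⟩ := hg' c hc' x
      exact ⟨y, hy.symm⟩
    · have hinj' : Function.Injective (Matrix.toLin' (g : Matrix ι ι F)) := fun a b h => mulVec_injective g h
      have h3 : finrank F ((W c).map (Matrix.toLin' (g : Matrix ι ι F))) = finrank F (W c) :=
        LinearEquiv.finrank_eq (Submodule.equivMapOfInjective _ hinj' (W c)).symm
      rw [h3, hfin c hc1, hfin _ hc2]
  rcases hε with rfl | rfl
  · refine ⟨1, fun i => ?_⟩
    fin_cases i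
    · have := hmap 1 (Or.inl rfl)
      simpa using this
    · have := hmap (-1) (Or.inr rfl)
      simpa using this
  · refine ⟨Equiv.swap 0 1, fun i => ?_⟩
    fin_cases i
    · have := hmap 1 (Or.inl rfl)
      simpa using this
    · have := hmap (-1) (Or.inr rfl)
      simpa using this

end CaseA

section J

variable {ι : Type} [Fintype ι] [DecidableEq ι] {F : Type*} [Field F] [Fintype F] {f : (ι → F) → (ι → F) → F}

/-- The square root of minus one in a field subalgebra, anti-self-adjoint for the form. -/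
theorem exists_j [Nonempty ι] (hq : Fintype.card F = 3) (hf : IsSymplecticForm f) {K : Subalgebra F (Matrix ι ι F)} (hK : IsFieldSubalgebra 2 K)
    (hA : IsAdjointClosedFor f K) (hns : ¬ IsSelfAdjointFor f K) :
    ∃ j ∈ K, j * j = -1 ∧ (∀ u v, f (j *ᵥ u) v = - f u (j *ᵥ v)) := by
  classical
  have hr := reflForm_symplectic hf
  have h2 : (2 : F) ≠ 0 := SpThree.two_ne_zero_three hq
  have hadj : AdjClosed (RingEquiv.refl F) f K := by
    intro k hk
    obtain ⟨k', hk', hkk⟩ := hA k hk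
    have : Adj.adj (RingEquiv.refl F) f k = k' := by
      apply Adj.matrix_ext_mulVec
      intro v
      apply hr.eq_of_forall_right
      intro u
      rw [← hr.adj_spec, hkk]
    rw [this]
    exact hk'
  rcases FormField.adj_field_dichotomy hr Nat.prime_two hK hadj with h | ⟨-, h⟩
  · exfalso
    apply hns
    intro k hk u v
    rw [hr.adj_spec, h k hk]
  · have hex : ∃ k ∈ K, ¬ ∃ c : F, k = c • (1 : Matrix ι ι F) := by
      by_contra hcon
      push Not at hcon
      have hle : K.toSubmodule ≤ Submodule.span F {(1 : Matrix ι ι F)} := by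
        intro k hk
        obtain ⟨c, rfl⟩ := hcon k hk
        exact Submodule.smul_mem _ _ (Submodule.subset_span rfl)
      have h3 := Submodule.finrank_mono hle
      have h4 : finrank F ↥(Subalgebra.toSubmodule K) = 2 := hK.finrank_eq
      have h5 := finrank_span_le_card (R := F) ({1} : Set (Matrix ι ι F))
      simp at h5
      omega
    obtain ⟨k, hk, hkns⟩ := hex
    obtain ⟨a, ha⟩ : ∃ a, a = Adj.adj (RingEquiv.refl F) f := ⟨_, rfl⟩
    rw [← ha] at h
    have hadj' : ∀ x ∈ K, a x ∈ K := by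
      intro x hx
      rw [ha]
      exact hadj x hx
    have aadd : ∀ x y, a (x + y) = a x + a y := by
      intro x y
      rw [ha]
      exact hr.adj_add x y
    have aadj : ∀ x, a (a x) = x := by
      intro x
      rw [ha]
      exact hr.adj_adj x
    have amul : ∀ x y, a (x * y) = a y * a x := by
      intro x y
      rw [ha]
      exact hr.adj_mul x y
    have aone : a 1 = 1 := by
      rw [ha]
      exact hr.adj_one
    have azero : a 0 = 0 := by
      rw [ha]
      exact hr.adj_zero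
    have aneg : ∀ x, a (-x) = - a x := by
      intro x
      have h5 := aadd x (-x)
      rw [add_neg_cancel, azero] at h5
      exact (eq_neg_of_add_eq_zero_right h5.symm)
    obtain ⟨j₀, hj₀⟩ : ∃ j₀, j₀ = k - a k := ⟨_, rfl⟩
    have hj₀K : j₀ ∈ K := by
      rw [hj₀]
      exact K.sub_mem hk (hadj' k hk)
    have hadjsub : a j₀ = -j₀ := by
      have e1 : k = j₀ + a k := by
        rw [hj₀]
        abel
      have e2 : a k = a j₀ + a (a k) := by
        nth_rw 1 [e1]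
        rw [aadd]
      rw [aadj] at e2
      rw [hj₀, neg_sub]
      rw [← hj₀]
      rw [eq_sub_iff_add_eq]
      exact e2.symm
    have hj₀0 : j₀ ≠ 0 := by
      intro h0
      apply hkns
      have h3 : a k = k := by
        rw [h0] at hj₀
        exact (sub_eq_zero.mp hj₀.symm).symm
      exact h k hk h3
    have hsqa : a (j₀ * j₀) = j₀ * j₀ := by
      rw [amul, hadjsub, neg_mul_neg]
    obtain ⟨c, hc⟩ := h (j₀ * j₀) (K.mul_mem hj₀K hj₀K) hsqa
    obtain ⟨y, hy, hy1⟩ := hK.inv j₀ hj₀K hj₀0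
    have hc0 : c ≠ 0 := by
      rintro rfl
      rw [zero_smul] at hc
      have h3 : j₀ = 0 := by
        have := congrArg (fun z => y * z) hc
        simp only [mul_zero] at this
        rw [← mul_assoc, hK.comm y hy j₀ hj₀K, hy1, one_mul] at this
        exact this
      exact hj₀0 h3
    have hc1 : c ≠ 1 := by
      rintro rfl
      rw [one_smul] at hc
      have hf1 : (j₀ - 1) * (j₀ + 1) = 0 := by
        have e1 : (j₀ - 1) * (j₀ + 1) = j₀ * j₀ - 1 := by noncomm_ring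
        rw [e1, hc, sub_self]
      have hself : a j₀ = j₀ → False := by
        intro h5
        rw [hadjsub] at h5
        apply hj₀0
        have h6 : (2 : F) • j₀ = 0 := by
          rw [two_smul]
          nth_rw 1 [← h5]
          simp
        exact (smul_eq_zero.mp h6).resolve_left h2
      by_cases h6 : j₀ - 1 = 0
      · apply hself
        rw [sub_eq_zero.mp h6, aone]
      · obtain ⟨z, hz, hz1⟩ := hK.inv (j₀ - 1) (K.sub_mem hj₀K K.one_mem) h6
        have h7 : j₀ + 1 = 0 := by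
          have := congrArg (fun w => z * w) hf1
          simp only [mul_zero] at this
          rw [← mul_assoc, hK.comm z hz _ (K.sub_mem hj₀K K.one_mem), hz1, one_mul] at this
          exact this
        apply hself
        rw [eq_neg_of_add_eq_zero_left h7, aneg, aone]
    have hcm : c = -1 := by
      rcases val_three hq c with h3 | h3 | h3
      · exact absurd h3 hc0
      · exact absurd h3 hc1
      · exact h3
    refine ⟨j₀, hj₀K, ?_, fun u v => ?_⟩
    · rw [hc, hcm, neg_smul, one_smul]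
    · have h5 := hr.adj_spec j₀ u v
      rw [← ha, hadjsub, Matrix.neg_mulVec, hr.neg_right] at h5
      exact h5

/-- A hyperbolic pair for the hermitian form of the square root of minus one. -/
theorem exists_b (hq : Fintype.card F = 3) (hf : IsSymplecticForm f) (hc : 3 ≤ Fintype.card ι) {j : Matrix ι ι F} (hj : j * j = -1)
    (hadj : ∀ u v, f (j *ᵥ u) v = - f u (j *ᵥ v)) :
    ∃ b₁ b₂ : ι → F, f (j *ᵥ b₁) b₁ = 0 ∧ f (j *ᵥ b₁) b₂ = 0 ∧ f (j *ᵥ b₂) b₂ = 0 ∧ f b₁ b₂ ≠ 0 := by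
  classical
  have h2 : (2 : F) ≠ 0 := SpThree.two_ne_zero_three hq
  have hb := hf.bilinear
  have hjj : ∀ v, j *ᵥ (j *ᵥ v) = -v := by
    intro v
    rw [Matrix.mulVec_mulVec, hj, Matrix.neg_mulVec, Matrix.one_mulVec]
  have hjinj : ∀ v, v ≠ 0 → j *ᵥ v ≠ 0 := by
    intro v hv h0
    apply hv
    have := hjj v
    rw [h0, Matrix.mulVec_zero] at this
    exact neg_eq_zero.mp this.symm
  let φ : (ι → F) → (ι → F) → F := fun x y => f (j *ᵥ x) y
  have hφ : IsSymmetricForm φ := by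
    refine ⟨⟨fun x y v => ?_, fun c x v => ?_, fun v x y => ?_, fun c v x => ?_⟩, fun v w => ?_, fun v hv => ?_⟩
    · simp only [φ]
      rw [Matrix.mulVec_add, hb.add_left]
    · simp only [φ]
      rw [Matrix.mulVec_smul, hb.smul_left]
    · exact hb.add_right _ _ _
    · exact hb.smul_right _ _ _
    · simp only [φ]
      rw [hadj, hf.skew, neg_neg]
    · obtain ⟨⟨x, hx⟩, -⟩ := hf.nondegenerate _ hv
      obtain ⟨-, ⟨y, hy⟩⟩ := hf.nondegenerate _ (hjinj v hv)
      refine ⟨⟨-(j *ᵥ x), ?_⟩, ⟨y, hy⟩⟩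
      simp only [φ]
      rw [Matrix.mulVec_neg, hjj, neg_neg]
      exact hx
  obtain ⟨hQ, hpol⟩ := quad_of_symm h2 hφ
  obtain ⟨Q', hQ'c, -⟩ := Cfsg.Agent.Lib.Classical.Geo.OPts.exists_quadraticForm hQ
  obtain ⟨b₁, hb₁0, hb₁⟩ := Cfsg.Agent.Lib.Classical.Witt.Hyp.exists_singular_of_three_le Q' (by simpa using hc)
  have hφ₁ : f (j *ᵥ b₁) b₁ = 0 := by
    have h3 : (⇑Q') b₁ = 0 := hb₁
    rw [hQ'c] at h3
    have h4 : (2 : F)⁻¹ * f (j *ᵥ b₁) b₁ = 0 := h3
    exact (mul_eq_zero.mp h4).resolve_left (inv_ne_zero h2)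
  have hφ₁' : f b₁ (j *ᵥ b₁) = 0 := by
    have := hadj b₁ b₁
    rw [hφ₁] at this
    exact neg_eq_zero.mp this.symm
  have hexy : ∃ y, f (j *ᵥ b₁) y = 0 ∧ f b₁ y ≠ 0 := by
    by_contra hcon
    push Not at hcon
    obtain ⟨-, ⟨y₁, hy₁⟩⟩ := hf.nondegenerate _ (hjinj b₁ hb₁0)
    set l : F := f b₁ y₁ / f (j *ᵥ b₁) y₁ with hl
    have hall : ∀ y, f b₁ y = l * f (j *ᵥ b₁) y := by
      intro y
      have h3 := hcon (y - (f (j *ᵥ b₁) y / f (j *ᵥ b₁) y₁) • y₁)
      have e1 : y - (f (j *ᵥ b₁) y / f (j *ᵥ b₁) y₁) • y₁ = y + (-(f (j *ᵥ b₁) y / f (j *ᵥ b₁) y₁)) • y₁ := by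
        rw [neg_smul, sub_eq_add_neg]
      rw [e1, hb.add_right, hb.add_right, hb.smul_right, hb.smul_right] at h3
      have h5 := h3 (by field_simp; ring)
      rw [hl]
      field_simp
      field_simp at h5
      linear_combination h5
    have hb₁l : b₁ = l • (j *ᵥ b₁) := by
      apply (reflForm_symplectic hf).eq_of_forall_left
      intro y
      rw [hb.smul_left]
      exact hall y
    have h3 : j *ᵥ b₁ = (-l) • b₁ := by
      nth_rw 1 [hb₁l]
      rw [Matrix.mulVec_smul, hjj, smul_neg, neg_smul]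
    rw [h3, smul_smul] at hb₁l
    have h4 : (1 + l * l) • b₁ = 0 := by
      have h5 : (1 : F) • b₁ = (l * -l) • b₁ := by
        rw [one_smul]
        exact hb₁l
      have h6 : (1 + l * l) • b₁ = (1 : F) • b₁ - (l * -l) • b₁ := by
        rw [← sub_smul]
        congr 1
        ring
      rw [h6, h5, sub_self]
    have h5 := (smul_eq_zero.mp h4).resolve_right hb₁0
    rcases val_three hq l with h6 | h6 | h6 <;> rw [h6] at h5 <;> simp at h5
    · apply h2
      linear_combination h5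
    · apply h2
      linear_combination h5
  obtain ⟨y, hy0, hy1⟩ := hexy
  have hy1' : f y b₁ ≠ 0 := by
    rw [hf.skew]
    exact neg_ne_zero.mpr hy1
  let β : F := - f (j *ᵥ y) y / (2 * f y b₁)
  refine ⟨b₁, y + β • (j *ᵥ b₁), hφ₁, ?_, ?_, ?_⟩
  · rw [hb.add_right, hb.smul_right, hy0, hf.alternating, mul_zero, add_zero]
  · have hr := reflForm_symplectic hf
    have e1 : f (j *ᵥ y) (j *ᵥ b₁) = f y b₁ := by
      rw [hadj, hjj, hr.neg_right, neg_neg]
    have e2 : f (-b₁) y = - f b₁ y := hr.neg_left _ _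
    have e3 : f (-b₁) (j *ᵥ b₁) = 0 := by
      rw [hr.neg_left, hφ₁', neg_zero]
    have e4 : f b₁ y = - f y b₁ := hf.skew _ _
    rw [Matrix.mulVec_add, Matrix.mulVec_smul, hjj]
    simp only [hb.add_left, hb.add_right, hb.smul_left, hb.smul_right]
    rw [e1, e2, e3, e4]
    have h5 : (2 * f y b₁) ≠ 0 := mul_ne_zero h2 hy1'
    simp only [β]
    field_simp
    ring
  · rw [hb.add_right, hb.smul_right, hφ₁', mul_zero, add_zero]
    exact hy1

end J

section Core

variable {F : Type*} [Field F] [Fintype F]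

/-- The rotation in the second tensor factor. -/
def rM : Matrix (Fin 2) (Fin 2) F := !![0, -1; 1, 0]
/-- The reflection in the second tensor factor. -/
def sgM : Matrix (Fin 2) (Fin 2) F := !![1, 0; 0, -1]
/-- The Gram matrix of the alternating form. -/
def LM : Matrix (Fin 2) (Fin 2) F := !![0, 1; -1, 0]

theorem gram_alt2 : gramMatrix (alt2 (F := F)) = LM := by
  ext i j
  fin_cases i <;> fin_cases j <;> simp [gramMatrix, alt2, LM, Pi.single_apply]

theorem one_add_sq_ne (hq : Fintype.card F = 3) (x : F) : 1 + x * x ≠ 0 := by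
  have h2 : (2 : F) ≠ 0 := SpThree.two_ne_zero_three hq
  rcases val_three hq x with h | h | h <;> rw [h] <;> simp
  · intro h0
    apply h2
    linear_combination h0
  · intro h0
    apply h2
    linear_combination h0

/-- **The pure tensor form of elements commuting with the rotation.** -/
theorem core_pure (hq : Fintype.card F = 3) {N : Matrix (Fin 2 × Fin 2) (Fin 2 × Fin 2) F}
    (hc : N * ((1 : Matrix (Fin 2) (Fin 2) F) ⊗ₖ rM) = ((1 : Matrix (Fin 2) (Fin 2) F) ⊗ₖ rM) * N)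
    (hf : Nᵀ * (LM ⊗ₖ (1 : Matrix (Fin 2) (Fin 2) F)) * N = LM ⊗ₖ (1 : Matrix (Fin 2) (Fin 2) F)) :
    ∃ A C : Matrix (Fin 2) (Fin 2) F, N = A ⊗ₖ C ∧ A.det ≠ 0 ∧ C.det ≠ 0 := by
  classical
  have h2 : (2 : F) ≠ 0 := SpThree.two_ne_zero_three hq
  have h₁ : ∀ a b, N (a, 0) (b, 1) = - N (a, 1) (b, 0) := by
    intro a b
    have := congrFun (congrFun hc (a, 0)) (b, 0)
    simp only [Matrix.mul_apply, Fintype.sum_prod_type, Fin.sum_univ_two, Matrix.kroneckerMap_apply, rM, Matrix.one_apply] at this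
    fin_cases a <;> fin_cases b <;> simpa using this
  have h₂ : ∀ a b, N (a, 1) (b, 1) = N (a, 0) (b, 0) := by
    intro a b
    have := congrFun (congrFun hc (a, 1)) (b, 0)
    simp only [Matrix.mul_apply, Fintype.sum_prod_type, Fin.sum_univ_two, Matrix.kroneckerMap_apply, rM, Matrix.one_apply] at this
    fin_cases a <;> fin_cases b <;> simpa using this
  have hent : ∀ p q, (∑ s, (N (0, s) p * N (1, s) q - N (1, s) p * N (0, s) q)) = (LM ⊗ₖ (1 : Matrix (Fin 2) (Fin 2) F)) p q := by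
    intro p q
    rw [← hf]
    simp only [Matrix.mul_apply, Fintype.sum_prod_type, Fin.sum_univ_two, Matrix.kroneckerMap_apply, LM, Matrix.one_apply, Matrix.transpose_apply]
    simp
    ring
  have E0 := hent (0, 0) (1, 0)
  have E1 := hent (0, 0) (0, 1)
  have E2 := hent (1, 0) (1, 1)
  have E3 := hent (0, 0) (1, 1)
  simp only [Fin.sum_univ_two, h₁, h₂] at E0 E1 E2 E3
  simp [LM] at E0 E1 E2 E3
  obtain ⟨a, ha⟩ : ∃ a, a = N (0, 0) (0, 0) := ⟨_, rfl⟩
  obtain ⟨b, hb⟩ : ∃ a, a = N (0, 0) (1, 0) := ⟨_, rfl⟩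
  obtain ⟨c, hc'⟩ : ∃ a, a = N (1, 0) (0, 0) := ⟨_, rfl⟩
  obtain ⟨d, hd⟩ : ∃ a, a = N (1, 0) (1, 0) := ⟨_, rfl⟩
  obtain ⟨a', ha'⟩ : ∃ a, a = N (0, 1) (0, 0) := ⟨_, rfl⟩
  obtain ⟨b', hb'⟩ : ∃ a, a = N (0, 1) (1, 0) := ⟨_, rfl⟩
  obtain ⟨c', hc''⟩ : ∃ a, a = N (1, 1) (0, 0) := ⟨_, rfl⟩
  obtain ⟨d', hd'⟩ : ∃ a, a = N (1, 1) (1, 0) := ⟨_, rfl⟩
  simp only [← ha, ← hb, ← hc', ← hd, ← ha', ← hb', ← hc'', ← hd'] at E0 E1 E2 E3
  have e1 : a * c' - c * a' = 0 := by
    have : (2 : F) * (a * c' - c * a') = 0 := by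
      linear_combination (-1 : F) * E1
    exact (mul_eq_zero.mp this).resolve_left h2
  have e2 : b * d' - d * b' = 0 := by
    have : (2 : F) * (b * d' - d * b') = 0 := by
      linear_combination (-1 : F) * E2
    exact (mul_eq_zero.mp this).resolve_left h2
  have e3 : a * d' - c * b' - a' * d + c' * b = 0 := by
    linear_combination (-1 : F) * E3
  set S : F := a * d' + a' * d - b * c' - c * b' with hS
  -- the block of the group element
  have hfull : ∀ (A C : Matrix (Fin 2) (Fin 2) F), (∀ p q, N (p, 0) (q, 0) = A p q * C 0 0) → (∀ p q, N (p, 1) (q, 0) = A p q * C 1 0) →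
      C 0 1 = - C 1 0 → C 1 1 = C 0 0 → N = A ⊗ₖ C := by
    intro A C h00 h10 h3 h4
    ext ⟨p, s⟩ ⟨q, s'⟩
    rw [Matrix.kroneckerMap_apply]
    fin_cases s <;> fin_cases s'
    · exact h00 p q
    · change N (p, 0) (q, 1) = A p q * C 0 1
      rw [h₁, h10, h3]
      ring
    · exact h10 p q
    · change N (p, 1) (q, 1) = A p q * C 1 1
      rw [h₂, h00, h4]
  by_cases hX : a * d - b * c = 0
  · -- the second block is invertible
    have hY : a' * d' - b' * c' ≠ 0 := by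
      intro h5
      have : (1 : F) = 0 := by
        rw [← E0]
        linear_combination hX + h5
      exact one_ne_zero this
    have hD : (2 * (a' * d' - b' * c')) ≠ 0 := mul_ne_zero h2 hY
    set l : F := S / (2 * (a' * d' - b' * c')) with hl
    have r1 : a = l * a' := by
      rw [hl]
      field_simp
      linear_combination a' * e3 - 2 * b' * e1
    have r2 : b = l * b' := by
      rw [hl]
      field_simp
      linear_combination 2 * a' * e2 - b' * e3
    have r3 : c = l * c' := by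
      rw [hl]
      field_simp
      linear_combination c' * e3 - 2 * d' * e1
    have r4 : d = l * d' := by
      rw [hl]
      field_simp
      linear_combination (-d') * e3 + 2 * c' * e2
    refine ⟨!![a', b'; c', d'], !![l, -1; 1, l], hfull _ _ (fun p q => ?_) (fun p q => ?_) (by simp) (by simp), ?_, ?_⟩
    · fin_cases p <;> fin_cases q <;> simp [← ha, ← hb, ← hc', ← hd, r1, r2, r3, r4, mul_comm]
    · fin_cases p <;> fin_cases q <;> simp [← ha', ← hb', ← hc'', ← hd']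
    · rw [Matrix.det_fin_two_of]
      exact hY
    · rw [Matrix.det_fin_two_of]
      have := one_add_sq_ne hq l
      intro h5
      apply this
      linear_combination h5
  · have hD : (2 * (a * d - b * c)) ≠ 0 := mul_ne_zero h2 hX
    set l : F := S / (2 * (a * d - b * c)) with hl
    have r1 : a' = l * a := by
      rw [hl]
      field_simp
      linear_combination (-a) * e3 + 2 * b * e1
    have r2 : b' = l * b := by
      rw [hl]
      field_simp
      linear_combination (-2 * a) * e2 + b * e3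
    have r3 : c' = l * c := by
      rw [hl]
      field_simp
      linear_combination (-c) * e3 + 2 * d * e1
    have r4 : d' = l * d := by
      rw [hl]
      field_simp
      linear_combination d * e3 - 2 * c * e2
    refine ⟨!![a, b; c, d], !![1, -l; l, 1], hfull _ _ (fun p q => ?_) (fun p q => ?_) (by simp) (by simp), ?_, ?_⟩
    · fin_cases p <;> fin_cases q <;> simp [← ha, ← hb, ← hc', ← hd]
    · fin_cases p <;> fin_cases q <;> simp [← ha', ← hb', ← hc'', ← hd', r1, r2, r3, r4, mul_comm]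
    · rw [Matrix.det_fin_two_of]
      exact hX
    · rw [Matrix.det_fin_two_of]
      have := one_add_sq_ne hq l
      intro h5
      apply this
      linear_combination h5

end Core

section D8

variable {F : Type*} [Field F] [Fintype F]

/-- Orthogonal matrices. -/
def IsD (x : Matrix (Fin 2) (Fin 2) F) : Prop := xᵀ * x = 1

theorem IsD.entries {x : Matrix (Fin 2) (Fin 2) F} (h : IsD x) :
    x 0 0 * x 0 0 + x 1 0 * x 1 0 = 1 ∧ x 0 0 * x 0 1 + x 1 0 * x 1 1 = 0 ∧ x 0 1 * x 0 1 + x 1 1 * x 1 1 = 1 := by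
  have h00 := congrFun (congrFun h 0) 0
  have h01 := congrFun (congrFun h 0) 1
  have h11 := congrFun (congrFun h 1) 1
  simp [Matrix.mul_apply, Fin.sum_univ_two] at h00 h01 h11
  exact ⟨h00, h01, h11⟩

set_option maxRecDepth 100000 in
theorem keyD1 : ∀ a b c d : ZMod 3, a*a+c*c=1 → a*b+c*d=0 → b*b+d*d=1 → (a+d=0 ∨ (a=1∧b=0∧c=0∧d=1) ∨ (a=-1∧b=0∧c=0∧d=-1)) := by decide

set_option maxRecDepth 100000 in
theorem keyD2 : ∀ a b c a' b' c' : ZMod 3, a*a+c*c=1 → b*b+a*a=1 → a'*a'+c'*c'=1 → b'*b'+a'*a'=1 → a*b-c*a=0 → a'*b'-c'*a'=0 →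
    (2*a*a'+b*c'+c*b'=0 ∨ (a'=a∧b'=b∧c'=c) ∨ (a'=-a∧b'=-b∧c'=-c)) := by decide

set_option maxRecDepth 100000 in
theorem keyD3 : ∀ a b c : ZMod 3, a*a+c*c=1 → b*b+a*a=1 → a*b-c*a=0 → (b=c ∨ (a=0∧b=-1∧c=1) ∨ (a=0∧b=1∧c=-1)) := by decide

theorem IsD.cases (hq : Fintype.card F = 3) {x : Matrix (Fin 2) (Fin 2) F} (h : IsD x) : x.trace = 0 ∨ x = 1 ∨ x = -1 := by
  obtain ⟨h1, h3, h4⟩ := h.entries
  let φ : ZMod 3 ≃+* F := ZMod.ringEquivOfPrime F Nat.prime_three hq
  obtain ⟨A, hA⟩ := φ.surjective (x 0 0)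
  obtain ⟨B, hB⟩ := φ.surjective (x 0 1)
  obtain ⟨C, hC⟩ := φ.surjective (x 1 0)
  obtain ⟨D, hD⟩ := φ.surjective (x 1 1)
  rw [← hA, ← hC] at h1
  rw [← hA, ← hB, ← hC, ← hD] at h3
  rw [← hB, ← hD] at h4
  have e1 : A*A+C*C=1 := by
    apply φ.injective
    simpa using h1
  have e3 : A*B+C*D=0 := by
    apply φ.injective
    simpa using h3
  have e4 : B*B+D*D=1 := by
    apply φ.injective
    simpa using h4
  rcases keyD1 A B C D e1 e3 e4 with h5 | ⟨h5, h6, h7, h8⟩ | ⟨h5, h6, h7, h8⟩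
  · left
    rw [Matrix.trace_fin_two, ← hA, ← hD, ← map_add, h5, map_zero]
  · right; left
    ext i j
    fin_cases i <;> fin_cases j
    · simp [← hA, h5]
    · simp [← hB, h6]
    · simp [← hC, h7]
    · simp [← hD, h8]
  · right; right
    ext i j
    fin_cases i <;> fin_cases j
    · simp [← hA, h5]
    · simp [← hB, h6]
    · simp [← hC, h7]
    · simp [← hD, h8]

theorem IsD.tr_cases (hq : Fintype.card F = 3) {x y : Matrix (Fin 2) (Fin 2) F} (hx : IsD x) (hy : IsD y) (hx0 : x.trace = 0) (hy0 : y.trace = 0) :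
    (x * y).trace = 0 ∨ y = x ∨ y = -x := by
  obtain ⟨h1, h3, h4⟩ := hx.entries
  obtain ⟨h1', h3', h4'⟩ := hy.entries
  rw [det_entries x hx0] at h3 h4
  rw [det_entries y hy0] at h3' h4'
  let φ : ZMod 3 ≃+* F := ZMod.ringEquivOfPrime F Nat.prime_three hq
  obtain ⟨A, hA⟩ := φ.surjective (x 0 0)
  obtain ⟨B, hB⟩ := φ.surjective (x 0 1)
  obtain ⟨C, hC⟩ := φ.surjective (x 1 0)
  obtain ⟨A', hA'⟩ := φ.surjective (y 0 0)
  obtain ⟨B', hB'⟩ := φ.surjective (y 0 1)
  obtain ⟨C', hC'⟩ := φ.surjective (y 1 0)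
  rw [← hA, ← hC] at h1
  rw [← hA, ← hB, ← hC] at h3
  rw [← hA, ← hB] at h4
  rw [← hA', ← hC'] at h1'
  rw [← hA', ← hB', ← hC'] at h3'
  rw [← hA', ← hB'] at h4'
  have e1 : A*A+C*C=1 := by
    apply φ.injective
    simpa using h1
  have e3 : A*B-C*A=0 := by
    apply φ.injective
    simp only [map_sub, map_mul, map_zero]
    linear_combination h3
  have e4 : B*B+A*A=1 := by
    apply φ.injective
    simp only [map_add, map_mul, map_one]
    linear_combination h4
  have e1' : A'*A'+C'*C'=1 := by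
    apply φ.injective
    simpa using h1'
  have e3' : A'*B'-C'*A'=0 := by
    apply φ.injective
    simp only [map_sub, map_mul, map_zero]
    linear_combination h3'
  have e4' : B'*B'+A'*A'=1 := by
    apply φ.injective
    simp only [map_add, map_mul, map_one]
    linear_combination h4'
  rcases keyD2 A B C A' B' C' e1 e4 e1' e4' e3 e3' with h5 | ⟨h5, h6, h7⟩ | ⟨h5, h6, h7⟩
  · left
    rw [tr_mul hx0 hy0, ← hA, ← hB, ← hC, ← hA', ← hB', ← hC']
    have := congrArg φ h5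
    simp only [map_add, map_mul, map_zero, map_ofNat] at this
    exact this
  · right; left
    exact eq_of_entries hx0 hy0 (by rw [← hA', ← hA, h5]) (by rw [← hB', ← hB, h6]) (by rw [← hC', ← hC, h7])
  · right; right
    exact eq_neg_of_entries hx0 hy0 (by rw [← hA', ← hA, h5, map_neg]) (by rw [← hB', ← hB, h6, map_neg]) (by rw [← hC', ← hC, h7, map_neg])

theorem IsD.refl_or_rot (hq : Fintype.card F = 3) {x : Matrix (Fin 2) (Fin 2) F} (hx : IsD x) (hx0 : x.trace = 0) :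
    x 0 1 = x 1 0 ∨ x = rM ∨ x = -rM := by
  obtain ⟨h1, h3, h4⟩ := hx.entries
  rw [det_entries x hx0] at h3 h4
  let φ : ZMod 3 ≃+* F := ZMod.ringEquivOfPrime F Nat.prime_three hq
  obtain ⟨A, hA⟩ := φ.surjective (x 0 0)
  obtain ⟨B, hB⟩ := φ.surjective (x 0 1)
  obtain ⟨C, hC⟩ := φ.surjective (x 1 0)
  rw [← hA, ← hC] at h1
  rw [← hA, ← hB, ← hC] at h3
  rw [← hA, ← hB] at h4
  have e1 : A*A+C*C=1 := by
    apply φ.injective
    simpa using h1
  have e3 : A*B-C*A=0 := by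
    apply φ.injective
    simp only [map_sub, map_mul, map_zero]
    linear_combination h3
  have e4 : B*B+A*A=1 := by
    apply φ.injective
    simp only [map_add, map_mul, map_one]
    linear_combination h4
  have hrt : (rM : Matrix (Fin 2) (Fin 2) F).trace = 0 := by
    simp [rM, Matrix.trace_fin_two_of]
  rcases keyD3 A B C e1 e4 e3 with h5 | ⟨h5, h6, h7⟩ | ⟨h5, h6, h7⟩
  · left
    rw [← hB, ← hC, h5]
  · right; left
    apply eq_of_entries hrt hx0
    · rw [← hA, h5, map_zero]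
      simp [rM]
    · rw [← hB, h6, map_neg, map_one]
      simp [rM]
    · rw [← hC, h7, map_one]
      simp [rM]
  · right; right
    apply eq_neg_of_entries hrt hx0
    · rw [← hA, h5, map_zero]
      simp [rM]
    · rw [← hB, h6, map_one]
      simp [rM]
    · rw [← hC, h7, map_neg, map_one]
      simp [rM]

theorem IsD.sq (hq : Fintype.card F = 3) {x : Matrix (Fin 2) (Fin 2) F} (hx : IsD x) : x * x = 1 ∨ x * x = -1 := by
  rcases hx.cases hq with h | rfl | rfl
  · have hdet : x.det * x.det = 1 := by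
      have := congrArg Matrix.det hx
      rw [Matrix.det_mul, Matrix.det_transpose, Matrix.det_one] at this
      exact this
    have hent := det_entries x h
    have e1 : x * x = (- x.det) • 1 := by
      rw [det_eq x h]
      ext i j
      fin_cases i <;> fin_cases j <;> simp [Matrix.mul_apply, Fin.sum_univ_two, hent] <;> ring
    rcases mul_self_eq_one_iff.mp hdet with h3 | h3
    · right
      rw [e1, h3, neg_smul, one_smul]
    · left
      rw [e1, h3, neg_neg, one_smul]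
  · left; simp
  · left; simp

theorem IsD.comm (hq : Fintype.card F = 3) {x y : Matrix (Fin 2) (Fin 2) F} (hx : IsD x) (hy : IsD y) : x * y = y * x ∨ x * y = -(y * x) := by
  rcases hx.cases hq with h3 | rfl | rfl
  · rcases hy.cases hq with h5 | rfl | rfl
    · rcases IsD.tr_cases hq hx hy h3 h5 with h | rfl | rfl
      · right
        have h6 := anti_of_tr h3 h5
        rw [← tr_mul h3 h5, h, zero_smul] at h6
        exact eq_neg_of_add_eq_zero_left h6
      · left; rfl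
      · left
        rw [mul_neg, neg_mul]
    · left; simp
    · left; simp
  · left; simp
  · left; simp

/-- The orthogonal group of the dot product in dimension two. -/
def d8 : Subgroup (GL (Fin 2) F) where
  carrier := {g | IsD (g : Matrix (Fin 2) (Fin 2) F)}
  mul_mem' := fun {a b} ha hb => by
    change ((a * b : GL (Fin 2) F) : Matrix (Fin 2) (Fin 2) F)ᵀ * ((a * b : GL (Fin 2) F) : Matrix (Fin 2) (Fin 2) F) = 1
    rw [Units.val_mul, Matrix.transpose_mul]
    calc (b : Matrix (Fin 2) (Fin 2) F)ᵀ * (a : Matrix (Fin 2) (Fin 2) F)ᵀ * ((a : Matrix (Fin 2) (Fin 2) F) * (b : Matrix (Fin 2) (Fin 2) F))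
        = (b : Matrix (Fin 2) (Fin 2) F)ᵀ * ((a : Matrix (Fin 2) (Fin 2) F)ᵀ * (a : Matrix (Fin 2) (Fin 2) F)) * (b : Matrix (Fin 2) (Fin 2) F) := by noncomm_ring
      _ = 1 := by
        have h1 : (a : Matrix (Fin 2) (Fin 2) F)ᵀ * (a : Matrix (Fin 2) (Fin 2) F) = 1 := ha
        have h3 : (b : Matrix (Fin 2) (Fin 2) F)ᵀ * (b : Matrix (Fin 2) (Fin 2) F) = 1 := hb
        rw [h1, mul_one, h3]
  one_mem' := by
    change ((1 : GL (Fin 2) F) : Matrix (Fin 2) (Fin 2) F)ᵀ * ((1 : GL (Fin 2) F) : Matrix (Fin 2) (Fin 2) F) = 1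
    simp
  inv_mem' := fun {a} ha => by
    change ((a⁻¹ : GL (Fin 2) F) : Matrix (Fin 2) (Fin 2) F)ᵀ * ((a⁻¹ : GL (Fin 2) F) : Matrix (Fin 2) (Fin 2) F) = 1
    have h1 : (a : Matrix (Fin 2) (Fin 2) F)ᵀ * (a : Matrix (Fin 2) (Fin 2) F) = 1 := ha
    have h3 : ((a⁻¹ : GL (Fin 2) F) : Matrix (Fin 2) (Fin 2) F) = (a : Matrix (Fin 2) (Fin 2) F)ᵀ := Units.inv_eq_of_mul_eq_one_right (mul_eq_one_comm.mp h1)
    rw [h3, Matrix.transpose_transpose]
    exact mul_eq_one_comm.mp h1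

theorem mem_d8 {g : GL (Fin 2) F} : g ∈ d8 ↔ IsD (g : Matrix (Fin 2) (Fin 2) F) := Iff.rfl

theorem mem_matrixSet_d8 {x : Matrix (Fin 2) (Fin 2) F} (hx : IsD x) : x ∈ matrixSet (d8 (F := F)) := by
  have h0 : x.det ≠ 0 := by
    intro h
    have := congrArg Matrix.det hx
    rw [Matrix.det_mul, h, mul_zero, Matrix.det_one] at this
    exact zero_ne_one this
  exact ⟨Matrix.GeneralLinearGroup.mkOfDetNeZero x h0, hx, rfl⟩

theorem d8_span (h2 : (2 : F) ≠ 0) (M : Matrix (Fin 2) (Fin 2) F) : M ∈ Submodule.span F (matrixSet (d8 (F := F))) := by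
  have hm : ∀ x : Matrix (Fin 2) (Fin 2) F, IsD x → x ∈ Submodule.span F (matrixSet (d8 (F := F))) := fun x hx => Submodule.subset_span (mem_matrixSet_d8 hx)
  have h1 : IsD (1 : Matrix (Fin 2) (Fin 2) F) := by
    simp [IsD]
  have hs : IsD (sgM : Matrix (Fin 2) (Fin 2) F) := by
    unfold IsD
    ext i j
    fin_cases i <;> fin_cases j <;> simp [sgM, Matrix.mul_apply, Fin.sum_univ_two]
  have hr : IsD (rM : Matrix (Fin 2) (Fin 2) F) := by
    unfold IsD
    ext i j
    fin_cases i <;> fin_cases j <;> simp [rM, Matrix.mul_apply, Fin.sum_univ_two]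
  have ht : IsD (!![0, 1; 1, 0] : Matrix (Fin 2) (Fin 2) F) := by
    unfold IsD
    ext i j
    fin_cases i <;> fin_cases j <;> simp [Matrix.mul_apply, Fin.sum_univ_two]
  have e1 : M = ((M 0 0 + M 1 1) / 2) • 1 + ((M 0 0 - M 1 1) / 2) • sgM + ((M 0 1 + M 1 0) / 2) • !![0, 1; 1, 0] + ((M 1 0 - M 0 1) / 2) • rM := by
    ext i j
    fin_cases i <;> fin_cases j <;> simp [sgM, rM] <;> field_simp <;> ring
  rw [e1]
  exact Submodule.add_mem _ (Submodule.add_mem _ (Submodule.add_mem _ (Submodule.smul_mem _ _ (hm _ h1)) (Submodule.smul_mem _ _ (hm _ hs))) (Submodule.smul_mem _ _ (hm _ ht))) (Submodule.smul_mem _ _ (hm _ hr))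

theorem d8_good (hq : Fintype.card F = 3) : GoodFactor (d8 (F := F)) where
  pow4 := fun x hx => by
    apply Units.ext
    have e1 : ((x ^ 4 : GL (Fin 2) F) : Matrix (Fin 2) (Fin 2) F) = ((x : Matrix (Fin 2) (Fin 2) F) * x) * ((x : Matrix (Fin 2) (Fin 2) F) * x) := by
      rw [Units.val_pow_eq_pow_val]
      noncomm_ring
    rw [e1, Units.val_one]
    rcases IsD.sq hq hx with h | h <;> rw [h] <;> simp
  comm := fun x hx y hy => IsD.comm hq hx hy
  span := d8_span (SpThree.two_ne_zero_three hq)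

/-- Similarities normalise the orthogonal group. -/
theorem sim_inv {C : GL (Fin 2) F} {μ : F} (hμ : μ ≠ 0) (hC : (C : Matrix (Fin 2) (Fin 2) F)ᵀ * (C : Matrix (Fin 2) (Fin 2) F) = μ • 1) :
    ((C⁻¹ : GL (Fin 2) F) : Matrix (Fin 2) (Fin 2) F)ᵀ * ((C⁻¹ : GL (Fin 2) F) : Matrix (Fin 2) (Fin 2) F) = μ⁻¹ • 1 := by
  obtain ⟨c, hc⟩ : ∃ c : Matrix (Fin 2) (Fin 2) F, c = C := ⟨_, rfl⟩
  rw [← hc] at hC
  have h1 : (μ⁻¹ • cᵀ) * c = 1 := by
    rw [Matrix.smul_mul, hC, smul_smul, inv_mul_cancel₀ hμ, one_smul]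
  have h3 : c * (μ⁻¹ • cᵀ) = 1 := mul_eq_one_comm.mp h1
  have hinv : ((C⁻¹ : GL (Fin 2) F) : Matrix (Fin 2) (Fin 2) F) = μ⁻¹ • cᵀ := by
    apply Units.inv_eq_of_mul_eq_one_right
    rw [← hc]
    exact h3
  rw [hinv, Matrix.transpose_smul, Matrix.transpose_transpose, Matrix.smul_mul, h3]

theorem d8_conj {C : GL (Fin 2) F} {μ : F} (hμ : μ ≠ 0) (hC : (C : Matrix (Fin 2) (Fin 2) F)ᵀ * (C : Matrix (Fin 2) (Fin 2) F) = μ • 1) {x : GL (Fin 2) F} (hx : x ∈ d8) :
    C * x * C⁻¹ ∈ d8 := by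
  rw [mem_d8]
  have hx' : (x : Matrix (Fin 2) (Fin 2) F)ᵀ * (x : Matrix (Fin 2) (Fin 2) F) = 1 := hx
  have hd := sim_inv hμ hC
  change ((C * x * C⁻¹ : GL (Fin 2) F) : Matrix (Fin 2) (Fin 2) F)ᵀ * ((C * x * C⁻¹ : GL (Fin 2) F) : Matrix (Fin 2) (Fin 2) F) = 1
  rw [Units.val_mul, Units.val_mul]
  obtain ⟨c, hc⟩ : ∃ c : Matrix (Fin 2) (Fin 2) F, c = C := ⟨_, rfl⟩
  obtain ⟨y, hy⟩ : ∃ y : Matrix (Fin 2) (Fin 2) F, y = x := ⟨_, rfl⟩
  obtain ⟨d, hdd⟩ : ∃ d : Matrix (Fin 2) (Fin 2) F, d = ((C⁻¹ : GL (Fin 2) F) : Matrix (Fin 2) (Fin 2) F) := ⟨_, rfl⟩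
  rw [← hc] at hC ⊢
  rw [← hy] at hx' ⊢
  rw [← hdd] at hd ⊢
  calc (c * y * d)ᵀ * (c * y * d) = dᵀ * yᵀ * (cᵀ * c) * y * d := by
        rw [Matrix.transpose_mul, Matrix.transpose_mul]
        noncomm_ring
    _ = μ • (dᵀ * (yᵀ * y) * d) := by
        rw [hC]
        simp [Matrix.mul_smul, Matrix.smul_mul, mul_assoc]
    _ = μ • (dᵀ * d) := by rw [hx', mul_one]
    _ = 1 := by rw [hd, smul_smul, mul_inv_cancel₀ hμ, one_smul]

/-- A similarity of order eight modulo scalars. -/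
def g2 (hq : Fintype.card F = 3) : GL (Fin 2) F :=
  ⟨!![1, 1; -1, 1], !![-1, 1; -1, -1], by
    have h0 := three_zero hq
    ext i j
    fin_cases i <;> fin_cases j <;> simp [Matrix.mul_apply, Fin.sum_univ_two] <;> linear_combination (-1 : F) * h0, by
    have h0 := three_zero hq
    ext i j
    fin_cases i <;> fin_cases j <;> simp [Matrix.mul_apply, Fin.sum_univ_two] <;> linear_combination (-1 : F) * h0⟩

theorem coe_g2 (hq : Fintype.card F = 3) : ((g2 hq : GL (Fin 2) F) : Matrix (Fin 2) (Fin 2) F) = !![1, 1; -1, 1] := rfl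
theorem coe_g2_inv (hq : Fintype.card F = 3) : (((g2 hq)⁻¹ : GL (Fin 2) F) : Matrix (Fin 2) (Fin 2) F) = !![-1, 1; -1, -1] := rfl

theorem g2_sim (hq : Fintype.card F = 3) : ((g2 hq : GL (Fin 2) F) : Matrix (Fin 2) (Fin 2) F)ᵀ * ((g2 hq : GL (Fin 2) F) : Matrix (Fin 2) (Fin 2) F) = (2 : F) • 1 := by
  rw [coe_g2]
  ext i j
  fin_cases i <;> fin_cases j <;> simp [Matrix.mul_apply, Fin.sum_univ_two] <;> ring

theorem d8_move (hq : Fintype.card F = 3) {x : GL (Fin 2) F} (h0 : (x : Matrix (Fin 2) (Fin 2) F).trace = 0) (hb : (x : Matrix (Fin 2) (Fin 2) F) 0 1 = (x : Matrix (Fin 2) (Fin 2) F) 1 0) :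
    (x : Matrix (Fin 2) (Fin 2) F) * ((g2 hq * x * (g2 hq)⁻¹ : GL (Fin 2) F) : Matrix (Fin 2) (Fin 2) F) = -(((g2 hq * x * (g2 hq)⁻¹ : GL (Fin 2) F) : Matrix (Fin 2) (Fin 2) F) * (x : Matrix (Fin 2) (Fin 2) F)) := by
  rw [Units.val_mul, Units.val_mul, coe_g2, coe_g2_inv]
  obtain ⟨z, hz⟩ : ∃ z : Matrix (Fin 2) (Fin 2) F, z = x := ⟨_, rfl⟩
  rw [← hz] at h0 hb ⊢
  have hy : (!![1, 1; -1, 1] * z * !![-1, 1; -1, -1] : Matrix (Fin 2) (Fin 2) F).trace = 0 := by
    rw [Matrix.trace_mul_cycle]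
    have : (!![-1, 1; -1, -1] * !![1, 1; -1, 1] : Matrix (Fin 2) (Fin 2) F) = 1 := by
      have h3 := three_zero hq
      ext i j
      fin_cases i <;> fin_cases j <;> simp [Matrix.mul_apply, Fin.sum_univ_two] <;> linear_combination (-1 : F) * h3
    rw [this, one_mul, h0]
  have h6 := anti_of_tr h0 hy
  have hx11 := det_entries _ h0
  have h5 : (2 * z 0 0 * (!![1, 1; -1, 1] * z * !![-1, 1; -1, -1] : Matrix (Fin 2) (Fin 2) F) 0 0 + z 0 1 * (!![1, 1; -1, 1] * z * !![-1, 1; -1, -1] : Matrix (Fin 2) (Fin 2) F) 1 0 + z 1 0 * (!![1, 1; -1, 1] * z * !![-1, 1; -1, -1] : Matrix (Fin 2) (Fin 2) F) 0 1) = 0 := by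
    have e1 : (!![1, 1; -1, 1] * z * !![-1, 1; -1, -1] : Matrix (Fin 2) (Fin 2) F) = !![- z 0 1 - z 1 0, 2 * z 0 0 + z 1 0 - z 0 1; 2 * z 0 0 + z 0 1 - z 1 0, z 0 1 + z 1 0] := by
      ext i j
      fin_cases i <;> fin_cases j <;> simp [Matrix.mul_apply, Fin.sum_univ_two, hx11, Matrix.vecMul, dotProduct] <;> ring
    rw [e1]
    simp only [Matrix.of_apply, Matrix.cons_val', Matrix.cons_val_zero, Matrix.cons_val_one, Matrix.cons_val_fin_one]
    rw [hb]
    ring
  rw [h5, zero_smul] at h6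
  exact eq_neg_of_add_eq_zero_left h6

end D8

section Frame

variable {F : Type*} [Field F] [Fintype F]

/-- The dot product. -/
def dotF {F : Type*} [Field F] (x y : Fin 2 → F) : F := x 0 * y 0 + x 1 * y 1

theorem gram_dot : gramMatrix (dotF (F := F)) = 1 := by
  ext i j
  fin_cases i <;> fin_cases j <;> simp [gramMatrix, dotF, Pi.single_apply]

theorem core_pure_anti (hq : Fintype.card F = 3) {N : Matrix (Fin 2 × Fin 2) (Fin 2 × Fin 2) F}
    (hc : N * ((1 : Matrix (Fin 2) (Fin 2) F) ⊗ₖ rM) = -(((1 : Matrix (Fin 2) (Fin 2) F) ⊗ₖ rM) * N))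
    (hf : Nᵀ * (LM ⊗ₖ (1 : Matrix (Fin 2) (Fin 2) F)) * N = LM ⊗ₖ (1 : Matrix (Fin 2) (Fin 2) F)) :
    ∃ A C : Matrix (Fin 2) (Fin 2) F, N = A ⊗ₖ C ∧ A.det ≠ 0 ∧ C.det ≠ 0 := by
  classical
  have hsg : (sgM : Matrix (Fin 2) (Fin 2) F) * sgM = 1 := by
    ext i j
    fin_cases i <;> fin_cases j <;> simp [sgM, Matrix.mul_apply, Fin.sum_univ_two]
  have hsr : (sgM : Matrix (Fin 2) (Fin 2) F) * rM = -(rM * sgM) := by
    ext i j
    fin_cases i <;> fin_cases j <;> simp [sgM, rM, Matrix.mul_apply, Fin.sum_univ_two]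
  have hst : (sgM : Matrix (Fin 2) (Fin 2) F)ᵀ = sgM := by
    ext i j
    fin_cases i <;> fin_cases j <;> simp [sgM]
  set S : Matrix (Fin 2 × Fin 2) (Fin 2 × Fin 2) F := (1 : Matrix (Fin 2) (Fin 2) F) ⊗ₖ sgM with hS
  set R₀ : Matrix (Fin 2 × Fin 2) (Fin 2 × Fin 2) F := (1 : Matrix (Fin 2) (Fin 2) F) ⊗ₖ rM with hR₀
  have hSS : S * S = 1 := by
    rw [hS, ← Matrix.mul_kronecker_mul, hsg, mul_one, Matrix.one_kronecker_one]
  have hSR : S * R₀ = -(R₀ * S) := by
    rw [hS, hR₀, ← Matrix.mul_kronecker_mul, ← Matrix.mul_kronecker_mul, hsr, mul_one]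
    ext p q
    simp [Matrix.kroneckerMap_apply]
  have hc' : (N * S) * R₀ = R₀ * (N * S) := by
    calc (N * S) * R₀ = N * (S * R₀) := mul_assoc _ _ _
      _ = -((N * R₀) * S) := by rw [hSR, mul_neg, mul_assoc]
      _ = (R₀ * N) * S := by rw [hc]; simp
      _ = R₀ * (N * S) := mul_assoc _ _ _
  have hf' : (N * S)ᵀ * (LM ⊗ₖ (1 : Matrix (Fin 2) (Fin 2) F)) * (N * S) = LM ⊗ₖ (1 : Matrix (Fin 2) (Fin 2) F) := by
    have hSt : Sᵀ = S := by
      have e1 : ((1 : Matrix (Fin 2) (Fin 2) F) ⊗ₖ (sgM : Matrix (Fin 2) (Fin 2) F))ᵀ = (1 : Matrix (Fin 2) (Fin 2) F)ᵀ ⊗ₖ (sgM : Matrix (Fin 2) (Fin 2) F)ᵀ := by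
        ext p q
        simp only [Matrix.transpose_apply, Matrix.kroneckerMap_apply]
      rw [hS, e1, Matrix.transpose_one, hst]
    calc (N * S)ᵀ * (LM ⊗ₖ (1 : Matrix (Fin 2) (Fin 2) F)) * (N * S) = S * (Nᵀ * (LM ⊗ₖ (1 : Matrix (Fin 2) (Fin 2) F)) * N) * S := by
          rw [Matrix.transpose_mul, hSt]
          noncomm_ring
      _ = S * (LM ⊗ₖ (1 : Matrix (Fin 2) (Fin 2) F)) * S := by rw [hf]
      _ = LM ⊗ₖ (1 : Matrix (Fin 2) (Fin 2) F) := by
          rw [hS, ← Matrix.mul_kronecker_mul, ← Matrix.mul_kronecker_mul, one_mul, mul_one, mul_one, hsg]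
  obtain ⟨A, C, h1, h3, h4⟩ := core_pure hq hc' hf'
  refine ⟨A, C * sgM, ?_, h3, ?_⟩
  · have e1 : N = (N * S) * S := by rw [mul_assoc, hSS, mul_one]
    rw [e1, h1, hS, ← Matrix.mul_kronecker_mul, mul_one]
  · rw [Matrix.det_mul]
    refine mul_ne_zero h4 ?_
    simp [sgM, Matrix.det_fin_two_of]

theorem sim_of_pure {A C : Matrix (Fin 2) (Fin 2) F} (hA : A.det ≠ 0)
    (hf : (A ⊗ₖ C)ᵀ * (LM ⊗ₖ (1 : Matrix (Fin 2) (Fin 2) F)) * (A ⊗ₖ C) = LM ⊗ₖ (1 : Matrix (Fin 2) (Fin 2) F)) :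
    Cᵀ * C = (A.det)⁻¹ • 1 := by
  classical
  have e1 : (A ⊗ₖ C)ᵀ = Aᵀ ⊗ₖ Cᵀ := by
    ext p q
    simp only [Matrix.transpose_apply, Matrix.kroneckerMap_apply]
  have e2 : Aᵀ * LM * A = A.det • LM := by
    rw [← gram_alt2]
    exact gram_alt2_conj A
  rw [e1, ← Matrix.mul_kronecker_mul, ← Matrix.mul_kronecker_mul, e2, mul_one] at hf
  ext s t
  have h3 := congrFun (congrFun hf (0, s)) (1, t)
  simp only [Matrix.kroneckerMap_apply, Matrix.smul_apply, smul_eq_mul] at h3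
  have hL : (LM : Matrix (Fin 2) (Fin 2) F) 0 1 = 1 := by
    simp [LM]
  rw [hL, one_mul, mul_one] at h3
  simp only [Matrix.smul_apply, smul_eq_mul]
  field_simp
  rw [mul_comm, h3]

end Frame

section Frame2

variable {ι : Type} [Fintype ι] [DecidableEq ι] {F : Type*} [Field F] [Fintype F] {f : (ι → F) → (ι → F) → F}

/-- Coordinates for the square root of minus one. -/
theorem exists_frame (hq : Fintype.card F = 3) (hf : IsSymplecticForm f) (hc : Fintype.card ι = 4) {j : Matrix ι ι F} (hj : j * j = -1)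
    (hadj : ∀ u v, f (j *ᵥ u) v = - f u (j *ᵥ v)) :
    ∃ (e₂ : ι ≃ Fin 2 × Fin 2) (P : GL ι F), IsTensorFormStructure id f alt2 dotF e₂ P ∧
      j * (P : Matrix ι ι F) = (P : Matrix ι ι F) * (((1 : Matrix (Fin 2) (Fin 2) F) ⊗ₖ rM).submatrix e₂ e₂) := by
  classical
  have hb := hf.bilinear
  have hr := reflForm_symplectic hf
  obtain ⟨b₁, b₂, h1, h3, h4, h5⟩ := exists_b hq hf (by omega) hj hadj
  have hcard : Fintype.card ι = Fintype.card (Fin 2 × Fin 2) := by
    rw [hc]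
    simp
  let e₂ : ι ≃ Fin 2 × Fin 2 := Fintype.equivOfCardEq hcard
  have hjj : ∀ v, j *ᵥ (j *ᵥ v) = -v := by
    intro v
    rw [Matrix.mulVec_mulVec, hj, Matrix.neg_mulVec, Matrix.one_mulVec]
  have hjf : ∀ x y, f (j *ᵥ x) (j *ᵥ y) = f x y := by
    intro x y
    rw [hadj, hjj, hr.neg_right, neg_neg]
  let b : Fin 2 → (ι → F) := ![b₁, b₂]
  have hb0 : b 0 = b₁ := rfl
  have hb1 : b 1 = b₂ := rfl
  have hjz : ∀ a a', f (j *ᵥ b a) (b a') = 0 := by
    intro a a'
    fin_cases a <;> fin_cases a'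
    · exact h1
    · exact h3
    · change f (j *ᵥ b₂) b₁ = 0
      rw [hadj, hf.skew b₂, h3, neg_zero, neg_zero]
    · exact h4
  have hzj : ∀ a a', f (b a) (j *ᵥ b a') = 0 := by
    intro a a'
    have := hadj (b a) (b a')
    rw [hjz] at this
    exact neg_eq_zero.mp this.symm
  set c : F := f b₁ b₂ with hcdef
  have hbb : ∀ a a', f (b a) (b a') = c * (LM : Matrix (Fin 2) (Fin 2) F) a a' := by
    intro a a'
    fin_cases a <;> fin_cases a'
    · simp [LM, hb0, hf.alternating]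
    · simp [LM, hb0, hb1, hcdef]
    · simp only [LM]
      change f b₂ b₁ = _
      rw [hf.skew]
      simp [hcdef]
    · simp [LM, hb1, hf.alternating]
  let v : Fin 2 × Fin 2 → (ι → F) := fun p => if p.2 = 0 then b p.1 else j *ᵥ b p.1
  have hv0 : ∀ a, v (a, 0) = b a := fun a => rfl
  have hv1 : ∀ a, v (a, 1) = j *ᵥ b a := fun a => rfl
  have hgram : ∀ p q, f (v p) (v q) = c * (gramMatrix (alt2 (F := F)) p.1 q.1 * gramMatrix (dotF (F := F)) p.2 q.2) := by
    rintro ⟨a, s⟩ ⟨a', s'⟩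
    rw [gram_alt2, gram_dot]
    fin_cases s <;> fin_cases s'
    · simp only [Fin.zero_eta, hv0]
      rw [hbb]
      simp
    · simp only [Fin.zero_eta, Fin.mk_one, hv0, hv1]
      rw [hzj]
      simp
    · simp only [Fin.zero_eta, Fin.mk_one, hv0, hv1]
      rw [hjz]
      simp
    · simp only [Fin.mk_one, hv1]
      rw [hjf, hbb]
      simp
  let P₀ : Matrix ι ι F := Matrix.of fun i k => v (e₂ k) i
  have hP₀ : ∀ z : ι → F, P₀ *ᵥ z = ∑ k, z k • v (e₂ k) := by
    intro z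
    funext i
    simp [P₀, Matrix.mulVec, dotProduct, Finset.sum_apply, mul_comm]
  have hP₀s : ∀ p, P₀ *ᵥ ((Pi.single p 1 : Fin 2 × Fin 2 → F) ∘ e₂) = v p := by
    intro p
    rw [hP₀]
    have := Equiv.sum_comp e₂ (fun q => (Pi.single p 1 : Fin 2 × Fin 2 → F) q • v q)
    simp only [Function.comp_apply]
    rw [this, Finset.sum_eq_single p]
    · simp
    · intro q _ hq'
      simp [Pi.single_apply, hq']
    · simp
  have hc0 : c ≠ 0 := h5
  have hunit : IsUnit P₀ := by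
    rw [← Matrix.mulVec_injective_iff_isUnit]
    intro z z' hzz
    have hw : P₀ *ᵥ (z - z') = 0 := by
      rw [Matrix.mulVec_sub, hzz, sub_self]
    obtain ⟨w, hwd⟩ : ∃ w, w = z - z' := ⟨_, rfl⟩
    rw [← hwd] at hw
    obtain ⟨W, hWd⟩ : ∃ W : Fin 2 × Fin 2 → F, W = w ∘ e₂.symm := ⟨_, rfl⟩
    have hsum : ∀ q : Fin 2 × Fin 2, ∑ p : Fin 2 × Fin 2, W p * (c * (gramMatrix (alt2 (F := F)) p.1 q.1 * gramMatrix (dotF (F := F)) p.2 q.2)) = 0 := by
      intro q
      have h6 : f (P₀ *ᵥ w) (v q) = 0 := by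
        rw [hw]
        exact hr.zero_left _
      rw [hP₀, (isSesq_of_bilinear hb).sum_left] at h6
      simp only [hb.smul_left, hgram] at h6
      have h7 := Equiv.sum_comp e₂ (fun p => W p * (c * (gramMatrix (alt2 (F := F)) p.1 q.1 * gramMatrix (dotF (F := F)) p.2 q.2)))
      rw [← h7, ← h6]
      refine Finset.sum_congr rfl fun k _ => ?_
      rw [hWd]
      simp
    have hW0 : ∀ a s, W (a, s) = 0 := by
      have h00 := hsum (1, 0)
      have h01 := hsum (1, 1)
      have h10 := hsum (0, 0)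
      have h11 := hsum (0, 1)
      rw [gram_alt2, gram_dot] at h00 h01 h10 h11
      simp only [Fintype.sum_prod_type, Fin.sum_univ_two, LM, Matrix.of_apply, Matrix.cons_val', Matrix.cons_val_zero, Matrix.cons_val_one, Matrix.cons_val_fin_one, Matrix.one_apply_eq, Matrix.one_apply_ne, ne_eq, zero_ne_one, one_ne_zero, not_false_eq_true, mul_zero, zero_mul, mul_one, add_zero, zero_add, mul_neg, neg_mul, neg_eq_zero] at h00 h01 h10 h11
      have hc' := hc0
      intro a s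
      fin_cases a <;> fin_cases s
      · exact (mul_eq_zero.mp h00).resolve_right hc'
      · exact (mul_eq_zero.mp h01).resolve_right hc'
      · exact (mul_eq_zero.mp h10).resolve_right hc'
      · exact (mul_eq_zero.mp h11).resolve_right hc'
    have hw0 : w = 0 := by
      funext i
      have h6 := hW0 (e₂ i).1 (e₂ i).2
      rw [hWd] at h6
      simpa using h6
    rw [hw0] at hwd
    exact (sub_eq_zero.mp hwd.symm)
  let P : GL ι F := hunit.unit
  have hPc : (P : Matrix ι ι F) = P₀ := rfl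
  refine ⟨e₂, P, tensor_of_gram hb hc0 fun p q => ?_, ?_⟩
  · rw [hPc, hP₀s, hP₀s]
    exact hgram p q
  · rw [hPc]
    have hjv : ∀ q, j *ᵥ v q = ∑ p, ((1 : Matrix (Fin 2) (Fin 2) F) ⊗ₖ rM) p q • v p := by
      rintro ⟨a, s⟩
      simp only [Fintype.sum_prod_type, Fin.sum_univ_two, Matrix.kroneckerMap_apply, rM, Matrix.one_apply]
      fin_cases a <;> fin_cases s <;> simp [hv0, hv1, hjj]
    ext i k
    have e1 : (j * P₀) i k = (j *ᵥ v (e₂ k)) i := rfl
    rw [e1, hjv, Matrix.mul_apply, Finset.sum_apply]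
    have h7 := Equiv.sum_comp e₂ (fun p => ((1 : Matrix (Fin 2) (Fin 2) F) ⊗ₖ rM) p (e₂ k) • v p i)
    simp only [Pi.smul_apply]
    rw [← h7]
    refine Finset.sum_congr rfl fun l _ => ?_
    simp only [Matrix.submatrix_apply, smul_eq_mul]
    rw [mul_comm]
    rfl

theorem formOfGram_eq {κ : Type} [Fintype κ] [DecidableEq κ] (G : Matrix κ κ F) (x y : κ → F) : formOfGram id G x y = x ⬝ᵥ (G *ᵥ y) := by
  simp only [formOfGram, dotProduct, Matrix.mulVec, Finset.mul_sum, id, mul_assoc]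

/-- **Elements normalising the field are pure tensors.** -/
theorem pure_of_mem (hq : Fintype.card F = 3) {e₂ : ι ≃ Fin 2 × Fin 2} {P : GL ι F} (hs : IsTensorFormStructure id f alt2 dotF e₂ P) {j : Matrix ι ι F}
    (hjP : j * (P : Matrix ι ι F) = (P : Matrix ι ι F) * (((1 : Matrix (Fin 2) (Fin 2) F) ⊗ₖ rM).submatrix e₂ e₂)) {g : GL ι F}
    (hg : ∀ u v, f ((g : Matrix ι ι F) *ᵥ u) ((g : Matrix ι ι F) *ᵥ v) = f u v)
    (hε : (g : Matrix ι ι F) * j = j * (g : Matrix ι ι F) ∨ (g : Matrix ι ι F) * j = -(j * (g : Matrix ι ι F))) :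
    ∃ (A C : GL (Fin 2) F) (μ : F), μ ≠ 0 ∧ (C : Matrix (Fin 2) (Fin 2) F)ᵀ * (C : Matrix (Fin 2) (Fin 2) F) = μ • 1 ∧
      ∀ i k, ((P⁻¹ * g * P : GL ι F) : Matrix ι ι F) i k = (A : Matrix (Fin 2) (Fin 2) F) (e₂ i).1 (e₂ k).1 * (C : Matrix (Fin 2) (Fin 2) F) (e₂ i).2 (e₂ k).2 := by
  classical
  obtain ⟨M, hM⟩ : ∃ M : Matrix ι ι F, M = ((P⁻¹ * g * P : GL ι F) : Matrix ι ι F) := ⟨_, rfl⟩
  obtain ⟨N, hN⟩ : ∃ N : Matrix (Fin 2 × Fin 2) (Fin 2 × Fin 2) F, N = M.submatrix e₂.symm e₂.symm := ⟨_, rfl⟩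
  have hMN : M = N.submatrix e₂ e₂ := by
    rw [hN]
    ext i k
    simp
  obtain ⟨Pm, hPm⟩ : ∃ Pm : Matrix ι ι F, Pm = P := ⟨_, rfl⟩
  obtain ⟨Pi', hPi⟩ : ∃ Pi' : Matrix ι ι F, Pi' = ((P⁻¹ : GL ι F) : Matrix ι ι F) := ⟨_, rfl⟩
  have hPP : Pi' * Pm = 1 := by
    rw [hPi, hPm, ← Units.val_mul, inv_mul_cancel, Units.val_one]
  have hPP' : Pm * Pi' = 1 := mul_eq_one_comm.mp hPP
  rw [← hPm] at hjP
  obtain ⟨gm, hgm⟩ : ∃ gm : Matrix ι ι F, gm = g := ⟨_, rfl⟩
  rw [← hgm] at hε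
  have hMv : M = Pi' * gm * Pm := by
    rw [hM, hPi, hgm, hPm]
    rfl
  obtain ⟨Jk, hJk⟩ : ∃ Jk : Matrix (Fin 2 × Fin 2) (Fin 2 × Fin 2) F, Jk = (1 : Matrix (Fin 2) (Fin 2) F) ⊗ₖ rM := ⟨_, rfl⟩
  rw [← hJk] at hjP
  have hJsub : Pi' * j * Pm = Jk.submatrix e₂ e₂ := by
    rw [mul_assoc, hjP, ← mul_assoc, hPP, one_mul]
  have hinj : ∀ X Y : Matrix (Fin 2 × Fin 2) (Fin 2 × Fin 2) F, X.submatrix e₂ e₂ = Y.submatrix e₂ e₂ → X = Y := by
    intro X Y h
    ext p q
    have := congrFun (congrFun h (e₂.symm p)) (e₂.symm q)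
    simpa using this
  have hcm : M * Jk.submatrix e₂ e₂ = Pi' * (gm * j) * Pm := by
    rw [← hJsub, hMv]
    calc Pi' * gm * Pm * (Pi' * j * Pm) = Pi' * gm * (Pm * Pi') * j * Pm := by noncomm_ring
      _ = _ := by rw [hPP', mul_one]; noncomm_ring
  have hmc : Jk.submatrix e₂ e₂ * M = Pi' * (j * gm) * Pm := by
    rw [← hJsub, hMv]
    calc Pi' * j * Pm * (Pi' * gm * Pm) = Pi' * j * (Pm * Pi') * gm * Pm := by noncomm_ring
      _ = _ := by rw [hPP', mul_one]; noncomm_ring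
  obtain ⟨c, hc0, heq⟩ := hs
  have hact : ∀ x : Fin 2 × Fin 2 → F, (g : Matrix ι ι F) *ᵥ ((P : Matrix ι ι F) *ᵥ (x ∘ e₂)) = (P : Matrix ι ι F) *ᵥ ((N *ᵥ x) ∘ e₂) := by
    intro x
    rw [conj_mulVec_P, ← hM, hMN, Matrix.submatrix_mulVec_equiv]
    have e2 : (x ∘ e₂) ∘ e₂.symm = x := by
      funext a
      simp
    rw [e2]
  have hform : ∀ x y : Fin 2 × Fin 2 → F, (N *ᵥ x) ⬝ᵥ ((gramMatrix (alt2 (F := F)) ⊗ₖ gramMatrix (dotF (F := F))) *ᵥ (N *ᵥ y)) = x ⬝ᵥ ((gramMatrix (alt2 (F := F)) ⊗ₖ gramMatrix (dotF (F := F))) *ᵥ y) := by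
    intro x y
    have h1 := hg ((P : Matrix ι ι F) *ᵥ (x ∘ e₂)) ((P : Matrix ι ι F) *ᵥ (y ∘ e₂))
    rw [hact, hact, heq, heq, formOfGram_eq, formOfGram_eq] at h1
    exact mul_left_cancel₀ hc0 h1
  rw [gram_alt2, gram_dot] at hform
  have hfN : Nᵀ * (LM ⊗ₖ (1 : Matrix (Fin 2) (Fin 2) F)) * N = LM ⊗ₖ (1 : Matrix (Fin 2) (Fin 2) F) := by
    have h : ∀ v w : Fin 2 × Fin 2 → F, v ⬝ᵥ ((Nᵀ * (LM ⊗ₖ (1 : Matrix (Fin 2) (Fin 2) F)) * N) *ᵥ w) = v ⬝ᵥ ((LM ⊗ₖ (1 : Matrix (Fin 2) (Fin 2) F)) *ᵥ w) := by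
      intro v w
      rw [← Matrix.mulVec_mulVec, ← Matrix.mulVec_mulVec, Matrix.dotProduct_mulVec v Nᵀ, Matrix.vecMul_transpose, hform]
    ext p q
    have h1 := h (Pi.single p 1) (Pi.single q 1)
    simpa using h1
  have hpure : ∃ A C : Matrix (Fin 2) (Fin 2) F, N = A ⊗ₖ C ∧ A.det ≠ 0 ∧ C.det ≠ 0 := by
    rcases hε with h | h
    · apply core_pure hq _ hfN
      rw [← hJk]
      apply hinj
      rw [← Matrix.submatrix_mul_equiv N Jk e₂ e₂ e₂, ← Matrix.submatrix_mul_equiv Jk N e₂ e₂ e₂, ← hMN, hcm, hmc, h]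
    · apply core_pure_anti hq _ hfN
      rw [← hJk]
      apply hinj
      have e3 : (-(Jk * N)).submatrix e₂ e₂ = -((Jk * N).submatrix e₂ e₂) := rfl
      rw [e3, ← Matrix.submatrix_mul_equiv N Jk e₂ e₂ e₂, ← Matrix.submatrix_mul_equiv Jk N e₂ e₂ e₂, ← hMN, hcm, hmc, h]
      noncomm_ring
  obtain ⟨A, C, rfl, hA, hC⟩ := hpure
  have hsim := sim_of_pure hA hfN
  refine ⟨Matrix.GeneralLinearGroup.mkOfDetNeZero A hA, Matrix.GeneralLinearGroup.mkOfDetNeZero C hC, (A.det)⁻¹, inv_ne_zero hA, hsim, fun i k => ?_⟩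
  rw [← hM, hMN]
  rfl

end Frame2

section Final2

variable {ι : Type} [Fintype ι] [DecidableEq ι] {F : Type*} [Field F] [Fintype F] {t : ℕ}

/-- Anti-commuting in one factor. -/
theorem anti_core [Nonempty ι] (h2 : (2 : F) ≠ 0) (e : ι ≃ (Fin t → Fin 2)) (P : GL ι F) (gs : Fin t → GL (Fin 2) F) (i : Fin t) (g₁ : GL (Fin 2) F)
    (h : (gs i : Matrix (Fin 2) (Fin 2) F) * ((g₁ * gs i * g₁⁻¹ : GL (Fin 2) F) : Matrix (Fin 2) (Fin 2) F) = -(((g₁ * gs i * g₁⁻¹ : GL (Fin 2) F) : Matrix (Fin 2) (Fin 2) F) * (gs i : Matrix (Fin 2) (Fin 2) F))) :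
    conjHom e P (pureGL gs) * (conjHom e P (pureGL (Function.update 1 i g₁)) * conjHom e P (pureGL gs) * (conjHom e P (pureGL (Function.update 1 i g₁)))⁻¹) ≠ (conjHom e P (pureGL (Function.update 1 i g₁)) * conjHom e P (pureGL gs) * (conjHom e P (pureGL (Function.update 1 i g₁)))⁻¹) * conjHom e P (pureGL gs) := by
  classical
  intro hc
  let w₁ : Fin t → GL (Fin 2) F := Function.update 1 i g₁
  let gs' : Fin t → GL (Fin 2) F := fun j => w₁ j * gs j * (w₁ j)⁻¹
  have hy : conjHom e P (pureGL w₁) * conjHom e P (pureGL gs) * (conjHom e P (pureGL w₁))⁻¹ = conjHom e P (pureGL gs') := by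
    have e1 : pureGL gs' = pureGL w₁ * pureGL gs * (pureGL w₁)⁻¹ := by
      change pureHom (w₁ * gs * w₁⁻¹) = pureHom w₁ * pureHom gs * (pureHom w₁)⁻¹
      rw [map_mul, map_mul, map_inv]
    rw [e1, map_mul, map_mul, map_inv]
  change conjHom e P (pureGL gs) * (conjHom e P (pureGL w₁) * conjHom e P (pureGL gs) * (conjHom e P (pureGL w₁))⁻¹) = (conjHom e P (pureGL w₁) * conjHom e P (pureGL gs) * (conjHom e P (pureGL w₁))⁻¹) * conjHom e P (pureGL gs) at hc
  rw [hy] at hc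
  have hpt : ∀ j, (gs j : Matrix (Fin 2) (Fin 2) F) * (gs' j : Matrix (Fin 2) (Fin 2) F) = (if j = i then (-1 : F) else 1) • ((gs' j : Matrix (Fin 2) (Fin 2) F) * (gs j : Matrix (Fin 2) (Fin 2) F)) := by
    intro j
    by_cases hj : j = i
    · subst hj
      rw [if_pos rfl, neg_smul, one_smul]
      have e2 : gs' j = g₁ * gs j * g₁⁻¹ := by
        simp only [gs', w₁, Function.update_self]
      rw [e2]
      exact h
    · rw [if_neg hj, one_smul]
      have e2 : gs' j = gs j := by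
        simp only [gs', w₁, Function.update_of_ne hj]
        simp
      rw [e2]
  have hprod : ∏ j, (if j = i then (-1 : F) else 1) = -1 := by
    simp
  have hmat : (pureGL gs : Matrix (Fin t → Fin 2) (Fin t → Fin 2) F) * (pureGL gs' : Matrix (Fin t → Fin 2) (Fin t → Fin 2) F) =
      (-1 : F) • ((pureGL gs' : Matrix (Fin t → Fin 2) (Fin t → Fin 2) F) * (pureGL gs : Matrix (Fin t → Fin 2) (Fin t → Fin 2) F)) := by
    change pureMat _ * pureMat _ = _ • (pureMat _ * pureMat _)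
    rw [pureMat_mul, pureMat_mul, ← hprod, ← pureMat_smul]
    congr 1
    funext j
    exact hpt j
  have h5 := conjHom_comm e P hmat
  have h6 := congrArg (fun z : GL ι F => (z : Matrix ι ι F)) hc
  simp only [Units.val_mul] at h6
  rw [← h6, neg_smul, one_smul] at h5
  have h7 : (2 : F) • ((conjHom e P (pureGL gs) : Matrix ι ι F) * (conjHom e P (pureGL gs') : Matrix ι ι F)) = 0 := by
    rw [two_smul]
    nth_rw 1 [h5]
    simp
  have h8 := (smul_eq_zero.mp h7).resolve_left h2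
  have h9 : ((conjHom e P (pureGL gs) * conjHom e P (pureGL gs') : GL ι F) : Matrix ι ι F) = 0 := h8
  exact Units.ne_zero _ h9

theorem q8_norm (hq : Fintype.card F = 3) (g : GL (Fin 2) F) : g ∈ subgroupNormalizer (q8 hq) := by
  refine Subgroup.mem_normalizer_iff.mpr fun x => ⟨q8_conj hq g, fun h => ?_⟩
  have := q8_conj hq g⁻¹ h
  simpa [mul_assoc] using this

theorem d8_norm {C : GL (Fin 2) F} {μ : F} (hμ : μ ≠ 0) (hC : (C : Matrix (Fin 2) (Fin 2) F)ᵀ * (C : Matrix (Fin 2) (Fin 2) F) = μ • 1) : C ∈ subgroupNormalizer (d8 (F := F)) := by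
  refine Subgroup.mem_normalizer_iff.mpr fun x => ⟨d8_conj hμ hC, fun h => ?_⟩
  have := d8_conj (inv_ne_zero hμ) (sim_inv hμ hC) h
  simpa [mul_assoc] using this

theorem pure_norm {m : ℕ} {A : Fin t → Subgroup (GL (Fin m) F)} {ws : Fin t → GL (Fin m) F} (h : ∀ i, ws i ∈ subgroupNormalizer (A i)) : pureGL ws ∈ subgroupNormalizer (pureR A) := by
  have h1 : ws ∈ Subgroup.normalizer ((Subgroup.pi Set.univ A : Subgroup _) : Set _) := by
    rw [Subgroup.mem_normalizer_iff]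
    intro x
    simp only [Subgroup.mem_pi, Set.mem_univ, forall_true_left]
    exact forall_congr' fun i => Subgroup.mem_normalizer_iff.mp (h i) (x i)
  exact Subgroup.le_normalizer_map pureHom ⟨ws, h1, rfl⟩

theorem conj_mem_norm {m : ℕ} {A : Fin t → Subgroup (GL (Fin m) F)} (e : ι ≃ (Fin t → Fin m)) (P : GL ι F) {w : GL (Fin t → Fin m) F} (h : w ∈ subgroupNormalizer (pureR A)) : conjHom e P w ∈ subgroupNormalizer (Rof e P A) :=
  Subgroup.le_normalizer_map (conjHom e P) ⟨w, h, rfl⟩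

/-- The two factors. -/
def A2 (hq : Fintype.card F = 3) : Fin 2 → Subgroup (GL (Fin 2) F) := ![q8 hq, d8]

theorem good2 (hq : Fintype.card F = 3) : ∀ i, GoodFactor (A2 hq i) :=
  Fin.forall_fin_two.mpr ⟨q8_good hq, d8_good hq⟩

/-- The rotation as an invertible matrix. -/
def rG : GL (Fin 2) F := ⟨rM, LM, by
    ext i j
    fin_cases i <;> fin_cases j <;> simp [rM, LM, Matrix.mul_apply, Fin.sum_univ_two], by
    ext i j
    fin_cases i <;> fin_cases j <;> simp [rM, LM, Matrix.mul_apply, Fin.sum_univ_two]⟩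

theorem coe_rG : ((rG : GL (Fin 2) F) : Matrix (Fin 2) (Fin 2) F) = rM := rfl

/-- The central element of the field. -/
def zG (e : ι ≃ (Fin 2 → Fin 2)) (P : GL ι F) : GL ι F := conjHom e P (pureGL ![1, rG])

theorem conj_pure_smul (e : ι ≃ (Fin 2 → Fin 2)) (P : GL ι F) {gs vs : Fin 2 → GL (Fin 2) F} {ε δ : F}
    (h0 : (gs 0 : Matrix (Fin 2) (Fin 2) F) = ε • (vs 0 : Matrix (Fin 2) (Fin 2) F)) (h1 : (gs 1 : Matrix (Fin 2) (Fin 2) F) = δ • (vs 1 : Matrix (Fin 2) (Fin 2) F)) :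
    (conjHom e P (pureGL gs) : Matrix ι ι F) = (ε * δ) • (conjHom e P (pureGL vs) : Matrix ι ι F) := by
  have e0 : ∀ z : Fin 2 → GL (Fin 2) F, (conjHom e P (pureGL z) : Matrix ι ι F) = tauL e P (pureMat fun i => (z i : Matrix (Fin 2) (Fin 2) F)) := fun _ => rfl
  have e1 : ε * δ = ∏ i, (![ε, δ] : Fin 2 → F) i := by
    simp [Fin.prod_univ_two]
  rw [e0, e0, ← map_smul, e1, ← pureMat_smul]
  congr 2
  funext i
  fin_cases i
  · exact h0
  · exact h1

theorem z_sq (e : ι ≃ (Fin 2 → Fin 2)) (P : GL ι F) : ((zG e P : GL ι F) : Matrix ι ι F) * ((zG e P : GL ι F) : Matrix ι ι F) = -1 := by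
  have h1 : zG e P * zG e P = conjHom e P (pureGL (![1, rG] * ![1, rG])) := by
    change conjHom e P (pureHom _) * conjHom e P (pureHom _) = conjHom e P (pureHom _)
    rw [← map_mul, ← map_mul]
  rw [← Units.val_mul, h1]
  have hrr : (rM : Matrix (Fin 2) (Fin 2) F) * rM = -1 := by
    ext i j
    fin_cases i <;> fin_cases j <;> simp [rM, Matrix.mul_apply, Fin.sum_univ_two]
  have e1 := conj_pure_smul e P (gs := ![1, rG] * ![1, rG]) (vs := 1) (ε := 1) (δ := -1) (by simp) (by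
    have e3 : ((![1, rG] * ![1, rG] : Fin 2 → GL (Fin 2) F) 1 : Matrix (Fin 2) (Fin 2) F) = rM * rM := rfl
    rw [e3, hrr]
    simp)
  have e2 : pureGL (1 : Fin 2 → GL (Fin 2) F) = 1 := map_one pureHom
  rw [e2, map_one, Units.val_one] at e1
  rw [e1]
  simp

theorem mem_zpowers_aux (e : ι ≃ (Fin 2 → Fin 2)) (P : GL ι F) {gs : Fin 2 → GL (Fin 2) F} {ε δ : F} (hε : ε = 1 ∨ ε = -1) (hδ : δ = 1 ∨ δ = -1)
    (h0 : (gs 0 : Matrix (Fin 2) (Fin 2) F) = ε • 1) (h1 : (gs 1 : Matrix (Fin 2) (Fin 2) F) = δ • 1 ∨ (gs 1 : Matrix (Fin 2) (Fin 2) F) = δ • rM) :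
    conjHom e P (pureGL gs) ∈ Subgroup.zpowers (zG e P) := by
  have hz2 := z_sq e P
  obtain ⟨c, hc, hcε⟩ : ∃ c : F, (c = 1 ∨ c = -1) ∧ c = ε * δ := ⟨_, by rcases hε with rfl | rfl <;> rcases hδ with rfl | rfl <;> simp, rfl⟩
  rcases h1 with h1 | h1
  · have e1 := conj_pure_smul e P (gs := gs) (vs := 1) (ε := ε) (δ := δ) (by simpa using h0) (by simpa using h1)
    have e2 : pureGL (1 : Fin 2 → GL (Fin 2) F) = 1 := map_one pureHom
    rw [e2, map_one, Units.val_one, ← hcε] at e1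
    rcases hc with rfl | rfl
    · have e3 : conjHom e P (pureGL gs) = (zG e P) ^ 0 := Units.ext (by simpa using e1)
      rw [e3]
      exact Subgroup.npow_mem_zpowers _ _
    · have e3 : conjHom e P (pureGL gs) = (zG e P) ^ 2 := Units.ext (by
        rw [pow_two, Units.val_mul, hz2, e1]
        simp)
      rw [e3]
      exact Subgroup.npow_mem_zpowers _ _
  · have e1 := conj_pure_smul e P (gs := gs) (vs := ![1, rG]) (ε := ε) (δ := δ) (by simpa using h0) (by
      rw [h1]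
      rfl)
    rw [← hcε] at e1
    have e4 : (conjHom e P (pureGL ![1, rG]) : Matrix ι ι F) = (zG e P : GL ι F) := rfl
    rw [e4] at e1
    rcases hc with rfl | rfl
    · have e3 : conjHom e P (pureGL gs) = (zG e P) ^ 1 := Units.ext (by simpa using e1)
      rw [e3]
      exact Subgroup.npow_mem_zpowers _ _
    · have e3 : conjHom e P (pureGL gs) = (zG e P) ^ 3 := Units.ext (by
        rw [pow_succ, pow_two, Units.val_mul, Units.val_mul, hz2, e1]
        simp)
      rw [e3]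
      exact Subgroup.npow_mem_zpowers _ _

theorem moves_R2 [Nonempty ι] (hq : Fintype.card F = 3) (e : ι ≃ (Fin 2 → Fin 2)) (P : GL ι F) {x : GL ι F} (hx : x ∈ Rof e P (A2 hq)) (hxz : x ∉ Subgroup.zpowers (zG e P)) :
    ∃ g ∈ subgroupNormalizer (Rof e P (A2 hq)), x * (g * x * g⁻¹) ≠ (g * x * g⁻¹) * x := by
  classical
  have h2 : (2 : F) ≠ 0 := SpThree.two_ne_zero_three hq
  obtain ⟨gs, hgs, rfl⟩ := mem_Rof.mp hx
  have hg0 : gs 0 ∈ q8 hq := hgs 0
  have hg1 : gs 1 ∈ d8 := hgs 1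
  have hg1' : IsD (gs 1 : Matrix (Fin 2) (Fin 2) F) := hg1
  by_cases hc0 : (gs 0 : Matrix (Fin 2) (Fin 2) F) = 1 ∨ (gs 0 : Matrix (Fin 2) (Fin 2) F) = -1
  · obtain ⟨ε, hε, h0⟩ : ∃ ε : F, (ε = 1 ∨ ε = -1) ∧ (gs 0 : Matrix (Fin 2) (Fin 2) F) = ε • 1 := by
      rcases hc0 with h | h
      · exact ⟨1, Or.inl rfl, by rw [h, one_smul]⟩
      · exact ⟨-1, Or.inr rfl, by rw [h, neg_smul, one_smul]⟩
    rcases hg1'.cases hq with h3 | h3 | h3
    · rcases IsD.refl_or_rot hq hg1' h3 with h4 | h4 | h4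
      · refine ⟨conjHom e P (pureGL (Function.update 1 1 (g2 hq))), conj_mem_norm e P (pure_norm (Fin.forall_fin_two.mpr ⟨?_, ?_⟩)), anti_core h2 e P gs 1 (g2 hq) (d8_move hq h3 h4)⟩
        · rw [Function.update_of_ne (by decide)]
          exact one_mem _
        · rw [Function.update_self]
          exact d8_norm (μ := 2) h2 (g2_sim hq)
      · exact absurd (mem_zpowers_aux e P (δ := 1) hε (Or.inl rfl) h0 (Or.inr (by rw [h4, one_smul]))) hxz
      · exact absurd (mem_zpowers_aux e P (δ := -1) hε (Or.inr rfl) h0 (Or.inr (by rw [h4, neg_smul, one_smul]))) hxz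
    · exact absurd (mem_zpowers_aux e P (δ := 1) hε (Or.inl rfl) h0 (Or.inl (by rw [h3, one_smul]))) hxz
    · exact absurd (mem_zpowers_aux e P (δ := -1) hε (Or.inr rfl) h0 (Or.inl (by rw [h3, neg_smul, one_smul]))) hxz
  · push Not at hc0
    refine ⟨conjHom e P (pureGL (Function.update 1 0 g3)), conj_mem_norm e P (pure_norm (Fin.forall_fin_two.mpr ⟨?_, ?_⟩)), anti_core h2 e P gs 0 g3 (q8_move hq hg0 hc0.1 hc0.2)⟩
    · exact q8_norm hq _
    · rw [Function.update_of_ne (by decide)]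
      exact one_mem _

/-- A variant of the symplectic type statement: every element outside a fixed cyclic group is moved. -/
theorem isSymp_of_moves' [Nonempty ι] {G R : Subgroup (GL ι F)} {r s : ℕ} (D : SympData G R r s) (z : GL ι F)
    (hm : ∀ x ∈ R, x ∉ Subgroup.zpowers z → ∃ g ∈ G, x * (g * x * g⁻¹) ≠ (g * x * g⁻¹) * x) :
    IsSymplecticTypeGroup r R where
  prime := D.prime
  pGroup := SympData.isPGroup D
  exponent_eq := by
    rw [SympData.exponent_eq D, D.hs]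
  cyclic_of_characteristic := by
    intro A hA hcomm
    have hall : ∀ a : A, ((a : R) : GL ι F) ∈ Subgroup.zpowers z := by
      intro a
      by_contra hna
      obtain ⟨g, hg, hne⟩ := hm _ (a : R).2 hna
      let φ : R ≃* R :=
        { toFun := fun y => ⟨g * y * g⁻¹, D.norm g hg y y.2⟩
          invFun := fun y => ⟨g⁻¹ * y * g, by
            have := D.norm g⁻¹ (inv_mem hg) y y.2
            simpa using this⟩
          left_inv := fun y => Subtype.ext (by simp [mul_assoc])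
          right_inv := fun y => Subtype.ext (by simp [mul_assoc])
          map_mul' := fun a b => Subtype.ext (by simp [mul_assoc]) }
      have h1 : ∀ y ∈ A, φ y ∈ A := by
        intro y hy
        have h2 := (Subgroup.characteristic_iff_map_eq.mp hA) φ
        rw [← h2]
        exact ⟨y, hy, rfl⟩
      have h3 := hcomm.is_comm.comm a ⟨φ (a : R), h1 _ a.2⟩
      apply hne
      exact congrArg (fun w : A => ((w : R) : GL ι F)) h3
    let ψ : A →* Subgroup.zpowers z := (R.subtype.comp A.subtype).codRestrict _ hall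
    refine isCyclic_of_injective ψ fun a b hab => ?_
    have h5 := congrArg (fun w : Subgroup.zpowers z => (w : GL ι F)) hab
    exact Subtype.ext (Subtype.ext h5)

/-- Reindexing the coordinates of the product. -/
def eOf (e₂ : ι ≃ Fin 2 × Fin 2) : ι ≃ (Fin 2 → Fin 2) := e₂.trans (finTwoArrowEquiv (Fin 2)).symm

theorem eOf_zero (e₂ : ι ≃ Fin 2 × Fin 2) (i : ι) : eOf e₂ i 0 = (e₂ i).1 := rfl
theorem eOf_one (e₂ : ι ≃ Fin 2 × Fin 2) (i : ι) : eOf e₂ i 1 = (e₂ i).2 := rfl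

/-- Elements normalising the field normalise the extraspecial group. -/
theorem mem_norm_of_mem (hq : Fintype.card F = 3) {f : (ι → F) → (ι → F) → F} {K : Subalgebra F (Matrix ι ι F)} (hK : IsFieldSubalgebra 2 K) {j : Matrix ι ι F} (hjK : j ∈ K) (hj : j * j = -1)
    {e₂ : ι ≃ Fin 2 × Fin 2} {P : GL ι F} (hs : IsTensorFormStructure id f alt2 dotF e₂ P)
    (hjP : j * (P : Matrix ι ι F) = (P : Matrix ι ι F) * (((1 : Matrix (Fin 2) (Fin 2) F) ⊗ₖ rM).submatrix e₂ e₂)) {g : GL ι F} (hgK : g ∈ subalgebraNormalizer K)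
    (hg : ∀ u v, f ((g : Matrix ι ι F) *ᵥ u) ((g : Matrix ι ι F) *ᵥ v) = f u v) : g ∈ subgroupNormalizer (Rof (eOf e₂) P (A2 hq)) := by
  classical
  have hε : (g : Matrix ι ι F) * j = j * (g : Matrix ι ι F) ∨ (g : Matrix ι ι F) * j = -(j * (g : Matrix ι ι F)) := by
    obtain ⟨gm, hgm⟩ : ∃ gm : Matrix ι ι F, gm = g := ⟨_, rfl⟩
    obtain ⟨gi, hgi⟩ : ∃ gi : Matrix ι ι F, gi = ((g⁻¹ : GL ι F) : Matrix ι ι F) := ⟨_, rfl⟩
    have hgg : gi * gm = 1 := by
      rw [hgi, hgm, ← Units.val_mul, inv_mul_cancel, Units.val_one]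
    have hgg' : gm * gi = 1 := mul_eq_one_comm.mp hgg
    have hx : gm * j * gi ∈ K := by
      rw [hgm, hgi]
      exact (hgK j).mp hjK
    obtain ⟨x, hxd⟩ : ∃ x, x = gm * j * gi := ⟨_, rfl⟩
    rw [← hxd] at hx
    have hxx : x * x = -1 := by
      rw [hxd]
      calc gm * j * gi * (gm * j * gi) = gm * j * (gi * gm) * j * gi := by noncomm_ring
        _ = gm * (j * j) * gi := by rw [hgg, mul_one, mul_assoc gm j j]
        _ = -1 := by
          rw [hj]
          simp [hgg']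
    have hzero : (x - j) * (x + j) = 0 := by
      have hcm := hK.comm x hx j hjK
      calc (x - j) * (x + j) = x * x - j * j + (x * j - j * x) := by noncomm_ring
        _ = 0 := by rw [hxx, hj, hcm]; simp
    have hgx : gm * j = x * gm := by
      rw [hxd, mul_assoc _ gi gm, hgg, mul_one]
    rw [← hgm]
    by_cases h0 : x - j = 0
    · left
      rw [hgx, sub_eq_zero.mp h0]
    · right
      obtain ⟨y, hyK, hy⟩ := hK.inv _ (K.sub_mem hx hjK) h0
      have hy' : y * (x - j) = 1 := mul_eq_one_comm.mp hy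
      have h5 : x + j = 0 := by
        calc x + j = y * (x - j) * (x + j) := by rw [hy', one_mul]
          _ = y * ((x - j) * (x + j)) := mul_assoc _ _ _
          _ = 0 := by rw [hzero, mul_zero]
      rw [hgx, eq_neg_of_add_eq_zero_left h5, neg_mul]
  obtain ⟨A, C, μ, hμ, hC, hent⟩ := pure_of_mem hq hs hjP hg hε
  have hgeq : g = conjHom (eOf e₂) P (pureGL ![A, C]) := by
    apply Units.ext
    rw [coe_conjHom]
    have hM : ((P⁻¹ * g * P : GL ι F) : Matrix ι ι F) = ((pureGL ![A, C] : GL (Fin 2 → Fin 2) F) : Matrix (Fin 2 → Fin 2) (Fin 2 → Fin 2) F).submatrix (eOf e₂) (eOf e₂) := by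
      ext i k
      rw [hent]
      change _ = pureMat (F := F) (fun a => ((![A, C] a : GL (Fin 2) F) : Matrix (Fin 2) (Fin 2) F)) (eOf e₂ i) (eOf e₂ k)
      rw [pureMat_apply, Fin.prod_univ_two, eOf_zero, eOf_zero, eOf_one, eOf_one]
      rfl
    rw [← hM, ← Units.val_mul, ← Units.val_mul]
    congr 1
    group
  rw [hgeq]
  refine conj_mem_norm _ P (pure_norm (Fin.forall_fin_two.mpr ⟨q8_norm hq _, d8_norm hμ hC⟩))

/-- The group preserves the form. -/
theorem R2_isom (hq : Fintype.card F = 3) {f : (ι → F) → (ι → F) → F} {e₂ : ι ≃ Fin 2 × Fin 2} {P : GL ι F} (hs : IsTensorFormStructure id f alt2 dotF e₂ P) :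
    Rof (eOf e₂) P (A2 hq) ≤ isomG f := by
  classical
  obtain ⟨c, -, heq⟩ := hs
  refine Rof_isom (Gs := ![LM, 1]) (c := c) (eOf e₂) P (fun x y => ?_) (Fin.forall_fin_two.mpr ⟨fun g hg => ?_, fun g hg => ?_⟩)
  · have e1 : x ∘ eOf e₂ = (x ∘ (finTwoArrowEquiv (Fin 2)).symm) ∘ e₂ := rfl
    have e2 : y ∘ eOf e₂ = (y ∘ (finTwoArrowEquiv (Fin 2)).symm) ∘ e₂ := rfl
    rw [e1, e2, heq, gram_alt2, gram_dot]
    congr 1
    simp only [formOfGram, id]
    rw [← Equiv.sum_comp (finTwoArrowEquiv (Fin 2)).symm]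
    refine Finset.sum_congr rfl fun a _ => ?_
    rw [← Equiv.sum_comp (finTwoArrowEquiv (Fin 2)).symm]
    refine Finset.sum_congr rfl fun b _ => ?_
    rw [Fin.prod_univ_two]
    rfl
  · have hg' : (g : Matrix (Fin 2) (Fin 2) F).det = 1 := hg.1
    have := gram_alt2_conj (g : Matrix (Fin 2) (Fin 2) F)
    rw [gram_alt2, hg', one_smul] at this
    exact this
  · have hg' : (g : Matrix (Fin 2) (Fin 2) F)ᵀ * (g : Matrix (Fin 2) (Fin 2) F) = 1 := hg
    change (g : Matrix (Fin 2) (Fin 2) F)ᵀ * 1 * (g : Matrix (Fin 2) (Fin 2) F) = 1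
    rw [mul_one, hg']

end Final2

section Out2

variable {F : Type*} [Field F] [Fintype F]

open Cfsg.Agent.Lib.Classical.Asch.FormSp

/-- **The normaliser of the quadratic field over the field with three elements is the normaliser of the extraspecial group.** -/
theorem out_K (hq : Fintype.card F = 3) {H : Subgroup (GL (Fin 2 ⊕ Fin 2) F)} (hH : IsMaximalIn (spGL 2 F) H) {K : Subalgebra F (Matrix (Fin 2 ⊕ Fin 2) (Fin 2 ⊕ Fin 2) F)} (hK : IsFieldSubalgebra 2 K)
    (hA : IsAdjointClosedFor (sympForm 2 F) K) (hns : ¬ IsSelfAdjointFor (sympForm 2 F) K) (hE : H = subalgebraNormalizer K ⊓ spGL 2 F) :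
    ∃ R : Subgroup (GL (Fin 2 ⊕ Fin 2) F), IsSymplecticTypeGroup 2 R ∧ ActsAbsolutelyIrreducibly (matrixSet R) ∧ R ≤ similarityGroup (sympForm 2 F) ∧
      Nat.card R = 32 ∧ Nat.card (Subgroup.center R) = 2 ∧ IsOfMinusType 2 R ∧ H = subgroupNormalizer R ⊓ spGL 2 F := by
  classical
  have h2 : (2 : F) ≠ 0 := SpThree.two_ne_zero_three hq
  have hodd : Odd (Fintype.card F) := by
    rw [hq]
    decide
  have hc : Fintype.card (Fin 2 ⊕ Fin 2) = 4 := by
    simp
  have hc' : Fintype.card (Fin 2 ⊕ Fin 2) = 2 ^ 2 := by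
    simp
  have hc2 : 2 ≤ Fintype.card (Fin 2 ⊕ Fin 2) := by
    simp
  haveI : Nonempty (Fin 2 ⊕ Fin 2) := Fintype.card_pos_iff.mp (by omega)
  have hf := NotSp.isSymplecticForm_sympForm' (m := 2) (F := F)
  have hr := reflForm_symplectic hf
  obtain ⟨j, hjK, hj, hadj⟩ := exists_j hq hf hK hA hns
  obtain ⟨e₂, P, hs, hjP⟩ := exists_frame hq hf hc hj hadj
  let R : Subgroup (GL (Fin 2 ⊕ Fin 2) F) := Rof (eOf e₂) P (A2 hq)
  have D : SympData (subgroupNormalizer R) R 2 4 := sympData_Rof h2 hc2 (eOf e₂) P (good2 hq)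
  have hR : R ≤ isomG (sympForm 2 F) := R2_isom hq hs
  have hRs : R ≤ spGL 2 F := by
    rw [spGL_eq_isomG]
    exact hR
  have hcZ := SympData.card_center_refl hr D hR
  have hle : H ≤ subgroupNormalizer R := by
    intro g hg
    have hg' := hg
    rw [hE] at hg'
    exact mem_norm_of_mem hq hK hjK hj hs hjP hg'.1 (fun u v => hg'.2 u v)
  refine ⟨R, isSymp_of_moves' D (zG (eOf e₂) P) fun x hx hxz => moves_R2 hq _ P hx hxz, actsAbsolutelyIrreducibly_iff.mpr ⟨actsIrreducibly_iff.mpr D.irr, D.cs⟩, hR.trans isomG_le_similarity, ?_, hcZ, SympData.isOfMinusType hf D hR hc', ?_⟩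
  · obtain ⟨k, hk, hq'⟩ := SympData.exists_card D
    have hkt : k = 2 := Nat.pow_right_injective (le_refl 2) (hk.symm.trans hc')
    rw [SympData.card_eq D, hcZ, hq', hkt]
    norm_num
  · exact NotSp.eq_inf_of_le' hH hle (NotSp.not_le_subgroupNormalizer_sp (le_refl 2) hodd D hRs)

end Out2

end Cfsg.Agent.Lib.Classical.Asch.Sp4Three
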